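import Mathlib
import Cfsg.Agent.Lib.Classical.Herm.Block
import Cfsg.Agent.Lib.Classical.Herm.TI2

/-!
# Totally isotropic frames: Witt completion, transitivity and counting

A totally isotropic frame `s` of length `k` in `F^n` is completed to a Witt system `(s, t, r)`. From
the completion we obtain Witt's theorem for such frames and their number.
-/

set_option autoImplicit false
set_option linter.unusedSectionVars false
set_option linter.unusedSimpArgs false
set_option linter.unusedVariables false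

open scoped Matrix
open Cfsg
open Cfsg.Agent.Lib.Classical.Herm.Basic Cfsg.Agent.Lib.Classical.Herm.Form
open Cfsg.Agent.Lib.Classical.Herm.GU Cfsg.Agent.Lib.Classical.Herm.SU
open Cfsg.Agent.Lib.Classical.Herm.Isotropic Cfsg.Agent.Lib.Classical.Herm.TI2
open Cfsg.Agent.Lib.Classical.Herm.Block

namespace Cfsg.Agent.Lib.Classical.Herm.TIFrame

variable {F : Type*} [Field F] [Fintype F] {q n : ℕ}

local notation "⟪" x ", " y "⟫" => hermForm _ _ q x y

/-- A Witt system: `s`, `t` are dual totally isotropic families, `r` is an orthonormal family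
orthogonal to both, and together they span. -/
structure IsWitt (q : ℕ) {k m : ℕ} (s t : Fin k → Fin n → F) (r : Fin m → Fin n → F) : Prop where
  ss : ∀ i j, hermForm n F q (s i) (s j) = 0
  tt : ∀ i j, hermForm n F q (t i) (t j) = 0
  st : ∀ i j, hermForm n F q (s i) (t j) = if i = j then 1 else 0
  ts : ∀ i j, hermForm n F q (t i) (s j) = if i = j then 1 else 0
  sr : ∀ i l, hermForm n F q (s i) (r l) = 0
  tr : ∀ i l, hermForm n F q (t i) (r l) = 0
  rs : ∀ l i, hermForm n F q (r l) (s i) = 0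
  rt : ∀ l i, hermForm n F q (r l) (t i) = 0
  rr : IsFrame q r
  span : ∀ v, v = ∑ i, hermForm n F q v (t i) • s i + ∑ i, hermForm n F q v (s i) • t i +
    ∑ l, hermForm n F q v (r l) • r l

/-- Dual family to a linearly independent family. -/
theorem exists_dual (hF : Fintype.card F = q ^ 2) {k : ℕ} (s : Fin k → Fin n → F)
    (hs : LinearIndependent F s) :
    ∃ t' : Fin k → Fin n → F, ∀ i j, ⟪t' j, s i⟫ = if i = j then 1 else 0 := by
  classical
  let T : (Fin n → F) →ₗ[F] (Fin k → F) :=
    { toFun := fun v i => ⟪v, s i⟫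
      map_add' := fun u v => by
        funext i
        simp [hermForm_add_left]
      map_smul' := fun a v => by
        funext i
        simp [hermForm_smul_left] }
  have hT : ∀ v i, T v i = ⟪v, s i⟫ := fun _ _ => rfl
  have hsurj : Function.Surjective T := by
    rw [← LinearMap.dualMap_injective_iff, injective_iff_map_eq_zero]
    intro φ hφ
    let c : Fin k → F := fun i => φ (Pi.single i 1)
    have hφx : ∀ x, φ x = ∑ i, x i * c i := by
      intro x
      have h1 : x = ∑ i, x i • (Pi.single i 1 : Fin k → F) := by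
        funext j
        simp [Finset.sum_apply, Pi.single_apply]
      conv_lhs => rw [h1]
      rw [map_sum]
      simp [c]
    have h0 : ∀ v, ⟪v, ∑ i, (c i) ^ q • s i⟫ = 0 := by
      intro v
      have h1 : φ (T v) = 0 := by
        have := LinearMap.congr_fun hφ v
        simpa using this
      rw [hφx] at h1
      rw [hermForm_sum_right hF, ← h1]
      refine Finset.sum_congr rfl fun i _ => ?_
      rw [pow_q_pow_q hF, hT, mul_comm]
    have h1 : ∑ i, (c i) ^ q • s i = 0 := hermForm_nondegenerate_right hF n _ h0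
    have h2 : ∀ i, (c i) ^ q = 0 := Fintype.linearIndependent_iff.1 hs _ h1
    have h3 : ∀ i, c i = 0 := fun i => by
      have := h2 i
      rwa [pow_eq_zero_iff (by have := two_le_q hF; omega)] at this
    ext x
    simp [hφx, h3]
  choose t' ht' using fun j => hsurj (Pi.single j 1)
  refine ⟨t', fun i j => ?_⟩
  have := congrFun (ht' j) i
  rw [hT] at this
  rw [this]
  simp [Pi.single_apply]

/-- An element of trace one. -/
theorem exists_trace_one (hF : Fintype.card F = q ^ 2) : ∃ e : F, e + e ^ q = 1 := by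
  obtain ⟨x, hx⟩ := exists_trace_ne_zero hF
  have hτ : (x + x ^ q) ^ q = x + x ^ q := by
    rw [pow_q_add hF, pow_q_pow_q hF, add_comm]
  refine ⟨x * (x + x ^ q)⁻¹, ?_⟩
  rw [mul_pow, inv_pow, hτ]
  field_simp

/-- A dual totally isotropic family. -/
theorem exists_dual_ti (hF : Fintype.card F = q ^ 2) {k : ℕ} (s : Fin k → Fin n → F)
    (hs : LinearIndependent F s) (hss : ∀ i j, ⟪s i, s j⟫ = 0) :
    ∃ t : Fin k → Fin n → F, (∀ i j, ⟪t j, s i⟫ = if i = j then 1 else 0) ∧ ∀ i j, ⟪t i, t j⟫ = 0 := by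
  classical
  obtain ⟨t', ht'⟩ := exists_dual hF s hs
  obtain ⟨e, he⟩ := exists_trace_one hF
  have hst' : ∀ i j, ⟪s i, t' j⟫ = if i = j then 1 else 0 := by
    intro i j
    rw [← hermForm_pow_q hF, ht']
    split_ifs
    · exact one_pow _
    · exact zero_pow_q hF
  let c : Fin k → Fin k → F := fun j i => -e * ⟪t' j, t' i⟫
  refine ⟨fun j => t' j + ∑ i, c j i • s i, ?_, ?_⟩
  · intro i j
    rw [hermForm_add_left, ht', hermForm_sum_left]
    simp [hss]
  · intro j l
    have h_a : ⟪t' j, ∑ p, c l p • s p⟫ = c l j ^ q := by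
      rw [hermForm_sum_right hF]
      simp [ht']
    have h_b : ⟪∑ i, c j i • s i, t' l⟫ = c j l := by
      rw [hermForm_sum_left]
      simp [hst']
    have h_c : ⟪∑ i, c j i • s i, ∑ p, c l p • s p⟫ = 0 := by
      rw [hermForm_sum_left]
      simp [hermForm_sum_right hF, hss]
    rw [hermForm_add_left, hermForm_add_right hF, hermForm_add_right hF, h_a, h_b, h_c]
    simp only [c]
    have h3 : (-e * ⟪t' l, t' j⟫) ^ q = - e ^ q * ⟪t' j, t' l⟫ := by
      rw [mul_pow, pow_q_neg hF, hermForm_pow_q hF]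
    rw [h3]
    linear_combination (-⟪t' j, t' l⟫) * he

/-- Completion of a totally isotropic frame to a Witt system. -/
theorem exists_witt (hF : Fintype.card F = q ^ 2) {k m : ℕ} (hn : 2 * k + m = n)
    (s : Fin k → Fin n → F) (hs : LinearIndependent F s) (hss : ∀ i j, ⟪s i, s j⟫ = 0) :
    ∃ (t : Fin k → Fin n → F) (r : Fin m → Fin n → F), IsWitt q s t r := by
  classical
  obtain ⟨t, hts, htt⟩ := exists_dual_ti hF s hs hss
  have hst : ∀ i j, ⟪s i, t j⟫ = if i = j then 1 else 0 := by
    intro i j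
    rw [← hermForm_pow_q hF, hts]
    split_ifs
    · exact one_pow _
    · exact zero_pow_q hF
  have hts' : ∀ j i, ⟪t j, s i⟫ = if j = i then 1 else 0 := by
    intro j i
    rw [hts]
    simp [eq_comm]
  -- the perp
  let T : (Fin n → F) →ₗ[F] ((Fin k → F) × (Fin k → F)) :=
    { toFun := fun v => (fun i => ⟪v, s i⟫, fun i => ⟪v, t i⟫)
      map_add' := fun u v => by
        ext i <;> simp [hermForm_add_left]
      map_smul' := fun a v => by
        ext i <;> simp [hermForm_smul_left] }
  have hT : ∀ v, T v = (fun i => ⟪v, s i⟫, fun i => ⟪v, t i⟫) := fun _ => rfl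
  have hsurj : Function.Surjective T := by
    rintro ⟨a, b⟩
    refine ⟨∑ i, a i • t i + ∑ i, b i • s i, ?_⟩
    rw [hT]
    ext i
    · simp only
      rw [hermForm_add_left, hermForm_sum_left, hermForm_sum_left]
      simp [hts', hss]
    · simp only
      rw [hermForm_add_left, hermForm_sum_left, hermForm_sum_left]
      simp [htt, hst]
  let U : Submodule F (Fin n → F) := LinearMap.ker T
  have hU : ∀ v, v ∈ U ↔ (∀ i, ⟪v, s i⟫ = 0) ∧ ∀ i, ⟪v, t i⟫ = 0 := by
    intro v
    simp only [U, LinearMap.mem_ker, hT, Prod.ext_iff, funext_iff, Prod.fst_zero, Prod.snd_zero,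
      Pi.zero_apply]
  have hUk : Module.finrank F U = m := by
    have h1 := LinearMap.finrank_range_add_finrank_ker T
    rw [LinearMap.range_eq_top.2 hsurj, finrank_top] at h1
    simp only [Module.finrank_prod, Module.finrank_fin_fun] at h1
    change Module.finrank F (LinearMap.ker T) = m
    omega
  let P : (Fin n → F) → Fin n → F := fun v => v - ∑ i, ⟪v, t i⟫ • s i - ∑ i, ⟪v, s i⟫ • t i
  have hPs : ∀ v j, ⟪P v, s j⟫ = 0 := by
    intro v j
    have h1 : P v = v + (-1 : F) • ∑ i, ⟪v, t i⟫ • s i + (-1 : F) • ∑ i, ⟪v, s i⟫ • t i := by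
      simp [P, sub_eq_add_neg]
    rw [h1, hermForm_add_left, hermForm_add_left, hermForm_smul_left, hermForm_smul_left,
      hermForm_sum_left, hermForm_sum_left]
    simp [hss, hts']
  have hPt : ∀ v j, ⟪P v, t j⟫ = 0 := by
    intro v j
    have h1 : P v = v + (-1 : F) • ∑ i, ⟪v, t i⟫ • s i + (-1 : F) • ∑ i, ⟪v, s i⟫ • t i := by
      simp [P, sub_eq_add_neg]
    rw [h1, hermForm_add_left, hermForm_add_left, hermForm_smul_left, hermForm_smul_left,
      hermForm_sum_left, hermForm_sum_left]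
    simp [hst, htt]
  have hPU : ∀ v, P v ∈ U := fun v => (hU _).2 ⟨hPs v, hPt v⟩
  have hPv : ∀ v, v = P v + ∑ i, ⟪v, t i⟫ • s i + ∑ i, ⟪v, s i⟫ • t i := by
    intro v
    simp only [P]
    abel
  have hnd : ∀ u ∈ U, (∀ v ∈ U, ⟪u, v⟫ = 0) → u = 0 := by
    intro u hu h0
    obtain ⟨hus, hut⟩ := (hU u).1 hu
    apply hermForm_nondegenerate_left hF n
    intro w
    rw [hPv w, hermForm_add_right hF, hermForm_add_right hF, h0 _ (hPU w), hermForm_sum_right hF,
      hermForm_sum_right hF]
    simp [hus, hut]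
  obtain ⟨r, hr, hrU, hrs⟩ := exists_frame_of_nondeg hF U hUk hnd
  have hrs' : ∀ l i, ⟪r l, s i⟫ = 0 := fun l i => ((hU _).1 (hrU l)).1 i
  have hrt' : ∀ l i, ⟪r l, t i⟫ = 0 := fun l i => ((hU _).1 (hrU l)).2 i
  have hsr' : ∀ i l, ⟪s i, r l⟫ = 0 := fun i l => by
    rw [← hermForm_pow_q hF, hrs', zero_pow_q hF]
  have htr' : ∀ i l, ⟪t i, r l⟫ = 0 := fun i l => by
    rw [← hermForm_pow_q hF, hrt', zero_pow_q hF]
  refine ⟨t, r, hss, htt, hst, hts', hsr', htr', hrs', hrt', hr, fun v => ?_⟩
  obtain ⟨c, hc⟩ := hrs (P v) (hPU v)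
  have hc' : ∀ l, ⟪v, r l⟫ = c l := by
    intro l
    have h1 : ⟪P v, r l⟫ = c l := by
      rw [hc, hermForm_sum_left]
      simp [hr _ _]
    rw [← h1]
    conv_lhs => rw [hPv v]
    rw [hermForm_add_left, hermForm_add_left, hermForm_sum_left, hermForm_sum_left]
    simp [hsr', htr']
  have h2 : ∑ l, ⟪v, r l⟫ • r l = P v := by
    rw [hc]
    exact Finset.sum_congr rfl fun l _ => by rw [hc']
  rw [h2]
  conv_lhs => rw [hPv v]
  abel

/-- Expansion of the form along a Witt system. -/
theorem IsWitt.form_expand (hF : Fintype.card F = q ^ 2) {k m : ℕ} {s t : Fin k → Fin n → F}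
    {r : Fin m → Fin n → F} (h : IsWitt q s t r) (v w : Fin n → F) :
    ⟪v, w⟫ = ∑ i, ⟪v, t i⟫ * ⟪w, s i⟫ ^ q + ∑ i, ⟪v, s i⟫ * ⟪w, t i⟫ ^ q +
      ∑ l, ⟪v, r l⟫ * ⟪w, r l⟫ ^ q := by
  conv_lhs => rw [h.span v]
  rw [hermForm_add_left, hermForm_add_left, hermForm_sum_left, hermForm_sum_left, hermForm_sum_left]
  simp only [hermForm_pow_q hF]

/-- The isometry carrying one Witt system to another. -/
noncomputable def wittMap (q : ℕ) {k m : ℕ} (s t : Fin k → Fin n → F) (r : Fin m → Fin n → F)
    (s' t' : Fin k → Fin n → F) (r' : Fin m → Fin n → F) : (Fin n → F) →ₗ[F] (Fin n → F) where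
  toFun v := ∑ i, hermForm n F q v (t i) • s' i + ∑ i, hermForm n F q v (s i) • t' i +
    ∑ l, hermForm n F q v (r l) • r' l
  map_add' u v := by
    simp only [hermForm_add_left, add_smul, Finset.sum_add_distrib]
    abel
  map_smul' a v := by
    simp only [hermForm_smul_left, mul_smul, RingHom.id_apply, smul_add, Finset.smul_sum]

theorem wittMap_apply {k m : ℕ} (s t : Fin k → Fin n → F) (r : Fin m → Fin n → F)
    (s' t' : Fin k → Fin n → F) (r' : Fin m → Fin n → F) (v : Fin n → F) :
    wittMap q s t r s' t' r' v = ∑ i, ⟪v, t i⟫ • s' i + ∑ i, ⟪v, s i⟫ • t' i + ∑ l, ⟪v, r l⟫ • r' l :=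
  rfl

/-- Witt's theorem for two Witt systems. -/
theorem exists_GU_of_witt (hF : Fintype.card F = q ^ 2) {k m : ℕ} {s t s' t' : Fin k → Fin n → F}
    {r r' : Fin m → Fin n → F} (h : IsWitt q s t r) (h' : IsWitt q s' t' r') :
    ∃ g : GU n F q, (∀ i, (g.1 : Matrix (Fin n) (Fin n) F) *ᵥ s i = s' i) ∧
      (∀ i, (g.1 : Matrix (Fin n) (Fin n) F) *ᵥ t i = t' i) ∧
      (∀ l, (g.1 : Matrix (Fin n) (Fin n) F) *ᵥ r l = r' l) := by
  classical
  let M := LinearMap.toMatrix' (wittMap q s t r s' t' r')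
  have hM : ∀ v, M *ᵥ v = ∑ i, ⟪v, t i⟫ • s' i + ∑ i, ⟪v, s i⟫ • t' i + ∑ l, ⟪v, r l⟫ • r' l := by
    intro v
    simp only [M, LinearMap.toMatrix'_mulVec, wittMap_apply]
  have hs : ∀ w i, ⟪M *ᵥ w, s' i⟫ = ⟪w, s i⟫ := by
    intro w i
    rw [hM, hermForm_add_left, hermForm_add_left, hermForm_sum_left, hermForm_sum_left,
      hermForm_sum_left]
    simp [h'.ss, h'.ts, h'.rs]
  have ht : ∀ w i, ⟪M *ᵥ w, t' i⟫ = ⟪w, t i⟫ := by
    intro w i
    rw [hM, hermForm_add_left, hermForm_add_left, hermForm_sum_left, hermForm_sum_left,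
      hermForm_sum_left]
    simp [h'.st, h'.tt, h'.rt]
  have hr : ∀ w l, ⟪M *ᵥ w, r' l⟫ = ⟪w, r l⟫ := by
    intro w l
    rw [hM, hermForm_add_left, hermForm_add_left, hermForm_sum_left, hermForm_sum_left,
      hermForm_sum_left]
    simp [h'.sr, h'.tr, h'.rr _ _]
  have hP : Preserves q M := by
    intro v w
    rw [h.form_expand hF v w]
    conv_lhs => rw [hM v]
    rw [hermForm_add_left, hermForm_add_left, hermForm_sum_left, hermForm_sum_left,
      hermForm_sum_left]
    have e1 : ∀ i, ⟪s' i, M *ᵥ w⟫ = ⟪w, s i⟫ ^ q := fun i => by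
      rw [← hs w i, hermForm_pow_q hF]
    have e2 : ∀ i, ⟪t' i, M *ᵥ w⟫ = ⟪w, t i⟫ ^ q := fun i => by
      rw [← ht w i, hermForm_pow_q hF]
    have e3 : ∀ l, ⟪r' l, M *ᵥ w⟫ = ⟪w, r l⟫ ^ q := fun l => by
      rw [← hr w l, hermForm_pow_q hF]
    simp only [e1, e2, e3]
  refine ⟨⟨glOfPreserves hF M hP, glOfPreserves_mem hF M hP⟩, fun i => ?_, fun i => ?_, fun l => ?_⟩
  · change M *ᵥ s i = s' i
    rw [hM]
    simp [h.st, h.ss, h.sr]
  · change M *ᵥ t i = t' i
    rw [hM]
    simp [h.tt, h.ts, h.tr]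
  · change M *ᵥ r l = r' l
    rw [hM]
    simp [h.rt, h.rs, h.rr _ _]

/-- Totally isotropic frames of length `k`. -/
abbrev TF (F : Type*) [Field F] [Fintype F] (q n k : ℕ) : Type _ :=
  {s : Fin k → Fin n → F // LinearIndependent F s ∧ ∀ i j, hermForm n F q (s i) (s j) = 0}

/-- Witt's theorem for totally isotropic frames. -/
theorem exists_GU_of_TF (hF : Fintype.card F = q ^ 2) {k m : ℕ} (hn : 2 * k + m = n)
    (s s' : TF F q n k) : ∃ g : GU n F q, ∀ i, (g.1 : Matrix (Fin n) (Fin n) F) *ᵥ s.1 i = s'.1 i := by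
  obtain ⟨t, r, h⟩ := exists_witt hF hn s.1 s.2.1 s.2.2
  obtain ⟨t', r', h'⟩ := exists_witt hF hn s'.1 s'.2.1 s'.2.2
  obtain ⟨g, hg, -, -⟩ := exists_GU_of_witt hF h h'
  exact ⟨g, hg⟩

/-- The possible extensions of a frame. -/
abbrev Fib (q : ℕ) {k : ℕ} (s : Fin k → Fin n → F) : Type _ :=
  {v : Fin n → F // (∀ i, hermForm n F q v (s i) = 0) ∧ hermForm n F q v v = 0 ∧
    v ∉ Submodule.span F (Set.range s)}

theorem card_fib (hF : Fintype.card F = q ^ 2) {k m : ℕ} (hn : 2 * k + m = n) (s : TF F q n k) :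
    Nat.card (Fib q s.1) = (q ^ 2) ^ k * Nat.card (IsoVec F q m) := by
  classical
  obtain ⟨t, r, h⟩ := exists_witt hF hn s.1 s.2.1 s.2.2
  have hperp : ∀ v, (∀ i, ⟪v, s.1 i⟫ = 0) → v = ∑ i, ⟪v, t i⟫ • s.1 i + ∑ l, ⟪v, r l⟫ • r l := by
    intro v hv
    conv_lhs => rw [h.span v]
    simp [hv]
  have hnorm : ∀ v, (∀ i, ⟪v, s.1 i⟫ = 0) → ⟪v, v⟫ = hermForm m F q (fun l => ⟪v, r l⟫) (fun l => ⟪v, r l⟫) := by
    intro v hv
    rw [h.form_expand hF v v]
    simp only [hv, zero_pow_q hF, mul_zero, zero_mul, Finset.sum_const_zero, zero_add, add_zero]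
    rfl
  have hmem : ∀ (a : Fin k → F), ∑ i, a i • s.1 i ∈ Submodule.span F (Set.range s.1) :=
    fun a => Submodule.sum_mem _ fun i _ => Submodule.smul_mem _ _ (Submodule.subset_span ⟨i, rfl⟩)
  have hspan_r : ∀ v ∈ Submodule.span F (Set.range s.1), ∀ l, ⟪v, r l⟫ = 0 := by
    intro v hv l
    induction hv using Submodule.span_induction with
    | mem x hx =>
      obtain ⟨i, rfl⟩ := hx
      exact h.sr i l
    | zero => exact hermForm_zero_left _ _
    | add x y _ _ hx hy => rw [hermForm_add_left, hx, hy, add_zero]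
    | smul a x _ hx => rw [hermForm_smul_left, hx, mul_zero]
  let build : (Fin k → F) → (Fin m → F) → Fin n → F := fun a c => ∑ i, a i • s.1 i + ∑ l, c l • r l
  have hbr : ∀ a c l, ⟪build a c, r l⟫ = c l := by
    intro a c l
    simp only [build]
    rw [hermForm_add_left, hermForm_sum_left, hermForm_sum_left]
    simp [h.sr, h.rr _ _]
  have hbt : ∀ a c i, ⟪build a c, t i⟫ = a i := by
    intro a c i
    simp only [build]
    rw [hermForm_add_left, hermForm_sum_left, hermForm_sum_left]
    simp [h.st, h.rt]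
  have hbs : ∀ a c i, ⟪build a c, s.1 i⟫ = 0 := by
    intro a c i
    simp only [build]
    rw [hermForm_add_left, hermForm_sum_left, hermForm_sum_left]
    simp [h.ss, h.rs]
  let e : Fib q s.1 ≃ (Fin k → F) × IsoVec F q m :=
    { toFun := fun v => (fun i => ⟪v.1, t i⟫, ⟨fun l => ⟪v.1, r l⟫, by
        intro h0
        apply v.2.2.2
        rw [hperp v.1 v.2.1]
        have : ∑ l, ⟪v.1, r l⟫ • r l = 0 := by
          apply Finset.sum_eq_zero
          intro l _
          have := congrFun h0 l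
          simp only [Pi.zero_apply] at this
          rw [this, zero_smul]
        rw [this, add_zero]
        exact hmem _, by
        rw [← hnorm v.1 v.2.1]
        exact v.2.2.1⟩)
      invFun := fun p => ⟨build p.1 p.2.1, hbs _ _, by
        rw [hnorm _ (hbs _ _)]
        simp only [hbr]
        exact p.2.2.2, by
        intro hb
        apply p.2.2.1
        funext l
        rw [← hbr p.1 p.2.1 l]
        exact hspan_r _ hb l⟩
      left_inv := fun v => by
        apply Subtype.ext
        exact (hperp v.1 v.2.1).symm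
      right_inv := fun p => by
        apply Prod.ext
        · funext i
          exact hbt _ _ _
        · apply Subtype.ext
          funext l
          exact hbr _ _ _ }
  rw [Nat.card_congr e, Nat.card_prod, Nat.card_fun, Nat.card_eq_fintype_card (α := F), hF,
    Nat.card_eq_fintype_card (α := Fin k), Fintype.card_fin]

/-- Extending a frame by one. -/
theorem card_TF_succ (hF : Fintype.card F = q ^ 2) {k m : ℕ} (hn : 2 * k + m = n) :
    Nat.card (TF F q n (k + 1)) = Nat.card (TF F q n k) * ((q ^ 2) ^ k * Nat.card (IsoVec F q m)) := by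
  classical
  have hsymm : ∀ {x y : Fin n → F}, ⟪x, y⟫ = 0 → ⟪y, x⟫ = 0 := fun {x y} h0 => by
    rw [← hermForm_pow_q hF, h0, zero_pow_q hF]
  let e : TF F q n (k + 1) ≃ Σ s : TF F q n k, Fib q s.1 :=
    { toFun := fun s => ⟨⟨Fin.tail s.1, by
          have h1 := s.2.1
          have h2 : s.1 = Fin.cons (s.1 0) (Fin.tail s.1) := (Fin.cons_self_tail _).symm
          rw [h2, linearIndependent_finCons] at h1
          exact h1.1, fun i j => s.2.2 _ _⟩,
        ⟨s.1 0, fun i => s.2.2 _ _, s.2.2 _ _, by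
          have h1 := s.2.1
          have h2 : s.1 = Fin.cons (s.1 0) (Fin.tail s.1) := (Fin.cons_self_tail _).symm
          rw [h2, linearIndependent_finCons] at h1
          exact h1.2⟩⟩
      invFun := fun p => ⟨Fin.cons p.2.1 p.1.1, by
          rw [linearIndependent_finCons]
          exact ⟨p.1.2.1, p.2.2.2.2⟩, by
          intro i j
          refine Fin.cases ?_ (fun i' => ?_) i <;> refine Fin.cases ?_ (fun j' => ?_) j
          · simpa using p.2.2.2.1
          · simpa using p.2.2.1 j'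
          · simpa using hsymm (p.2.2.1 i')
          · simpa using p.1.2.2 i' j'⟩
      left_inv := fun s => by
        apply Subtype.ext
        exact Fin.cons_self_tail _
      right_inv := fun p => by
        obtain ⟨⟨s, hs⟩, ⟨v, hv⟩⟩ := p
        simp only [Fin.cons_zero]
        rfl }
  rw [Nat.card_congr e, Nat.card_sigma]
  simp only [card_fib hF hn]
  simp [Nat.card_eq_fintype_card]

theorem card_TF_zero : Nat.card (TF F q n 0) = 1 := by
  have : Unique (TF F q n 0) :=
    { default := ⟨fun i => i.elim0, by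
        exact linearIndependent_empty_type, fun i => i.elim0⟩
      uniq := fun s => by
        apply Subtype.ext
        funext i
        exact i.elim0 }
  exact Nat.card_unique

/-- The recursion for the order of `GU`. -/
theorem card_GU_rec (hF : Fintype.card F = q ^ 2) (m : ℕ) :
    Nat.card (GU (m + 2) F q) = Nat.card (IsoVec F q (m + 2)) * q ^ (2 * m + 1) * Nat.card (GU m F q) := by
  rw [card_GU hF, card_GU hF, card_isoVec_eq hF]
  rw [Finset.prod_range_succ, Finset.prod_range_succ]
  have hexp : (m + 2) * (m + 2 - 1) / 2 = m * (m - 1) / 2 + (2 * m + 1) := by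
    have h1 : (m + 2) * (m + 2 - 1) = m * (m - 1) + 2 * (2 * m + 1) := by
      cases m with
      | zero => simp
      | succ m =>
        simp only [Nat.add_sub_cancel, show m + 1 + 2 - 1 = m + 2 by omega]
        ring
    rw [h1, Nat.add_mul_div_left _ _ (by norm_num)]
  rw [hexp, pow_add]
  have h2 : (m + 2 - 1) = m + 1 := by omega
  rw [h2]
  by_cases he : Even m
  · have h3 : ¬ Even (m + 1) := by
      rw [Nat.even_add_one]; simpa using he
    have h4 : Even (m + 2) := by
      rw [Nat.even_add]; simp [he]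
    simp only [he, h3, h4, if_true, if_false]
    ring
  · have h3 : Even (m + 1) := by
      rw [Nat.even_add_one]; exact he
    have h4 : ¬ Even (m + 2) := by
      rw [Nat.even_add]; simp [he]
    simp only [he, h3, h4, if_true, if_false]
    ring

/-- The order of `GU` against the number of frames. -/
theorem card_GU_eq_TF (hF : Fintype.card F = q ^ 2) (k : ℕ) : ∀ m : ℕ, 2 * k + m = n →
    Nat.card (GU n F q) = Nat.card (TF F q n k) * q ^ (k * (k + 2 * m)) * Nat.card (GU m F q) := by
  induction k with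
  | zero =>
    intro m hm
    have : m = n := by omega
    subst this
    rw [card_TF_zero]
    simp
  | succ k ih =>
    intro m hm
    have hm' : 2 * k + (m + 2) = n := by omega
    rw [ih (m + 2) hm', card_GU_rec hF, card_TF_succ hF hm']
    have hexp : 2 * k + (k + 1) * (k + 1 + 2 * m) = k * (k + 2 * (m + 2)) + (2 * m + 1) := by ring
    have h1 : (q ^ 2) ^ k * q ^ ((k + 1) * (k + 1 + 2 * m)) =
        q ^ (k * (k + 2 * (m + 2))) * q ^ (2 * m + 1) := by
      rw [← pow_mul, ← pow_add, ← pow_add, hexp]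
    calc _ = Nat.card (TF F q n k) * Nat.card (IsoVec F q (m + 2)) * Nat.card (GU m F q) *
          (q ^ (k * (k + 2 * (m + 2))) * q ^ (2 * m + 1)) := by ring
      _ = _ := by rw [← h1]; ring

end Cfsg.Agent.Lib.Classical.Herm.TIFrame
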