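import Mathlib
import Cfsg.Prelude.Def_Classical
import Cfsg.Agent.Lib.Classical.Orth.Spinor
import Cfsg.Agent.Lib.Classical.Orth.IndexTwo
import Cfsg.Agent.Lib.Classical.Orth.Models

/-!
# Exceptional isomorphisms of orthogonal groups: common tools

From a linear action of a group `L` preserving a form `Q`, to a homomorphism into the isometry group,
and from there to an isomorphism of `PΩ(Q)` with `L / Z(L)`.
-/

set_option autoImplicit false
set_option linter.unusedSectionVars false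

namespace Cfsg.Agent.Lib.Classical.Herm.ExcCore

open Matrix Cfsg
open scoped commutatorElement

variable {ι : Type} [Fintype ι] [DecidableEq ι] {F : Type*} [Field F]

/-- From a linear action preserving `Q` to a homomorphism into `O(Q)`. -/
noncomputable def isomHom {L : Type*} [Group L] (Q : (ι → F) → F)
    (act : L →* Module.End F (ι → F)) (hQ : ∀ x v, Q (act x v) = Q v) :
    L →* ↥(Cfsg.isometryGroup F Q) :=
  MonoidHom.codRestrict
    (((LinearMap.toMatrixAlgEquiv' (R := F) (n := ι)).toMonoidHom.comp act).toHomUnits)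
    (Cfsg.isometryGroup F Q) (by
      intro x u v
      change Q (((LinearMap.toMatrixAlgEquiv' (R := F) (n := ι)) (act x)) *ᵥ u) = Q u
      have h1 : ((LinearMap.toMatrixAlgEquiv' (R := F) (n := ι)) (act x)) *ᵥ u = act x u := by
        change (LinearMap.toMatrix' (act x)) *ᵥ u = act x u
        exact LinearMap.toMatrix'_mulVec _ _
      rw [h1, hQ])

theorem isomHom_mulVec {L : Type*} [Group L] (Q : (ι → F) → F)
    (act : L →* Module.End F (ι → F)) (hQ : ∀ x v, Q (act x v) = Q v) (x : L) (u : ι → F) :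
    (((isomHom Q act hQ x : ↥(Cfsg.isometryGroup F Q)) : GL ι F) : Matrix ι ι F) *ᵥ u = act x u := by
  change (LinearMap.toMatrix' (act x)) *ᵥ u = act x u
  exact LinearMap.toMatrix'_mulVec _ _

theorem mem_ker_isomHom {L : Type*} [Group L] (Q : (ι → F) → F)
    (act : L →* Module.End F (ι → F)) (hQ : ∀ x v, Q (act x v) = Q v) (x : L) :
    x ∈ (isomHom Q act hQ).ker ↔ ∀ v, act x v = v := by
  rw [MonoidHom.mem_ker]
  constructor
  · intro h v
    rw [← isomHom_mulVec Q act hQ x v, h]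
    simp
  · intro h
    apply Subtype.ext
    apply Units.ext
    apply Matrix.ext_of_mulVec_single
    intro j
    change (((isomHom Q act hQ x : ↥(Cfsg.isometryGroup F Q)) : GL ι F) : Matrix ι ι F) *ᵥ _ = (1 : Matrix ι ι F) *ᵥ _
    rw [isomHom_mulVec, h, Matrix.one_mulVec]

/-- A quotient criterion. -/
theorem pomega_equiv (Q : (ι → F) → F) {L : Type*} [Group L] (ρ : L →* ↥(Cfsg.isometryGroup F Q))
    (hrange : ρ.range = Cfsg.Omega F Q) (hker : ρ.ker ≤ Subgroup.center L)
    (hc : Subgroup.center (L ⧸ Subgroup.center L) = ⊥) :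
    Nonempty (Cfsg.POmega F Q ≃* L ⧸ Subgroup.center L) := by
  classical
  have hmem : ∀ x, ρ x ∈ Cfsg.Omega F Q := fun x => hrange ▸ ⟨x, rfl⟩
  let ρ' : L →* ↥(Cfsg.Omega F Q) := ρ.codRestrict _ hmem
  have hsurj : Function.Surjective ρ' := by
    rintro ⟨y, hy⟩
    rw [← hrange] at hy
    obtain ⟨x, rfl⟩ := hy
    exact ⟨x, rfl⟩
  let π : L →* Cfsg.POmega F Q := (QuotientGroup.mk' _).comp ρ'
  have hπ : Function.Surjective π := (QuotientGroup.mk'_surjective _).comp hsurj
  have hkerπ : π.ker = Subgroup.center L := by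
    ext x
    rw [MonoidHom.mem_ker]
    change ((ρ' x : ↥(Cfsg.Omega F Q)) : Cfsg.POmega F Q) = 1 ↔ _
    rw [QuotientGroup.eq_one_iff]
    constructor
    · intro h
      have h1 : (x : L ⧸ Subgroup.center L) ∈ Subgroup.center (L ⧸ Subgroup.center L) := by
        rw [Subgroup.mem_center_iff]
        intro y
        obtain ⟨y, rfl⟩ := QuotientGroup.mk_surjective y
        have h2 : ρ' (y * x * y⁻¹ * x⁻¹) = 1 := by
          rw [map_mul, map_mul, map_mul, map_inv, map_inv]
          have := (Subgroup.mem_center_iff.1 h) (ρ' y)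
          rw [this]
          group
        have h3 : y * x * y⁻¹ * x⁻¹ ∈ ρ.ker := by
          rw [MonoidHom.mem_ker]
          have := congrArg Subtype.val h2
          simpa [ρ'] using this
        have h4 := hker h3
        have h5 : ((y * x * y⁻¹ * x⁻¹ : L) : L ⧸ Subgroup.center L) = 1 :=
          (QuotientGroup.eq_one_iff _).2 h4
        have h6 : (y : L ⧸ Subgroup.center L) * x * (y : L ⧸ Subgroup.center L)⁻¹ * (x : L ⧸ Subgroup.center L)⁻¹ = 1 := h5
        have h7 : (y : L ⧸ Subgroup.center L) * x = x * y := by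
          calc (y : L ⧸ Subgroup.center L) * x
              = ((y : L ⧸ Subgroup.center L) * x * (y : L ⧸ Subgroup.center L)⁻¹ * (x : L ⧸ Subgroup.center L)⁻¹) * (x * y) := by group
            _ = x * y := by rw [h6, one_mul]
        exact h7
      rw [hc, Subgroup.mem_bot] at h1
      exact (QuotientGroup.eq_one_iff x).1 h1
    · intro h
      rw [Subgroup.mem_center_iff]
      intro y
      obtain ⟨y, rfl⟩ := hsurj y
      rw [← map_mul, ← map_mul, (Subgroup.mem_center_iff.1 h) y]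
  have hker2 : (QuotientGroup.mk' (Subgroup.center L)).ker = Subgroup.center L := QuotientGroup.ker_mk' _
  refine ⟨?_⟩
  have e1 := QuotientGroup.quotientKerEquivOfSurjective π hπ
  have e2 := QuotientGroup.quotientMulEquivOfEq hkerπ
  exact e1.symm.trans e2

/-- The image of a perfect group lies in `Ω`. -/
theorem range_le_omega (Q : (ι → F) → F) {L : Type*} [Group L] (ρ : L →* ↥(Cfsg.isometryGroup F Q))
    (hperf : commutator L = ⊤) : ρ.range ≤ Cfsg.Omega F Q := by
  rintro _ ⟨x, rfl⟩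
  have h1 : x ∈ commutator L := by rw [hperf]; trivial
  have h2 : ρ x ∈ (commutator L).map ρ := ⟨x, h1, rfl⟩
  rw [commutator_def, Subgroup.map_commutator] at h2
  refine Subgroup.commutator_mono ?_ ?_ h2 <;> exact le_top

/-- From orders to equality of the range with `Ω`. -/
theorem range_eq_omega_of_index (Q : (ι → F) → F) [Finite F] {L : Type*} [Group L] [Finite L]
    (ρ : L →* ↥(Cfsg.isometryGroup F Q)) (hle : ρ.range ≤ Cfsg.Omega F Q) {k : ℕ}
    (hidx : (Cfsg.Omega F Q).index = k)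
    (hcard : Nat.card ↥(Cfsg.isometryGroup F Q) = k * Nat.card ρ.range) (hk : k ≠ 0) :
    ρ.range = Cfsg.Omega F Q := by
  haveI : Finite ↥(Cfsg.isometryGroup F Q) := inferInstance
  apply Subgroup.eq_of_le_of_card_ge hle
  have h1 := Subgroup.index_mul_card (Cfsg.Omega F Q)
  rw [hidx, hcard] at h1
  exact (Nat.eq_of_mul_eq_mul_left (Nat.pos_of_ne_zero hk) h1).le

/-- `|range| * |ker| = |L|`. -/
theorem card_range_mul_ker {L G : Type*} [Group L] [Group G] [Finite L] (ρ : L →* G) :
    Nat.card ρ.range * Nat.card ρ.ker = Nat.card L := by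
  have h := Subgroup.card_mul_index ρ.ker
  rw [Subgroup.index_ker] at h
  rw [mul_comm]
  exact h

/-- The odd characteristic case. -/
theorem range_eq_omega_odd {ι : Type} [Fintype ι] [DecidableEq ι] {F : Type*} [Field F] [Fintype F]
    (Q : QuadraticForm F (ι → F)) (hQ : (QuadraticMap.polarBilin Q).Nondegenerate) (h2 : (2 : F) ≠ 0)
    (hn : 2 ≤ Fintype.card ι) {L : Type*} [Group L] [Finite L] (ρ : L →* ↥(Cfsg.isometryGroup F (⇑Q)))
    (hle : ρ.range ≤ Cfsg.Omega F (⇑Q))
    (hcard : Nat.card ↥(Cfsg.isometryGroup F (⇑Q)) = 4 * Nat.card ρ.range) :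
    ρ.range = Cfsg.Omega F (⇑Q) :=
  range_eq_omega_of_index _ ρ hle (Cfsg.Agent.Lib.Classical.Orth.Spinor.omega_index Q hQ h2 hn) hcard (by norm_num)

/-- The index two case. -/
theorem range_eq_omega_two {ι : Type} [Fintype ι] [DecidableEq ι] {F : Type*} [Field F] [Fintype F]
    (Q : QuadraticForm F (ι → F)) {L : Type*} [Group L] [Finite L] (ρ : L →* ↥(Cfsg.isometryGroup F (⇑Q)))
    (hle : ρ.range ≤ Cfsg.Omega F (⇑Q))
    (hcard : Nat.card ↥(Cfsg.isometryGroup F (⇑Q)) = 2 * Nat.card ρ.range) :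
    ρ.range = Cfsg.Omega F (⇑Q) := by
  refine le_antisymm hle (Cfsg.Agent.Lib.Classical.Orth.IndexTwo.omega_le_of_index_two Q _ ?_)
  have h1 := Subgroup.index_mul_card ρ.range
  rw [hcard] at h1
  have h3 : 0 < Nat.card ρ.range := Nat.card_pos
  exact Nat.eq_of_mul_eq_mul_right h3 h1

/-- The odd characteristic case, for a function equal to a quadratic form. -/
theorem range_eq_omega_odd' {ι : Type} [Fintype ι] [DecidableEq ι] {F : Type*} [Field F] [Fintype F]
    {Q₀ : (ι → F) → F} (Q : QuadraticForm F (ι → F)) (hQ₀ : ⇑Q = Q₀) (hQ : (QuadraticMap.polarBilin Q).Nondegenerate) (h2 : (2 : F) ≠ 0)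
    (hn : 2 ≤ Fintype.card ι) {L : Type*} [Group L] [Finite L] (ρ : L →* ↥(Cfsg.isometryGroup F Q₀))
    (hle : ρ.range ≤ Cfsg.Omega F Q₀)
    (hcard : Nat.card ↥(Cfsg.isometryGroup F Q₀) = 4 * Nat.card ρ.range) :
    ρ.range = Cfsg.Omega F Q₀ := by
  subst hQ₀
  exact range_eq_omega_odd Q hQ h2 hn ρ hle hcard

/-- The index two case, for a function equal to a quadratic form. -/
theorem range_eq_omega_two' {ι : Type} [Fintype ι] [DecidableEq ι] {F : Type*} [Field F] [Fintype F]
    {Q₀ : (ι → F) → F} (Q : QuadraticForm F (ι → F)) (hQ₀ : ⇑Q = Q₀) {L : Type*} [Group L] [Finite L]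
    (ρ : L →* ↥(Cfsg.isometryGroup F Q₀))
    (hle : ρ.range ≤ Cfsg.Omega F Q₀)
    (hcard : Nat.card ↥(Cfsg.isometryGroup F Q₀) = 2 * Nat.card ρ.range) :
    ρ.range = Cfsg.Omega F Q₀ := by
  subst hQ₀
  exact range_eq_omega_two Q ρ hle hcard

/-- The centre of a simple perfect quotient vanishes. -/
theorem center_eq_bot_of_simple {G : Type*} [Group G] (hperf : commutator G = ⊤)
    (hs : IsSimpleGroup (G ⧸ Subgroup.center G)) :
    Subgroup.center (G ⧸ Subgroup.center G) = ⊥ := by
  rcases hs.eq_bot_or_eq_top_of_normal (Subgroup.center (G ⧸ Subgroup.center G)) inferInstance with h | h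
  · exact h
  · exfalso
    have h1 : commutator (G ⧸ Subgroup.center G) = ⊤ := by
      haveI : Group.IsPerfect G := ⟨hperf⟩
      exact Group.IsPerfect.commutator_eq_top
    have h2 : commutator (G ⧸ Subgroup.center G) = ⊥ := by
      rw [eq_bot_iff, commutator_def, Subgroup.commutator_le]
      intro a _ b _
      have h3 : a ∈ Subgroup.center (G ⧸ Subgroup.center G) := by rw [h]; trivial
      rw [commutatorElement_eq_one_iff_mul_comm.2 ((Subgroup.mem_center_iff.1 h3) b).symm]
      exact Subgroup.one_mem _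
    rw [h2] at h1
    obtain ⟨x, y, hxy⟩ := hs.toNontrivial.exists_pair_ne
    have h4 : ∀ z : G ⧸ Subgroup.center G, z = 1 := fun z => by
      have : z ∈ (⊥ : Subgroup (G ⧸ Subgroup.center G)) := by rw [h1]; trivial
      exact Subgroup.mem_bot.1 this
    exact hxy ((h4 x).trans (h4 y).symm)

/-- Normal subgroups of quasisimple groups. -/
theorem normal_le_center_or_top {G : Type*} [Group G] (hperf : commutator G = ⊤)
    (hs : IsSimpleGroup (G ⧸ Subgroup.center G)) (N : Subgroup G) (hN : N.Normal) :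
    N ≤ Subgroup.center G ∨ N = ⊤ := by
  have hmapN : (N.map (QuotientGroup.mk' (Subgroup.center G))).Normal :=
    hN.map _ (QuotientGroup.mk'_surjective _)
  rcases hs.eq_bot_or_eq_top_of_normal _ hmapN with h | h
  · left
    intro n hn
    have h1 : (QuotientGroup.mk' (Subgroup.center G)) n = 1 := by
      have : (QuotientGroup.mk' (Subgroup.center G)) n ∈ N.map (QuotientGroup.mk' (Subgroup.center G)) := ⟨n, hn, rfl⟩
      rwa [h, Subgroup.mem_bot] at this
    exact (QuotientGroup.eq_one_iff n).1 h1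
  · right
    have hdec : ∀ g : G, ∃ n ∈ N, ∃ z ∈ Subgroup.center G, g = n * z := by
      intro g
      have h1 : (QuotientGroup.mk' (Subgroup.center G)) g ∈ N.map (QuotientGroup.mk' (Subgroup.center G)) := by
        rw [h]
        trivial
      obtain ⟨n, hn, hng⟩ := h1
      refine ⟨n, hn, n⁻¹ * g, ?_, by group⟩
      exact QuotientGroup.eq.1 hng
    rw [eq_top_iff, ← hperf, commutator_def, Subgroup.commutator_le]
    intro a _ b _
    obtain ⟨n₁, hn₁, z₁, hz₁, rfl⟩ := hdec a
    obtain ⟨n₂, hn₂, z₂, hz₂, rfl⟩ := hdec b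
    have hc1 := Subgroup.mem_center_iff.1 hz₁
    have hc2 := Subgroup.mem_center_iff.1 hz₂
    have h1 : ⁅n₁ * z₁, n₂ * z₂⁆ = n₁ * n₂ * n₁⁻¹ * n₂⁻¹ := by
      simp only [commutatorElement_def]
      calc n₁ * z₁ * (n₂ * z₂) * (n₁ * z₁)⁻¹ * (n₂ * z₂)⁻¹
          = n₁ * (z₁ * (n₂ * z₂)) * (n₁ * z₁)⁻¹ * (n₂ * z₂)⁻¹ := by group
        _ = n₁ * ((n₂ * z₂) * z₁) * (n₁ * z₁)⁻¹ * (n₂ * z₂)⁻¹ := by rw [← hc1 (n₂ * z₂)]
        _ = n₁ * n₂ * z₂ * n₁⁻¹ * z₂⁻¹ * n₂⁻¹ := by group
        _ = n₁ * n₂ * (z₂ * n₁⁻¹) * z₂⁻¹ * n₂⁻¹ := by group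
        _ = n₁ * n₂ * (n₁⁻¹ * z₂) * z₂⁻¹ * n₂⁻¹ := by rw [← hc2 n₁⁻¹]
        _ = _ := by group
    rw [h1]
    exact N.mul_mem (N.mul_mem (N.mul_mem hn₁ hn₂) (N.inv_mem hn₁)) (N.inv_mem hn₂)

end Cfsg.Agent.Lib.Classical.Herm.ExcCore
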