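import Mathlib
import Cfsg.Agent.Lib.Classical.Herm.ExcCore
import Cfsg.Agent.Lib.Classical.Lin.Transvections

/-!
# The Klein correspondence: the Pfaffian and the action of `GL₄` on alternating matrices
-/

set_option autoImplicit false
set_option linter.unusedSectionVars false

namespace Cfsg.Agent.Lib.Classical.Herm.ExcKlein

open Matrix Cfsg

section pf

variable {R : Type*} [CommRing R]

/-- The Pfaffian of a `4 × 4` matrix. -/
def pf (X : Matrix (Fin 4) (Fin 4) R) : R := X 0 1 * X 2 3 - X 0 2 * X 1 3 + X 0 3 * X 1 2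

theorem det4 (g : Matrix (Fin 4) (Fin 4) R) : g.det =
    g 0 0 * (g 1 1 * (g 2 2 * g 3 3 - g 2 3 * g 3 2) - g 1 2 * (g 2 1 * g 3 3 - g 2 3 * g 3 1) + g 1 3 * (g 2 1 * g 3 2 - g 2 2 * g 3 1))
    - g 0 1 * (g 1 0 * (g 2 2 * g 3 3 - g 2 3 * g 3 2) - g 1 2 * (g 2 0 * g 3 3 - g 2 3 * g 3 0) + g 1 3 * (g 2 0 * g 3 2 - g 2 2 * g 3 0))
    + g 0 2 * (g 1 0 * (g 2 1 * g 3 3 - g 2 3 * g 3 1) - g 1 1 * (g 2 0 * g 3 3 - g 2 3 * g 3 0) + g 1 3 * (g 2 0 * g 3 1 - g 2 1 * g 3 0))
    - g 0 3 * (g 1 0 * (g 2 1 * g 3 2 - g 2 2 * g 3 1) - g 1 1 * (g 2 0 * g 3 2 - g 2 2 * g 3 0) + g 1 2 * (g 2 0 * g 3 1 - g 2 1 * g 3 0)) := by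
  rw [Matrix.det_succ_row_zero, Fin.sum_univ_four]
  simp only [Matrix.det_fin_three, Matrix.submatrix_apply, Fin.succAbove]
  simp
  ring

theorem pf_congr (g X : Matrix (Fin 4) (Fin 4) R) (h0 : ∀ i, X i i = 0) (h1 : ∀ i j, X j i = - X i j) :
    pf (g * X * gᵀ) = g.det * pf X := by
  rw [det4]
  simp only [pf, Matrix.mul_apply, Matrix.transpose_apply, Fin.sum_univ_four]
  have e10 := h1 0 1
  have e20 := h1 0 2
  have e30 := h1 0 3
  have e21 := h1 1 2
  have e31 := h1 1 3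
  have e32 := h1 2 3
  simp only [h0, e10, e20, e30, e21, e31, e32]
  ring

theorem alt_congr_diag (g X : Matrix (Fin 4) (Fin 4) R) (h0 : ∀ i, X i i = 0) (h1 : ∀ i j, X j i = - X i j)
    (i : Fin 4) : (g * X * gᵀ) i i = 0 := by
  simp only [Matrix.mul_apply, Matrix.transpose_apply, Fin.sum_univ_four]
  have e10 := h1 0 1
  have e20 := h1 0 2
  have e30 := h1 0 3
  have e21 := h1 1 2
  have e31 := h1 1 3
  have e32 := h1 2 3
  simp only [h0, e10, e20, e30, e21, e31, e32]
  ring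

theorem alt_congr_symm (g X : Matrix (Fin 4) (Fin 4) R) (h1 : ∀ i j, X j i = - X i j)
    (i j : Fin 4) : (g * X * gᵀ) j i = - (g * X * gᵀ) i j := by
  have h2 : Xᵀ = -X := by
    ext a b
    simp [h1 a b]
  have h3 : (g * X * gᵀ)ᵀ = - (g * X * gᵀ) := by
    rw [Matrix.transpose_mul, Matrix.transpose_mul, Matrix.transpose_transpose, h2]
    simp [Matrix.mul_assoc]
  have := congrFun (congrFun h3 i) j
  simpa using this

end pf

section six

variable {F : Type*} [Field F]

/-- The alternating matrix with given coordinates. -/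
def toAlt (v : Fin 3 ⊕ Fin 3 → F) : Matrix (Fin 4) (Fin 4) F :=
  !![0, v (.inl 0), v (.inl 1), v (.inl 2);
    - v (.inl 0), 0, v (.inr 2), - v (.inr 1);
    - v (.inl 1), - v (.inr 2), 0, v (.inr 0);
    - v (.inl 2), v (.inr 1), - v (.inr 0), 0]

/-- The coordinates of an alternating matrix. -/
def fromAlt (X : Matrix (Fin 4) (Fin 4) F) : Fin 3 ⊕ Fin 3 → F :=
  Sum.elim ![X 0 1, X 0 2, X 0 3] ![X 2 3, - X 1 3, X 1 2]

theorem toAlt_diag (v : Fin 3 ⊕ Fin 3 → F) (i : Fin 4) : toAlt v i i = 0 := by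
  fin_cases i <;> simp [toAlt]

theorem toAlt_symm (v : Fin 3 ⊕ Fin 3 → F) (i j : Fin 4) : toAlt v j i = - toAlt v i j := by
  fin_cases i <;> fin_cases j <;> simp [toAlt]

theorem fromAlt_toAlt (v : Fin 3 ⊕ Fin 3 → F) : fromAlt (toAlt v) = v := by
  ext i
  rcases i with i | i <;> fin_cases i <;> simp [toAlt, fromAlt]

theorem toAlt_fromAlt (X : Matrix (Fin 4) (Fin 4) F) (h0 : ∀ i, X i i = 0) (h1 : ∀ i j, X j i = - X i j) :
    toAlt (fromAlt X) = X := by
  ext i j
  fin_cases i <;> fin_cases j <;> simp [toAlt, fromAlt, h0, h1 0 1, h1 0 2, h1 0 3, h1 1 2, h1 1 3, h1 2 3]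

theorem pf_toAlt (v : Fin 3 ⊕ Fin 3 → F) : pf (toAlt v) = Cfsg.quadFormPlus 3 F v := by
  simp [pf, toAlt, Cfsg.quadFormPlus, Fin.sum_univ_three]

theorem toAlt_add (u v : Fin 3 ⊕ Fin 3 → F) : toAlt (u + v) = toAlt u + toAlt v := by
  ext i j
  fin_cases i <;> fin_cases j <;> simp [toAlt] <;> ring

theorem toAlt_smul (c : F) (v : Fin 3 ⊕ Fin 3 → F) : toAlt (c • v) = c • toAlt v := by
  ext i j
  fin_cases i <;> fin_cases j <;> simp [toAlt]

theorem fromAlt_add (X Y : Matrix (Fin 4) (Fin 4) F) : fromAlt (X + Y) = fromAlt X + fromAlt Y := by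
  ext i
  rcases i with i | i <;> fin_cases i <;> simp [fromAlt] <;> ring

theorem fromAlt_smul (c : F) (X : Matrix (Fin 4) (Fin 4) F) : fromAlt (c • X) = c • fromAlt X := by
  ext i
  rcases i with i | i <;> fin_cases i <;> simp [fromAlt]

/-- The action of a matrix on coordinates. -/
def kact (g : Matrix (Fin 4) (Fin 4) F) : Module.End F (Fin 3 ⊕ Fin 3 → F) where
  toFun v := fromAlt (g * toAlt v * gᵀ)
  map_add' u v := by
    rw [toAlt_add, Matrix.mul_add, Matrix.add_mul, fromAlt_add]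
  map_smul' c v := by
    rw [toAlt_smul, Matrix.mul_smul, Matrix.smul_mul, fromAlt_smul]
    rfl

theorem kact_apply (g : Matrix (Fin 4) (Fin 4) F) (v) : kact g v = fromAlt (g * toAlt v * gᵀ) := rfl

theorem toAlt_kact (g : Matrix (Fin 4) (Fin 4) F) (v) : toAlt (kact g v) = g * toAlt v * gᵀ := by
  rw [kact_apply]
  exact toAlt_fromAlt _ (alt_congr_diag g _ (toAlt_diag v) (toAlt_symm v)) (alt_congr_symm g _ (toAlt_symm v))

/-- The action as a monoid homomorphism. -/
noncomputable def kactHom : Matrix (Fin 4) (Fin 4) F →* Module.End F (Fin 3 ⊕ Fin 3 → F) where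
  toFun := kact
  map_one' := by
    ext1 v
    apply LinearMap.ext
    intro w
    simp [kact_apply, fromAlt_toAlt]
  map_mul' g h := by
    apply LinearMap.ext
    intro v
    rw [Module.End.mul_apply, kact_apply g (kact h v), toAlt_kact, kact_apply]
    congr 1
    rw [Matrix.transpose_mul]
    simp only [Matrix.mul_assoc]

theorem quad_kact (g : Matrix (Fin 4) (Fin 4) F) (v) :
    Cfsg.quadFormPlus 3 F (kact g v) = g.det * Cfsg.quadFormPlus 3 F v := by
  rw [← pf_toAlt, ← pf_toAlt, toAlt_kact, pf_congr _ _ (toAlt_diag v) (toAlt_symm v)]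

/-- The action of `SL₄`. -/
noncomputable def actSL : Matrix.SpecialLinearGroup (Fin 4) F →* Module.End F (Fin 3 ⊕ Fin 3 → F) :=
  (kactHom (F := F)).comp (Cfsg.slToMat 4 F)

theorem actSL_apply (x : Matrix.SpecialLinearGroup (Fin 4) F) (v) :
    actSL x v = kact (x : Matrix (Fin 4) (Fin 4) F) v := rfl

theorem quad_actSL (x : Matrix.SpecialLinearGroup (Fin 4) F) (v) :
    Cfsg.quadFormPlus 3 F (actSL x v) = Cfsg.quadFormPlus 3 F v := by
  rw [actSL_apply, quad_kact, x.2, one_mul]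

/-- The homomorphism from `SL₄`. -/
noncomputable def rho6 : Matrix.SpecialLinearGroup (Fin 4) F →* ↥(Cfsg.isometryGroup F (Cfsg.quadFormPlus 3 F)) :=
  ExcCore.isomHom (Cfsg.quadFormPlus 3 F) actSL quad_actSL

theorem mem_ker_rho6 (x : Matrix.SpecialLinearGroup (Fin 4) F) :
    x ∈ (rho6 (F := F)).ker ↔ ∀ v, kact (x : Matrix (Fin 4) (Fin 4) F) v = v :=
  ExcCore.mem_ker_isomHom _ _ _ x

/-- A nontrivial transvection. -/
def tv : Matrix (Fin 4) (Fin 4) F := !![1, 1, 0, 0; 0, 1, 0, 0; 0, 0, 1, 0; 0, 0, 0, 1]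

theorem tv_det : (tv (F := F)).det = 1 := by
  rw [det4]
  simp [tv]

theorem tv_not_ker : ¬ ∀ v, kact (tv (F := F)) v = v := by
  intro h
  have h1 := congrFun (h (Sum.elim 0 ![0, 0, 1])) (.inl 1)
  simp [kact_apply, fromAlt, toAlt, Matrix.mul_apply, Fin.sum_univ_four, tv] at h1

theorem kact_scalar (c : F) (v) : kact (c • (1 : Matrix (Fin 4) (Fin 4) F)) v = c ^ 2 • v := by
  rw [kact_apply]
  have h : (c • (1 : Matrix (Fin 4) (Fin 4) F)) * toAlt v * (c • (1 : Matrix (Fin 4) (Fin 4) F))ᵀ = c ^ 2 • toAlt v := by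
    simp [Matrix.smul_mul, Matrix.mul_smul, smul_smul, pow_two]
  rw [h, fromAlt_smul, fromAlt_toAlt]

theorem sq_eq_one_of_kact {c : F} (h : ∀ v, kact (c • (1 : Matrix (Fin 4) (Fin 4) F)) v = v) : c ^ 2 = 1 := by
  have h1 := congrFun (h (Sum.elim ![1, 0, 0] 0)) (.inl 0)
  rw [kact_scalar] at h1
  simpa using h1

theorem ker_rho6_le_center : (rho6 (F := F)).ker ≤ Subgroup.center (Matrix.SpecialLinearGroup (Fin 4) F) := by
  have hperf : commutator (Matrix.SpecialLinearGroup (Fin 4) F) = ⊤ :=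
    Cfsg.Agent.Lib.Classical.Lin.Transvections.commutator_eq_top (by simp)
  have hs : IsSimpleGroup (Matrix.SpecialLinearGroup (Fin 4) F ⧸ Subgroup.center (Matrix.SpecialLinearGroup (Fin 4) F)) :=
    Cfsg.Agent.Lib.Classical.Lin.Transvections.psl_isSimpleGroup (by simp)
  rcases ExcCore.normal_le_center_or_top hperf hs _ (rho6 (F := F)).normal_ker with h | h
  · exact h
  · exfalso
    have h1 : (⟨tv, tv_det⟩ : Matrix.SpecialLinearGroup (Fin 4) F) ∈ (rho6 (F := F)).ker := by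
      rw [h]
      trivial
    exact tv_not_ker ((mem_ker_rho6 ⟨tv, tv_det⟩).1 h1)

theorem mem_ker_rho6_iff (x : Matrix.SpecialLinearGroup (Fin 4) F) :
    x ∈ (rho6 (F := F)).ker ↔ ∃ c : F, c ^ 2 = 1 ∧ (x : Matrix (Fin 4) (Fin 4) F) = c • (1 : Matrix (Fin 4) (Fin 4) F) := by
  constructor
  · intro hx
    have h1 := ker_rho6_le_center hx
    rw [Matrix.SpecialLinearGroup.mem_center_iff] at h1
    obtain ⟨c, -, hc⟩ := h1
    have hc' : (x : Matrix (Fin 4) (Fin 4) F) = c • (1 : Matrix (Fin 4) (Fin 4) F) := by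
      rw [← hc]
      ext i j
      by_cases hij : i = j
      · subst hij
        simp
      · simp [hij]
    refine ⟨c, ?_, hc'⟩
    apply sq_eq_one_of_kact
    rw [← hc']
    exact (mem_ker_rho6 x).1 hx
  · rintro ⟨c, hc, hx⟩
    rw [mem_ker_rho6, hx]
    intro v
    rw [kact_scalar, hc, one_smul]

/-- The order of `O⁺₆` is twice that of `SL₄`. -/
theorem card_arith (q s o : ℕ) (hq : 2 ≤ q)
    (hs : (q - 1) * s = ∏ i : Fin 4, (q ^ 4 - q ^ (i : ℕ)))
    (ho : o = 2 * q ^ (3 * (3 - 1)) * (q ^ 3 - 1) * ∏ i ∈ Finset.range (3 - 1), (q ^ (2 * (i + 1)) - 1)) :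
    o = 2 * s := by
  have h1 : 0 < q - 1 := by omega
  have h2 : ∏ i : Fin 4, (q ^ 4 - q ^ (i : ℕ)) = (q - 1) * (q ^ 6 * (q ^ 3 - 1) * ((q ^ 2 - 1) * (q ^ 4 - 1))) := by
    rw [Fin.prod_univ_four]
    simp only [Fin.val_zero, Fin.val_one, Fin.val_two, pow_zero, pow_one]
    have h3 : ((3 : Fin 4) : ℕ) = 3 := rfl
    rw [h3]
    obtain ⟨r, rfl⟩ : ∃ r, q = r + 1 := ⟨q - 1, by omega⟩
    simp only [Nat.add_sub_cancel]
    zify [Nat.one_le_pow, show r + 1 ≤ (r + 1) ^ 4 from Nat.le_self_pow (by norm_num) _,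
      show (r + 1) ^ 2 ≤ (r + 1) ^ 4 from Nat.pow_le_pow_right (by omega) (by omega),
      show (r + 1) ^ 3 ≤ (r + 1) ^ 4 from Nat.pow_le_pow_right (by omega) (by omega),
      show 1 ≤ (r + 1) ^ 4 from Nat.one_le_pow _ _ (by omega),
      show 1 ≤ (r + 1) ^ 3 from Nat.one_le_pow _ _ (by omega),
      show 1 ≤ (r + 1) ^ 2 from Nat.one_le_pow _ _ (by omega)]
    ring
  rw [h2] at hs
  have h3 := Nat.eq_of_mul_eq_mul_left h1 hs
  rw [ho, h3]
  simp only [Finset.prod_range_succ, Finset.prod_range_zero]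
  ring_nf

end six

section main

open Cfsg.Agent.Lib.Classical.Orth.Models

variable {F : Type*} [Field F] [Fintype F]

theorem main (hO : Nat.card ↥(Cfsg.isometryGroup F (Cfsg.quadFormPlus 3 F)) = 2 * Nat.card (Matrix.SpecialLinearGroup (Fin 4) F)) :
    Nonempty (Cfsg.POmega F (Cfsg.quadFormPlus 3 F) ≃* Matrix.ProjectiveSpecialLinearGroup (Fin 4) F) := by
  classical
  have hperf : commutator (Matrix.SpecialLinearGroup (Fin 4) F) = ⊤ :=
    Cfsg.Agent.Lib.Classical.Lin.Transvections.commutator_eq_top (by simp)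
  have hs : IsSimpleGroup (Matrix.SpecialLinearGroup (Fin 4) F ⧸ Subgroup.center (Matrix.SpecialLinearGroup (Fin 4) F)) :=
    Cfsg.Agent.Lib.Classical.Lin.Transvections.psl_isSimpleGroup (by simp)
  refine ExcCore.pomega_equiv _ rho6 ?_ ker_rho6_le_center (ExcCore.center_eq_bot_of_simple hperf hs)
  have hle := ExcCore.range_le_omega _ (rho6 (F := F)) hperf
  have hcr := ExcCore.card_range_mul_ker (rho6 (F := F))
  by_cases h2 : (2 : F) = 0
  · have hker : (rho6 (F := F)).ker = ⊥ := by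
      rw [eq_bot_iff]
      intro x hx
      obtain ⟨c, hc, hcx⟩ := (mem_ker_rho6_iff x).1 hx
      have hc1 : c = 1 := by
        have h3 : (c - 1) ^ 2 = 0 := by
          have : (c - 1) ^ 2 = c ^ 2 - 2 * c + 1 := by ring
          rw [this, hc, h2]
          ring_nf
          exact h2
        exact sub_eq_zero.1 (pow_eq_zero_iff (two_ne_zero) |>.1 h3)
      rw [Subgroup.mem_bot]
      apply Subtype.ext
      rw [hcx, hc1, one_smul]
      rfl
    rw [hker, Subgroup.card_bot, mul_one] at hcr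
    refine ExcCore.range_eq_omega_two' (plusForm 3 F) (coe_plusForm 3 F) _ hle ?_
    rw [hO, hcr]
  · have hz : (-1 : Matrix (Fin 4) (Fin 4) F).det = 1 := by
      rw [Matrix.det_neg, Matrix.det_one, Fintype.card_fin]
      norm_num
    let z : Matrix.SpecialLinearGroup (Fin 4) F := ⟨-1, hz⟩
    have hker : (((rho6 (F := F)).ker : Subgroup _) : Set (Matrix.SpecialLinearGroup (Fin 4) F)) = {1, z} := by
      ext x
      simp only [SetLike.mem_coe, Set.mem_insert_iff, Set.mem_singleton_iff]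
      rw [mem_ker_rho6_iff]
      constructor
      · rintro ⟨c, hc, hcx⟩
        have h3 : (c - 1) * (c + 1) = 0 := by
          have : (c - 1) * (c + 1) = c ^ 2 - 1 := by ring
          rw [this, hc, sub_self]
        rcases mul_eq_zero.1 h3 with h4 | h4
        · left
          apply Subtype.ext
          rw [hcx, sub_eq_zero.1 h4, one_smul]
          rfl
        · right
          apply Subtype.ext
          rw [hcx, eq_neg_of_add_eq_zero_left h4]
          simp [z]
      · rintro (rfl | rfl)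
        · exact ⟨1, one_pow _, by simp⟩
        · exact ⟨-1, by ring, by simp [z]⟩
    have hz1 : (1 : Matrix.SpecialLinearGroup (Fin 4) F) ≠ z := by
      intro h
      have h3 := congrFun (congrFun (congrArg Subtype.val h) 0) 0
      have h4 : (1 : F) = -1 := by simpa [z] using h3
      apply h2
      linear_combination h4
    have hcard2 : Nat.card (rho6 (F := F)).ker = 2 := by
      have h3 : Nat.card (rho6 (F := F)).ker = (((rho6 (F := F)).ker : Subgroup _) : Set (Matrix.SpecialLinearGroup (Fin 4) F)).ncard :=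
        Nat.card_coe_set_eq _
      rw [h3, hker, Set.ncard_pair hz1]
    rw [hcard2] at hcr
    refine ExcCore.range_eq_omega_odd' (plusForm 3 F) (coe_plusForm 3 F) (plusForm_nondegenerate 3) h2 (by simp) _ hle ?_
    rw [hO, ← hcr]
    ring

end main

end Cfsg.Agent.Lib.Classical.Herm.ExcKlein
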