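import Mathlib
import Cfsg.Agent.Lib.Classical.Herm.ExcCore
import Cfsg.Agent.Lib.Classical.Lin.Transvections
import Cfsg.Agent.Lib.Classical.Orth.Models
import Cfsg.Agent.S0242

/-!
# `PΩ₃(q) ≅ PSL₂(q)`, `q` odd; tools for `SL₂`
-/

set_option autoImplicit false
set_option linter.unusedSectionVars false

namespace Cfsg.Agent.Lib.Classical.Herm.ExcTwo

open Matrix Cfsg
open scoped MatrixGroups commutatorElement

variable {F : Type*} [Field F]

/-- A general quotient criterion. -/
theorem pomega_equiv_gen {ι : Type} [Fintype ι] [DecidableEq ι] (Q : (ι → F) → F) {L T : Type*} [Group L] [Group T]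
    (ρ : L →* ↥(Cfsg.isometryGroup F Q))
    (hrange : ρ.range = Cfsg.Omega F Q) (hker : ρ.ker ≤ Subgroup.center L)
    (g : L →* T) (hgs : Function.Surjective g) (hgk : g.ker = Subgroup.center L)
    (hc : Subgroup.center T = ⊥) :
    Nonempty (Cfsg.POmega F Q ≃* T) := by
  classical
  have hmem : ∀ x, ρ x ∈ Cfsg.Omega F Q := fun x => hrange ▸ ⟨x, rfl⟩
  let ρ' : L →* ↥(Cfsg.Omega F Q) := ρ.codRestrict _ hmem
  have hsurj : Function.Surjective ρ' := by
    rintro ⟨y, hy⟩
    rw [← hrange] at hy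
    obtain ⟨x, rfl⟩ := hy
    exact ⟨x, rfl⟩
  let π : L →* Cfsg.POmega F Q := (QuotientGroup.mk' _).comp ρ'
  have hπ : Function.Surjective π := (QuotientGroup.mk'_surjective _).comp hsurj
  have hkerπ : π.ker = g.ker := by
    rw [hgk]
    ext x
    rw [MonoidHom.mem_ker]
    change ((ρ' x : ↥(Cfsg.Omega F Q)) : Cfsg.POmega F Q) = 1 ↔ _
    rw [QuotientGroup.eq_one_iff]
    constructor
    · intro h
      have h1 : g x ∈ Subgroup.center T := by
        rw [Subgroup.mem_center_iff]
        intro y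
        obtain ⟨y, rfl⟩ := hgs y
        have h2 : ρ' (y * x * y⁻¹ * x⁻¹) = 1 := by
          rw [map_mul, map_mul, map_mul, map_inv, map_inv]
          have := (Subgroup.mem_center_iff.1 h) (ρ' y)
          rw [this]
          group
        have h3 : y * x * y⁻¹ * x⁻¹ ∈ ρ.ker := by
          rw [MonoidHom.mem_ker]
          have := congrArg Subtype.val h2
          simpa [ρ'] using this
        have h4 := hker h3
        rw [← hgk, MonoidHom.mem_ker] at h4
        rw [map_mul, map_mul, map_mul, map_inv, map_inv] at h4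
        calc g y * g x = (g y * g x * (g y)⁻¹ * (g x)⁻¹) * (g x * g y) := by group
          _ = g x * g y := by rw [h4, one_mul]
      rw [hc, Subgroup.mem_bot] at h1
      rw [← hgk]
      exact h1
    · intro h
      rw [Subgroup.mem_center_iff]
      intro y
      obtain ⟨y, rfl⟩ := hsurj y
      rw [← map_mul, ← map_mul, (Subgroup.mem_center_iff.1 h) y]
  refine ⟨?_⟩
  exact (QuotientGroup.quotientKerEquivOfSurjective π hπ).symm.trans
    ((QuotientGroup.quotientMulEquivOfEq hkerπ).trans (QuotientGroup.quotientKerEquivOfSurjective g hgs))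

/-- Explicit element. -/
def u12 : SL(2, F) := ⟨!![1, 1; 0, 1], by simp [Matrix.det_fin_two]⟩

/-- Explicit element. -/
def u21 : SL(2, F) := ⟨!![1, 0; 1, 1], by simp [Matrix.det_fin_two]⟩

theorem det_sl2 (x : SL(2, F)) :
    (x : Matrix (Fin 2) (Fin 2) F) 0 0 * (x : Matrix (Fin 2) (Fin 2) F) 1 1
      - (x : Matrix (Fin 2) (Fin 2) F) 0 1 * (x : Matrix (Fin 2) (Fin 2) F) 1 0 = 1 := by
  have := x.2
  rwa [Matrix.det_fin_two] at this

/-- The centre of `SL₂` consists of the scalar elements. -/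
theorem mem_center_sl2_iff (x : SL(2, F)) : x ∈ Subgroup.center (SL(2, F)) ↔
    (x : Matrix (Fin 2) (Fin 2) F) 0 1 = 0 ∧ (x : Matrix (Fin 2) (Fin 2) F) 1 0 = 0 ∧
      (x : Matrix (Fin 2) (Fin 2) F) 0 0 = (x : Matrix (Fin 2) (Fin 2) F) 1 1 := by
  classical
  rw [Matrix.SpecialLinearGroup.mem_center_iff]
  constructor
  · rintro ⟨r, _, hr⟩
    rw [← hr]
    simp
  · rintro ⟨h1, h2, h3⟩
    refine ⟨(x : Matrix (Fin 2) (Fin 2) F) 0 0, ?_, ?_⟩
    · have := det_sl2 x
      rw [h1, ← h3] at this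
      simpa [Fintype.card_fin, pow_two] using this
    · ext i j
      fin_cases i <;> fin_cases j <;> simp [h1, h2, h3]

/-- The centre of `PSL₂` vanishes. -/
theorem center_psl2_eq_bot :
    Subgroup.center (Matrix.ProjectiveSpecialLinearGroup (Fin 2) F) = ⊥ := by
  classical
  rw [eq_bot_iff]
  intro b hb
  obtain ⟨x, rfl⟩ := QuotientGroup.mk_surjective b
  rw [Subgroup.mem_bot, QuotientGroup.eq_one_iff]
  have key : ∀ y : SL(2, F), ∃ s : F,
      (y * x : SL(2, F)).1 = s • (x * y : SL(2, F)).1 := by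
    intro y
    have h1 := (Subgroup.mem_center_iff.1 hb) (y : Matrix.ProjectiveSpecialLinearGroup (Fin 2) F)
    have h2 : ((y * x * y⁻¹ * x⁻¹ : SL(2, F)) : Matrix.ProjectiveSpecialLinearGroup (Fin 2) F) = 1 := by
      rw [QuotientGroup.mk_mul, QuotientGroup.mk_mul, QuotientGroup.mk_mul, QuotientGroup.mk_inv, QuotientGroup.mk_inv, h1]
      group
    rw [QuotientGroup.eq_one_iff, Matrix.SpecialLinearGroup.mem_center_iff] at h2
    obtain ⟨s, _, hs⟩ := h2
    refine ⟨s, ?_⟩
    have h3 : y * x = (y * x * y⁻¹ * x⁻¹) * (x * y) := by group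
    rw [h3]
    change ((y * x * y⁻¹ * x⁻¹ : SL(2, F)) : Matrix (Fin 2) (Fin 2) F) * _ = _
    rw [← hs, Matrix.scalar_apply, Matrix.smul_eq_diagonal_mul]
  have hdet := det_sl2 x
  set A := (x : Matrix (Fin 2) (Fin 2) F) with hA
  obtain ⟨s, hs⟩ := key u12
  obtain ⟨t, ht⟩ := key u21
  have e : ∀ i j, ((u12 : SL(2, F)).1 * A) i j = s * (A * (u12 : SL(2, F)).1) i j := by
    intro i j
    have := congrFun (congrFun hs i) j
    simpa using this
  have e' : ∀ i j, ((u21 : SL(2, F)).1 * A) i j = t * (A * (u21 : SL(2, F)).1) i j := by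
    intro i j
    have := congrFun (congrFun ht i) j
    simpa using this
  have e00 := e 0 0
  have e01 := e 0 1
  have e10 := e 1 0
  have e11 := e 1 1
  have f00 := e' 0 0
  have f01 := e' 0 1
  have f10 := e' 1 0
  have f11 := e' 1 1
  simp [u12, u21, Matrix.mul_apply, Fin.sum_univ_two] at e00 e01 e10 e11 f00 f01 f10 f11
  have hs1 : s = 1 := by
    by_contra hne
    have h1 : (1 - s) ≠ 0 := sub_ne_zero.2 (Ne.symm hne)
    have hc : A 1 0 = 0 := by
      have : (1 - s) * A 1 0 = 0 := by linear_combination e10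
      exact (mul_eq_zero.1 this).resolve_left h1
    have ha : A 0 0 = 0 := by
      have : (1 - s) * A 0 0 = 0 := by linear_combination e00 - hc
      exact (mul_eq_zero.1 this).resolve_left h1
    rw [hc, ha] at hdet
    simp at hdet
  have ht1 : t = 1 := by
    by_contra hne
    have h1 : (1 - t) ≠ 0 := sub_ne_zero.2 (Ne.symm hne)
    have hb : A 0 1 = 0 := by
      have : (1 - t) * A 0 1 = 0 := by linear_combination f01
      exact (mul_eq_zero.1 this).resolve_left h1
    have ha : A 0 0 = 0 := by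
      have : (1 - t) * A 0 0 = 0 := by linear_combination f00 + t * hb
      exact (mul_eq_zero.1 this).resolve_left h1
    rw [hb, ha] at hdet
    simp at hdet
  subst hs1 ht1
  rw [mem_center_sl2_iff, ← hA]
  refine ⟨by linear_combination -f00, by linear_combination e00, ?_⟩
  linear_combination -e01

/-- The order of `SL₂`. -/
theorem card_sl2 [Fintype F] {q : ℕ} (hF : Fintype.card F = q) : Nat.card (SL(2, F)) = q * (q ^ 2 - 1) := by
  have h := Cfsg.Agent.S0242.result hF 2 (by norm_num)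
  have hq : 1 < q := hF ▸ Fintype.one_lt_card
  rw [Fin.prod_univ_two] at h
  simp only [Fin.val_zero, Fin.val_one, pow_zero, pow_one] at h
  have h1 : q ^ 2 - q = q * (q - 1) := by
    rw [Nat.mul_sub, mul_one, pow_two]
  rw [h1] at h
  have h2 : (q - 1) * Nat.card (SL(2, F)) = (q - 1) * (q * (q ^ 2 - 1)) := by
    rw [h]
    ring
  exact Nat.eq_of_mul_eq_mul_left (Nat.sub_pos_of_lt hq) h2

section GLtools

/-- In `GL₂`, a transvection is a commutator: the image of `SL₂` under any homomorphism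
from `GL₂` lies in the commutator subgroup, if `F` has more than two elements. -/
theorem toGL_transvection_eq (c : F) (hc0 : c ≠ 0) (hc1 : c ≠ 1) (i j : Fin 2) (hij : i ≠ j) (a : F) :
    ∃ d y : GL (Fin 2) F, Matrix.SpecialLinearGroup.toGL (Matrix.SpecialLinearGroup.transvection hij a) = ⁅d, y⁆ := by
  classical
  have hc1' : c - 1 ≠ 0 := sub_ne_zero.2 hc1
  let D : Matrix (Fin 2) (Fin 2) F := Matrix.diagonal (fun k => if k = i then c else 1)
  have hD : D.det ≠ 0 := by
    simp only [D, Matrix.det_diagonal]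
    apply Finset.prod_ne_zero_iff.2
    intro k _
    split_ifs
    · exact hc0
    · exact one_ne_zero
  let d : GL (Fin 2) F := Matrix.GeneralLinearGroup.mkOfDetNeZero D hD
  let T : F → GL (Fin 2) F := fun b => Matrix.SpecialLinearGroup.toGL (Matrix.SpecialLinearGroup.transvection hij b)
  have hT : ∀ b, ((T b : GL (Fin 2) F) : Matrix (Fin 2) (Fin 2) F) = Matrix.transvection i j b := fun b => rfl
  refine ⟨d, T (a / (c - 1)), ?_⟩
  rw [commutatorElement_def]
  have key : d * T (a / (c - 1)) = T a * T (a / (c - 1)) * d := by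
    apply Units.ext
    change D * ((T (a / (c - 1)) : GL (Fin 2) F) : Matrix (Fin 2) (Fin 2) F) =
      ((T a : GL (Fin 2) F) : Matrix (Fin 2) (Fin 2) F) * ((T (a / (c - 1)) : GL (Fin 2) F) : Matrix (Fin 2) (Fin 2) F) * D
    rw [hT, hT]
    have hy : c * (a / (c - 1)) = a + a / (c - 1) := by
      field_simp
      ring
    fin_cases i <;> fin_cases j <;> first | exact absurd rfl hij | skip
    all_goals
      ext k l
      fin_cases k <;> fin_cases l <;>
        simp [D, Matrix.transvection, Matrix.mul_apply, Fin.sum_univ_two, Matrix.single, hy, add_comm]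
  change T a = _
  calc T a = T a * T (a / (c - 1)) * d * d⁻¹ * (T (a / (c - 1)))⁻¹ := by group
    _ = _ := by rw [← key]

/-- The image of `SL₂` in the commutator subgroup. -/
theorem toGL_mem_commutator {G : Type*} [Group G] (φ : GL (Fin 2) F →* G) (c : F) (hc0 : c ≠ 0) (hc1 : c ≠ 1)
    (M : SL(2, F)) : φ (Matrix.SpecialLinearGroup.toGL M) ∈ commutator G := by
  refine Cfsg.Agent.Lib.Classical.Lin.Transvections.transvection_induction
    (fun M : SL(2, F) => φ (Matrix.SpecialLinearGroup.toGL M) ∈ commutator G) ?_ ?_ M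
  · intro i j hij a
    obtain ⟨d, y, h⟩ := toGL_transvection_eq c hc0 hc1 i j hij a
    rw [h, map_commutatorElement]
    exact Subgroup.commutator_mem_commutator (Subgroup.mem_top _) (Subgroup.mem_top _)
  · intro A B hA hB
    rw [map_mul, map_mul]
    exact Subgroup.mul_mem _ hA hB

end GLtools

section Three

/-- Coordinates on trace-free matrices. -/
abbrev I3 := Unit ⊕ (Fin 1 ⊕ Fin 1)

/-- The trace-free matrix with the given coordinates. -/
def toTr (w : I3 → F) : Matrix (Fin 2) (Fin 2) F :=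
  !![w (.inl ()), w (.inr (.inl 0)); w (.inr (.inr 0)), - w (.inl ())]

/-- The coordinates of a matrix. -/
def fromTr (X : Matrix (Fin 2) (Fin 2) F) : I3 → F :=
  Sum.elim (fun _ => X 0 0) (Sum.elim (fun _ => X 0 1) (fun _ => X 1 0))

theorem fromTr_toTr (w : I3 → F) : fromTr (toTr w) = w := by
  ext i
  rcases i with i | i | i
  · simp [toTr, fromTr]
  · have : i = 0 := Subsingleton.elim _ _
    subst this
    simp [toTr, fromTr]
  · have : i = 0 := Subsingleton.elim _ _
    subst this
    simp [toTr, fromTr]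

theorem trace_toTr (w : I3 → F) : (toTr w).trace = 0 := by
  simp [toTr, Matrix.trace_fin_two]

theorem toTr_fromTr (X : Matrix (Fin 2) (Fin 2) F) (h : X.trace = 0) : toTr (fromTr X) = X := by
  rw [Matrix.trace_fin_two] at h
  have h' : - X 0 0 = X 1 1 := by linear_combination -h
  ext i j
  fin_cases i <;> fin_cases j <;> simp [toTr, fromTr, h']

theorem det_toTr (w : I3 → F) : (toTr w).det = - Cfsg.quadFormOdd 1 F w := by
  simp [toTr, Matrix.det_fin_two, Cfsg.quadFormOdd]
  ring

theorem toTr_add (u v : I3 → F) : toTr (u + v) = toTr u + toTr v := by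
  ext i j
  fin_cases i <;> fin_cases j <;> simp [toTr] <;> ring

theorem toTr_smul (c : F) (v : I3 → F) : toTr (c • v) = c • toTr v := by
  ext i j
  fin_cases i <;> fin_cases j <;> simp [toTr]

theorem fromTr_add (X Y : Matrix (Fin 2) (Fin 2) F) : fromTr (X + Y) = fromTr X + fromTr Y := by
  ext i
  rcases i with i | i | i <;> simp [fromTr]

theorem fromTr_smul (c : F) (X : Matrix (Fin 2) (Fin 2) F) : fromTr (c • X) = c • fromTr X := by
  ext i
  rcases i with i | i | i <;> simp [fromTr]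

/-- The conjugation action. -/
noncomputable def conjL (A : GL (Fin 2) F) : Module.End F (I3 → F) where
  toFun w := fromTr ((A : Matrix (Fin 2) (Fin 2) F) * toTr w * ((A⁻¹ : GL (Fin 2) F) : Matrix (Fin 2) (Fin 2) F))
  map_add' u v := by
    rw [toTr_add, Matrix.mul_add, Matrix.add_mul, fromTr_add]
  map_smul' c v := by
    rw [toTr_smul, Matrix.mul_smul, Matrix.smul_mul, fromTr_smul]
    rfl

theorem conjL_apply (A : GL (Fin 2) F) (w : I3 → F) :
    conjL A w = fromTr ((A : Matrix (Fin 2) (Fin 2) F) * toTr w * ((A⁻¹ : GL (Fin 2) F) : Matrix (Fin 2) (Fin 2) F)) := rfl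

theorem trace_conj (A : GL (Fin 2) F) (X : Matrix (Fin 2) (Fin 2) F) :
    ((A : Matrix (Fin 2) (Fin 2) F) * X * ((A⁻¹ : GL (Fin 2) F) : Matrix (Fin 2) (Fin 2) F)).trace = X.trace := by
  rw [Matrix.trace_mul_comm, ← Matrix.mul_assoc]
  have : ((A⁻¹ : GL (Fin 2) F) : Matrix (Fin 2) (Fin 2) F) * (A : Matrix (Fin 2) (Fin 2) F) = 1 := by
    rw [← Units.val_mul]
    simp
  rw [this, Matrix.one_mul]

theorem toTr_conjL (A : GL (Fin 2) F) (w : I3 → F) :
    toTr (conjL A w) = (A : Matrix (Fin 2) (Fin 2) F) * toTr w * ((A⁻¹ : GL (Fin 2) F) : Matrix (Fin 2) (Fin 2) F) := by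
  rw [conjL_apply, toTr_fromTr _ (by rw [trace_conj, trace_toTr])]

/-- The conjugation homomorphism. -/
noncomputable def conjHom : GL (Fin 2) F →* Module.End F (I3 → F) where
  toFun := conjL
  map_one' := by
    apply LinearMap.ext
    intro w
    rw [conjL_apply]
    simp [fromTr_toTr]
  map_mul' x y := by
    apply LinearMap.ext
    intro w
    rw [Module.End.mul_apply, conjL_apply x (conjL y w), toTr_conjL, conjL_apply]
    congr 1
    rw [_root_.mul_inv_rev, Units.val_mul, Units.val_mul]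
    simp only [Matrix.mul_assoc]

theorem quad_conjHom (A : GL (Fin 2) F) (w : I3 → F) :
    Cfsg.quadFormOdd 1 F (conjHom A w) = Cfsg.quadFormOdd 1 F w := by
  have h1 := det_toTr (conjHom A w)
  have h2 := det_toTr w
  have h3 : toTr (conjHom A w) = _ := toTr_conjL A w
  rw [h3, Matrix.det_mul, Matrix.det_mul] at h1
  have h4 : (A : Matrix (Fin 2) (Fin 2) F).det * ((A⁻¹ : GL (Fin 2) F) : Matrix (Fin 2) (Fin 2) F).det = 1 := by
    rw [← Matrix.det_mul, ← Units.val_mul]
    simp
  have h5 : Cfsg.quadFormOdd 1 F (conjHom A w) = - ((A : Matrix (Fin 2) (Fin 2) F).det * ((A⁻¹ : GL (Fin 2) F) : Matrix (Fin 2) (Fin 2) F).det * (toTr w).det) := by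
    linear_combination h1
  rw [h5, h4, h2]
  ring

/-- The homomorphism from `GL₂`. -/
noncomputable def rhoG : GL (Fin 2) F →* ↥(Cfsg.isometryGroup F (Cfsg.quadFormOdd 1 F)) :=
  ExcCore.isomHom _ conjHom quad_conjHom

/-- The homomorphism from `SL₂`. -/
noncomputable def rho3 : SL(2, F) →* ↥(Cfsg.isometryGroup F (Cfsg.quadFormOdd 1 F)) :=
  (rhoG (F := F)).comp Matrix.SpecialLinearGroup.toGL

theorem conj_eq_iff (x : SL(2, F)) (X : Matrix (Fin 2) (Fin 2) F) :
    ((Matrix.SpecialLinearGroup.toGL x : GL (Fin 2) F) : Matrix (Fin 2) (Fin 2) F) * X *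
      (((Matrix.SpecialLinearGroup.toGL x : GL (Fin 2) F)⁻¹ : GL (Fin 2) F) : Matrix (Fin 2) (Fin 2) F) = X ↔
    (x : Matrix (Fin 2) (Fin 2) F) * X = X * (x : Matrix (Fin 2) (Fin 2) F) := by
  set g : GL (Fin 2) F := Matrix.SpecialLinearGroup.toGL x with hg
  have h0 : ((g : GL (Fin 2) F) : Matrix (Fin 2) (Fin 2) F) = (x : Matrix (Fin 2) (Fin 2) F) := rfl
  have h1 : ((g⁻¹ : GL (Fin 2) F) : Matrix (Fin 2) (Fin 2) F) * (x : Matrix (Fin 2) (Fin 2) F) = 1 := by
    rw [← h0, ← Units.val_mul]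
    simp
  have h2 : (x : Matrix (Fin 2) (Fin 2) F) * ((g⁻¹ : GL (Fin 2) F) : Matrix (Fin 2) (Fin 2) F) = 1 := by
    rw [← h0, ← Units.val_mul]
    simp
  rw [h0]
  constructor
  · intro h
    calc (x : Matrix (Fin 2) (Fin 2) F) * X
        = (x : Matrix (Fin 2) (Fin 2) F) * X * (((g⁻¹ : GL (Fin 2) F) : Matrix (Fin 2) (Fin 2) F) * (x : Matrix (Fin 2) (Fin 2) F)) := by
          rw [h1, Matrix.mul_one]
      _ = ((x : Matrix (Fin 2) (Fin 2) F) * X * ((g⁻¹ : GL (Fin 2) F) : Matrix (Fin 2) (Fin 2) F)) * (x : Matrix (Fin 2) (Fin 2) F) := by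
          simp only [Matrix.mul_assoc]
      _ = _ := by rw [h]
  · intro h
    rw [h, Matrix.mul_assoc, h2, Matrix.mul_one]

theorem mem_ker_rho3 (x : SL(2, F)) : x ∈ (rho3 (F := F)).ker ↔ x ∈ Subgroup.center (SL(2, F)) := by
  have h0 : x ∈ (rho3 (F := F)).ker ↔ ∀ v, conjHom (Matrix.SpecialLinearGroup.toGL x) v = v := by
    have h00 : x ∈ (rho3 (F := F)).ker ↔ Matrix.SpecialLinearGroup.toGL x ∈ (rhoG (F := F)).ker := by
      rw [MonoidHom.mem_ker, MonoidHom.mem_ker]
      rfl
    rw [h00]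
    exact ExcCore.mem_ker_isomHom (Cfsg.quadFormOdd 1 F) conjHom quad_conjHom (Matrix.SpecialLinearGroup.toGL x)
  have h1 : (∀ v, conjHom (Matrix.SpecialLinearGroup.toGL x) v = v) ↔
      ∀ v, (x : Matrix (Fin 2) (Fin 2) F) * toTr v = toTr v * (x : Matrix (Fin 2) (Fin 2) F) := by
    refine forall_congr' fun v => ?_
    have h2 : conjHom (Matrix.SpecialLinearGroup.toGL x) v = v ↔
        toTr (conjHom (Matrix.SpecialLinearGroup.toGL x) v) = toTr v := by
      constructor
      · intro h
        rw [h]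
      · intro h
        have := congrArg fromTr h
        rwa [fromTr_toTr, fromTr_toTr] at this
    have h3 : toTr (conjHom (Matrix.SpecialLinearGroup.toGL x) v) = _ := toTr_conjL _ v
    rw [h2, h3, conj_eq_iff]
  rw [h0, h1, mem_center_sl2_iff]
  constructor
  · intro h
    have e1 := h (Sum.elim 0 (Sum.elim 1 0))
    have e2 := h (Sum.elim 0 (Sum.elim 0 1))
    have a01 := congrFun (congrFun e1 0) 1
    have a00 := congrFun (congrFun e1 0) 0
    have a10 := congrFun (congrFun e2 0) 0
    simp [toTr, Matrix.mul_apply, Fin.sum_univ_two] at a01 a00 a10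
    exact ⟨by simpa using a10, a00.symm, a01⟩
  · rintro ⟨h1, h2, h3⟩ v
    ext i j
    fin_cases i <;> fin_cases j <;> simp [toTr, Matrix.mul_apply, Fin.sum_univ_two, h1, h2, h3, mul_comm]

theorem rho3_mem_omega (c : F) (hc0 : c ≠ 0) (hc1 : c ≠ 1) : (rho3 (F := F)).range ≤ Cfsg.Omega F (Cfsg.quadFormOdd 1 F) := by
  rintro _ ⟨x, rfl⟩
  exact toGL_mem_commutator rhoG c hc0 hc1 x

/-- The scalars. -/
theorem card_center_sl2 [Fintype F] (h2 : (2 : F) ≠ 0) : Nat.card (Subgroup.center (SL(2, F))) = 2 := by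
  classical
  have hneg : (-1 : Matrix (Fin 2) (Fin 2) F).det = 1 := by
    simp [Matrix.det_fin_two]
  let z : SL(2, F) := ⟨-1, hneg⟩
  have hset : ((Subgroup.center (SL(2, F)) : Subgroup _) : Set (SL(2, F))) = {1, z} := by
    ext x
    simp only [SetLike.mem_coe, Set.mem_insert_iff, Set.mem_singleton_iff]
    rw [mem_center_sl2_iff]
    constructor
    · rintro ⟨h1, h2', h3⟩
      have hd := det_sl2 x
      rw [h1, ← h3] at hd
      have h4 : ((x : Matrix (Fin 2) (Fin 2) F) 0 0 - 1) * ((x : Matrix (Fin 2) (Fin 2) F) 0 0 + 1) = 0 := by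
        linear_combination hd
      rcases mul_eq_zero.1 h4 with h5 | h5
      · left
        apply Subtype.ext
        have h6 : (x : Matrix (Fin 2) (Fin 2) F) 0 0 = 1 := by linear_combination h5
        ext i j
        fin_cases i <;> fin_cases j <;> simp [h1, h2', ← h3, h6]
      · right
        apply Subtype.ext
        have h6 : (x : Matrix (Fin 2) (Fin 2) F) 0 0 = -1 := by linear_combination h5
        ext i j
        fin_cases i <;> fin_cases j <;> simp [z, h1, h2', ← h3, h6]
    · rintro (rfl | rfl) <;> simp [z]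
  have hz1 : (1 : SL(2, F)) ≠ z := by
    intro h
    have h3 := congrFun (congrFun (congrArg Subtype.val h) 0) 0
    have h4 : (1 : F) = -1 := by simpa [z] using h3
    apply h2
    linear_combination h4
  have h3 : Nat.card (Subgroup.center (SL(2, F))) = ((Subgroup.center (SL(2, F)) : Subgroup _) : Set (SL(2, F))).ncard :=
    Nat.card_coe_set_eq _
  rw [h3, hset, Set.ncard_pair hz1]

open Cfsg.Agent.Lib.Classical.Orth.Models

theorem main3 [Fintype F] (h2 : (2 : F) ≠ 0)
    (hO : Nat.card ↥(Cfsg.isometryGroup F (Cfsg.quadFormOdd 1 F)) = 2 * Nat.card (SL(2, F))) :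
    Nonempty (Cfsg.POmega F (Cfsg.quadFormOdd 1 F) ≃* Matrix.ProjectiveSpecialLinearGroup (Fin 2) F) := by
  classical
  have hker : (rho3 (F := F)).ker = Subgroup.center (SL(2, F)) := by
    ext x
    exact mem_ker_rho3 x
  refine ExcCore.pomega_equiv _ rho3 ?_ hker.le center_psl2_eq_bot
  have hle := rho3_mem_omega (F := F) (-1) (neg_ne_zero.2 one_ne_zero) (by
    intro h
    apply h2
    linear_combination -h)
  have hcr := ExcCore.card_range_mul_ker (rho3 (F := F))
  rw [hker, card_center_sl2 h2] at hcr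
  refine ExcCore.range_eq_omega_odd' (oddForm 1 F) (coe_oddForm 1 F) (oddForm_nondegenerate h2 1) h2 (by simp) _ hle ?_
  rw [hO, ← hcr]
  ring

end Three

end Cfsg.Agent.Lib.Classical.Herm.ExcTwo
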