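import Mathlib
import Cfsg.Agent.Lib.Classical.Herm.ExcTwo

/-!
# `PΩ⁺₄(q) ≅ PSL₂(q) × PSL₂(q)`
-/

set_option autoImplicit false
set_option linter.unusedSectionVars false

namespace Cfsg.Agent.Lib.Classical.Herm.ExcPlus4

open Matrix Cfsg Cfsg.Agent.Lib.Classical.Herm.ExcTwo
open scoped MatrixGroups commutatorElement

variable {F : Type*} [Field F]

/-- Coordinates. -/
abbrev I4 := Fin 2 ⊕ Fin 2

/-- The matrix with the given coordinates. -/
def toM (v : I4 → F) : Matrix (Fin 2) (Fin 2) F :=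
  !![v (.inl 0), v (.inl 1); - v (.inr 1), v (.inr 0)]

/-- The coordinates of a matrix. -/
def fromM (X : Matrix (Fin 2) (Fin 2) F) : I4 → F :=
  Sum.elim ![X 0 0, X 0 1] ![X 1 1, - X 1 0]

theorem fromM_toM (v : I4 → F) : fromM (toM v) = v := by
  ext i
  rcases i with i | i <;> fin_cases i <;> simp [toM, fromM]

theorem toM_fromM (X : Matrix (Fin 2) (Fin 2) F) : toM (fromM X) = X := by
  ext i j
  fin_cases i <;> fin_cases j <;> simp [toM, fromM]

theorem det_toM (v : I4 → F) : (toM v).det = Cfsg.quadFormPlus 2 F v := by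
  simp [toM, Matrix.det_fin_two, Cfsg.quadFormPlus, Fin.sum_univ_two]

theorem toM_add (u v : I4 → F) : toM (u + v) = toM u + toM v := by
  ext i j
  fin_cases i <;> fin_cases j <;> simp [toM] <;> ring

theorem toM_smul (c : F) (v : I4 → F) : toM (c • v) = c • toM v := by
  ext i j
  fin_cases i <;> fin_cases j <;> simp [toM]

theorem fromM_add (X Y : Matrix (Fin 2) (Fin 2) F) : fromM (X + Y) = fromM X + fromM Y := by
  ext i
  rcases i with i | i <;> fin_cases i <;> simp [fromM] <;> ring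

theorem fromM_smul (c : F) (X : Matrix (Fin 2) (Fin 2) F) : fromM (c • X) = c • fromM X := by
  ext i
  rcases i with i | i <;> fin_cases i <;> simp [fromM]

/-- The action `X ↦ P X R`. -/
def actOf (P R : Matrix (Fin 2) (Fin 2) F) : Module.End F (I4 → F) where
  toFun v := fromM (P * toM v * R)
  map_add' u v := by
    rw [toM_add, Matrix.mul_add, Matrix.add_mul, fromM_add]
  map_smul' c v := by
    rw [toM_smul, Matrix.mul_smul, Matrix.smul_mul, fromM_smul]
    rfl

theorem actOf_apply (P R : Matrix (Fin 2) (Fin 2) F) (v : I4 → F) : actOf P R v = fromM (P * toM v * R) := rfl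

theorem toM_actOf (P R : Matrix (Fin 2) (Fin 2) F) (v : I4 → F) : toM (actOf P R v) = P * toM v * R := by
  rw [actOf_apply, toM_fromM]

theorem actOf_mul (P R P' R' : Matrix (Fin 2) (Fin 2) F) :
    actOf (P * P') (R' * R) = actOf P R * actOf P' R' := by
  apply LinearMap.ext
  intro v
  rw [Module.End.mul_apply, actOf_apply P R, toM_actOf, actOf_apply]
  congr 1
  simp only [Matrix.mul_assoc]

theorem actOf_one : actOf (1 : Matrix (Fin 2) (Fin 2) F) 1 = 1 := by
  apply LinearMap.ext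
  intro v
  simp [actOf_apply, fromM_toM]

theorem quad_actOf {P R : Matrix (Fin 2) (Fin 2) F} (h : P.det * R.det = 1) (v : I4 → F) :
    Cfsg.quadFormPlus 2 F (actOf P R v) = Cfsg.quadFormPlus 2 F v := by
  rw [← det_toM, ← det_toM, toM_actOf, Matrix.det_mul, Matrix.det_mul]
  calc P.det * (toM v).det * R.det = (P.det * R.det) * (toM v).det := by ring
    _ = _ := by rw [h, one_mul]

/-- The correcting diagonal matrix. -/
def dg (g : GL (Fin 2) F) : Matrix (Fin 2) (Fin 2) F := !![((g : Matrix (Fin 2) (Fin 2) F).det)⁻¹, 0; 0, 1]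

theorem dg_mul (g h : GL (Fin 2) F) : dg (g * h) = dg g * dg h := by
  ext i j
  fin_cases i <;> fin_cases j <;> simp [dg, Matrix.mul_apply, Fin.sum_univ_two, mul_comm]

theorem dg_comm (g h : GL (Fin 2) F) : dg g * dg h = dg h * dg g := by
  ext i j
  fin_cases i <;> fin_cases j <;> simp [dg, Matrix.mul_apply, Fin.sum_univ_two, mul_comm]

theorem dg_one : dg (1 : GL (Fin 2) F) = 1 := by
  ext i j
  fin_cases i <;> fin_cases j <;> simp [dg]

theorem det_dg (g : GL (Fin 2) F) : (g : Matrix (Fin 2) (Fin 2) F).det * (dg g).det = 1 := by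
  have h0 : (g : Matrix (Fin 2) (Fin 2) F).det ≠ 0 :=
    ((Matrix.isUnit_iff_isUnit_det _).1 g.isUnit).ne_zero
  rw [dg, Matrix.det_fin_two_of, mul_one, mul_zero, sub_zero, mul_inv_cancel₀ h0]

theorem dg_sl (x : SL(2, F)) : dg (Matrix.SpecialLinearGroup.toGL x) = 1 := by
  have h : ((Matrix.SpecialLinearGroup.toGL x : GL (Fin 2) F) : Matrix (Fin 2) (Fin 2) F).det = 1 := x.2
  ext i j
  fin_cases i <;> fin_cases j <;> simp [dg, h]

/-- The left action of `GL₂`. -/
noncomputable def leftHom : GL (Fin 2) F →* Module.End F (I4 → F) where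
  toFun g := actOf (g : Matrix (Fin 2) (Fin 2) F) (dg g)
  map_one' := by
    rw [dg_one]
    exact actOf_one
  map_mul' g h := by
    rw [dg_mul, dg_comm, Units.val_mul, actOf_mul]

/-- The right action of `GL₂`. -/
noncomputable def rightHom : GL (Fin 2) F →* Module.End F (I4 → F) where
  toFun g := actOf (dg g) (g : Matrix (Fin 2) (Fin 2) F)ᵀ
  map_one' := by
    rw [dg_one, Units.val_one, Matrix.transpose_one]
    exact actOf_one
  map_mul' g h := by
    rw [dg_mul, Units.val_mul, Matrix.transpose_mul, actOf_mul]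

/-- The action of `SL₂ × SL₂`. -/
noncomputable def mainHom : SL(2, F) × SL(2, F) →* Module.End F (I4 → F) where
  toFun x := actOf (x.1 : Matrix (Fin 2) (Fin 2) F) (x.2 : Matrix (Fin 2) (Fin 2) F)ᵀ
  map_one' := by
    change actOf (1 : Matrix (Fin 2) (Fin 2) F) (1 : Matrix (Fin 2) (Fin 2) F)ᵀ = 1
    rw [Matrix.transpose_one]
    exact actOf_one
  map_mul' g h := by
    change actOf ((g.1 : Matrix (Fin 2) (Fin 2) F) * (h.1 : Matrix (Fin 2) (Fin 2) F))
      ((g.2 : Matrix (Fin 2) (Fin 2) F) * (h.2 : Matrix (Fin 2) (Fin 2) F))ᵀ = _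
    rw [Matrix.transpose_mul, actOf_mul]

theorem quad_leftHom (g : GL (Fin 2) F) (v : I4 → F) :
    Cfsg.quadFormPlus 2 F (leftHom g v) = Cfsg.quadFormPlus 2 F v :=
  quad_actOf (det_dg g) v

theorem quad_rightHom (g : GL (Fin 2) F) (v : I4 → F) :
    Cfsg.quadFormPlus 2 F (rightHom g v) = Cfsg.quadFormPlus 2 F v := by
  refine quad_actOf ?_ v
  rw [Matrix.det_transpose, mul_comm]
  exact det_dg g

theorem quad_mainHom (x : SL(2, F) × SL(2, F)) (v : I4 → F) :
    Cfsg.quadFormPlus 2 F (mainHom x v) = Cfsg.quadFormPlus 2 F v := by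
  refine quad_actOf ?_ v
  rw [Matrix.det_transpose, x.1.2, x.2.2, one_mul]

/-- The homomorphism. -/
noncomputable def rho4 : SL(2, F) × SL(2, F) →* ↥(Cfsg.isometryGroup F (Cfsg.quadFormPlus 2 F)) :=
  ExcCore.isomHom _ mainHom quad_mainHom

/-- Equal actions give equal isometries. -/
theorem isomHom_congr {ι : Type} [Fintype ι] [DecidableEq ι] {L L' : Type*} [Group L] [Group L'] (Q : (ι → F) → F)
    (act : L →* Module.End F (ι → F)) (hQ : ∀ x v, Q (act x v) = Q v)
    (act' : L' →* Module.End F (ι → F)) (hQ' : ∀ x v, Q (act' x v) = Q v) (x : L) (y : L')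
    (h : ∀ v, act x v = act' y v) : ExcCore.isomHom Q act hQ x = ExcCore.isomHom Q act' hQ' y := by
  apply Subtype.ext
  apply Units.ext
  apply Matrix.ext_of_mulVec_single
  intro j
  rw [ExcCore.isomHom_mulVec, ExcCore.isomHom_mulVec, h]

theorem rho4_mem_omega (c : F) (hc0 : c ≠ 0) (hc1 : c ≠ 1) :
    (rho4 (F := F)).range ≤ Cfsg.Omega F (Cfsg.quadFormPlus 2 F) := by
  rintro _ ⟨⟨x, y⟩, rfl⟩
  have h0 : ((x, y) : SL(2, F) × SL(2, F)) = (x, 1) * (1, y) := by simp
  rw [h0, map_mul]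
  refine Subgroup.mul_mem _ ?_ ?_
  · have h1 : rho4 ((x, 1) : SL(2, F) × SL(2, F)) =
        ExcCore.isomHom _ leftHom quad_leftHom (Matrix.SpecialLinearGroup.toGL x) := by
      refine isomHom_congr _ _ _ _ _ _ _ ?_
      intro v
      change actOf (x : Matrix (Fin 2) (Fin 2) F) ((1 : SL(2, F)) : Matrix (Fin 2) (Fin 2) F)ᵀ v =
        actOf (x : Matrix (Fin 2) (Fin 2) F) (dg (Matrix.SpecialLinearGroup.toGL x)) v
      rw [dg_sl]
      simp
    rw [h1]
    exact toGL_mem_commutator _ c hc0 hc1 x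
  · have h1 : rho4 ((1, y) : SL(2, F) × SL(2, F)) =
        ExcCore.isomHom _ rightHom quad_rightHom (Matrix.SpecialLinearGroup.toGL y) := by
      refine isomHom_congr _ _ _ _ _ _ _ ?_
      intro v
      change actOf ((1 : SL(2, F)) : Matrix (Fin 2) (Fin 2) F) (y : Matrix (Fin 2) (Fin 2) F)ᵀ v =
        actOf (dg (Matrix.SpecialLinearGroup.toGL y)) (y : Matrix (Fin 2) (Fin 2) F)ᵀ v
      rw [dg_sl]
      simp
    rw [h1]
    exact toGL_mem_commutator _ c hc0 hc1 y

theorem mem_ker_rho4 (x y : SL(2, F)) :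
    ((x, y) : SL(2, F) × SL(2, F)) ∈ (rho4 (F := F)).ker ↔ x ∈ Subgroup.center (SL(2, F)) ∧ y = x := by
  have h0 : ((x, y) : SL(2, F) × SL(2, F)) ∈ (rho4 (F := F)).ker ↔
      ∀ v, actOf (x : Matrix (Fin 2) (Fin 2) F) (y : Matrix (Fin 2) (Fin 2) F)ᵀ v = v :=
    ExcCore.mem_ker_isomHom (Cfsg.quadFormPlus 2 F) mainHom quad_mainHom (x, y)
  have h1 : (∀ v, actOf (x : Matrix (Fin 2) (Fin 2) F) (y : Matrix (Fin 2) (Fin 2) F)ᵀ v = v) ↔
      ∀ X : Matrix (Fin 2) (Fin 2) F, (x : Matrix (Fin 2) (Fin 2) F) * X * (y : Matrix (Fin 2) (Fin 2) F)ᵀ = X := by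
    constructor
    · intro h X
      have h2 := h (fromM X)
      have h3 := toM_actOf (x : Matrix (Fin 2) (Fin 2) F) (y : Matrix (Fin 2) (Fin 2) F)ᵀ (fromM X)
      rw [h2, toM_fromM] at h3
      exact h3.symm
    · intro h v
      rw [actOf_apply, h, fromM_toM]
  rw [h0, h1, mem_center_sl2_iff]
  have hdx := det_sl2 x
  have hdy := det_sl2 y
  constructor
  · intro h
    have e0 := h !![1, 0; 0, 0]
    have e1 := h !![0, 0; 0, 1]
    have e2 := h !![0, 1; 0, 0]
    have e3 := h !![0, 0; 1, 0]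
    have a00 := congrFun (congrFun e0 0) 0
    have a01 := congrFun (congrFun e0 0) 1
    have a10 := congrFun (congrFun e0 1) 0
    have b11 := congrFun (congrFun e1 1) 1
    have b10 := congrFun (congrFun e1 1) 0
    have c00 := congrFun (congrFun e2 0) 0
    have c01 := congrFun (congrFun e2 0) 1
    have d00 := congrFun (congrFun e3 0) 0
    have d10 := congrFun (congrFun e3 1) 0
    simp [Matrix.mul_apply, Fin.sum_univ_two] at a00 a01 a10 b11 b10 c00 c01 d00 d10
    have hx0 : (x : Matrix (Fin 2) (Fin 2) F) 0 0 ≠ 0 := left_ne_zero_of_mul_eq_one a00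
    have hy0 : (y : Matrix (Fin 2) (Fin 2) F) 0 0 ≠ 0 := right_ne_zero_of_mul_eq_one a00
    have y10 : (y : Matrix (Fin 2) (Fin 2) F) 1 0 = 0 := a01.resolve_left hx0
    have y01 : (y : Matrix (Fin 2) (Fin 2) F) 0 1 = 0 := c00.resolve_left hx0
    have x10 : (x : Matrix (Fin 2) (Fin 2) F) 1 0 = 0 := a10.resolve_right hy0
    have x01 : (x : Matrix (Fin 2) (Fin 2) F) 0 1 = 0 := d00.resolve_right hy0
    have h11 : (x : Matrix (Fin 2) (Fin 2) F) 0 0 = (x : Matrix (Fin 2) (Fin 2) F) 1 1 := by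
      apply mul_right_cancel₀ hy0
      rw [a00, d10]
    have hy11 : (y : Matrix (Fin 2) (Fin 2) F) 1 1 = (y : Matrix (Fin 2) (Fin 2) F) 0 0 := by
      apply mul_left_cancel₀ hx0
      rw [a00, c01]
    rw [x01, x10, ← h11] at hdx
    have hxx : (x : Matrix (Fin 2) (Fin 2) F) 0 0 * (x : Matrix (Fin 2) (Fin 2) F) 0 0 = 1 := by
      linear_combination hdx
    have hyx : (y : Matrix (Fin 2) (Fin 2) F) 0 0 = (x : Matrix (Fin 2) (Fin 2) F) 0 0 := by
      apply mul_left_cancel₀ hx0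
      rw [a00, hxx]
    refine ⟨⟨x01, x10, h11⟩, ?_⟩
    apply Subtype.ext
    ext i j
    fin_cases i <;> fin_cases j
    · exact hyx
    · exact y01.trans x01.symm
    · exact y10.trans x10.symm
    · exact hy11.trans (hyx.trans h11)
  · rintro ⟨⟨h1, h2, h3⟩, rfl⟩ X
    rw [h1, h2, ← h3] at hdx
    have hxx : (y : Matrix (Fin 2) (Fin 2) F) 0 0 * (y : Matrix (Fin 2) (Fin 2) F) 0 0 = 1 := by
      linear_combination hdx
    ext i j
    fin_cases i <;> fin_cases j <;>
      simp [Matrix.mul_apply, Fin.sum_univ_two, h1, h2, ← h3]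
    · linear_combination (X 0 0) * hxx
    · linear_combination (X 0 1) * hxx
    · linear_combination (X 1 0) * hxx
    · linear_combination (X 1 1) * hxx

theorem card_center_sl2_even (h2 : (2 : F) = 0) : Nat.card (Subgroup.center (SL(2, F))) = 1 := by
  have h : Subgroup.center (SL(2, F)) = ⊥ := by
    rw [eq_bot_iff]
    intro x hx
    rw [mem_center_sl2_iff] at hx
    obtain ⟨h1, h3, h4⟩ := hx
    have hd := det_sl2 x
    rw [h1, ← h4] at hd
    have h5 : ((x : Matrix (Fin 2) (Fin 2) F) 0 0 - 1) * ((x : Matrix (Fin 2) (Fin 2) F) 0 0 - 1) = 0 := by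
      linear_combination hd + (1 - (x : Matrix (Fin 2) (Fin 2) F) 0 0) * h2
    have h6 : (x : Matrix (Fin 2) (Fin 2) F) 0 0 = 1 := by
      have := mul_self_eq_zero.1 h5
      linear_combination this
    rw [Subgroup.mem_bot]
    apply Subtype.ext
    ext i j
    fin_cases i <;> fin_cases j <;> simp [h1, h3, ← h4, h6]
  rw [h]
  exact Nat.card_unique

theorem exists_ne_zero_one [Fintype F] (h : 3 ≤ Fintype.card F) : ∃ c : F, c ≠ 0 ∧ c ≠ 1 := by
  classical
  by_contra hc
  push Not at hc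
  have h1 : (Finset.univ : Finset F) ⊆ {0, 1} := by
    intro x _
    by_cases hx : x = 0
    · simp [hx]
    · simp [hc x hx]
  have h2 := Finset.card_le_card h1
  have h3 := Finset.card_le_two (a := (0 : F)) (b := 1)
  rw [Finset.card_univ] at h2
  omega

/-- The quotient map. -/
noncomputable def gMap : SL(2, F) × SL(2, F) →* Matrix.ProjectiveSpecialLinearGroup (Fin 2) F × Matrix.ProjectiveSpecialLinearGroup (Fin 2) F :=
  MonoidHom.prodMap (QuotientGroup.mk' _) (QuotientGroup.mk' _)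

theorem gMap_surjective : Function.Surjective (gMap (F := F)) := by
  rintro ⟨a, b⟩
  obtain ⟨a, rfl⟩ := QuotientGroup.mk_surjective a
  obtain ⟨b, rfl⟩ := QuotientGroup.mk_surjective b
  exact ⟨(a, b), rfl⟩

theorem gMap_ker : (gMap (F := F)).ker = Subgroup.center (SL(2, F) × SL(2, F)) := by
  ext ⟨x, y⟩
  rw [MonoidHom.mem_ker, Subgroup.center_prod, Subgroup.mem_prod]
  change ((x : Matrix.ProjectiveSpecialLinearGroup (Fin 2) F), (y : Matrix.ProjectiveSpecialLinearGroup (Fin 2) F)) = (1, 1) ↔ _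
  rw [Prod.mk.injEq, QuotientGroup.eq_one_iff, QuotientGroup.eq_one_iff]

theorem center_T : Subgroup.center (Matrix.ProjectiveSpecialLinearGroup (Fin 2) F × Matrix.ProjectiveSpecialLinearGroup (Fin 2) F) = ⊥ := by
  rw [Subgroup.center_prod, center_psl2_eq_bot]
  exact Subgroup.bot_prod_bot

/-- The kernel has the order of the centre. -/
theorem card_ker_rho4 : Nat.card (rho4 (F := F)).ker = Nat.card (Subgroup.center (SL(2, F))) := by
  refine Nat.card_congr ⟨fun z => ⟨z.1.1, ((mem_ker_rho4 z.1.1 z.1.2).1 z.2).1⟩,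
    fun x => ⟨(x.1, x.1), (mem_ker_rho4 x.1 x.1).2 ⟨x.2, rfl⟩⟩, ?_, ?_⟩
  · rintro ⟨⟨x, y⟩, hz⟩
    obtain ⟨-, rfl⟩ := (mem_ker_rho4 x y).1 hz
    rfl
  · intro x
    rfl

open Cfsg.Agent.Lib.Classical.Orth.Models

theorem main4 [Fintype F] (hq : 3 ≤ Fintype.card F)
    (hO : Nat.card ↥(Cfsg.isometryGroup F (Cfsg.quadFormPlus 2 F)) = 2 * (Nat.card (SL(2, F))) ^ 2) :
    Nonempty (Cfsg.POmega F (Cfsg.quadFormPlus 2 F) ≃*
      Matrix.ProjectiveSpecialLinearGroup (Fin 2) F × Matrix.ProjectiveSpecialLinearGroup (Fin 2) F) := by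
  classical
  obtain ⟨c, hc0, hc1⟩ := exists_ne_zero_one hq
  have hle := rho4_mem_omega c hc0 hc1
  have hker : (rho4 (F := F)).ker ≤ Subgroup.center (SL(2, F) × SL(2, F)) := by
    rintro ⟨x, y⟩ hz
    obtain ⟨h1, rfl⟩ := (mem_ker_rho4 x y).1 hz
    rw [Subgroup.center_prod, Subgroup.mem_prod]
    exact ⟨h1, h1⟩
  refine pomega_equiv_gen _ rho4 ?_ hker gMap gMap_surjective gMap_ker center_T
  have hcr := ExcCore.card_range_mul_ker (rho4 (F := F))
  rw [card_ker_rho4, Nat.card_prod] at hcr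
  by_cases h2 : (2 : F) = 0
  · rw [card_center_sl2_even h2, mul_one] at hcr
    refine ExcCore.range_eq_omega_two' (plusForm 2 F) (coe_plusForm 2 F) _ hle ?_
    rw [hO, hcr, pow_two]
  · rw [card_center_sl2 h2] at hcr
    refine ExcCore.range_eq_omega_odd' (plusForm 2 F) (coe_plusForm 2 F) (plusForm_nondegenerate 2) h2 (by simp) _ hle ?_
    rw [hO, pow_two, ← hcr]
    ring

end Cfsg.Agent.Lib.Classical.Herm.ExcPlus4
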