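import Mathlib
import Cfsg.Agent.Lib.Classical.Herm.Subfield

/-!
# A quadratic extension with a given anisotropic norm form
-/

set_option autoImplicit false
set_option linter.unusedSectionVars false

namespace Cfsg.Agent.Lib.Classical.Herm.ExcQuad

open Polynomial Cfsg.Agent.Lib.Classical.Herm.Basic

/-- The quadratic extension `K/F` with `K = F(θ)`, the conjugation `σ` and coordinates. -/
structure QuadExt (F K : Type*) [Field F] [Field K] (q : ℕ) (a b : F) where
  /-- The embedding. -/
  φ : F →+* K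
  /-- The conjugation. -/
  σ : K →+* K
  /-- The generator. -/
  θ : K
  /-- First coordinate. -/
  c0 : K → F
  /-- Second coordinate. -/
  c1 : K → F
  pow : ∀ z, σ z = z ^ q
  σσ : ∀ z, σ (σ z) = z
  σφ : ∀ x, σ (φ x) = φ x
  σθ : σ θ = φ a - θ
  θθ : θ * θ = φ a * θ - φ b
  δ : θ - σ θ ≠ 0
  decomp : ∀ z, φ (c0 z) + φ (c1 z) * θ = z
  c0_mk : ∀ x y, c0 (φ x + φ y * θ) = x
  c1_mk : ∀ x y, c1 (φ x + φ y * θ) = y
  fixed : ∀ z, σ z = z → φ (c0 z) = z

variable {F K : Type*} [Field F] [Field K] {q : ℕ} {a b : F}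

theorem exists_root [Fintype F] [Fintype K] (hF : Fintype.card F = q) (hK : Fintype.card K = q ^ 2)
    (hab : ∀ z₁ z₂ : F, z₁ ^ 2 + a * z₁ * z₂ + b * z₂ ^ 2 = 0 → z₁ = 0 ∧ z₂ = 0) :
    ∃ (φ : F →+* K) (θ : K), θ * θ = φ a * θ - φ b := by
  classical
  let P : F[X] := X ^ 2 - C a * X + C b
  have hdeg : P.natDegree = 2 := by
    change (X ^ 2 - C a * X + C b : F[X]).natDegree = 2
    compute_degree!
  have hmonic : P.Monic := by
    change (X ^ 2 - C a * X + C b : F[X]).Monic
    monicity!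
  have hirr : Irreducible P := by
    rw [hmonic.irreducible_iff_roots_eq_zero_of_degree_le_three (by omega) (by omega)]
    rw [Multiset.eq_zero_iff_forall_notMem]
    intro r hr
    have h1 := (Polynomial.mem_roots'.1 hr).2
    have h2 : r ^ 2 - a * r + b = 0 := by
      simpa [P, Polynomial.IsRoot] using h1
    have h3 := (hab (-r) 1 (by linear_combination h2)).2
    exact one_ne_zero h3
  haveI : Fact (Irreducible P) := ⟨hirr⟩
  let pb := AdjoinRoot.powerBasis hmonic.ne_zero
  have hrank : Module.finrank F (AdjoinRoot P) = 2 := by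
    rw [pb.finrank]
    rw [AdjoinRoot.powerBasis_dim, hdeg]
  haveI : Module.Finite F (AdjoinRoot P) := pb.finite
  haveI : Finite (AdjoinRoot P) := Module.finite_of_finite F
  letI : Fintype (AdjoinRoot P) := Fintype.ofFinite _
  have hcard : Fintype.card (AdjoinRoot P) = q ^ 2 := by
    rw [Module.card_eq_pow_finrank (K := F), hF, hrank]
  let e : AdjoinRoot P ≃+* K := FiniteField.ringEquivOfCardEq (hcard.trans hK.symm)
  refine ⟨e.toRingHom.comp (AdjoinRoot.of P), e (AdjoinRoot.root P), ?_⟩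
  have h1 : (AdjoinRoot.root P) ^ 2 - AdjoinRoot.of P a * AdjoinRoot.root P + AdjoinRoot.of P b = 0 := by
    have := AdjoinRoot.eval₂_root P
    simpa [P] using this
  have h2 := congrArg e h1
  simp only [map_add, map_sub, map_mul, map_pow, map_zero] at h2
  change e (AdjoinRoot.root P) * e (AdjoinRoot.root P) = e (AdjoinRoot.of P a) * e (AdjoinRoot.root P) - e (AdjoinRoot.of P b)
  linear_combination h2

theorem exists_quadExt [Fintype F] [Fintype K] (hF : Fintype.card F = q) (hK : Fintype.card K = q ^ 2)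
    (hab : ∀ z₁ z₂ : F, z₁ ^ 2 + a * z₁ * z₂ + b * z₂ ^ 2 = 0 → z₁ = 0 ∧ z₂ = 0) :
    Nonempty (QuadExt F K q a b) := by
  classical
  obtain ⟨φ, θ, hθ⟩ := exists_root (a := a) (b := b) hF hK hab
  let σ : K →+* K := sigma hK
  have hσ : ∀ z, σ z = z ^ q := fun z => rfl
  have hσσ : ∀ z, σ (σ z) = z := sigma_sigma hK
  have hσφ : ∀ x, σ (φ x) = φ x := by
    intro x
    rw [hσ, ← map_pow, ← hF, FiniteField.pow_card]
  have hN : ∀ x y, (φ x + φ y * (φ a - θ)) * (φ x + φ y * θ) = φ (x ^ 2 + a * x * y + b * y ^ 2) := by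
    intro x y
    simp only [map_add, map_mul, map_pow]
    linear_combination (- φ y ^ 2) * hθ
  have hinj : Function.Injective (fun p : F × F => φ p.1 + φ p.2 * θ) := by
    rintro ⟨x, y⟩ ⟨x', y'⟩ h
    have h1 : φ (x - x') + φ (y - y') * θ = 0 := by
      simp only [map_sub]
      have h' : φ x + φ y * θ = φ x' + φ y' * θ := h
      linear_combination h'
    have h2 : φ ((x - x') ^ 2 + a * (x - x') * (y - y') + b * (y - y') ^ 2) = 0 := by
      rw [← hN, h1, mul_zero]
    have h3 := (map_eq_zero φ).1 h2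
    obtain ⟨h4, h5⟩ := hab _ _ h3
    rw [Prod.mk.injEq]
    exact ⟨sub_eq_zero.1 h4, sub_eq_zero.1 h5⟩
  have hbij : Function.Bijective (fun p : F × F => φ p.1 + φ p.2 * θ) := by
    rw [Fintype.bijective_iff_injective_and_card]
    refine ⟨hinj, ?_⟩
    rw [Fintype.card_prod, hF, hK, pow_two]
  let E : F × F ≃ K := Equiv.ofBijective _ hbij
  have hdecomp : ∀ z, φ (E.symm z).1 + φ (E.symm z).2 * θ = z := fun z => E.apply_symm_apply z
  have hmk : ∀ x y, E.symm (φ x + φ y * θ) = (x, y) := fun x y => E.symm_apply_apply (x, y)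
  have hroot : (σ θ - θ) * (σ θ + θ - φ a) = 0 := by
    have h1 := congrArg σ hθ
    simp only [map_sub, map_mul, hσφ] at h1
    linear_combination h1 - hθ
  have hne : σ θ ≠ θ := by
    intro h
    have h1 : ∀ z : K, z ^ q = z := by
      intro z
      rw [← hdecomp z, ← hσ]
      simp only [map_add, map_mul, hσφ, h]
    exact sigma_ne_id hK (RingHom.ext h1)
  have hσθ : σ θ = φ a - θ := by
    have h1 := (mul_eq_zero.1 hroot).resolve_left (sub_ne_zero.2 hne)
    linear_combination h1
  refine ⟨⟨φ, σ, θ, fun z => (E.symm z).1, fun z => (E.symm z).2, hσ, hσσ, hσφ, hσθ, hθ,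
    sub_ne_zero.2 (Ne.symm hne), hdecomp, ?_, ?_, ?_⟩⟩
  · intro x y
    rw [hmk]
  · intro x y
    rw [hmk]
  · intro z hz
    have h1 := hdecomp z
    have h2 := congrArg σ h1
    simp only [map_add, map_mul, hσφ, hz] at h2
    have h3 : φ (E.symm z).2 * (σ θ - θ) = 0 := by
      linear_combination h2 - h1 
    have h4 := (mul_eq_zero.1 h3).resolve_right (sub_ne_zero.2 hne)
    rw [h4] at h1
    simpa using h1

variable (E : QuadExt F K q a b)

namespace QuadExt

theorem norm_mk (x y : F) : E.σ (E.φ x + E.φ y * E.θ) * (E.φ x + E.φ y * E.θ) = E.φ (x ^ 2 + a * x * y + b * y ^ 2) := by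
  simp only [map_add, map_mul, map_pow, E.σφ, E.σθ]
  linear_combination (- E.φ y ^ 2) * E.θθ

theorem c0_φ (x : F) : E.c0 (E.φ x) = x := by
  have := E.c0_mk x 0
  simpa using this

theorem σ_neg_one : E.σ (-1) = -1 := by simp

theorem σ_of_sq (r : K) (h : r * r = 1) : E.σ r = r := by
  have h1 : (r - 1) * (r + 1) = 0 := by linear_combination h
  rcases mul_eq_zero.1 h1 with h2 | h2
  · have : r = 1 := by linear_combination h2
    simp [this]
  · have : r = -1 := by linear_combination h2
    simp [this]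

theorem σ_inj : Function.Injective E.σ := E.σ.injective

omit E in
theorem two_iff (E : QuadExt F K q a b) : (2 : K) = 0 ↔ (2 : F) = 0 := by
  have h : E.φ 2 = 2 := map_ofNat _ _
  rw [← h, map_eq_zero]

end QuadExt

end Cfsg.Agent.Lib.Classical.Herm.ExcQuad
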