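import Mathlib
import Cfsg.Agent.Lib.Classical.Herm.ExcQuad
import Cfsg.Agent.Lib.Classical.Herm.ExcPlus4

/-!
# `PΩ⁻₄(q) ≅ PSL₂(q²)`
-/

set_option autoImplicit false
set_option linter.unusedSectionVars false

namespace Cfsg.Agent.Lib.Classical.Herm.ExcMinus4

open Matrix Cfsg Cfsg.Agent.Lib.Classical.Herm.ExcTwo Cfsg.Agent.Lib.Classical.Herm.ExcQuad
open scoped MatrixGroups commutatorElement

variable {F K : Type*} [Field F] [Field K] {q : ℕ} {a b : F} (E : QuadExt F K q a b)

/-- Coordinates. -/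
abbrev I4 := (Fin 1 ⊕ Fin 1) ⊕ Fin 2

/-- The Hermitian matrix with the given coordinates. -/
def toH (v : I4 → F) : Matrix (Fin 2) (Fin 2) K :=
  !![E.φ (v (.inl (.inl 0))), E.φ (v (.inr 0)) + E.φ (v (.inr 1)) * E.θ;
    E.σ (E.φ (v (.inr 0)) + E.φ (v (.inr 1)) * E.θ), - E.φ (v (.inl (.inr 0)))]

/-- The coordinates of a Hermitian matrix. -/
def fromH (X : Matrix (Fin 2) (Fin 2) K) : I4 → F :=
  Sum.elim (Sum.elim (fun _ => E.c0 (X 0 0)) (fun _ => - E.c0 (X 1 1))) ![E.c0 (X 0 1), E.c1 (X 0 1)]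

/-- Hermitian matrices. -/
def IsH (X : Matrix (Fin 2) (Fin 2) K) : Prop := (X.map E.σ)ᵀ = X

theorem isH_iff (X : Matrix (Fin 2) (Fin 2) K) : IsH E X ↔ ∀ i j, E.σ (X j i) = X i j := by
  constructor
  · intro h i j
    exact congrFun (congrFun h i) j
  · intro h
    ext i j
    exact h i j

theorem isH_toH (v : I4 → F) : IsH E (toH E v) := by
  rw [isH_iff]
  intro i j
  fin_cases i <;> fin_cases j <;> simp [toH, E.σφ, E.σσ]

theorem fromH_toH (v : I4 → F) : fromH E (toH E v) = v := by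
  ext i
  rcases i with (i | i) | i
  · have : i = 0 := Subsingleton.elim _ _
    subst this
    simp [fromH, toH, QuadExt.c0_φ]
  · have : i = 0 := Subsingleton.elim _ _
    subst this
    simp [fromH, toH, QuadExt.c0_φ, ← map_neg]
  · fin_cases i <;> simp [fromH, toH, E.c0_mk, E.c1_mk]

theorem toH_fromH (X : Matrix (Fin 2) (Fin 2) K) (h : IsH E X) : toH E (fromH E X) = X := by
  rw [isH_iff] at h
  have h00 := E.fixed _ (h 0 0)
  have h11 := E.fixed _ (h 1 1)
  ext i j
  fin_cases i <;> fin_cases j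
  · simpa [toH, fromH] using h00
  · simpa [toH, fromH] using E.decomp (X 0 1)
  · simp [toH, fromH]
    rw [← h 1 0]
    have h5 := congrArg E.σ (E.decomp (X 0 1))
    simpa using h5
  · simpa [toH, fromH] using h11

theorem toH_inj {u v : I4 → F} (h : toH E u = toH E v) : u = v := by
  rw [← fromH_toH E u, h, fromH_toH]

theorem det_toH (v : I4 → F) : (toH E v).det = - E.φ (Cfsg.quadFormMinus 1 F a b v) := by
  have h := E.norm_mk (v (.inr 0)) (v (.inr 1))
  rw [toH, Matrix.det_fin_two_of]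
  simp only [Cfsg.quadFormMinus, map_add, Fin.sum_univ_one, map_mul] at *
  linear_combination (-1) * h

theorem toH_add (u v : I4 → F) : toH E (u + v) = toH E u + toH E v := by
  ext i j
  fin_cases i <;> fin_cases j <;> simp [toH] <;> ring

theorem toH_smul (c : F) (v : I4 → F) : toH E (c • v) = E.φ c • toH E v := by
  ext i j
  fin_cases i <;> fin_cases j <;> simp [toH, E.σφ] <;> ring

theorem isH_act (g X : Matrix (Fin 2) (Fin 2) K) (h : IsH E X) : IsH E (g * X * (g.map E.σ)ᵀ) := by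
  unfold IsH at *
  have h2 : ((g.map E.σ)ᵀ).map E.σ = gᵀ := by
    ext i j
    exact E.σσ _
  rw [Matrix.map_mul, Matrix.map_mul, h2, Matrix.transpose_mul, Matrix.transpose_mul, Matrix.transpose_transpose, h,
    Matrix.mul_assoc]

/-- The action. -/
noncomputable def act (g : Matrix (Fin 2) (Fin 2) K) : Module.End F (I4 → F) where
  toFun v := fromH E (g * toH E v * (g.map E.σ)ᵀ)
  map_add' u v := by
    apply toH_inj E
    have h3 : ∀ w, toH E (fromH E (g * toH E w * (g.map E.σ)ᵀ)) = g * toH E w * (g.map E.σ)ᵀ :=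
      fun w => toH_fromH E _ (isH_act E g _ (isH_toH E w))
    change toH E (fromH E (g * toH E (u + v) * _)) = toH E (fromH E (g * toH E u * _) + fromH E (g * toH E v * _))
    rw [h3 (u + v), toH_add E u v, toH_add, h3, h3, Matrix.mul_add, Matrix.add_mul]
  map_smul' c v := by
    apply toH_inj E
    have h3 : ∀ w, toH E (fromH E (g * toH E w * (g.map E.σ)ᵀ)) = g * toH E w * (g.map E.σ)ᵀ :=
      fun w => toH_fromH E _ (isH_act E g _ (isH_toH E w))
    change toH E (fromH E (g * toH E (c • v) * _)) = toH E (c • fromH E (g * toH E v * _))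
    rw [h3 (c • v), toH_smul E c v, toH_smul, h3, Matrix.mul_smul, Matrix.smul_mul]

theorem toH_act (g : Matrix (Fin 2) (Fin 2) K) (v : I4 → F) :
    toH E (act E g v) = g * toH E v * (g.map E.σ)ᵀ :=
  toH_fromH E _ (isH_act E g _ (isH_toH E v))

/-- The action of `SL₂(K)`. -/
noncomputable def actHom : SL(2, K) →* Module.End F (I4 → F) where
  toFun x := act E (x : Matrix (Fin 2) (Fin 2) K)
  map_one' := by
    apply LinearMap.ext
    intro v
    apply toH_inj E
    rw [toH_act]
    simp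
  map_mul' x y := by
    apply LinearMap.ext
    intro v
    apply toH_inj E
    rw [Module.End.mul_apply, toH_act, toH_act, toH_act]
    change (x : Matrix (Fin 2) (Fin 2) K) * y * _ * (((x : Matrix (Fin 2) (Fin 2) K) * y).map E.σ)ᵀ = _
    rw [Matrix.map_mul, Matrix.transpose_mul]
    simp only [Matrix.mul_assoc]

theorem quad_actHom (x : SL(2, K)) (v : I4 → F) :
    Cfsg.quadFormMinus 1 F a b (actHom E x v) = Cfsg.quadFormMinus 1 F a b v := by
  apply E.φ.injective
  have h1 := det_toH E (actHom E x v)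
  have h2 := det_toH E v
  have h3 : toH E (actHom E x v) = _ := toH_act E x v
  rw [h3, Matrix.det_mul, Matrix.det_mul, Matrix.det_transpose, x.2] at h1
  have h4 : ((x : Matrix (Fin 2) (Fin 2) K).map E.σ).det = 1 := by
    have := RingHom.map_det E.σ (x : Matrix (Fin 2) (Fin 2) K)
    rw [x.2, map_one] at this
    exact this.symm
  rw [h4, one_mul, mul_one, h2] at h1
  exact (neg_injective h1).symm

/-- The homomorphism. -/
noncomputable def rho : SL(2, K) →* ↥(Cfsg.isometryGroup F (Cfsg.quadFormMinus 1 F a b)) :=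
  ExcCore.isomHom _ (actHom E) (quad_actHom E)

theorem mem_ker_rho (x : SL(2, K)) : x ∈ (rho E).ker ↔ x ∈ Subgroup.center (SL(2, K)) := by
  have h0 : x ∈ (rho E).ker ↔ ∀ v, actHom E x v = v :=
    ExcCore.mem_ker_isomHom _ _ _ _
  have h1 : (∀ v, actHom E x v = v) ↔ ∀ v, (x : Matrix (Fin 2) (Fin 2) K) * toH E v * ((x : Matrix (Fin 2) (Fin 2) K).map E.σ)ᵀ = toH E v := by
    refine forall_congr' fun v => ?_
    constructor
    · intro h
      rw [← toH_act]
      exact congrArg _ h
    · intro h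
      apply toH_inj E
      exact (toH_act E _ v).trans h
  rw [h0, h1, mem_center_sl2_iff]
  have hd := det_sl2 x
  constructor
  · intro h
    have e0 := h (Sum.elim (Sum.elim 1 0) 0)
    have e1 := h (Sum.elim (Sum.elim 0 (-1)) 0)
    have e2 := h (Sum.elim 0 ![1, 0])
    have a00 := congrFun (congrFun e0 0) 0
    have a11 := congrFun (congrFun e0 1) 1
    have b00 := congrFun (congrFun e1 0) 0
    have b11 := congrFun (congrFun e1 1) 1
    have c01 := congrFun (congrFun e2 0) 1
    simp [toH, Matrix.mul_apply, Fin.sum_univ_two] at a00 a11 b00 b11 c01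
    rw [b00, a11] at c01
    simp only [zero_mul, zero_add] at c01
    refine ⟨b00, a11, ?_⟩
    linear_combination (-(x : Matrix (Fin 2) (Fin 2) K) 0 0) * b11 + ((x : Matrix (Fin 2) (Fin 2) K) 1 1) * c01
  · rintro ⟨h01, h10, h00⟩ v
    rw [h01, h10, ← h00] at hd
    have hr : (x : Matrix (Fin 2) (Fin 2) K) 0 0 * (x : Matrix (Fin 2) (Fin 2) K) 0 0 = 1 := by
      linear_combination hd
    have hs := E.σ_of_sq _ hr
    ext i j
    fin_cases i <;> fin_cases j <;>
      simp [toH, Matrix.mul_apply, Fin.sum_univ_two, h01, h10, ← h00, hs]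
    · linear_combination (E.φ (v (Sum.inl (Sum.inl 0)))) * hr
    · linear_combination (E.φ (v (Sum.inr 0)) + E.φ (v (Sum.inr 1)) * E.θ) * hr
    · linear_combination (E.σ (E.φ (v (Sum.inr 0))) + E.σ (E.φ (v (Sum.inr 1))) * E.σ E.θ) * hr
    · linear_combination (E.φ (v (Sum.inl (Sum.inr 0)))) * hr

open Cfsg.Agent.Lib.Classical.Orth.Models

include E in
theorem main [Fintype F] [Fintype K]
    (hperf : commutator (SL(2, K)) = ⊤)
    (hab : ∀ z₁ z₂ : F, z₁ ^ 2 + a * z₁ * z₂ + b * z₂ ^ 2 = 0 → z₁ = 0 ∧ z₂ = 0)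
    (hO : Nat.card ↥(Cfsg.isometryGroup F (Cfsg.quadFormMinus 1 F a b)) = 2 * Nat.card (SL(2, K))) :
    Nonempty (Cfsg.POmega F (Cfsg.quadFormMinus 1 F a b) ≃* Matrix.ProjectiveSpecialLinearGroup (Fin 2) K) := by
  classical
  have hker : (rho E).ker = Subgroup.center (SL(2, K)) := by
    ext x
    exact mem_ker_rho E x
  refine ExcCore.pomega_equiv _ (rho E) ?_ hker.le center_psl2_eq_bot
  have hle := ExcCore.range_le_omega _ (rho E) hperf
  have hcr := ExcCore.card_range_mul_ker (rho E)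
  rw [hker] at hcr
  by_cases h2 : (2 : F) = 0
  · rw [ExcPlus4.card_center_sl2_even ((QuadExt.two_iff E).2 h2), mul_one] at hcr
    refine ExcCore.range_eq_omega_two' (minusForm 1 F a b) (coe_minusForm 1 F a b) _ hle ?_
    rw [hO, hcr]
  · rw [card_center_sl2 (fun h => h2 ((QuadExt.two_iff E).1 h))] at hcr
    refine ExcCore.range_eq_omega_odd' (minusForm 1 F a b) (coe_minusForm 1 F a b)
      (minusForm_nondegenerate 1 a b hab) h2 (by simp) _ hle ?_
    rw [hO, ← hcr]
    ring

end Cfsg.Agent.Lib.Classical.Herm.ExcMinus4
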