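import Mathlib
import Cfsg.Agent.Lib.Classical.Herm.ExcQuad
import Cfsg.Agent.Lib.Classical.Herm.ExcKlein
import Cfsg.Agent.Lib.Classical.Herm.Simple

/-!
# `PΩ⁻₆(q) ≅ PSU₄(q)`
-/

set_option autoImplicit false
set_option linter.unusedSectionVars false

namespace Cfsg.Agent.Lib.Classical.Herm.ExcMinus6

open Matrix Cfsg Cfsg.Agent.Lib.Classical.Herm.ExcKlein Cfsg.Agent.Lib.Classical.Herm.ExcQuad

section dual

variable {R : Type*} [CommRing R]

/-- The Hodge dual of an alternating matrix. -/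
def dual (X : Matrix (Fin 4) (Fin 4) R) : Matrix (Fin 4) (Fin 4) R :=
  !![0, X 2 3, -X 1 3, X 1 2; -X 2 3, 0, X 0 3, -X 0 2; X 1 3, -X 0 3, 0, X 0 1; -X 1 2, X 0 2, -X 0 1, 0]

set_option maxHeartbeats 4000000 in
theorem dual_congr (g X : Matrix (Fin 4) (Fin 4) R) (h0 : ∀ i, X i i = 0) (h1 : ∀ i j, X j i = - X i j) :
    gᵀ * dual (g * X * gᵀ) * g = g.det • dual X := by
  have e10 := h1 0 1
  have e20 := h1 0 2
  have e30 := h1 0 3
  have e21 := h1 1 2
  have e31 := h1 1 3
  have e32 := h1 2 3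
  ext a b
  rw [det4]
  fin_cases a <;> fin_cases b <;>
    simp only [dual, Matrix.smul_apply, smul_eq_mul, Matrix.mul_apply, Matrix.transpose_apply, Fin.sum_univ_four, Fin.isValue, Fin.zero_eta, Fin.mk_one, Fin.reduceFinMk, Matrix.of_apply, Matrix.cons_val', Matrix.cons_val_zero, Matrix.cons_val_one, Matrix.cons_val_fin_one, Matrix.cons_val, h0, e10, e20, e30, e21, e31, e32] <;>
    ring

end dual

variable {F K : Type*} [Field F] [Field K] {q : ℕ} {a b : F} (E : QuadExt F K q a b) (lam : K)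

/-- Coordinates. -/
abbrev I6 := (Fin 2 ⊕ Fin 2) ⊕ Fin 2

/-- The element `x`. -/
def xOf (v : I6 → F) : K := E.φ (v (.inl (.inl 0))) + E.φ (v (.inl (.inl 1))) * E.θ

/-- The element conjugate to `y`. -/
noncomputable def ybOf (v : I6 → F) : K :=
  (E.φ (v (.inl (.inr 1))) - E.φ (v (.inl (.inr 0))) * E.σ E.θ) * (E.θ - E.σ E.θ)⁻¹

/-- The element `z`. -/
def zOf (v : I6 → F) : K := E.φ (v (.inr 0)) + E.φ (v (.inr 1)) * E.θ

/-- An element of trace one. -/
noncomputable def kap : K := E.θ * (E.θ - E.σ E.θ)⁻¹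

/-- The coordinate `u`. -/
noncomputable def uOf (v : I6 → F) : K := xOf E v + E.σ (kap E) * E.σ (ybOf E v)

/-- The coordinate `w`. -/
noncomputable def wOf (v : I6 → F) : K := lam * (xOf E v - kap E * E.σ (ybOf E v))

theorem hδ : (E.θ - E.σ E.θ) * (E.θ - E.σ E.θ)⁻¹ = 1 := mul_inv_cancel₀ E.δ

theorem σ_δ : E.σ (E.θ - E.σ E.θ) = - (E.θ - E.σ E.θ) := by
  rw [map_sub, E.σσ]
  ring

theorem σ_δinv : E.σ ((E.θ - E.σ E.θ)⁻¹) = - (E.θ - E.σ E.θ)⁻¹ := by
  rw [map_inv₀, σ_δ, inv_neg]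

theorem kap_add : kap E + E.σ (kap E) = 1 := by
  rw [kap, map_mul, σ_δinv]
  linear_combination hδ E

theorem σ_yb (v : I6 → F) : E.σ (ybOf E v) =
    - ((E.φ (v (.inl (.inr 1))) - E.φ (v (.inl (.inr 0))) * E.θ) * (E.θ - E.σ E.θ)⁻¹) := by
  rw [ybOf, map_mul, σ_δinv, map_sub, map_mul, E.σσ, E.σφ, E.σφ]
  ring

theorem trace_identity (v : I6 → F) :
    E.σ (xOf E v) * E.σ (ybOf E v) + ybOf E v * xOf E v =
      E.φ (∑ i : Fin 2, v (.inl (.inl i)) * v (.inl (.inr i))) := by
  rw [σ_yb]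
  simp only [xOf, ybOf, map_add, map_mul, E.σφ, Fin.sum_univ_two]
  linear_combination (E.φ (v (.inl (.inl 0))) * E.φ (v (.inl (.inr 0))) +
    E.φ (v (.inl (.inl 1))) * E.φ (v (.inl (.inr 1)))) * (hδ E)

theorem norm_uw (hlam : E.σ lam * lam = -1) (v : I6 → F) :
    E.σ (uOf E v) * uOf E v + E.σ (wOf E lam v) * wOf E lam v =
      E.φ (∑ i : Fin 2, v (.inl (.inl i)) * v (.inl (.inr i))) := by
  rw [← trace_identity]
  have hk := kap_add E
  simp only [uOf, wOf, map_add, map_sub, map_mul, E.σσ]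
  set X := xOf E v
  set sX := E.σ X
  set yb := ybOf E v
  set y := E.σ yb
  set κ := kap E
  set sκ := E.σ κ
  linear_combination (sX * X - sX * κ * y - sκ * yb * X + κ * sκ * yb * y) * hlam + (sX * y + yb * X) * hk

theorem norm_z (v : I6 → F) : E.σ (zOf E v) * zOf E v =
    E.φ (v (.inr 0) ^ 2 + a * v (.inr 0) * v (.inr 1) + b * v (.inr 1) ^ 2) :=
  E.norm_mk _ _

/-- The matrix with the given coordinates. -/
noncomputable def toA (v : I6 → F) : Matrix (Fin 4) (Fin 4) K :=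
  !![0, uOf E v, wOf E lam v, zOf E v;
    - uOf E v, 0, E.σ (zOf E v), - E.σ (wOf E lam v);
    - wOf E lam v, - E.σ (zOf E v), 0, E.σ (uOf E v);
    - zOf E v, E.σ (wOf E lam v), - E.σ (uOf E v), 0]

theorem pf_toA (hlam : E.σ lam * lam = -1) (v : I6 → F) :
    pf (toA E lam v) = E.φ (Cfsg.quadFormMinus 2 F a b v) := by
  have h1 := norm_uw E lam hlam v
  have h2 := norm_z E v
  rw [Cfsg.quadFormMinus, map_add, ← h1, ← h2]
  simp [pf, toA]
  ring

/-- Matrices of the right shape. -/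
def IsH6 (X : Matrix (Fin 4) (Fin 4) K) : Prop :=
  (∀ i, X i i = 0) ∧ (∀ i j, X j i = - X i j) ∧ X 2 3 = E.σ (X 0 1) ∧ X 1 3 = - E.σ (X 0 2) ∧ X 1 2 = E.σ (X 0 3)

theorem isH6_toA (v : I6 → F) : IsH6 E (toA E lam v) := by
  refine ⟨?_, ?_, ?_, ?_, ?_⟩
  · intro i
    fin_cases i <;> simp [toA]
  · intro i j
    fin_cases i <;> fin_cases j <;> simp [toA]
  · simp [toA]
  · simp [toA]
  · simp [toA]

/-- Coordinates of a matrix: auxiliary `y`. -/
noncomputable def yAux (X : Matrix (Fin 4) (Fin 4) K) : K := X 0 1 - X 0 2 * lam⁻¹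

/-- Coordinates of a matrix: auxiliary `x`. -/
noncomputable def xAux (X : Matrix (Fin 4) (Fin 4) K) : K := X 0 2 * lam⁻¹ + kap E * yAux lam X

/-- Coordinates of a matrix: auxiliary `Y`. -/
noncomputable def YAux (X : Matrix (Fin 4) (Fin 4) K) : K := E.σ (yAux lam X) * (E.θ - E.σ E.θ)

/-- The coordinates of a matrix. -/
noncomputable def fromA (X : Matrix (Fin 4) (Fin 4) K) : I6 → F :=
  Sum.elim (Sum.elim ![E.c0 (xAux E lam X), E.c1 (xAux E lam X)]
    ![E.c1 (YAux E lam X), E.c0 (YAux E lam X) + a * E.c1 (YAux E lam X)])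
    ![E.c0 (X 0 3), E.c1 (X 0 3)]

theorem xOf_fromA (X : Matrix (Fin 4) (Fin 4) K) : xOf E (fromA E lam X) = xAux E lam X := by
  simpa [xOf, fromA] using E.decomp (xAux E lam X)

theorem zOf_fromA (X : Matrix (Fin 4) (Fin 4) K) : zOf E (fromA E lam X) = X 0 3 := by
  simpa [zOf, fromA] using E.decomp (X 0 3)

theorem ybOf_fromA (X : Matrix (Fin 4) (Fin 4) K) : ybOf E (fromA E lam X) = E.σ (yAux lam X) := by
  have h1 := E.decomp (YAux E lam X)
  have h2 : E.φ (E.c0 (YAux E lam X) + a * E.c1 (YAux E lam X)) - E.φ (E.c1 (YAux E lam X)) * E.σ E.θ = YAux E lam X := by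
    rw [E.σθ, map_add, map_mul]
    linear_combination h1
  simp only [ybOf, fromA, Sum.elim_inl, Sum.elim_inr, Matrix.cons_val_one, Matrix.cons_val_zero, Matrix.cons_val_fin_one]
  rw [h2, YAux, mul_assoc, hδ, mul_one]

theorem uOf_fromA (X : Matrix (Fin 4) (Fin 4) K) : uOf E (fromA E lam X) = X 0 1 := by
  have hk := kap_add E
  rw [uOf, xOf_fromA, ybOf_fromA, E.σσ, xAux, yAux]
  linear_combination (X 0 1 - X 0 2 * lam⁻¹) * hk

theorem wOf_fromA (hlam0 : lam ≠ 0) (X : Matrix (Fin 4) (Fin 4) K) : wOf E lam (fromA E lam X) = X 0 2 := by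
  rw [wOf, xOf_fromA, ybOf_fromA, E.σσ, xAux]
  field_simp
  ring

theorem toA_fromA (hlam0 : lam ≠ 0) (X : Matrix (Fin 4) (Fin 4) K) (h : IsH6 E X) : toA E lam (fromA E lam X) = X := by
  obtain ⟨h0, h1, h2, h3, h4⟩ := h
  ext i j
  fin_cases i <;> fin_cases j <;>
    simp [toA, h0, uOf_fromA, wOf_fromA E lam hlam0, zOf_fromA, h1 0 1, h1 0 2, h1 0 3, h1 1 2, h1 1 3, h1 2 3, h2, h3, h4]

theorem yAux_toA (hlam0 : lam ≠ 0) (v : I6 → F) : yAux lam (toA E lam v) = E.σ (ybOf E v) := by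
  have hk := kap_add E
  have h1 : (toA E lam v) 0 1 = uOf E v := by simp [toA]
  have h2 : (toA E lam v) 0 2 = wOf E lam v := by simp [toA]
  rw [yAux, h1, h2, uOf, wOf]
  field_simp
  linear_combination (E.σ (ybOf E v)) * hk

theorem xAux_toA (hlam0 : lam ≠ 0) (v : I6 → F) : xAux E lam (toA E lam v) = xOf E v := by
  have h2 : (toA E lam v) 0 2 = wOf E lam v := by simp [toA]
  rw [xAux, yAux_toA E lam hlam0, h2, wOf]
  field_simp
  ring

theorem YAux_toA (hlam0 : lam ≠ 0) (v : I6 → F) : YAux E lam (toA E lam v) =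
    E.φ (v (.inl (.inr 1)) - a * v (.inl (.inr 0))) + E.φ (v (.inl (.inr 0))) * E.θ := by
  rw [YAux, yAux_toA E lam hlam0, E.σσ, ybOf, mul_assoc, mul_comm (E.θ - E.σ E.θ)⁻¹, hδ, mul_one, E.σθ, map_sub, map_mul]
  ring

theorem fromA_toA (hlam0 : lam ≠ 0) (v : I6 → F) : fromA E lam (toA E lam v) = v := by
  have hx := xAux_toA E lam hlam0 v
  have hY := YAux_toA E lam hlam0 v
  ext i
  rcases i with (i | i) | i
  · fin_cases i
    · simp [fromA, hx, xOf, E.c0_mk]
    · simp [fromA, hx, xOf, E.c1_mk]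
  · have c1Y : E.c1 (YAux E lam (toA E lam v)) = v (.inl (.inr 0)) := by rw [hY, E.c1_mk]
    have c0Y : E.c0 (YAux E lam (toA E lam v)) = v (.inl (.inr 1)) - a * v (.inl (.inr 0)) := by rw [hY, E.c0_mk]
    fin_cases i
    · simp [fromA, c1Y]
    · simp [fromA, c1Y, c0Y]
  · have h3 : (toA E lam v) 0 3 = zOf E v := by simp [toA]
    fin_cases i
    · simp [fromA, h3, zOf, E.c0_mk]
    · simp [fromA, h3, zOf, E.c1_mk]

theorem toA_inj (hlam0 : lam ≠ 0) {u v : I6 → F} (h : toA E lam u = toA E lam v) : u = v := by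
  rw [← fromA_toA E lam hlam0 u, h, fromA_toA E lam hlam0]

theorem xOf_add (u v : I6 → F) : xOf E (u + v) = xOf E u + xOf E v := by
  simp only [xOf, Pi.add_apply, map_add]
  ring

theorem ybOf_add (u v : I6 → F) : ybOf E (u + v) = ybOf E u + ybOf E v := by
  simp only [ybOf, Pi.add_apply, map_add]
  ring

theorem zOf_add (u v : I6 → F) : zOf E (u + v) = zOf E u + zOf E v := by
  simp only [zOf, Pi.add_apply, map_add]
  ring

theorem uOf_add (u v : I6 → F) : uOf E (u + v) = uOf E u + uOf E v := by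
  simp only [uOf, xOf_add, ybOf_add, map_add]
  ring

theorem wOf_add (u v : I6 → F) : wOf E lam (u + v) = wOf E lam u + wOf E lam v := by
  simp only [wOf, xOf_add, ybOf_add, map_add]
  ring

theorem xOf_smul (c : F) (v : I6 → F) : xOf E (c • v) = E.φ c * xOf E v := by
  simp only [xOf, Pi.smul_apply, smul_eq_mul, map_mul]
  ring

theorem ybOf_smul (c : F) (v : I6 → F) : ybOf E (c • v) = E.φ c * ybOf E v := by
  simp only [ybOf, Pi.smul_apply, smul_eq_mul, map_mul]
  ring

theorem zOf_smul (c : F) (v : I6 → F) : zOf E (c • v) = E.φ c * zOf E v := by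
  simp only [zOf, Pi.smul_apply, smul_eq_mul, map_mul]
  ring

theorem uOf_smul (c : F) (v : I6 → F) : uOf E (c • v) = E.φ c * uOf E v := by
  simp only [uOf, xOf_smul, ybOf_smul, map_mul, E.σφ]
  ring

theorem wOf_smul (c : F) (v : I6 → F) : wOf E lam (c • v) = E.φ c * wOf E lam v := by
  simp only [wOf, xOf_smul, ybOf_smul, map_mul, E.σφ]
  ring

theorem toA_add (u v : I6 → F) : toA E lam (u + v) = toA E lam u + toA E lam v := by
  ext i j
  fin_cases i <;> fin_cases j <;> simp [toA, uOf_add, wOf_add, zOf_add] <;> ring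

theorem toA_smul (c : F) (v : I6 → F) : toA E lam (c • v) = E.φ c • toA E lam v := by
  ext i j
  fin_cases i <;> fin_cases j <;> simp [toA, uOf_smul, wOf_smul, zOf_smul, E.σφ]

theorem dual_eq_map (X : Matrix (Fin 4) (Fin 4) K) (h : IsH6 E X) : dual X = X.map E.σ := by
  obtain ⟨h0, h1, h2, h3, h4⟩ := h
  ext i j
  fin_cases i <;> fin_cases j <;>
    simp [dual, h0, h1 0 1, h1 0 2, h1 0 3, h1 1 2, h1 1 3, h1 2 3, h2, h3, h4, E.σσ]

theorem isH6_act (g : Matrix (Fin 4) (Fin 4) K) (hdet : g.det = 1) (hg : gᵀ * g.map E.σ = 1)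
    (X : Matrix (Fin 4) (Fin 4) K) (hX : IsH6 E X) : IsH6 E (g * X * gᵀ) := by
  have hX' := hX
  obtain ⟨h0, h1, -, -, -⟩ := hX'
  have h2 : g.map E.σ * gᵀ = 1 := mul_eq_one_comm.1 hg
  have h3 : (g.map E.σ)ᵀ * g = 1 := by
    have := congrArg Matrix.transpose hg
    simpa [Matrix.transpose_mul] using this
  have h4 : g * (g.map E.σ)ᵀ = 1 := mul_eq_one_comm.1 h3
  have h5 := dual_congr g X h0 h1
  rw [hdet, one_smul, dual_eq_map E X hX] at h5
  have h6 : dual (g * X * gᵀ) = (g * X * gᵀ).map E.σ := by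
    calc dual (g * X * gᵀ) = (g.map E.σ * gᵀ) * dual (g * X * gᵀ) * (g * (g.map E.σ)ᵀ) := by
          rw [h2, h4, Matrix.one_mul, Matrix.mul_one]
      _ = g.map E.σ * (gᵀ * dual (g * X * gᵀ) * g) * (g.map E.σ)ᵀ := by
          simp only [Matrix.mul_assoc]
      _ = g.map E.σ * X.map E.σ * (g.map E.σ)ᵀ := by rw [h5]
      _ = _ := by
          rw [Matrix.map_mul, Matrix.map_mul, Matrix.transpose_map]
  refine ⟨alt_congr_diag g X h0 h1, alt_congr_symm g X h1, ?_, ?_, ?_⟩
  · simpa [dual] using congrFun (congrFun h6 0) 1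
  · have := congrFun (congrFun h6 0) 2
    simp only [dual, Matrix.map_apply] at this
    have h7 : -(g * X * gᵀ) 1 3 = E.σ ((g * X * gᵀ) 0 2) := by simpa using this
    rw [← h7, neg_neg]
  · simpa [dual] using congrFun (congrFun h6 0) 3

section SUaction

open Cfsg.Agent.Lib.Classical.Herm.Basic Cfsg.Agent.Lib.Classical.Herm.SU Cfsg.Agent.Lib.Classical.Herm.Simple

variable [Fintype K] (hK : Fintype.card K = q ^ 2)

/-- The underlying matrix. -/
abbrev mm (x : SU 4 K q) : Matrix (Fin 4) (Fin 4) K := ((x : Matrix.SpecialLinearGroup (Fin 4) K) : Matrix (Fin 4) (Fin 4) K)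

include hK in
theorem mm_unitary (x : SU 4 K q) : (mm x)ᵀ * (mm x).map E.σ = 1 := by
  have h := transpose_mul_map hK (mm x) (preserves_su x)
  have h2 : (mm x).map E.σ = (mm x).map (sigma hK) := by
    ext i j
    simp only [Matrix.map_apply, sigma_apply, E.pow]
  rw [h2]
  exact h

/-- The action. -/
noncomputable def act (hlam0 : lam ≠ 0) (x : SU 4 K q) : Module.End F (I6 → F) where
  toFun v := fromA E lam (mm x * toA E lam v * (mm x)ᵀ)
  map_add' u v := by
    apply toA_inj E lam hlam0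
    have h3 : ∀ w, toA E lam (fromA E lam (mm x * toA E lam w * (mm x)ᵀ)) = mm x * toA E lam w * (mm x)ᵀ :=
      fun w => toA_fromA E lam hlam0 _ (isH6_act E _ x.1.2 (mm_unitary E hK x) _ (isH6_toA E lam w))
    change toA E lam (fromA E lam (mm x * toA E lam (u + v) * _)) =
      toA E lam (fromA E lam (mm x * toA E lam u * _) + fromA E lam (mm x * toA E lam v * _))
    rw [h3 (u + v), toA_add E lam u v, toA_add, h3, h3, Matrix.mul_add, Matrix.add_mul]
  map_smul' c v := by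
    apply toA_inj E lam hlam0
    have h3 : ∀ w, toA E lam (fromA E lam (mm x * toA E lam w * (mm x)ᵀ)) = mm x * toA E lam w * (mm x)ᵀ :=
      fun w => toA_fromA E lam hlam0 _ (isH6_act E _ x.1.2 (mm_unitary E hK x) _ (isH6_toA E lam w))
    change toA E lam (fromA E lam (mm x * toA E lam (c • v) * _)) = toA E lam (c • fromA E lam (mm x * toA E lam v * _))
    rw [h3 (c • v), toA_smul E lam c v, toA_smul, h3, Matrix.mul_smul, Matrix.smul_mul]

theorem toA_act (hlam0 : lam ≠ 0) (x : SU 4 K q) (v : I6 → F) :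
    toA E lam (act E lam hK hlam0 x v) = mm x * toA E lam v * (mm x)ᵀ :=
  toA_fromA E lam hlam0 _ (isH6_act E _ x.1.2 (mm_unitary E hK x) _ (isH6_toA E lam v))

/-- The action as a homomorphism. -/
noncomputable def actHom (hlam0 : lam ≠ 0) : SU 4 K q →* Module.End F (I6 → F) where
  toFun x := act E lam hK hlam0 x
  map_one' := by
    apply LinearMap.ext
    intro v
    apply toA_inj E lam hlam0
    rw [toA_act]
    change (1 : Matrix (Fin 4) (Fin 4) K) * _ * (1 : Matrix (Fin 4) (Fin 4) K)ᵀ = _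
    simp
  map_mul' x y := by
    apply LinearMap.ext
    intro v
    apply toA_inj E lam hlam0
    rw [Module.End.mul_apply, toA_act, toA_act, toA_act]
    change (mm x * mm y) * _ * (mm x * mm y)ᵀ = _
    rw [Matrix.transpose_mul]
    simp only [Matrix.mul_assoc]

theorem quad_actHom (hlam : E.σ lam * lam = -1) (hlam0 : lam ≠ 0) (x : SU 4 K q) (v : I6 → F) :
    Cfsg.quadFormMinus 2 F a b (actHom E lam hK hlam0 x v) = Cfsg.quadFormMinus 2 F a b v := by
  apply E.φ.injective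
  rw [← pf_toA E lam hlam, ← pf_toA E lam hlam]
  have h3 : toA E lam (actHom E lam hK hlam0 x v) = _ := toA_act E lam hK hlam0 x v
  obtain ⟨h0, h1, -, -, -⟩ := isH6_toA E lam v
  rw [h3, pf_congr _ _ h0 h1, x.1.2, one_mul]

/-- The homomorphism. -/
noncomputable def rho (hlam : E.σ lam * lam = -1) (hlam0 : lam ≠ 0) :
    SU 4 K q →* ↥(Cfsg.isometryGroup F (Cfsg.quadFormMinus 2 F a b)) :=
  ExcCore.isomHom _ (actHom E lam hK hlam0) (quad_actHom E lam hK hlam hlam0)

theorem mem_ker_rho (hlam : E.σ lam * lam = -1) (hlam0 : lam ≠ 0) (x : SU 4 K q) :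
    x ∈ (rho E lam hK hlam hlam0).ker ↔ ∀ X, IsH6 E X → mm x * X * (mm x)ᵀ = X := by
  have h0 : x ∈ (rho E lam hK hlam hlam0).ker ↔ ∀ v, actHom E lam hK hlam0 x v = v :=
    ExcCore.mem_ker_isomHom _ _ _ _
  rw [h0]
  constructor
  · intro h X hX
    have h2 := toA_act E lam hK hlam0 x (fromA E lam X)
    have h3 : act E lam hK hlam0 x (fromA E lam X) = _ := h (fromA E lam X)
    rw [h3, toA_fromA E lam hlam0 X hX] at h2
    exact h2.symm
  · intro h v
    apply toA_inj E lam hlam0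
    exact (toA_act E lam hK hlam0 x v).trans (h _ (isH6_toA E lam v))

/-- A specific matrix of the right shape. -/
def X02 : Matrix (Fin 4) (Fin 4) K := !![0, 0, 1, 0; 0, 0, 0, -1; -1, 0, 0, 0; 0, 1, 0, 0]

theorem isH6_X02 : IsH6 E (X02 (K := K)) := by
  refine ⟨?_, ?_, ?_, ?_, ?_⟩
  · intro i
    fin_cases i <;> simp [X02]
  · intro i j
    fin_cases i <;> fin_cases j <;> simp [X02]
  · simp [X02]
  · simp [X02]
  · simp [X02]

theorem ker_ne_top (hlam : E.σ lam * lam = -1) (hlam0 : lam ≠ 0) :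
    (rho E lam hK hlam hlam0).ker ≠ ⊤ := by
  intro htop
  obtain ⟨c, hc, hc2⟩ := exists_norm_one_sq_ne_one hK
  have hc0 : c ≠ 0 := by
    rintro rfl
    simp at hc
  have hc1 : c⁻¹ ^ (q + 1) = 1 := by
    rw [inv_pow, hc, inv_one]
  let d : Fin 4 → K := ![c, c⁻¹, 1, 1]
  have hd : ∀ k, d k ^ (q + 1) = 1 := by
    intro k
    fin_cases k <;> simp [d, hc]
  have hdet : (Matrix.diagonal d).det = 1 := by
    rw [Matrix.det_diagonal, Fin.prod_univ_four]
    simp [d, hc0]
  let x : SU 4 K q := mkSU (Matrix.diagonal d) hdet (preserves_diagonal d hd)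
  have hx : x ∈ (rho E lam hK hlam hlam0).ker := by
    rw [htop]
    trivial
  have h1 := (mem_ker_rho E lam hK hlam hlam0 x).1 hx X02 (isH6_X02 E)
  have h2 := congrFun (congrFun h1 0) 1
  have h3 : mm x = Matrix.diagonal d := rfl
  have h4 := congrFun (congrFun h1 0) 2
  rw [h3] at h4
  have h5 : c = 1 := by
    simpa [X02, d, Matrix.mul_apply, Fin.sum_univ_four, Matrix.diagonal_apply] using h4
  apply hc2
  rw [h5, one_pow]

/-- The element `-1`. -/
noncomputable def zz : SU 4 K q :=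
  mkSU (Matrix.scalar (Fin 4) (-1 : K))
    (by rw [det_scalar']; norm_num)
    (preserves_scalar _ (neg_one_pow_succ hK))

theorem mm_zz : mm (zz hK) = -1 := by
  change Matrix.scalar (Fin 4) (-1 : K) = -1
  rw [map_neg, map_one]

theorem mem_ker_zz (hlam : E.σ lam * lam = -1) (hlam0 : lam ≠ 0) :
    zz hK ∈ (rho E lam hK hlam hlam0).ker := by
  rw [mem_ker_rho]
  intro X _
  rw [mm_zz]
  simp

theorem ker_set (hlam : E.σ lam * lam = -1) (hlam0 : lam ≠ 0) (hle : (rho E lam hK hlam hlam0).ker ≤ Subgroup.center (SU 4 K q)) :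
    (((rho E lam hK hlam hlam0).ker : Subgroup _) : Set (SU 4 K q)) = {1, zz hK} := by
  ext x
  simp only [SetLike.mem_coe, Set.mem_insert_iff, Set.mem_singleton_iff]
  constructor
  · intro hx
    obtain ⟨c, hc⟩ := center_scalar hK x (hle hx)
    have h1 := (mem_ker_rho E lam hK hlam hlam0 x).1 hx X02 (isH6_X02 E)
    have h4 := congrFun (congrFun h1 0) 2
    rw [show mm x = Matrix.scalar (Fin 4) c from hc] at h4
    have h5 : c * c = 1 := by
      simpa [X02, Matrix.mul_apply, Fin.sum_univ_four, Matrix.diagonal_apply] using h4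
    have h6 : (c - 1) * (c + 1) = 0 := by linear_combination h5
    rcases mul_eq_zero.1 h6 with h7 | h7
    · left
      have h8 : c = 1 := by linear_combination h7
      apply Subtype.ext
      apply Subtype.ext
      rw [hc, h8]
      simp
    · right
      have h8 : c = -1 := by linear_combination h7
      apply Subtype.ext
      apply Subtype.ext
      rw [hc, h8]
      rfl
  · rintro (rfl | rfl)
    · exact Subgroup.one_mem _
    · exact mem_ker_zz E lam hK hlam hlam0

open Cfsg.Agent.Lib.Classical.Orth.Models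

include hK in
theorem exists_lam : ∃ l : K, E.σ l * l = -1 ∧ l ≠ 0 := by
  have h1 : (-1 : K) ^ q = -1 := by
    rw [pow_q_neg hK, one_pow]
  obtain ⟨c, hc⟩ := exists_norm_eq hK (-1) (neg_ne_zero.2 one_ne_zero) h1
  refine ⟨c, ?_, ?_⟩
  · rw [E.pow, ← pow_succ, hc]
  · rintro rfl
    have hq := two_le_q hK
    rw [zero_pow (by omega)] at hc
    exact one_ne_zero (neg_eq_zero.1 hc.symm)

include E hK in
theorem main6 (hab : ∀ z₁ z₂ : F, z₁ ^ 2 + a * z₁ * z₂ + b * z₂ ^ 2 = 0 → z₁ = 0 ∧ z₂ = 0)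
    [Fintype F]
    (hO : Nat.card ↥(Cfsg.isometryGroup F (Cfsg.quadFormMinus 2 F a b)) = 2 * Nat.card (SU 4 K q)) :
    Nonempty (Cfsg.POmega F (Cfsg.quadFormMinus 2 F a b) ≃* Cfsg.PSU 4 K q) := by
  classical
  obtain ⟨l, hlam, hlam0⟩ := exists_lam E hK
  have hh : ¬ (4 = 3 ∧ q = 2) := by omega
  have hperf : commutator (SU 4 K q) = ⊤ := perfect hK (by norm_num) hh
  have hs : IsSimpleGroup (Cfsg.PSU 4 K q) := isSimpleGroup_PSU hK (by norm_num) hh
  have hker : (rho E l hK hlam hlam0).ker ≤ Subgroup.center (SU 4 K q) :=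
    (ExcCore.normal_le_center_or_top hperf hs _ (rho E l hK hlam hlam0).normal_ker).resolve_right
      (ker_ne_top E l hK hlam hlam0)
  refine ExcCore.pomega_equiv _ (rho E l hK hlam hlam0) ?_ hker (ExcCore.center_eq_bot_of_simple hperf hs)
  have hle := ExcCore.range_le_omega _ (rho E l hK hlam hlam0) hperf
  have hcr := ExcCore.card_range_mul_ker (rho E l hK hlam hlam0)
  have hset := ker_set E l hK hlam hlam0 hker
  have hc3 : Nat.card (rho E l hK hlam hlam0).ker =
      (((rho E l hK hlam hlam0).ker : Subgroup _) : Set (SU 4 K q)).ncard :=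
    Nat.card_coe_set_eq _
  rw [hset] at hc3
  by_cases h2 : (2 : F) = 0
  · have h2K : (2 : K) = 0 := (QuadExt.two_iff E).2 h2
    have hz : zz hK = (1 : SU 4 K q) := by
      apply Subtype.ext
      apply Subtype.ext
      change mm (zz hK) = 1
      rw [mm_zz]
      have : (-1 : Matrix (Fin 4) (Fin 4) K) = 1 := by
        rw [neg_eq_iff_add_eq_zero]
        ext i j
        by_cases hij : i = j
        · subst hij
          simp only [Matrix.add_apply, Matrix.one_apply_eq, Matrix.zero_apply]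
          linear_combination h2K
        · simp [Matrix.one_apply_ne hij]
      exact this
    rw [hz] at hc3
    simp only [Set.insert_eq_of_mem, Set.mem_singleton_iff, Set.ncard_singleton] at hc3
    rw [hc3, mul_one] at hcr
    refine ExcCore.range_eq_omega_two' (minusForm 2 F a b) (coe_minusForm 2 F a b) _ hle ?_
    rw [hO, hcr]
  · have h2K : (2 : K) ≠ 0 := fun h => h2 ((QuadExt.two_iff E).1 h)
    have hz : (1 : SU 4 K q) ≠ zz hK := by
      intro h
      have h3 := congrArg mm h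
      rw [mm_zz, show mm (1 : SU 4 K q) = 1 from rfl] at h3
      have h4 := congrFun (congrFun h3 0) 0
      have h5 : (1 : K) = -1 := by simpa using h4
      apply h2K
      linear_combination h5
    rw [Set.ncard_pair hz] at hc3
    rw [hc3] at hcr
    refine ExcCore.range_eq_omega_odd' (minusForm 2 F a b) (coe_minusForm 2 F a b)
      (minusForm_nondegenerate 2 a b hab) h2 (by simp) _ hle ?_
    rw [hO, ← hcr]
    ring

end SUaction

end Cfsg.Agent.Lib.Classical.Herm.ExcMinus6
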