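import Mathlib
import Cfsg.Agent.Lib.Classical.Herm.ExcKlein
import Cfsg.Agent.Lib.Classical.Symp.SimpleMatrix
import Cfsg.Agent.Lib.Classical.Symp.Perfect
import Cfsg.Agent.Lib.Classical.Symp.Count

/-!
# `PΩ₅(q) ≅ PSp₄(q)`, `q` odd
-/

set_option autoImplicit false
set_option linter.unusedSectionVars false

namespace Cfsg.Agent.Lib.Classical.Herm.ExcOdd5

open Matrix Cfsg Cfsg.Agent.Lib.Classical.Herm.ExcKlein

variable {F : Type*} [Field F]

/-- The reindexing. -/
def e4 : Fin 4 ≃ Fin 2 ⊕ Fin 2 where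
  toFun := ![.inl 0, .inl 1, .inr 0, .inr 1]
  invFun := Sum.elim ![0, 1] ![2, 3]
  left_inv := by intro i; fin_cases i <;> rfl
  right_inv := by intro i; rcases i with i | i <;> fin_cases i <;> rfl

@[simp] theorem e4_0 : e4 0 = .inl 0 := rfl
@[simp] theorem e4_1 : e4 1 = .inl 1 := rfl
@[simp] theorem e4_2 : e4 2 = .inr 0 := rfl
@[simp] theorem e4_3 : e4 3 = .inr 1 := rfl

/-- Reindexing to `Fin 4`. -/
def toF4 (g : Matrix (Fin 2 ⊕ Fin 2) (Fin 2 ⊕ Fin 2) F) : Matrix (Fin 4) (Fin 4) F := g.submatrix e4 e4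

theorem toF4_mul (g h : Matrix (Fin 2 ⊕ Fin 2) (Fin 2 ⊕ Fin 2) F) : toF4 (g * h) = toF4 g * toF4 h :=
  (Matrix.submatrix_mul_equiv g h e4 e4 e4).symm

theorem toF4_one : toF4 (1 : Matrix (Fin 2 ⊕ Fin 2) (Fin 2 ⊕ Fin 2) F) = 1 :=
  Matrix.submatrix_one_equiv e4

theorem toF4_transpose (g : Matrix (Fin 2 ⊕ Fin 2) (Fin 2 ⊕ Fin 2) F) : toF4 gᵀ = (toF4 g)ᵀ := rfl

theorem toF4_det (g : Matrix (Fin 2 ⊕ Fin 2) (Fin 2 ⊕ Fin 2) F) : (toF4 g).det = g.det :=
  Matrix.det_submatrix_equiv_self e4 g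

/-- The form `J` on `Fin 4`. -/
def J4 : Matrix (Fin 4) (Fin 4) F := !![0, 0, -1, 0; 0, 0, 0, -1; 1, 0, 0, 0; 0, 1, 0, 0]

theorem toF4_J : toF4 (Matrix.J (Fin 2) F) = J4 := by
  ext i j
  fin_cases i <;> fin_cases j <;> simp [toF4, J4, Matrix.J]

theorem pf_J4 : pf (J4 (F := F)) = -1 := by
  simp [pf, J4]

/-- Coordinates of the five-dimensional space. -/
abbrev I5 := Unit ⊕ (Fin 2 ⊕ Fin 2)

/-- The alternating matrix with given coordinates. -/
def toAlt5 (w : I5 → F) : Matrix (Fin 4) (Fin 4) F :=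
  !![0, w (.inr (.inl 0)), w (.inl ()), w (.inr (.inl 1));
    - w (.inr (.inl 0)), 0, w (.inr (.inr 1)), - w (.inl ());
    - w (.inl ()), - w (.inr (.inr 1)), 0, w (.inr (.inr 0));
    - w (.inr (.inl 1)), w (.inl ()), - w (.inr (.inr 0)), 0]

/-- The coordinates of an alternating matrix. -/
def fromAlt5 (X : Matrix (Fin 4) (Fin 4) F) : I5 → F :=
  Sum.elim (fun _ => X 0 2) (Sum.elim ![X 0 1, X 0 3] ![X 2 3, X 1 2])

theorem toAlt5_diag (w : I5 → F) (i : Fin 4) : toAlt5 w i i = 0 := by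
  fin_cases i <;> simp [toAlt5]

theorem toAlt5_symm (w : I5 → F) (i j : Fin 4) : toAlt5 w j i = - toAlt5 w i j := by
  fin_cases i <;> fin_cases j <;> simp [toAlt5]

theorem toAlt5_perp (w : I5 → F) : toAlt5 w 0 2 + toAlt5 w 1 3 = 0 := by
  simp [toAlt5]

theorem fromAlt5_toAlt5 (w : I5 → F) : fromAlt5 (toAlt5 w) = w := by
  ext i
  rcases i with i | i | i
  · simp [toAlt5, fromAlt5]
  · fin_cases i <;> simp [toAlt5, fromAlt5]
  · fin_cases i <;> simp [toAlt5, fromAlt5]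

theorem toAlt5_fromAlt5 (X : Matrix (Fin 4) (Fin 4) F) (h0 : ∀ i, X i i = 0) (h1 : ∀ i j, X j i = - X i j)
    (hp : X 0 2 + X 1 3 = 0) : toAlt5 (fromAlt5 X) = X := by
  have h13 : X 0 2 = - X 1 3 := by linear_combination hp
  ext i j
  fin_cases i <;> fin_cases j <;> simp [toAlt5, fromAlt5, h0, h1 0 1, h1 0 2, h1 0 3, h1 1 2, h1 1 3, h1 2 3, h13]

theorem pf_toAlt5 (w : I5 → F) : pf (toAlt5 w) = Cfsg.quadFormOdd 2 F w := by
  simp [pf, toAlt5, Cfsg.quadFormOdd, Fin.sum_univ_two]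
  ring

theorem toAlt5_add (u v : I5 → F) : toAlt5 (u + v) = toAlt5 u + toAlt5 v := by
  ext i j
  fin_cases i <;> fin_cases j <;> simp [toAlt5] <;> ring

theorem toAlt5_smul (c : F) (v : I5 → F) : toAlt5 (c • v) = c • toAlt5 v := by
  ext i j
  fin_cases i <;> fin_cases j <;> simp [toAlt5]

theorem fromAlt5_add (X Y : Matrix (Fin 4) (Fin 4) F) : fromAlt5 (X + Y) = fromAlt5 X + fromAlt5 Y := by
  ext i
  rcases i with i | i | i
  · simp [fromAlt5]
  · fin_cases i <;> simp [fromAlt5]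
  · fin_cases i <;> simp [fromAlt5]

theorem fromAlt5_smul (c : F) (X : Matrix (Fin 4) (Fin 4) F) : fromAlt5 (c • X) = c • fromAlt5 X := by
  ext i
  rcases i with i | i | i
  · simp [fromAlt5]
  · fin_cases i <;> simp [fromAlt5]
  · fin_cases i <;> simp [fromAlt5]

/-- Matrices preserving `J4`. -/
def PresJ (G : Matrix (Fin 4) (Fin 4) F) : Prop := G * J4 * Gᵀ = J4

theorem presJ_of_mem (x : symplecticGroup (Fin 2) F) : PresJ (toF4 x.1) := by
  have h := (SymplecticGroup.mem_iff (l := Fin 2) (R := F)).1 x.2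
  have h2 := congrArg toF4 h
  rw [toF4_mul, toF4_mul, toF4_J, toF4_transpose] at h2
  exact h2

theorem det_of_presJ {G : Matrix (Fin 4) (Fin 4) F} (h : PresJ G) : G.det = 1 := by
  have h1 := pf_congr G (J4 (F := F))
    (by intro i; fin_cases i <;> simp [J4])
    (by intro i j; fin_cases i <;> fin_cases j <;> simp [J4])
  rw [h, pf_J4] at h1
  have h3 : (-1 : F) ≠ 0 := neg_ne_zero.2 one_ne_zero
  have : G.det * (-1) = 1 * (-1) := by rw [← h1, one_mul]
  exact mul_right_cancel₀ h3 this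

theorem perp_congr {G : Matrix (Fin 4) (Fin 4) F} (h : PresJ G) (X : Matrix (Fin 4) (Fin 4) F)
    (h0 : ∀ i, X i i = 0) (h1 : ∀ i j, X j i = - X i j) :
    (G * X * Gᵀ) 0 2 + (G * X * Gᵀ) 1 3 = X 0 2 + X 1 3 := by
  have hd := det_of_presJ h
  have hJ0 : ∀ i, (J4 (F := F)) i i = 0 := by intro i; fin_cases i <;> simp [J4]
  have hJ1 : ∀ i j, (J4 (F := F)) j i = - (J4 (F := F)) i j := by intro i j; fin_cases i <;> fin_cases j <;> simp [J4]
  have h2 := pf_congr G X h0 h1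
  have h3 := pf_congr G (X + J4) (by intro i; simp [h0, hJ0]) (by
    intro i j
    simp only [Matrix.add_apply, h1 i j, hJ1 i j]
    ring)
  have h4 : G * (X + J4) * Gᵀ = G * X * Gᵀ + J4 := by
    rw [Matrix.mul_add, Matrix.add_mul, h]
  rw [h4, hd, one_mul] at h3
  rw [hd, one_mul] at h2
  have h5 : ∀ Y : Matrix (Fin 4) (Fin 4) F, pf (Y + J4) = pf Y + (Y 0 2 + Y 1 3) - 1 := by
    intro Y
    simp [pf, J4]
    ring
  rw [h5, h5, h2] at h3
  linear_combination h3

/-- The action of a matrix preserving `J4`. -/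
def act5 (G : Matrix (Fin 4) (Fin 4) F) : Module.End F (I5 → F) where
  toFun w := fromAlt5 (G * toAlt5 w * Gᵀ)
  map_add' u v := by
    rw [toAlt5_add, Matrix.mul_add, Matrix.add_mul, fromAlt5_add]
  map_smul' c v := by
    rw [toAlt5_smul, Matrix.mul_smul, Matrix.smul_mul, fromAlt5_smul]
    rfl

theorem act5_apply (G : Matrix (Fin 4) (Fin 4) F) (v) : act5 G v = fromAlt5 (G * toAlt5 v * Gᵀ) := rfl

theorem toAlt5_act5 {G : Matrix (Fin 4) (Fin 4) F} (h : PresJ G) (v) : toAlt5 (act5 G v) = G * toAlt5 v * Gᵀ := by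
  rw [act5_apply]
  apply toAlt5_fromAlt5 _ (alt_congr_diag G _ (toAlt5_diag v) (toAlt5_symm v)) (alt_congr_symm G _ (toAlt5_symm v))
  rw [perp_congr h _ (toAlt5_diag v) (toAlt5_symm v), toAlt5_perp]

/-- The action of `Sp₄`. -/
noncomputable def actSp : symplecticGroup (Fin 2) F →* Module.End F (I5 → F) where
  toFun x := act5 (toF4 x.1)
  map_one' := by
    apply LinearMap.ext
    intro w
    simp [act5_apply, toF4_one, fromAlt5_toAlt5]
  map_mul' x y := by
    apply LinearMap.ext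
    intro v
    rw [Module.End.mul_apply, act5_apply (toF4 x.1) (act5 (toF4 y.1) v), toAlt5_act5 (presJ_of_mem y), act5_apply]
    congr 1
    have : ((x * y : symplecticGroup (Fin 2) F) : Matrix (Fin 2 ⊕ Fin 2) (Fin 2 ⊕ Fin 2) F) = x.1 * y.1 := rfl
    rw [this, toF4_mul, Matrix.transpose_mul]
    simp only [Matrix.mul_assoc]

theorem actSp_apply (x : symplecticGroup (Fin 2) F) (v) : actSp x v = act5 (toF4 x.1) v := rfl

theorem quad_actSp (x : symplecticGroup (Fin 2) F) (v) :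
    Cfsg.quadFormOdd 2 F (actSp x v) = Cfsg.quadFormOdd 2 F v := by
  rw [← pf_toAlt5, ← pf_toAlt5, actSp_apply, toAlt5_act5 (presJ_of_mem x),
    pf_congr _ _ (toAlt5_diag v) (toAlt5_symm v), det_of_presJ (presJ_of_mem x), one_mul]

/-- The homomorphism from `Sp₄`. -/
noncomputable def rho5 : symplecticGroup (Fin 2) F →* ↥(Cfsg.isometryGroup F (Cfsg.quadFormOdd 2 F)) :=
  ExcCore.isomHom (Cfsg.quadFormOdd 2 F) actSp quad_actSp

theorem mem_ker_rho5 (x : symplecticGroup (Fin 2) F) :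
    x ∈ (rho5 (F := F)).ker ↔ ∀ v, act5 (toF4 x.1) v = v :=
  ExcCore.mem_ker_isomHom _ _ _ x

/-- A nontrivial element. -/
def bb : Matrix (Fin 2) (Fin 2) F := !![1, 0; 0, 0]

theorem x0_mem : Matrix.fromBlocks 1 (bb (F := F)) 0 1 ∈ symplecticGroup (Fin 2) F := by
  rw [SymplecticGroup.mem_iff, Matrix.J, Matrix.fromBlocks_transpose, Matrix.fromBlocks_multiply,
    Matrix.fromBlocks_multiply]
  have h : (bb (F := F))ᵀ = bb := by
    ext i j
    fin_cases i <;> fin_cases j <;> simp [bb]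
  rw [h]
  simp

theorem x0_not_ker : ¬ ∀ v, act5 (toF4 (Matrix.fromBlocks 1 (bb (F := F)) 0 1)) v = v := by
  intro h
  have h1 := congrFun (h (Sum.elim 0 (Sum.elim 0 ![0, 1]))) (.inr (.inl 0))
  have hG : toF4 (Matrix.fromBlocks 1 (bb (F := F)) 0 1) = !![1, 0, 1, 0; 0, 1, 0, 0; 0, 0, 1, 0; 0, 0, 0, 1] := by
    ext i j
    fin_cases i <;> fin_cases j <;> simp [toF4, bb]
  rw [hG] at h1
  simp [act5_apply, fromAlt5, toAlt5, Matrix.mul_apply, Fin.sum_univ_four] at h1

theorem act5_scalar (c : F) (v) : act5 (c • (1 : Matrix (Fin 4) (Fin 4) F)) v = c ^ 2 • v := by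
  rw [act5_apply]
  have h : (c • (1 : Matrix (Fin 4) (Fin 4) F)) * toAlt5 v * (c • (1 : Matrix (Fin 4) (Fin 4) F))ᵀ = c ^ 2 • toAlt5 v := by
    simp [smul_smul, pow_two]
  rw [h, fromAlt5_smul, fromAlt5_toAlt5]

section main

open Cfsg.Agent.Lib.Classical.Orth.Models
open Cfsg.Agent.Lib.Classical.Symp.SimpleMatrix Cfsg.Agent.Lib.Classical.Symp.Perfect

variable [Fintype F]

theorem main (h2 : (2 : F) ≠ 0) (hq : 3 ≤ Fintype.card F)
    (hO : Nat.card ↥(Cfsg.isometryGroup F (Cfsg.quadFormOdd 2 F)) = 2 * Nat.card (symplecticGroup (Fin 2) F)) :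
    Nonempty (Cfsg.POmega F (Cfsg.quadFormOdd 2 F) ≃* Cfsg.PSp 2 F) := by
  classical
  have hperf : commutator (symplecticGroup (Fin 2) F) = ⊤ := commutator_symplecticGroup 2 (Or.inr (Or.inl ⟨rfl, hq⟩))
  have hs : IsSimpleGroup (Cfsg.PSp 2 F) := isSimpleGroup_PSp 2 le_rfl (fun _ => hq)
  have hker : (rho5 (F := F)).ker ≤ Subgroup.center (symplecticGroup (Fin 2) F) := by
    rcases ExcCore.normal_le_center_or_top hperf hs _ (rho5 (F := F)).normal_ker with h | h
    · exact h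
    · exfalso
      have h1 : (⟨_, x0_mem⟩ : symplecticGroup (Fin 2) F) ∈ (rho5 (F := F)).ker := by
        rw [h]
        trivial
      exact x0_not_ker ((mem_ker_rho5 ⟨_, x0_mem⟩).1 h1)
  refine ExcCore.pomega_equiv _ rho5 ?_ hker (ExcCore.center_eq_bot_of_simple hperf hs)
  have hle := ExcCore.range_le_omega _ (rho5 (F := F)) hperf
  have hcr := ExcCore.card_range_mul_ker (rho5 (F := F))
  have hnegmem : (-1 : Matrix (Fin 2 ⊕ Fin 2) (Fin 2 ⊕ Fin 2) F) ∈ symplecticGroup (Fin 2) F := by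
    rw [SymplecticGroup.mem_iff]
    simp
  let z : symplecticGroup (Fin 2) F := ⟨-1, hnegmem⟩
  have hkerset : (((rho5 (F := F)).ker : Subgroup _) : Set (symplecticGroup (Fin 2) F)) = {1, z} := by
    ext x
    simp only [SetLike.mem_coe, Set.mem_insert_iff, Set.mem_singleton_iff]
    constructor
    · intro hx
      rcases (center_symplectic_iff x (by norm_num)).1 (hker hx) with h | h
      · left
        exact Subtype.ext h
      · right
        exact Subtype.ext h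
    · rintro (rfl | rfl)
      · exact Subgroup.one_mem _
      · rw [mem_ker_rho5]
        intro v
        have h3 : toF4 (z.1) = (-1 : F) • (1 : Matrix (Fin 4) (Fin 4) F) := by
          ext i j
          by_cases hij : i = j
          · subst hij
            simp [z, toF4]
          · have h4 : e4 i ≠ e4 j := e4.injective.ne hij
            simp [z, toF4, hij, h4]
        rw [h3, act5_scalar]
        simp
  have hz1 : (1 : symplecticGroup (Fin 2) F) ≠ z := by
    intro h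
    have h3 := congrFun (congrFun (congrArg Subtype.val h) (.inl 0)) (.inl 0)
    have h4 : (1 : F) = -1 := by simpa [z] using h3
    apply h2
    linear_combination h4
  have hcard2 : Nat.card (rho5 (F := F)).ker = 2 := by
    have h3 : Nat.card (rho5 (F := F)).ker = (((rho5 (F := F)).ker : Subgroup _) : Set (symplecticGroup (Fin 2) F)).ncard :=
      Nat.card_coe_set_eq _
    rw [h3, hkerset, Set.ncard_pair hz1]
  rw [hcard2] at hcr
  refine ExcCore.range_eq_omega_odd' (oddForm 2 F) (coe_oddForm 2 F) (oddForm_nondegenerate h2 2) h2 (by simp) _ hle ?_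
  rw [hO, ← hcr]
  ring

end main

end Cfsg.Agent.Lib.Classical.Herm.ExcOdd5
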