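import Mathlib
import Cfsg.Agent.Lib.Classical.Herm.Hilbert90

/-!
# The norm-one torus of a finite commutative ring with a simple involution

`R` is a finite reduced commutative ring with an involution `τ` whose only fixed idempotents are `0`
and `1`, and `s - τ s` is a unit for some `s`.  Every nonzero fixed element is a unit; the group of
norm-one units is cyclic, of even order `L`, its nontrivial elements `t` have `t - 1` a unit; and the
number of `x` with `ℓ (τ x * x) = d` is `L * A₀` with `A₀` odd, for `ℓ` additive, `τ`-invariant and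
onto on the fixed elements.
-/

set_option autoImplicit false
set_option linter.style.haveILetI false

namespace Cfsg.Agent.Lib.Classical.Herm.FusCore

open Cfsg.Agent.Lib.Classical.Herm

variable {R : Type*} [CommRing R] [Finite R]
variable (τ : R →+* R)

omit [Finite R] in
theorem eq_zero_of_pow (hred : ∀ x : R, x * x = 0 → x = 0) {x : R} {k : ℕ} (hx : x ^ k = 0) : x = 0 := by
  haveI : IsReduced R := (isReduced_iff_pow_one_lt 2 (by norm_num)).2 (fun y hy => hred y (by
    rw [← hy, pow_two]))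
  exact IsReduced.eq_zero x ⟨k, hx⟩

/-- Nonzero fixed elements are units. -/
theorem fixed_isUnit (hred : ∀ x : R, x * x = 0 → x = 0)
    (hid : ∀ e : R, τ e = e → e * e = e → e = 0 ∨ e = 1) {y : R} (hy : τ y = y) (h0 : y ≠ 0) : IsUnit y := by
  obtain ⟨k, hk, hkid⟩ := Hilbert90.exists_pow_idem y
  have hτe : τ (y ^ k) = y ^ k := by rw [map_pow, hy]
  rcases hid _ hτe hkid with h | h
  · exact absurd (eq_zero_of_pow hred h) h0
  · exact (isUnit_pow_iff (Nat.one_le_iff_ne_zero.mp hk)).1 (by rw [h]; exact isUnit_one)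

/-- `t - 1` is a unit for a nontrivial norm-one element `t`. -/
theorem sub_one_isUnit (hτ : ∀ x, τ (τ x) = x) (hred : ∀ x : R, x * x = 0 → x = 0)
    (hid : ∀ e : R, τ e = e → e * e = e → e = 0 ∨ e = 1) {t : R} (ht : τ t * t = 1) (hne : t ≠ 1) :
    IsUnit (t - 1) := by
  set y := τ (t - 1) * (t - 1) with hy
  have hfix : τ y = y := by
    simp only [hy, map_mul, hτ]
    ring
  have h0 : y ≠ 0 := by
    intro h
    have h1 : (t - 1) * (t - 1) = 0 := by
      have h2 : t * y = -((t - 1) * (t - 1)) := by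
        simp only [hy, map_sub, map_one]
        linear_combination (t - 1) * ht
      rw [h, mul_zero] at h2
      linear_combination h2
    exact hne (sub_eq_zero.mp (hred _ h1))
  have hu := fixed_isUnit τ hred hid hfix h0
  exact isUnit_of_mul_isUnit_right hu

/-- A nonzero element is detected by the trace form. -/
theorem exists_ell_ne (hτ : ∀ x, τ (τ x) = x) (hred : ∀ x : R, x * x = 0 → x = 0)
    (hid : ∀ e : R, τ e = e → e * e = e → e = 0 ∨ e = 1) {A : Type*} [AddCommGroup A] (ℓ : R →+ A)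
    (hℓτ : ∀ x, ℓ (τ x) = ℓ x) (hℓ1 : ℓ 1 ≠ 0) {x : R} (hx : x ≠ 0) : ∃ z, ℓ (z * x) ≠ 0 := by
  by_contra hcon
  push Not at hcon
  obtain ⟨k, hk, hkid⟩ := Hilbert90.exists_pow_idem x
  set ε := x ^ k with hεdef
  have hε0 : ε ≠ 0 := fun h => hx (eq_zero_of_pow hred h)
  have hεx : ε = x ^ (k - 1) * x := by
    rw [hεdef, ← pow_succ]
    congr 1
    omega
  have h1 : ℓ ε = 0 := by
    rw [hεx]
    exact hcon _
  have h2 : ℓ (τ ε) = 0 := by rw [hℓτ, h1]
  have hττ : τ (τ ε) = ε := hτ ε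
  have hτid : τ ε * τ ε = τ ε := by rw [← map_mul, hkid]
  rcases hid (ε * τ ε) (by rw [map_mul, hττ, mul_comm]) (by
      calc ε * τ ε * (ε * τ ε) = (ε * ε) * (τ ε * τ ε) := by ring
        _ = ε * τ ε := by rw [hkid, hτid]) with h3 | h3
  · rcases hid (ε + τ ε) (by rw [map_add, hττ, add_comm]) (by
      calc (ε + τ ε) * (ε + τ ε) = ε * ε + τ ε * τ ε + 2 * (ε * τ ε) := by ring
        _ = ε + τ ε := by rw [hkid, hτid, h3]; ring) with h4 | h4
    · apply hε0
      calc ε = ε * ε := hkid.symm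
        _ = ε * (ε + τ ε) - ε * τ ε := by ring
        _ = 0 := by rw [h3, h4]; ring
    · apply hℓ1
      rw [← h4, map_add, h1, h2, add_zero]
  · have h4 : ε = 1 := by
      calc ε = ε * (ε * τ ε) := by rw [h3, mul_one]
        _ = (ε * ε) * τ ε := by ring
        _ = 1 := by rw [hkid, h3]
    apply hℓ1
    rw [← h4, h1]

/-- The group of norm-one units. -/
def Gam : Subgroup Rˣ where
  carrier := {u | τ (u : R) * (u : R) = 1}
  one_mem' := by simp
  mul_mem' := by
    intro a b (ha : τ (a : R) * (a : R) = 1) (hb : τ (b : R) * (b : R) = 1)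
    show τ ((a * b : Rˣ) : R) * ((a * b : Rˣ) : R) = 1
    rw [Units.val_mul, map_mul]
    linear_combination (τ (b : R) * (b : R)) * ha + hb
  inv_mem' := by
    intro a (ha : τ (a : R) * (a : R) = 1)
    show τ ((a⁻¹ : Rˣ) : R) * ((a⁻¹ : Rˣ) : R) = 1
    have h1 : τ ((a⁻¹ : Rˣ) : R) * τ (a : R) = 1 := by
      rw [← map_mul]
      simp
    calc τ ((a⁻¹ : Rˣ) : R) * ((a⁻¹ : Rˣ) : R)
        = τ ((a⁻¹ : Rˣ) : R) * ((a⁻¹ : Rˣ) : R) * (τ (a : R) * (a : R)) := by rw [ha, mul_one]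
      _ = (τ ((a⁻¹ : Rˣ) : R) * τ (a : R)) * ((a⁻¹ : Rˣ) * (a : R) : R) := by ring
      _ = 1 := by rw [h1]; simp

theorem mem_Gam {u : Rˣ} : u ∈ Gam τ ↔ τ (u : R) * (u : R) = 1 := Iff.rfl

/-- The norm-one group is cyclic. -/
theorem Gam_isCyclic (hτ : ∀ x, τ (τ x) = x) (hred : ∀ x : R, x * x = 0 → x = 0)
    (hid : ∀ e : R, τ e = e → e * e = e → e = 0 ∨ e = 1) (hne1 : (1 : R) ≠ 0) : IsCyclic (Gam τ) := by
  classical
  haveI : Nontrivial R := ⟨⟨1, 0, hne1⟩⟩
  obtain ⟨m, hm⟩ := Ideal.exists_maximal R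
  letI := Ideal.Quotient.field m
  haveI : Finite Rˣ := Finite.of_injective (fun x : Rˣ => (x : R)) Units.val_injective
  let f : Gam τ →* (R ⧸ m) :=
    ((Ideal.Quotient.mk m : R →+* R ⧸ m) : R →* R ⧸ m).comp ((Units.coeHom R).comp (Subgroup.subtype _))
  refine isCyclic_of_injective_ringHom f ?_
  intro u v huv
  by_contra hne
  have h1 : ((u : Rˣ) : R) - ((v : Rˣ) : R) ∈ m := by
    rw [← Ideal.Quotient.eq]
    exact huv
  have hw : (u * v⁻¹ : Gam τ) ≠ 1 := by
    intro h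
    exact hne (mul_inv_eq_one.mp h)
  have hw' : (((u * v⁻¹ : Gam τ) : Rˣ) : R) ≠ 1 := by
    intro h
    apply hw
    apply Subtype.ext
    apply Units.ext
    simpa using h
  have h2 := sub_one_isUnit τ hτ hred hid (t := (((u * v⁻¹ : Gam τ) : Rˣ) : R)) (u * v⁻¹).2 hw'
  have h3 : ((u : Rˣ) : R) - ((v : Rˣ) : R) = ((((u * v⁻¹ : Gam τ) : Rˣ) : R) - 1) * ((v : Rˣ) : R) := by
    simp only [Subgroup.coe_mul, Subgroup.coe_inv, Units.val_mul, sub_mul, one_mul, mul_assoc]
    simp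
  have h4 : IsUnit (((u : Rˣ) : R) - ((v : Rˣ) : R)) := by
    rw [h3]
    exact h2.mul (v : Rˣ).isUnit
  exact hm.ne_top (Ideal.eq_top_of_isUnit_mem m h1 h4)

/-- The fibres of the norm over a nonzero fixed element are cosets of the norm-one group. -/
theorem card_norm_fibre (hτ : ∀ x, τ (τ x) = x) (hred : ∀ x : R, x * x = 0 → x = 0)
    (hid : ∀ e : R, τ e = e → e * e = e → e = 0 ∨ e = 1) {s : R} (hs : IsUnit (s - τ s))
    {y : R} (hy : τ y = y) (h0 : y ≠ 0) : Nat.card {x : R // τ x * x = y} = Nat.card (Gam τ) := by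
  have hyu := fixed_isUnit τ hred hid hy h0
  obtain ⟨c, hcu, hc⟩ := Hilbert90.exists_norm τ hτ hs hyu hy
  obtain ⟨c, rfl⟩ := hcu
  symm
  refine Nat.card_congr (Equiv.ofBijective (fun u : Gam τ => (⟨((u : Rˣ) : R) * (c : R), ?_⟩ : {x : R // τ x * x = y})) ⟨?_, ?_⟩)
  · rw [map_mul, ← hc]
    have h1 := u.2
    rw [mem_Gam] at h1
    linear_combination (τ (c : R) * (c : R)) * h1
  · intro u v huv
    have h1 : ((u : Rˣ) : R) * (c : R) = ((v : Rˣ) : R) * (c : R) := congrArg Subtype.val huv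
    apply Subtype.ext
    apply Units.ext
    exact c.isUnit.mul_right_cancel h1
  · rintro ⟨x, hx⟩
    have hxu : IsUnit x := by
      rw [← hx] at hyu
      exact isUnit_of_mul_isUnit_right hyu
    obtain ⟨x', rfl⟩ := hxu
    have hT : τ ((c⁻¹ : Rˣ) : R) * τ (c : R) = 1 := by
      rw [← map_mul]
      simp
    refine ⟨⟨x' * c⁻¹, ?_⟩, ?_⟩
    · rw [mem_Gam, Units.val_mul, map_mul]
      calc τ (x' : R) * τ ((c⁻¹ : Rˣ) : R) * ((x' : R) * ((c⁻¹ : Rˣ) : R))
          = (τ (x' : R) * (x' : R)) * (τ ((c⁻¹ : Rˣ) : R) * ((c⁻¹ : Rˣ) : R)) := by ring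
        _ = (τ (c : R) * (c : R)) * (τ ((c⁻¹ : Rˣ) : R) * ((c⁻¹ : Rˣ) : R)) := by rw [hx, hc]
        _ = (τ ((c⁻¹ : Rˣ) : R) * τ (c : R)) * (((c⁻¹ : Rˣ) : R) * (c : R)) := by ring
        _ = 1 := by rw [hT]; simp
    · apply Subtype.ext
      simp

/-- The kernel of the trace form on the fixed elements. -/
def K₀ {A : Type*} [AddCommGroup A] (ℓ : R →+ A) : AddSubgroup R where
  carrier := {y | τ y = y ∧ ℓ y = 0}
  zero_mem' := by simp
  add_mem' := by
    rintro a b ⟨h1, h2⟩ ⟨h3, h4⟩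
    exact ⟨by rw [map_add, h1, h3], by rw [map_add, h2, h4, add_zero]⟩
  neg_mem' := by
    rintro a ⟨h1, h2⟩
    exact ⟨by rw [map_neg, h1], by rw [map_neg, h2, neg_zero]⟩

/-- The norm-one torus. -/
theorem exists_torus (hτ : ∀ x, τ (τ x) = x) (hred : ∀ x : R, x * x = 0 → x = 0)
    (hid : ∀ e : R, τ e = e → e * e = e → e = 0 ∨ e = 1) {s : R} (hs : IsUnit (s - τ s))
    {A : Type*} [AddCommGroup A] (ℓ : R →+ A)
    (hsurj : ∀ d, ∃ y, τ y = y ∧ ℓ y = d) (hodd : Odd (Nat.card R)) (hne : (-1 : R) ≠ 1) :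
    ∃ (t : R) (L A₀ : ℕ), Even L ∧ 0 < L ∧ Odd A₀ ∧ τ t * t = 1 ∧ t ^ L = 1 ∧
      (∀ k, 0 < k → k < L → IsUnit (t ^ k - 1)) ∧
      ∀ d, d ≠ 0 → Nat.card {x : R // ℓ (τ x * x) = d} = L * A₀ := by
  classical
  have hne1 : (1 : R) ≠ 0 := by
    intro h
    apply hne
    rw [h, neg_zero]
  haveI : Finite Rˣ := Finite.of_injective (fun x : Rˣ => (x : R)) Units.val_injective
  haveI := Gam_isCyclic τ hτ hred hid hne1
  obtain ⟨t, ht⟩ := IsCyclic.exists_generator (α := Gam τ)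
  have hord : orderOf t = Nat.card (Gam τ) := orderOf_eq_card_of_forall_mem_zpowers ht
  have hneg : (-1 : Rˣ) ∈ Gam τ := by
    rw [mem_Gam]
    simp
  have hL2 : 2 ∣ Nat.card (Gam τ) := by
    have h1 : orderOf (⟨-1, hneg⟩ : Gam τ) = 2 := by
      haveI : Fact (Nat.Prime 2) := ⟨Nat.prime_two⟩
      apply orderOf_eq_prime
      · apply Subtype.ext
        apply Units.ext
        simp
      · intro h
        have h2 := congrArg (fun u : Gam τ => ((u : Rˣ) : R)) h
        apply hne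
        simpa using h2
    rw [← h1]
    exact orderOf_dvd_natCard _
  have hL0 : 0 < Nat.card (Gam τ) := Nat.card_pos
  refine ⟨((t : Rˣ) : R), Nat.card (Gam τ), Nat.card (K₀ τ ℓ), (even_iff_two_dvd).2 hL2, hL0,
    Odd.of_dvd_nat hodd (AddSubgroup.card_addSubgroup_dvd_card _), t.2, ?_, ?_, ?_⟩
  · have h1 : t ^ Nat.card (Gam τ) = 1 := by rw [← hord]; exact pow_orderOf_eq_one t
    have h2 : (((t ^ Nat.card (Gam τ) : Gam τ) : Rˣ) : R) = 1 := by rw [h1]; rfl
    rwa [Subgroup.coe_pow, Units.val_pow_eq_pow_val] at h2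
  · intro k hk hkL
    have h1 : t ^ k ≠ 1 := pow_ne_one_of_lt_orderOf (by omega) (by rwa [hord])
    have h3 : (((t ^ k : Gam τ) : Rˣ) : R) = ((t : Rˣ) : R) ^ k := by simp
    rw [← h3]
    apply sub_one_isUnit τ hτ hred hid (t ^ k).2
    intro h
    apply h1
    apply Subtype.ext
    apply Units.ext
    simpa using h
  · intro d hd
    obtain ⟨y₀, hy₀, hy₀d⟩ := hsurj d
    -- the base
    let Y := {y : R // τ y = y ∧ ℓ y = d}
    haveI : Fintype Y := Fintype.ofFinite Y
    have hY : Nat.card Y = Nat.card (K₀ τ ℓ) := by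
      refine Nat.card_congr
        { toFun := fun y => ⟨y.1 - y₀, ?_, ?_⟩
          invFun := fun z => ⟨z.1 + y₀, ?_, ?_⟩
          left_inv := fun y => Subtype.ext (by simp)
          right_inv := fun z => Subtype.ext (by simp) }
      · rw [map_sub, y.2.1, hy₀]
      · rw [map_sub, y.2.2, hy₀d, sub_self]
      · rw [map_add, z.2.1, hy₀]
      · rw [map_add, z.2.2, hy₀d, zero_add]
    let f : {x : R // ℓ (τ x * x) = d} → Y := fun x => ⟨τ x.1 * x.1, by
      rw [map_mul, hτ]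
      ring, x.2⟩
    have hfib : ∀ y : Y, Nat.card {x : {x : R // ℓ (τ x * x) = d} // f x = y} = Nat.card (Gam τ) := by
      intro y
      have hy0 : y.1 ≠ 0 := by
        intro h
        apply hd
        rw [← y.2.2, h, map_zero]
      rw [← card_norm_fibre τ hτ hred hid hs y.2.1 hy0]
      refine Nat.card_congr
        { toFun := fun x => ⟨x.1.1, congrArg Subtype.val x.2⟩
          invFun := fun x => ⟨⟨x.1, by rw [x.2]; exact y.2.2⟩, Subtype.ext x.2⟩
          left_inv := fun x => rfl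
          right_inv := fun x => rfl }
    rw [Nat.card_congr (Equiv.sigmaFiberEquiv f).symm, Nat.card_sigma]
    simp only [hfib]
    rw [Finset.sum_const, Finset.card_univ, ← Nat.card_eq_fintype_card, hY, smul_eq_mul, mul_comm]

end Cfsg.Agent.Lib.Classical.Herm.FusCore
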