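import Mathlib
import Cfsg.Agent.Lib.Classical.Herm.FusCore

/-!
# The torus of a minimal nondegenerate invariant subspace

`B` is a nondegenerate symmetric form on a finite space `W` over a finite field of odd characteristic,
`A` an isometry with `A ^ r = 1` (`r` prime to the characteristic), `A² - 1` injective, and `W` has no
proper nonzero nondegenerate `A`-invariant subspace.  Then `W` is a free module of rank one over the
algebra generated by `A`, and the norm-one torus `t` of this algebra has the following properties: `t`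
is an isometry commuting with `A`, its order `L` is even, its powers `t ^ k`, `0 < k < L`, fix no nonzero
vector, and the number of vectors `w` with `B w w = d` is `L * A₀`, for all `d ≠ 0`, with `A₀` odd.
-/

set_option autoImplicit false
set_option linter.style.haveILetI false
set_option linter.unusedSectionVars false
set_option linter.unusedVariables false

namespace Cfsg.Agent.Lib.Classical.Herm.FusMin

open Module
open Cfsg.Agent.Lib.Classical.Herm

variable {F : Type*} [Field F] {W : Type*} [AddCommGroup W] [Module F W]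

/-- A vector space over a finite field of odd characteristic has odd order. -/
theorem odd_card_of_module [Fintype F] (h2 : (2 : F) ≠ 0) (V : Type*) [AddCommGroup V] [Module F V]
    [Finite V] : Odd (Nat.card V) := by
  haveI : Module.Finite F V := Module.Finite.of_finite
  rw [Module.natCard_eq_pow_finrank (K := F), Nat.card_eq_fintype_card]
  apply Odd.pow
  have h : ringChar F ≠ 2 := by
    intro h3
    haveI : CharP F 2 := ringChar.of_eq h3
    exact h2 (CharTwo.two_eq_zero)
  exact Nat.odd_iff.2 (FiniteField.odd_card_of_char_ne_two h)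

/-- The commutative algebra generated by an endomorphism. -/
abbrev RA (a : Module.End F W) := ↥(Algebra.adjoin F ({a} : Set (Module.End F W)))

section Adj

variable [FiniteDimensional F W] (B : LinearMap.BilinForm F W) (hn : ∀ x, (∀ y, B x y = 0) → x = 0)

/-- The identification of a space with its dual given by a nondegenerate form. -/
noncomputable def phi : W ≃ₗ[F] Module.Dual F W :=
  LinearMap.linearEquivOfInjective (B : W →ₗ[F] Module.Dual F W)
    (by
      rw [← LinearMap.ker_eq_bot, LinearMap.ker_eq_bot']
      intro x hx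
      exact hn x (fun y => by simp [hx]))
    (Subspace.dual_finrank_eq).symm

theorem phi_apply (x y : W) : phi B hn x y = B x y := rfl

/-- The adjoint. -/
noncomputable def adj (T : Module.End F W) : Module.End F W :=
  (phi B hn).symm.toLinearMap ∘ₗ T.dualMap ∘ₗ (phi B hn).toLinearMap

theorem adj_spec (T : Module.End F W) (x y : W) : B (adj B hn T x) y = B x (T y) := by
  have h1 : ∀ (f : Module.Dual F W) y, B ((phi B hn).symm f) y = f y := by
    intro f y
    rw [← phi_apply B hn, LinearEquiv.apply_symm_apply]
  simp only [adj, LinearMap.comp_apply, LinearEquiv.coe_coe]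
  rw [h1]
  simp [LinearMap.dualMap_apply, phi_apply]

include hn in
theorem end_ext_B {S T : Module.End F W} (h : ∀ x y, B (S x) y = B (T x) y) : S = T := by
  ext x
  have : S x - T x = 0 := hn _ (fun y => by
    rw [map_sub, LinearMap.sub_apply, h, sub_self])
  exact sub_eq_zero.mp this

theorem adj_add (S T : Module.End F W) : adj B hn (S + T) = adj B hn S + adj B hn T :=
  end_ext_B B hn (fun x y => by
    rw [adj_spec]
    simp only [LinearMap.add_apply, map_add, adj_spec])

theorem adj_mul (S T : Module.End F W) : adj B hn (S * T) = adj B hn T * adj B hn S :=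
  end_ext_B B hn (fun x y => by
    rw [adj_spec]
    simp only [Module.End.mul_apply, adj_spec])

theorem adj_one : adj B hn 1 = 1 :=
  end_ext_B B hn (fun x y => by rw [adj_spec]; simp)

theorem adj_algebraMap (c : F) : adj B hn (algebraMap F _ c) = algebraMap F _ c :=
  end_ext_B B hn (fun x y => by
    rw [adj_spec]
    simp [Module.algebraMap_end_apply])

theorem adj_adj (hB : ∀ x y, B x y = B y x) (T : Module.End F W) : adj B hn (adj B hn T) = T :=
  end_ext_B B hn (fun x y => by
    rw [adj_spec, hB x, adj_spec, hB y])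

theorem adj_equiv (A : W ≃ₗ[F] W) (hA : ∀ x y, B (A x) (A y) = B x y) :
    adj B hn (A : Module.End F W) = (A.symm : Module.End F W) :=
  end_ext_B B hn (fun x y => by
    rw [adj_spec]
    have := hA (A.symm x) y
    rw [A.apply_symm_apply] at this
    simpa using this)

end Adj

section Alg

variable [FiniteDimensional F W]

theorem mem_gen (a : Module.End F W) : a ∈ Algebra.adjoin F ({a} : Set (Module.End F W)) :=
  Algebra.subset_adjoin (Set.mem_singleton a)

variable (B : LinearMap.BilinForm F W) (hn : ∀ x, (∀ y, B x y = 0) → x = 0)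
  (A : W ≃ₗ[F] W) (hA : ∀ x y, B (A x) (A y) = B x y) {r : ℕ}
  (hAr : (A : Module.End F W) ^ r = 1) (hr : 1 ≤ r)

/-- The inverse of `A` is a power of `A`. -/
theorem symm_mem (hAr : (A : Module.End F W) ^ r = 1) (hr : 1 ≤ r) :
    (A.symm : Module.End F W) ∈ Algebra.adjoin F ({(A : Module.End F W)} : Set (Module.End F W)) := by
  have h1 : (A.symm : Module.End F W) = (A : Module.End F W) ^ (r - 1) := by
    have h3 : (A.symm : Module.End F W) * (A : Module.End F W) = 1 := by
      ext x
      simp [Module.End.mul_apply]
    calc (A.symm : Module.End F W) = (A.symm : Module.End F W) * (A : Module.End F W) ^ r := by rw [hAr, mul_one]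
      _ = (A.symm : Module.End F W) * ((A : Module.End F W) * (A : Module.End F W) ^ (r - 1)) := by
        rw [← pow_succ']
        congr 3
        omega
      _ = _ := by rw [← mul_assoc, h3, one_mul]
  rw [h1]
  exact pow_mem (mem_gen _) _

/-- The adjoint preserves the algebra. -/
theorem adj_mem (hA : ∀ x y, B (A x) (A y) = B x y) (hAr : (A : Module.End F W) ^ r = 1) (hr : 1 ≤ r)
    {x : Module.End F W} (hx : x ∈ Algebra.adjoin F ({(A : Module.End F W)} : Set (Module.End F W))) :
    adj B hn x ∈ Algebra.adjoin F ({(A : Module.End F W)} : Set (Module.End F W)) := by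
  induction hx using Algebra.adjoin_induction with
  | mem x hx =>
    rw [Set.mem_singleton_iff.1 hx, adj_equiv B hn A hA]
    exact symm_mem A hAr hr
  | algebraMap c =>
    rw [adj_algebraMap]
    exact Subalgebra.algebraMap_mem (Algebra.adjoin F ({(A : Module.End F W)} : Set (Module.End F W))) c
  | add x y _ _ h1 h2 =>
    rw [adj_add]
    exact add_mem h1 h2
  | mul x y _ _ h1 h2 =>
    rw [adj_mul]
    exact mul_mem h2 h1

/-- The involution of the algebra. -/
noncomputable def tauR (hA : ∀ x y, B (A x) (A y) = B x y) (hAr : (A : Module.End F W) ^ r = 1) (hr : 1 ≤ r) :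
    RA (A : Module.End F W) →+* RA (A : Module.End F W) where
  toFun x := ⟨adj B hn x, adj_mem B hn A hA hAr hr x.2⟩
  map_one' := Subtype.ext (adj_one B hn)
  map_zero' := Subtype.ext (by
    show adj B hn 0 = 0
    exact end_ext_B B hn (fun x y => by rw [adj_spec]; simp))
  map_add' x y := Subtype.ext (adj_add B hn _ _)
  map_mul' x y := Subtype.ext (by
    show adj B hn ((x : Module.End F W) * y) = adj B hn x * adj B hn y
    have h : (x : Module.End F W) * (y : Module.End F W) = (y : Module.End F W) * (x : Module.End F W) :=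
      congrArg Subtype.val (mul_comm x y)
    rw [h, adj_mul])

end Alg

section Main

variable [Fintype F] [FiniteDimensional F W]

/-- The algebra is reduced. -/
theorem R_reduced (A : W ≃ₗ[F] W) {r : ℕ} (hr0 : (r : F) ≠ 0) (hAr : (A : Module.End F W) ^ r = 1)
    (x : RA (A : Module.End F W)) (hx : x * x = 0) : x = 0 := by
  classical
  have h1 : (x : Module.End F W) ∈ (Polynomial.aeval (R := F) (A : Module.End F W)).range := by
    rw [← Algebra.adjoin_singleton_eq_range_aeval]
    exact x.2
  obtain ⟨p, hp⟩ := h1
  have hp' : Polynomial.aeval (A : Module.End F W) p = (x : Module.End F W) := hp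
  have h3 : Polynomial.aeval (A : Module.End F W) (p ^ 2) = 0 := by
    rw [map_pow, hp', pow_two]
    exact congrArg Subtype.val hx
  have h3' := minpoly.dvd F _ h3
  have h4 : minpoly F (A : Module.End F W) ∣ Polynomial.X ^ r - Polynomial.C 1 :=
    minpoly.dvd F _ (by simp [hAr])
  have hsq : Squarefree (minpoly F (A : Module.End F W)) :=
    ((Polynomial.separable_X_pow_sub_C (1 : F) hr0 one_ne_zero).squarefree).squarefree_of_dvd h4
  have h5 := (hsq.dvd_pow_iff_dvd two_ne_zero).1 h3'
  obtain ⟨q, hq⟩ := h5
  apply Subtype.ext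
  show (x : Module.End F W) = 0
  rw [← hp', hq, map_mul, minpoly.aeval, zero_mul]

/-- An injective element of the algebra is a unit. -/
theorem R_isUnit (a : Module.End F W) (x : RA a) (hx : Function.Injective (x : Module.End F W)) : IsUnit x := by
  classical
  haveI : Finite W := Module.finite_of_finite F
  haveI : Finite (Module.End F W) :=
    Finite.of_injective (fun f : Module.End F W => (f : W → W)) DFunLike.coe_injective
  obtain ⟨k, hk, hkid⟩ := Hilbert90.exists_pow_idem x
  refine (isUnit_pow_iff (Nat.one_le_iff_ne_zero.mp hk)).1 ?_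
  have h1 : ((x ^ k : RA a) : Module.End F W) = (x : Module.End F W) ^ k := rfl
  have h2 : Function.Injective ((x ^ k : RA a) : Module.End F W) := by
    rw [h1]
    have : ⇑((x : Module.End F W) ^ k) = (x : Module.End F W)^[k] := Module.End.coe_pow _ _
    rw [this]
    exact hx.iterate k
  have h3 : x ^ k = 1 := by
    apply Subtype.ext
    ext w
    apply h2
    have h4 : ((x ^ k * x ^ k : RA a) : Module.End F W) w = ((x ^ k : RA a) : Module.End F W) w := by rw [hkid]
    exact h4
  rw [h3]
  exact isUnit_one

/-- The trace form. -/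
noncomputable def ell (B : LinearMap.BilinForm F W) (a : Module.End F W) (v₀ : W) : RA a →+ F where
  toFun x := B ((x : Module.End F W) v₀) v₀
  map_zero' := by
    show B ((0 : Module.End F W) v₀) v₀ = 0
    simp
  map_add' x y := by
    show B (((x : Module.End F W) + (y : Module.End F W)) v₀) v₀ = _
    simp

theorem ell_apply (B : LinearMap.BilinForm F W) (a : Module.End F W) (v₀ : W) (x : RA a) :
    ell B a v₀ x = B ((x : Module.End F W) v₀) v₀ := rfl

variable (B : LinearMap.BilinForm F W) (hB : ∀ x y, B x y = B y x) (hn : ∀ x, (∀ y, B x y = 0) → x = 0)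
  (A : W ≃ₗ[F] W) (hA : ∀ x y, B (A x) (A y) = B x y) {r : ℕ}
  (hAr : (A : Module.End F W) ^ r = 1) (hr : 1 ≤ r)

theorem tauR_spec (x : RA (A : Module.End F W)) (u v : W) :
    B ((tauR B hn A hA hAr hr x : Module.End F W) u) v = B u ((x : Module.End F W) v) :=
  adj_spec B hn _ u v

include hB in
theorem tauR_tauR (x : RA (A : Module.End F W)) : tauR B hn A hA hAr hr (tauR B hn A hA hAr hr x) = x :=
  Subtype.ext (adj_adj B hn hB _)

/-- The `τ`-fixed idempotents of the algebra are trivial, by minimality. -/
theorem R_hid (hmin : ∀ U : Submodule F W, (∀ x ∈ U, A x ∈ U) → (∀ x ∈ U, (∀ y ∈ U, B x y = 0) → x = 0) →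
      U = ⊥ ∨ U = ⊤)
    (e : RA (A : Module.End F W)) (he : tauR B hn A hA hAr hr e = e) (hee : e * e = e) : e = 0 ∨ e = 1 := by
  have hid : ∀ w, (e : Module.End F W) ((e : Module.End F W) w) = (e : Module.End F W) w := by
    intro w
    have h4 : ((e * e : RA (A : Module.End F W)) : Module.End F W) w = (e : Module.End F W) w := by rw [hee]
    exact h4
  have hcomm : ∀ w, A ((e : Module.End F W) w) = (e : Module.End F W) (A w) := by
    intro w
    have h4 : ((⟨(A : Module.End F W), mem_gen _⟩ * e : RA (A : Module.End F W)) : Module.End F W) w = ((e * ⟨(A : Module.End F W), mem_gen _⟩ : RA (A : Module.End F W)) : Module.End F W) w := by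
      rw [mul_comm]
    exact h4
  have hspec : ∀ u v, B ((e : Module.End F W) u) v = B u ((e : Module.End F W) v) := by
    intro u v
    have := tauR_spec B hn A hA hAr hr e u v
    rwa [he] at this
  have hm1 : ∀ x ∈ LinearMap.range (e : Module.End F W), A x ∈ LinearMap.range (e : Module.End F W) := by
    rintro _ ⟨y, rfl⟩
    exact ⟨A y, (hcomm y).symm⟩
  have hm2 : ∀ x ∈ LinearMap.range (e : Module.End F W), (∀ y ∈ LinearMap.range (e : Module.End F W), B x y = 0) → x = 0 := by
    rintro _ ⟨y, rfl⟩ h1
    apply hn
    intro w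
    rw [← hid y, hspec]
    exact h1 _ ⟨w, rfl⟩
  rcases hmin (LinearMap.range (e : Module.End F W)) hm1 hm2 with h | h
  · left
    apply Subtype.ext
    show (e : Module.End F W) = 0
    exact LinearMap.range_eq_bot.mp h
  · right
    apply Subtype.ext
    show (e : Module.End F W) = 1
    ext w
    obtain ⟨y, hy⟩ := LinearMap.range_eq_top.mp h w
    rw [← hy, hid]
    rfl

set_option maxHeartbeats 2000000 in
include hB hn hA hAr hr in
/-- The main theorem on minimal subspaces. -/
theorem min_torus (h2 : (2 : F) ≠ 0) (hr0 : (r : F) ≠ 0) (hU : ∀ x, A (A x) = x → x = 0)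
    (hmin : ∀ U : Submodule F W, (∀ x ∈ U, A x ∈ U) → (∀ x ∈ U, (∀ y ∈ U, B x y = 0) → x = 0) →
      U = ⊥ ∨ U = ⊤) {v₀ : W} (hv₀ : B v₀ v₀ ≠ 0) :
    ∃ (t : W ≃ₗ[F] W) (L A₀ : ℕ), Even L ∧ 0 < L ∧ Odd A₀ ∧ (∀ x y, B (t x) (t y) = B x y) ∧
      (∀ x, t (A x) = A (t x)) ∧ (∀ x, (⇑t)^[L] x = x) ∧
      (∀ k, 0 < k → k < L → ∀ x, (⇑t)^[k] x = x → x = 0) ∧
      ∀ d, d ≠ 0 → Nat.card {w : W // B w w = d} = L * A₀ := by
  classical
  haveI : Finite W := Module.finite_of_finite F
  haveI : Finite (Module.End F W) :=
    Finite.of_injective (fun f : Module.End F W => (f : W → W)) DFunLike.coe_injective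
  have hv0 : v₀ ≠ 0 := by
    rintro rfl
    simp at hv₀
  set τ := tauR B hn A hA hAr hr with hτdef
  have hττ : ∀ x, τ (τ x) = x := tauR_tauR B hB hn A hA hAr hr
  have hred := R_reduced A hr0 hAr
  have hid := R_hid B hn A hA hAr hr hmin
  have hspec : ∀ (x : RA (A : Module.End F W)) (u v : W), B ((τ x : Module.End F W) u) v = B u ((x : Module.End F W) v) :=
    tauR_spec B hn A hA hAr hr
  -- the unit `A - A⁻¹`
  set s : RA (A : Module.End F W) := ⟨(A : Module.End F W), mem_gen _⟩ with hs
  have hsu : IsUnit (s - τ s) := by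
    apply R_isUnit
    rw [← LinearMap.ker_eq_bot, LinearMap.ker_eq_bot'] 
    intro w hw
    have h1 : ((s - τ s : RA (A : Module.End F W)) : Module.End F W) w = A w - A.symm w := by
      have : ((τ s : RA (A : Module.End F W)) : Module.End F W) = (A.symm : Module.End F W) := adj_equiv B hn A hA
      show ((s : Module.End F W) - ((τ s : RA (A : Module.End F W)) : Module.End F W)) w = _
      rw [this]
      rfl
    rw [h1, sub_eq_zero] at hw
    apply hU
    rw [hw]
    simp
  -- the trace form
  set ℓ := ell B (A : Module.End F W) v₀ with hℓ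
  have hℓτ : ∀ x, ℓ (τ x) = ℓ x := by
    intro x
    rw [hℓ, ell_apply, ell_apply, hspec, hB]
  have hℓ1 : ℓ 1 ≠ 0 := by
    rw [hℓ, ell_apply]
    exact hv₀
  have hsurj : ∀ d, ∃ y, τ y = y ∧ ℓ y = d := by
    intro d
    refine ⟨⟨algebraMap F _ (d / B v₀ v₀), Subalgebra.algebraMap_mem _ _⟩, ?_, ?_⟩
    · apply Subtype.ext
      exact adj_algebraMap B hn _
    · rw [hℓ, ell_apply]
      simp only [Module.algebraMap_end_apply, map_smul, LinearMap.smul_apply, smul_eq_mul]
      field_simp
  have hne : (-1 : RA (A : Module.End F W)) ≠ 1 := by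
    intro h
    have h1 : ((-1 : RA (A : Module.End F W)) : Module.End F W) v₀ = ((1 : RA (A : Module.End F W)) : Module.End F W) v₀ := by rw [h]
    have h3 : - v₀ = v₀ := h1
    have h4 : (2 : F) • v₀ = 0 := by
      rw [two_smul]
      nth_rw 1 [← h3]
      simp
    rcases smul_eq_zero.1 h4 with h5 | h5
    · exact h2 h5
    · exact hv0 h5
  have hodd : Odd (Nat.card (RA (A : Module.End F W))) := odd_card_of_module h2 _
  obtain ⟨t, L, A₀, hLe, hL0, hA₀, ht, htL, hfree, hcount⟩ :=
    FusCore.exists_torus τ hττ hred hid hsu ℓ hsurj hodd hne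
  -- the trace form is nondegenerate
  have hnd : ∀ {x : RA (A : Module.End F W)}, x ≠ 0 → ∃ z, ℓ (z * x) ≠ 0 :=
    fun hx => FusCore.exists_ell_ne τ hττ hred hid ℓ hℓτ hℓ1 hx
  -- the orbit map
  have hΦinj : Function.Injective (fun x : RA (A : Module.End F W) => (x : Module.End F W) v₀) := by
    intro x y hxy
    by_contra hne'
    obtain ⟨z, hz⟩ := hnd (sub_ne_zero.2 hne')
    apply hz
    rw [hℓ, ell_apply]
    have h1 : ((z * (x - y) : RA (A : Module.End F W)) : Module.End F W) v₀ = (z : Module.End F W) ((x : Module.End F W) v₀ - (y : Module.End F W) v₀) := by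
      show (z : Module.End F W) (((x : Module.End F W) - (y : Module.End F W)) v₀) = _
      rfl
    rw [h1]
    have h3 : (x : Module.End F W) v₀ = (y : Module.End F W) v₀ := hxy
    rw [h3, sub_self, map_zero, map_zero, LinearMap.zero_apply]
  let orb : RA (A : Module.End F W) →ₗ[F] W :=
    { toFun := fun x => (x : Module.End F W) v₀
      map_add' := fun x y => rfl
      map_smul' := fun c x => rfl }
  have horb : ∀ x, orb x = (x : Module.End F W) v₀ := fun _ => rfl
  have hΦsurj : Function.Surjective (fun x : RA (A : Module.End F W) => (x : Module.End F W) v₀) := by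
    have hU' : LinearMap.range orb = ⊤ := by
      have hm1 : ∀ x ∈ LinearMap.range orb, A x ∈ LinearMap.range orb := by
        rintro _ ⟨x, rfl⟩
        exact ⟨s * x, rfl⟩
      refine (hmin (LinearMap.range orb) hm1 ?_).resolve_left ?_
      swap
      · intro h
        apply hv0
        have h1 : orb 1 ∈ LinearMap.range orb := ⟨1, rfl⟩
        rw [h, Submodule.mem_bot] at h1
        exact h1
      · rintro _ ⟨x, rfl⟩ h1
        by_cases hx : x = 0
        · rw [hx, map_zero]
        · exfalso
          obtain ⟨z, hz⟩ := hnd hx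
          apply hz
          rw [hℓ, ell_apply, mul_comm z x]
          have h3 := h1 (orb (τ z * 1)) ⟨_, rfl⟩
          rw [horb, horb] at h3
          rw [← h3]
          have h4 : ((x * z : RA (A : Module.End F W)) : Module.End F W) v₀ = ((τ (τ z) * x : RA (A : Module.End F W)) : Module.End F W) v₀ := by
            rw [hττ, mul_comm]
          rw [h4]
          show B ((τ (τ z) : Module.End F W) ((x : Module.End F W) v₀)) v₀ = _
          rw [hspec]
          rw [mul_one]
    intro w
    have h1 : w ∈ LinearMap.range orb := by rw [hU']; trivial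
    obtain ⟨x, hx⟩ := h1
    exact ⟨x, hx⟩
  -- the torus on `W`
  have hmul1 : ∀ w, (t : Module.End F W) ((τ t : Module.End F W) w) = w := by
    intro w
    have h1 : ((t * τ t : RA (A : Module.End F W)) : Module.End F W) w = ((1 : RA (A : Module.End F W)) : Module.End F W) w := by
      rw [mul_comm, ht]
    exact h1
  have hmul2 : ∀ w, (τ t : Module.End F W) ((t : Module.End F W) w) = w := by
    intro w
    have h1 : ((τ t * t : RA (A : Module.End F W)) : Module.End F W) w = ((1 : RA (A : Module.End F W)) : Module.End F W) w := by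
      rw [ht]
    exact h1
  let tW : W ≃ₗ[F] W :=
    { toFun := fun w => (t : Module.End F W) w
      invFun := fun w => (τ t : Module.End F W) w
      map_add' := fun x y => map_add _ _ _
      map_smul' := fun c x => map_smul _ _ _
      left_inv := hmul2
      right_inv := hmul1 }
  have htW : ∀ w, tW w = (t : Module.End F W) w := fun _ => rfl
  have hiter : ∀ (k : ℕ) (w : W), (⇑tW)^[k] w = ((t ^ k : RA (A : Module.End F W)) : Module.End F W) w := by
    intro k
    induction k with
    | zero => intro w; rfl
    | succ k ih =>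
      intro w
      rw [Function.iterate_succ_apply', ih, pow_succ', htW]
      rfl
  refine ⟨tW, L, A₀, hLe, hL0, hA₀, ?_, ?_, ?_, ?_, ?_⟩
  · intro x y
    rw [htW, htW]
    have h1 := hspec (τ t) x ((t : Module.End F W) y)
    rw [hττ, hmul2] at h1
    exact h1
  · intro x
    have h1 : ((t * s : RA (A : Module.End F W)) : Module.End F W) x = ((s * t : RA (A : Module.End F W)) : Module.End F W) x := by
      rw [mul_comm]
    exact h1
  · intro x
    rw [hiter, htL]
    rfl
  · intro k hk hkL x hx
    rw [hiter] at hx
    obtain ⟨u, hu⟩ := hfree k hk hkL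
    have h1 : ((t ^ k - 1 : RA (A : Module.End F W)) : Module.End F W) x = 0 := by
      show ((t ^ k : RA (A : Module.End F W)) : Module.End F W) x - x = 0
      rw [hx, sub_self]
    have h3 : ((u⁻¹ * u : RA (A : Module.End F W)) : Module.End F W) x = x := by
      have : ((u⁻¹ * u : RA (A : Module.End F W))) = 1 := by
        simp
      rw [this]
      rfl
    rw [← h3]
    show (((u⁻¹ : (RA (A : Module.End F W))ˣ) : RA (A : Module.End F W)) : Module.End F W) ((((u : RA (A : Module.End F W)) : Module.End F W)) x) = 0
    rw [hu, h1, map_zero]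
  · intro d hd
    rw [← hcount d hd]
    symm
    refine Nat.card_congr (Equiv.subtypeEquiv (Equiv.ofBijective _ ⟨hΦinj, hΦsurj⟩) ?_)
    intro x
    show ℓ (τ x * x) = d ↔ B ((x : Module.End F W) v₀) ((x : Module.End F W) v₀) = d
    rw [hℓ, ell_apply]
    have h1 : ((τ x * x : RA (A : Module.End F W)) : Module.End F W) v₀ = (τ x : Module.End F W) ((x : Module.End F W) v₀) := rfl
    rw [h1, hspec]

end Main

end Cfsg.Agent.Lib.Classical.Herm.FusMin
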