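import Mathlib
import Cfsg.Agent.Lib.Classical.Herm.FusMin
import Cfsg.Agent.Lib.Classical.Orth.SimAut3

/-!
# The signs of a torus element on the spheres of an orthogonal space

An isometry `s` acting as a torus element `t` (see `FusMin.min_torus`) on a nondegenerate subspace and
trivially on its orthogonal complement acts as an odd permutation on each sphere of nonzero radius.
-/

set_option autoImplicit false
set_option linter.style.haveILetI false
set_option linter.unusedSectionVars false
set_option linter.unusedVariables false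
set_option linter.unusedSimpArgs false

namespace Cfsg.Agent.Lib.Classical.Herm.FusSign

open Matrix QuadraticMap Module
open Cfsg.Agent.Lib.Classical.Orth.Basic
open Cfsg.Agent.Lib.Classical.Orth.SphereSign
open Cfsg.Agent.Lib.Classical.Orth.Spinor

/-- A permutation all of whose nontrivial orbits have the same even size `L`. -/
theorem perm_free {X : Type*} [Fintype X] [DecidableEq X] (σ : Equiv.Perm X) {L : ℕ} (hL : Even L)
    (hL0 : 0 < L) (hσ : σ ^ L = 1)
    (hfree : ∀ k, 0 < k → k < L → ∀ x, (σ ^ k) x = x → σ x = x) :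
    ∃ n, σ.support.card = L * n ∧ Equiv.Perm.sign σ = (-1) ^ n := by
  have hall : ∀ n ∈ σ.cycleType, n = L := by
    intro n hn
    obtain ⟨c, d, hcd, hdis, hc, hcard⟩ := Equiv.Perm.mem_cycleType_iff.1 hn
    have hcomm : Commute c d := hdis.commute
    have hLc : c ^ L = 1 := by
      rw [hcd, hcomm.mul_pow] at hσ
      exact (Equiv.Perm.Disjoint.mul_eq_one_iff (hdis.pow_disjoint_pow L L)).1 hσ |>.1
    have hord : orderOf c = n := by
      rw [hc.orderOf, hcard]
    have hdvd : n ∣ L := by
      rw [← hord]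
      exact orderOf_dvd_of_pow_eq_one hLc
    have hnpos : 0 < n := Nat.pos_of_dvd_of_pos hdvd hL0
    have hle : n ≤ L := Nat.le_of_dvd hL0 hdvd
    by_contra hne
    have hlt : n < L := lt_of_le_of_ne hle hne
    obtain ⟨x, hx, -⟩ := hc
    have hdx : d x = x := (Equiv.Perm.disjoint_iff_eq_or_eq.1 hdis x).resolve_left hx
    have h1 : (σ ^ n) x = x := by
      rw [hcd, hcomm.mul_pow, Equiv.Perm.mul_apply, Equiv.Perm.pow_apply_eq_self_of_apply_eq_self hdx,
        ← hord, pow_orderOf_eq_one]
      rfl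
    have h2 := hfree n hnpos hlt x h1
    rw [hcd, Equiv.Perm.mul_apply, hdx] at h2
    exact hx h2
  obtain ⟨m, hm⟩ : ∃ m, σ.cycleType = Multiset.replicate m L :=
    ⟨_, Multiset.eq_replicate.2 ⟨rfl, hall⟩⟩
  refine ⟨m, ?_, ?_⟩
  · rw [← Equiv.Perm.sum_cycleType, hm, Multiset.sum_replicate, smul_eq_mul, mul_comm]
  · rw [Equiv.Perm.sign_of_cycleType', hm, Multiset.map_replicate, Multiset.prod_replicate, hL.neg_one_pow]

/-- A permutation all of whose orbits have the same even size `L`. -/
theorem card_dvd_of_free {X : Type*} [Finite X] (σ : Equiv.Perm X) {L : ℕ} (hL : Even L)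
    (hL0 : 0 < L) (hσ : σ ^ L = 1) (h1 : ∀ x, σ x ≠ x)
    (hfree : ∀ k, 0 < k → k < L → ∀ x, (σ ^ k) x ≠ x) : L ∣ Nat.card X := by
  classical
  haveI := Fintype.ofFinite X
  obtain ⟨n, hn, -⟩ := perm_free σ hL hL0 hσ (fun k hk hkL x hx => absurd hx (hfree k hk hkL x))
  have h2 : σ.support = Finset.univ := by
    ext x
    simp [h1 x]
  rw [h2, Finset.card_univ] at hn
  rw [Nat.card_eq_fintype_card, hn]
  exact dvd_mul_right _ _

variable {ι : Type} [Fintype ι] [DecidableEq ι] {F : Type*} [Field F] [Fintype F]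
variable {Q : QuadraticForm F (ι → F)}

/-- The additive count: the parity of the sum. -/
theorem sum_count {U : Type*} [Fintype U] (f : U → ℕ) (P : U → Prop) [DecidablePred P] {L A₀ B₀ : ℕ}
    (hf1 : ∀ u, P u → f u = L * B₀) (hf2 : ∀ u, ¬ P u → f u = L * A₀) :
    ∑ u, f u = L * (A₀ * (Finset.univ.filter (fun u => ¬ P u)).card + B₀ * (Finset.univ.filter P).card) := by
  rw [← Finset.sum_filter_add_sum_filter_not Finset.univ P f,
    Finset.sum_congr rfl (fun u hu => hf1 u (Finset.mem_filter.1 hu).2),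
    Finset.sum_congr rfl (fun u hu => hf2 u (Finset.mem_filter.1 hu).2)]
  simp only [Finset.sum_const, smul_eq_mul]
  ring

/-- The sign on a sphere. -/
theorem sign_sphere (h2 : (2 : F) ≠ 0) (W W' : Submodule F (ι → F)) (hWW : IsCompl W W')
    (hperp : ∀ w ∈ W, ∀ u ∈ W', polar (⇑Q) w u = 0)
    (t : W ≃ₗ[F] W) {L A₀ : ℕ} (hLe : Even L) (hL0 : 0 < L) (hA₀ : Odd A₀)
    (htQ : ∀ w : W, Q (t w : ι → F) = Q (w : ι → F)) (htL : ∀ x, (⇑t)^[L] x = x)
    (hfree : ∀ k, 0 < k → k < L → ∀ x, (⇑t)^[k] x = x → x = 0)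
    (hcount : ∀ d : F, d ≠ 0 → Nat.card {w : W // Q (w : ι → F) = d} = L * A₀)
    (s : ↥(Cfsg.isometryGroup F (⇑Q))) (hs : ∀ (w : W) (u : W'), act s ((w : ι → F) + u) = (t w : ι → F) + u)
    {c : F} (hc0 : c ≠ 0) : sphereSign Q c s = -1 := by
  classical
  have hdec : ∀ v : ι → F, ∃ (w : W) (u : W'), v = (w : ι → F) + u := by
    intro v
    have hv : v ∈ W ⊔ W' := by rw [hWW.sup_eq_top]; trivial
    obtain ⟨w, hw, u, hu, rfl⟩ := Submodule.mem_sup.1 hv
    exact ⟨⟨w, hw⟩, ⟨u, hu⟩, rfl⟩
  have huniq : ∀ (w w' : W) (u u' : W'), (w : ι → F) + u = (w' : ι → F) + u' → w = w' ∧ u = u' := by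
    intro w w' u u' h
    have h1 : (w : ι → F) - w' = (u' : ι → F) - u := by
      rw [sub_eq_sub_iff_add_eq_add, h, add_comm]
    have h3 : (w : ι → F) - w' ∈ W := W.sub_mem w.2 w'.2
    have h4 : (w : ι → F) - w' ∈ W' := by
      rw [h1]
      exact W'.sub_mem u'.2 u.2
    have h5 : (w : ι → F) - w' = 0 := (Submodule.disjoint_def.1 hWW.disjoint) _ h3 h4
    have h6 : w = w' := Subtype.ext (sub_eq_zero.1 h5)
    subst h6
    refine ⟨rfl, Subtype.ext ?_⟩
    exact add_left_cancel h
  have hQadd : ∀ (w : W) (u : W'), Q ((w : ι → F) + u) = Q (w : ι → F) + Q (u : ι → F) := by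
    intro w u
    have h1 := hperp w w.2 u u.2
    have h3 : polar (⇑Q) (w : ι → F) u = Q ((w : ι → F) + u) - Q (w : ι → F) - Q (u : ι → F) := rfl
    rw [h3] at h1
    linear_combination h1
  have ht1 : 1 < L := by
    obtain ⟨j, hj⟩ := hLe
    omega
  have hpow : ∀ (k : ℕ) (w : W) (u : W'), act (s ^ k) ((w : ι → F) + u) = (((⇑t)^[k] w : W) : ι → F) + u := by
    intro k
    induction k with
    | zero => intro w u; simp [act]
    | succ k ih =>
      intro w u
      rw [pow_succ', act_mul, ih, hs, Function.iterate_succ_apply']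
  have hmoved : ∀ (w : W), t w = w → w = 0 := by
    intro w hw
    exact hfree 1 (by omega) ht1 w hw
  set σ := spherePerm Q c s with hσ
  have hσk : ∀ (k : ℕ) (x : Sphere Q c) (w : W) (u : W'), x.1 = (w : ι → F) + u →
      ((σ ^ k) x).1 = (((⇑t)^[k] w : W) : ι → F) + u := by
    intro k x w u hx
    rw [hσ, ← map_pow, spherePerm_apply, hx, hpow]
  have hσL : σ ^ L = 1 := by
    ext1 x
    apply Subtype.ext
    obtain ⟨w, u, hx⟩ := hdec x.1
    show ((σ ^ L) x).1 = x.1
    rw [hσk L x w u hx, htL, hx]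
  have hfix0 : ∀ (x : Sphere Q c) (w : W) (u : W'), x.1 = (w : ι → F) + u → (σ x = x ↔ w = 0) := by
    intro x w u hx
    have h1 : (σ x).1 = (t w : ι → F) + u := by
      have := hσk 1 x w u hx
      simpa using this
    constructor
    · intro h
      apply hmoved
      have h3 : (w : ι → F) + u = (t w : ι → F) + u := by rw [← hx, ← h1, h]
      exact (huniq _ _ _ _ h3).1.symm
    · rintro rfl
      apply Subtype.ext
      rw [h1, hx]
      simp
  have hfree' : ∀ k, 0 < k → k < L → ∀ x, (σ ^ k) x = x → σ x = x := by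
    intro k hk hkL x hx
    obtain ⟨w, u, hxd⟩ := hdec x.1
    rw [hfix0 x w u hxd]
    have h1 := hσk k x w u hxd
    rw [hx, hxd] at h1
    exact hfree k hk hkL w (huniq _ _ _ _ h1).1.symm
  obtain ⟨n, hn, hsign⟩ := perm_free σ hLe hL0 hσL hfree'
  -- the count of the moved points
  let Y := fun u : W' => {w : W // w ≠ 0 ∧ Q (w : ι → F) + Q (u : ι → F) = c}
  have hsupp : σ.support.card = Nat.card (Σ u : W', Y u) := by
    have h1 : σ.support.card = Nat.card {x : Sphere Q c // x ∈ σ.support} := by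
      rw [Nat.card_eq_fintype_card, Fintype.card_coe]
    rw [h1]
    refine Nat.card_congr (Equiv.ofBijective
      (fun x => ?_) ⟨?_, ?_⟩).symm
    · refine ⟨⟨(x.2.1 : ι → F) + x.1, ?_⟩, ?_⟩
      · rw [hQadd]
        exact x.2.2.2
      · rw [Equiv.Perm.mem_support, Ne, hfix0 _ x.2.1 x.1 rfl]
        exact x.2.2.1
    · rintro ⟨u, w⟩ ⟨u', w'⟩ h
      have h1 := congrArg (fun z : {x : Sphere Q c // x ∈ σ.support} => z.1.1) h
      obtain ⟨h3, h4⟩ := huniq _ _ _ _ h1
      subst h4
      have h5 : w = w' := Subtype.ext h3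
      rw [h5]
    · rintro ⟨x, hx⟩
      obtain ⟨w, u, hxd⟩ := hdec x.1
      rw [Equiv.Perm.mem_support, Ne, hfix0 x w u hxd] at hx
      refine ⟨⟨u, ⟨w, hx, ?_⟩⟩, ?_⟩
      · rw [← hQadd, ← hxd]
        exact x.2
      · apply Subtype.ext
        apply Subtype.ext
        exact hxd.symm
  -- the zero sphere of `W`
  have hY0 : ∃ B₀, Nat.card {w : W // w ≠ 0 ∧ Q (w : ι → F) = 0} = L * B₀ := by
    let τ₀ : Equiv.Perm {w : W // w ≠ 0 ∧ Q (w : ι → F) = 0} :=
      Equiv.subtypeEquiv t.toEquiv (fun w => by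
        show _ ↔ t w ≠ 0 ∧ Q (t w : ι → F) = 0
        rw [htQ, Ne, Ne, map_eq_zero_iff t t.injective])
    have hτk : ∀ (k : ℕ) (y : {w : W // w ≠ 0 ∧ Q (w : ι → F) = 0}), ((τ₀ ^ k) y).1 = (⇑t)^[k] y.1 := by
      intro k y
      induction k with
      | zero => rfl
      | succ k ih =>
        rw [pow_succ', Equiv.Perm.mul_apply, Function.iterate_succ_apply', ← ih]
        rfl
    have hd := card_dvd_of_free τ₀ hLe hL0
      (by
        ext1 y
        apply Subtype.ext
        rw [hτk, htL]
        rfl)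
      (fun y hy => y.2.1 (hmoved y.1 (congrArg Subtype.val hy)))
      (fun k hk hkL y hy => y.2.1 (hfree k hk hkL y.1 (by
        rw [← hτk, hy])))
    exact hd
  obtain ⟨B₀, hB₀⟩ := hY0
  -- the sphere of radius `c` in the complement
  have hn₂ : Even (Nat.card {u : W' // Q (u : ι → F) = c}) := by
    let τ₁ : Equiv.Perm {u : W' // Q (u : ι → F) = c} :=
      Equiv.subtypeEquiv (Equiv.neg W') (fun u => by
        show _ ↔ Q ((-u : W') : ι → F) = c
        rw [Submodule.coe_neg, QuadraticMap.map_neg])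
    have hne : ∀ y : {u : W' // Q (u : ι → F) = c}, τ₁ y ≠ y := by
      intro y hy
      have h1 : -y.1 = y.1 := congrArg Subtype.val hy
      have h3 : (2 : F) • y.1 = 0 := by
        rw [two_smul]
        nth_rw 1 [← h1]
        simp
      rcases smul_eq_zero.1 h3 with h4 | h4
      · exact h2 h4
      · apply hc0
        rw [← y.2, h4]
        simp
    have hd := card_dvd_of_free τ₁ (L := 2) even_two (by norm_num)
      (by
        ext1 y
        apply Subtype.ext
        rw [pow_two, Equiv.Perm.mul_apply]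
        show - - y.1 = _
        simp)
      hne
      (fun k hk hkL y => by
        have : k = 1 := by omega
        subst this
        simpa using hne y)
    exact (even_iff_two_dvd).2 hd
  haveI : Fintype W' := Fintype.ofFinite W'
  have hcardY : ∑ u : W', Nat.card (Y u) = L * (A₀ * (Finset.univ.filter (fun u : W' => ¬ Q (u : ι → F) = c)).card +
      B₀ * (Finset.univ.filter (fun u : W' => Q (u : ι → F) = c)).card) := by
    apply sum_count
    · intro u hu
      rw [← hB₀]
      refine Nat.card_congr (Equiv.subtypeEquivRight (fun w => ?_))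
      rw [hu]
      simp
    · intro u hu
      have hd : c - Q (u : ι → F) ≠ 0 := by
        rw [sub_ne_zero]
        exact fun h => hu h.symm
      rw [← hcount _ hd]
      refine Nat.card_congr (Equiv.subtypeEquivRight (fun w => ?_))
      constructor
      · rintro ⟨-, h⟩
        linear_combination h
      · intro h
        refine ⟨?_, by rw [h]; ring⟩
        rintro rfl
        apply hd
        rw [← h]
        simp
  rw [hsupp, Nat.card_sigma, hcardY] at hn
  have hn' := Nat.eq_of_mul_eq_mul_left hL0 hn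
  have hcardU : (Finset.univ.filter (fun u : W' => Q (u : ι → F) = c)).card = Nat.card {u : W' // Q (u : ι → F) = c} := by
    rw [Nat.card_eq_fintype_card, Fintype.card_subtype]
  have hoddU := FusMin.odd_card_of_module h2 W'
  rw [Nat.card_eq_fintype_card, ← Finset.card_univ,
    ← Finset.card_filter_add_card_filter_not (s := (Finset.univ : Finset W')) (fun u : W' => Q (u : ι → F) = c)] at hoddU
  rw [← hcardU] at hn₂
  have hn₁ : Odd (Finset.univ.filter (fun u : W' => ¬ Q (u : ι → F) = c)).card := by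
    rcases Nat.even_or_odd (Finset.univ.filter (fun u : W' => ¬ Q (u : ι → F) = c)).card with h | h
    · exact absurd (hn₂.add h) (Nat.not_even_iff_odd.2 hoddU)
    · exact h
  have hnodd : Odd n := by
    rw [← hn']
    exact (hA₀.mul hn₁).add_even (hn₂.mul_left _)
  unfold sphereSign
  rw [MonoidHom.comp_apply, ← hσ]
  convert hsign using 1
  rw [hnodd.neg_one_pow]

end Cfsg.Agent.Lib.Classical.Herm.FusSign
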