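import Mathlib
import Cfsg.Agent.Lib.Classical.Herm.FusSign
import Cfsg.Agent.Lib.Classical.Herm.TwoForms

/-!
# An element outside `Ω` in the centraliser of a semisimple isometry of odd order

A nontrivial isometry `g` with `g ^ r = 1`, `r` odd and prime to the characteristic, commutes with an
element of `SO` not in `Ω`: a torus element in a minimal nondegenerate invariant subspace on which `g`
has no fixed vector.
-/

set_option autoImplicit false
set_option linter.style.haveILetI false
set_option linter.unusedSectionVars false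
set_option linter.unusedVariables false
set_option linter.unusedSimpArgs false

namespace Cfsg.Agent.Lib.Classical.Herm.FusTorus

open Matrix QuadraticMap Module
open Cfsg.Agent.Lib.Classical.Orth.Basic
open Cfsg.Agent.Lib.Classical.Orth.SphereSign
open Cfsg.Agent.Lib.Classical.Orth.Spinor
open Cfsg.Agent.Lib.Classical.Orth.Adjust
open Cfsg.Agent.Lib.Classical.Orth.SimAut2
open Cfsg.Agent.Lib.Classical.Herm

variable {ι : Type} [Fintype ι] [DecidableEq ι] {F : Type*} [Field F] [Fintype F]
variable {Q : QuadraticForm F (ι → F)}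

/-- The linear equivalence of an isometry. -/
noncomputable def gE (g : ↥(Cfsg.isometryGroup F (⇑Q))) : (ι → F) ≃ₗ[F] (ι → F) where
  toFun x := act g x
  invFun x := act g⁻¹ x
  map_add' x y := act_add g x y
  map_smul' c x := act_smul g c x
  left_inv x := act_inv_act g x
  right_inv x := act_act_inv g x

theorem gE_apply (g : ↥(Cfsg.isometryGroup F (⇑Q))) (x : ι → F) : gE g x = act g x := rfl

theorem gE_pow (g : ↥(Cfsg.isometryGroup F (⇑Q))) (k : ℕ) (x : ι → F) :
    ((gE g : Module.End F (ι → F)) ^ k) x = act (g ^ k) x := by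
  induction k generalizing x with
  | zero => simp [act]
  | succ k ih =>
    rw [pow_succ', Module.End.mul_apply, ih, pow_succ', act_mul]
    rfl

/-- Restriction to a subspace of a bilinear form nondegenerate with an orthogonal complement. -/
theorem exists_self_ne {V : Type*} [AddCommGroup V] [Module F V] (h2 : (2 : F) ≠ 0)
    (B : LinearMap.BilinForm F V) (hB : ∀ x y, B x y = B y x) {x y : V} (hxy : B x y ≠ 0) :
    ∃ v, B v v ≠ 0 := by
  by_contra hcon
  push Not at hcon
  have h1 := hcon (x + y)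
  simp only [map_add, LinearMap.add_apply, hcon x, hcon y, hB y x] at h1
  apply hxy
  have h3 : (2 : F) * B x y = 0 := by linear_combination h1
  exact (mul_eq_zero.1 h3).resolve_left h2

variable {M : ℕ} (D : Data Q M)

include D in
/-- The element of `SO` outside `Ω`. -/
theorem exists_torus_iso (g : ↥(Cfsg.isometryGroup F (⇑Q))) {r : ℕ} (hr0 : (r : F) ≠ 0) (hro : Odd r)
    (hgr : g ^ r = 1) (hg1 : g ≠ 1) :
    ∃ s : ↥(Cfsg.isometryGroup F (⇑Q)), s * g = g * s ∧ ((s.1 : GL ι F) : Matrix ι ι F).det = 1 ∧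
      s ∉ Cfsg.Omega F (⇑Q) := by
  classical
  have h2 := D.h2
  let B : LinearMap.BilinForm F (ι → F) := polarBilin Q
  have hBp : ∀ x y, B x y = polar (⇑Q) x y := fun _ _ => rfl
  have hB : ∀ x y, B x y = B y x := fun x y => polar_comm _ _ _
  have hn : ∀ x, (∀ y, B x y = 0) → x = 0 := fun x hx => D.hQ.1 x hx
  let G := gE g
  have hGB : ∀ x y, B (G x) (G y) = B x y := fun x y => polar_act g x y
  have hGr : (G : Module.End F (ι → F)) ^ r = 1 := by
    apply LinearMap.ext
    intro x
    rw [gE_pow, hgr, act_one]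
    rfl
  have hcompl := TwoForms.isCompl_ker_range (G : Module.End F (ι → F)) (1 : F) hGr (one_pow r) hr0
  set U₀ := LinearMap.ker ((G : Module.End F (ι → F)) - (1 : F) • 1) with hU₀
  set U₁ := LinearMap.range ((G : Module.End F (ι → F)) - (1 : F) • 1) with hU₁
  have hmemU₀ : ∀ x, x ∈ U₀ ↔ G x = x := by
    intro x
    simp [hU₀, sub_eq_zero]
  have hεε : (1 : F) * 1 = 1 := by simp
  have horth : ∀ u ∈ U₀, ∀ w ∈ U₁, B u w = 0 ∧ B w u = 0 :=
    fun u hu w hw => TwoForms.orth_ker_range hGB hεε hu hw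
  have hnoFix : ∀ x ∈ U₁, G (G x) = x → x = 0 := by
    intro x hx hxx
    obtain ⟨j, hj⟩ := hro
    have h1 : ∀ i : ℕ, ((G : Module.End F (ι → F)) ^ (2 * i)) x = x := by
      intro i
      induction i with
      | zero => simp
      | succ i ih =>
        rw [show 2 * (i + 1) = 2 * i + 2 by ring, pow_add, Module.End.mul_apply, pow_two, Module.End.mul_apply]
        exact (congrArg _ hxx).trans ih
    have h3 : G x = x := by
      have h4 : ((G : Module.End F (ι → F)) ^ r) x = x := by rw [hGr]; rfl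
      rw [hj, pow_succ', Module.End.mul_apply, h1] at h4
      exact h4
    exact Submodule.disjoint_def.1 hcompl.disjoint x ((hmemU₀ x).2 h3) hx
  have hGU₁ : ∀ x ∈ U₁, G x ∈ U₁ := by
    rintro _ ⟨z, rfl⟩
    refine ⟨G z, ?_⟩
    simp
  -- the candidates
  let C : Set (Submodule F (ι → F)) := {U | U ≠ ⊥ ∧ U ≤ U₁ ∧ (∀ x ∈ U, G x ∈ U) ∧ (∀ x ∈ U, (∀ y ∈ U, B x y = 0) → x = 0)}
  haveI : Finite (Submodule F (ι → F)) :=
    Finite.of_injective (fun U : Submodule F (ι → F) => (U : Set (ι → F))) SetLike.coe_injective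
  have hU₁C : U₁ ∈ C := by
    refine ⟨?_, le_rfl, hGU₁, ?_⟩
    · intro h
      apply hg1
      apply ext_act
      intro x
      have h1 : ((G : Module.End F (ι → F)) - (1 : F) • 1) x ∈ U₁ := ⟨x, rfl⟩
      rw [h, Submodule.mem_bot] at h1
      have h3 : G x - x = 0 := by simpa using h1
      rw [act_one]
      exact sub_eq_zero.1 h3
    · intro x hx hxy
      apply hn
      intro y
      have hy : y ∈ U₀ ⊔ U₁ := by rw [hcompl.sup_eq_top]; trivial
      obtain ⟨a, ha, b, hb, rfl⟩ := Submodule.mem_sup.1 hy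
      rw [map_add, (horth a ha x hx).2, hxy b hb, add_zero]
  obtain ⟨W, hWmin⟩ := (Set.toFinite C).exists_minimal ⟨U₁, hU₁C⟩
  obtain ⟨⟨hW0, hWU, hWinv, hWnd⟩, hWm⟩ := hWmin
  -- the restriction to `W`
  let A : W ≃ₗ[F] W := TwoForms.resE G W hWinv
  have hAc : ∀ x : W, (A x : ι → F) = G x := fun _ => rfl
  let BW : LinearMap.BilinForm F W := B.restrict W
  have hBW : ∀ x y : W, BW x y = B x y := fun _ _ => rfl
  have hBWs : ∀ x y, BW x y = BW y x := fun x y => hB _ _
  have hBWn : ∀ x, (∀ y, BW x y = 0) → x = 0 := by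
    intro x hx
    apply Subtype.ext
    exact hWnd x x.2 (fun y hy => hx ⟨y, hy⟩)
  have hAB : ∀ x y, BW (A x) (A y) = BW x y := fun x y => hGB _ _
  have hr1 : 1 ≤ r := hro.pos
  have hAr : (A : Module.End F W) ^ r = 1 := by
    have h3 : ∀ (k : ℕ) (x : W), ((((A : Module.End F W)) ^ k) x : ι → F) = ((G : Module.End F (ι → F)) ^ k) x := by
      intro k
      induction k with
      | zero => intro x; simp
      | succ k ih =>
        intro x
        rw [pow_succ, pow_succ, Module.End.mul_apply, Module.End.mul_apply, ih]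
        rfl
    apply LinearMap.ext
    intro x
    apply Subtype.ext
    rw [h3, hGr]
    rfl
  have hAU : ∀ x, A (A x) = x → x = 0 := by
    intro x hx
    apply Subtype.ext
    exact hnoFix x (hWU x.2) (congrArg Subtype.val hx)
  have hAmin : ∀ U : Submodule F W, (∀ x ∈ U, A x ∈ U) → (∀ x ∈ U, (∀ y ∈ U, BW x y = 0) → x = 0) →
      U = ⊥ ∨ U = ⊤ := by
    intro U hU1 hU2
    by_cases hU : U = ⊥
    · exact Or.inl hU
    right
    have hmapC : U.map W.subtype ∈ C := by
      refine ⟨?_, ?_, ?_, ?_⟩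
      · intro h
        apply hU
        rw [eq_bot_iff]
        intro x hx
        have h3 : (x : ι → F) ∈ U.map W.subtype := ⟨x, hx, rfl⟩
        rw [h, Submodule.mem_bot] at h3
        exact (Submodule.mem_bot F).2 (Subtype.ext h3)
      · exact le_trans (Submodule.map_subtype_le W U) hWU
      · rintro _ ⟨x, hx, rfl⟩
        exact ⟨A x, hU1 x hx, rfl⟩
      · rintro _ ⟨x, hx, rfl⟩ h3
        have h4 : x = 0 := hU2 x hx (fun y hy => h3 _ ⟨y, hy, rfl⟩)
        rw [h4]
        rfl
    have hle : W ≤ U.map W.subtype := hWm hmapC (Submodule.map_subtype_le W U)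
    rw [eq_top_iff]
    intro x _
    obtain ⟨y, hy, hyx⟩ := hle x.2
    have : y = x := Subtype.ext hyx
    rwa [← this]
  -- a vector of nonzero norm
  obtain ⟨v₀, hv₀⟩ : ∃ v₀ : W, BW v₀ v₀ ≠ 0 := by
    obtain ⟨x, hx, hx0⟩ := (Submodule.ne_bot_iff W).1 hW0
    have h3 : ∃ y : W, BW ⟨x, hx⟩ y ≠ 0 := by
      by_contra hcon
      push Not at hcon
      exact hx0 (congrArg Subtype.val (hBWn ⟨x, hx⟩ hcon))
    obtain ⟨y, hy⟩ := h3
    exact exists_self_ne h2 BW hBWs hy
  obtain ⟨t, L, A₀, hLe, hL0, hA₀, htB, htA, htL, hfree, hcount⟩ :=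
    FusMin.min_torus BW hBWs hBWn A hAB hAr hr1 h2 hr0 hAU hAmin hv₀
  -- the complement
  have hrefl : B.IsRefl := fun x y h => by rw [hB, h]
  have hnd : (B.restrict W).Nondegenerate :=
    (LinearMap.IsRefl.nondegenerate_iff_separatingLeft
      (fun x y h => by
        have : BW y x = BW x y := hBWs y x
        show BW y x = 0
        rw [this]
        exact h)).2 hBWn
  have hWW : IsCompl W (B.orthogonal W) :=
    LinearMap.BilinForm.isCompl_orthogonal_of_restrict_nondegenerate hrefl hnd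
  set W' := B.orthogonal W with hW'
  have hperp : ∀ w ∈ W, ∀ u ∈ W', polar (⇑Q) w u = 0 := by
    intro w hw u hu
    exact (LinearMap.BilinForm.mem_orthogonal_iff.1 hu) w hw
  have hGW' : ∀ u ∈ W', G u ∈ W' := by
    intro u hu
    rw [hW', LinearMap.BilinForm.mem_orthogonal_iff]
    intro w hw
    obtain ⟨w₁, hw₁⟩ := A.surjective ⟨w, hw⟩
    have h3 : w = G w₁ := (congrArg Subtype.val hw₁).symm
    show B w (G u) = 0
    rw [h3, hGB]
    exact (LinearMap.BilinForm.mem_orthogonal_iff.1 hu) w₁ w₁.2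
  have hpolarQ : ∀ x : ι → F, B x x = 2 * Q x := by
    intro x
    rw [hBp, polar_self]
    simp
  have htQ : ∀ w : W, Q (t w : ι → F) = Q (w : ι → F) := by
    intro w
    have h3 : BW (t w) (t w) = BW w w := htB w w
    rw [hBW, hBW, hpolarQ, hpolarQ] at h3
    exact mul_left_cancel₀ h2 h3
  have hcount' : ∀ d : F, d ≠ 0 → Nat.card {w : W // Q (w : ι → F) = d} = L * A₀ := by
    intro d hd
    rw [← hcount (2 * d) (mul_ne_zero h2 hd)]
    refine Nat.card_congr (Equiv.subtypeEquivRight (fun w => ?_))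
    rw [hBW, hpolarQ]
    constructor
    · intro h
      rw [h]
    · intro h
      exact mul_left_cancel₀ h2 h
  -- the extension to the whole space
  let e : (W × W') ≃ₗ[F] (ι → F) := Submodule.prodEquivOfIsCompl W W' hWW
  have he : ∀ a b, e (a, b) = (a : ι → F) + b := fun a b => by simp [e]
  let T : (ι → F) ≃ₗ[F] (ι → F) := e.symm.trans ((t.prodCongr (LinearEquiv.refl F W')).trans e)
  have hT : ∀ (w : W) (u : W'), T ((w : ι → F) + u) = (t w : ι → F) + u := by
    intro a b
    have : (a : ι → F) + b = e (a, b) := (he a b).symm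
    simp only [T, LinearEquiv.trans_apply]
    rw [this, LinearEquiv.symm_apply_apply]
    simp [he]
  have hdec : ∀ v : ι → F, ∃ (w : W) (u : W'), v = (w : ι → F) + u := by
    intro v
    have hv : v ∈ W ⊔ W' := by rw [hWW.sup_eq_top]; trivial
    obtain ⟨w, hw, u, hu, rfl⟩ := Submodule.mem_sup.1 hv
    exact ⟨⟨w, hw⟩, ⟨u, hu⟩, rfl⟩
  have hQadd : ∀ w ∈ W, ∀ u ∈ W', Q (w + u) = Q w + Q u := by
    intro w hw u hu
    have h1 := hperp w hw u hu
    have h3 : polar (⇑Q) w u = Q (w + u) - Q w - Q u := rfl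
    rw [h3] at h1
    linear_combination h1
  have hTQ : ∀ v, Q (T v) = Q v := by
    intro v
    obtain ⟨w, u, rfl⟩ := hdec v
    rw [hT, hQadd _ (t w).2 _ u.2, hQadd _ w.2 _ u.2, htQ]
  let s : ↥(Cfsg.isometryGroup F (⇑Q)) := isoOfEquiv T hTQ
  have hs : ∀ (w : W) (u : W'), act s ((w : ι → F) + u) = (t w : ι → F) + u := by
    intro w u
    rw [act_isoOfEquiv, hT]
  have hs1 : plusSign Q s = -1 :=
    FusSign.sign_sphere h2 W W' hWW hperp t hLe hL0 hA₀ htQ htL hfree hcount' s hs one_ne_zero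
  have hs2 : spinorSign Q h2 s = -1 :=
    FusSign.sign_sphere h2 W W' hWW hperp t hLe hL0 hA₀ htQ htL hfree hcount' s hs (nonsq_ne_zero h2)
  have hdet : ((s.1 : GL ι F) : Matrix ι ι F).det = 1 := by
    apply (D.signs_iff_det s).1
    rw [hs1, hs2]
    rfl
  refine ⟨s, ?_, hdet, ?_⟩
  · apply ext_act
    intro x
    obtain ⟨w, u, rfl⟩ := hdec x
    rw [act_mul, act_mul, hs]
    have h3 : act g ((w : ι → F) + u) = ((A w : W) : ι → F) + ((⟨G u, hGW' u u.2⟩ : W') : ι → F) := by
      rw [act_add]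
      rfl
    rw [h3, hs, htA]
    rw [act_add]
    rfl
  · intro hmem
    have h3 := (D.so_mem_omega s hdet).1 hmem
    rw [hs2] at h3
    exact absurd h3 (by decide)

end Cfsg.Agent.Lib.Classical.Herm.FusTorus
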