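import Mathlib
import Cfsg.Agent.Lib.Classical.Herm.FusTorus
import Cfsg.Agent.Lib.Classical.GraphAut.Split

/-!
# A similarity of non-square multiplier in the centraliser of a semisimple isometry of odd order
-/

set_option autoImplicit false
set_option linter.style.haveILetI false
set_option linter.unusedSectionVars false
set_option linter.unusedVariables false
set_option linter.unusedSimpArgs false

namespace Cfsg.Agent.Lib.Classical.Herm.FusSim

open Matrix QuadraticMap Module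
open Cfsg.Agent.Lib.Classical.Orth.Basic
open Cfsg.Agent.Lib.Classical.Orth.Spinor
open Cfsg.Agent.Lib.Classical.Orth.Adjust
open Cfsg.Agent.Lib.Classical.Orth.SimAut2
open Cfsg.Agent.Lib.Classical.Herm
open Cfsg.Agent.Lib.Classical.GraphAut.Forms
open Cfsg.Agent.Lib.Classical.GraphAut.Split
open Cfsg.Agent.Lib.Classical.Symp.Basic
open scoped MatrixGroups

variable {F : Type*} [Field F] [Fintype F]

/-- A nondegenerate symmetric form of even dimension is similar to its multiples. -/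
theorem sim_even {U : Type*} [AddCommGroup U] [Module F U] [FiniteDimensional F U] (h2 : (2 : F) ≠ 0)
    (B : LinearMap.BilinForm F U) (hB : ∀ x y, B x y = B y x) (hn : ∀ x, (∀ y, B x y = 0) → x = 0)
    {m : ℕ} (hm : finrank F U = 2 * m) (a : Fˣ) :
    ∃ c : U ≃ₗ[F] U, ∀ x y, B (c x) (c y) = a * B x y := by
  classical
  rcases Nat.eq_zero_or_pos m with rfl | hm1
  · haveI : Subsingleton U := finrank_zero_iff.1 (by simpa using hm)
    refine ⟨LinearEquiv.refl F U, fun x y => ?_⟩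
    rw [Subsingleton.elim x 0]
    simp
  · let P : (Fin (2 * m) → F) ≃ₗ[F] U := LinearEquiv.ofFinrankEq _ _ (by simp [hm])
    let g : LinearMap.BilinForm F (Fin (2 * m) → F) := B.comp (P : (Fin (2 * m) → F) →ₗ[F] U) P
    have hg : ∀ x y, g x y = B (P x) (P y) := fun _ _ => rfl
    obtain ⟨B', hB'⟩ := exists_B_of_bilin g (fun y hy => by
      apply P.injective
      rw [map_zero]
      apply hn
      intro z
      have h1 := hy (P.symm z)
      rw [hg, LinearEquiv.apply_symm_apply, hB] at h1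
      exact h1) (LinearEquiv.refl F _)
    simp only [LinearEquiv.refl_apply] at hB'
    have hSy : IsSy B' := fun x y => by rw [hB', hB', hg, hg, hB]
    obtain ⟨k, hk⟩ := exists_sim h2 hSy hm1 rfl a
    let K : (Fin (2 * m) → F) ≃ₗ[F] (Fin (2 * m) → F) :=
      (Matrix.GeneralLinearGroup.toLin.trans (LinearMap.GeneralLinearGroup.generalLinearEquiv F (Fin (2 * m) → F))) k
    have hK : ∀ x, K x = (k : Matrix _ _ F) *ᵥ x := fun x => rfl
    refine ⟨P.symm.trans (K.trans P), fun x y => ?_⟩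
    simp only [LinearEquiv.trans_apply]
    have h1 := hk (P.symm x) (P.symm y)
    rw [hB', hB', hg, hg, ← hK, ← hK, LinearEquiv.apply_symm_apply, LinearEquiv.apply_symm_apply] at h1
    exact h1

/-- A similarity of a nondegenerate alternating form has determinant the power of the multiplier. -/
theorem det_of_alt_sim {V : Type*} [AddCommGroup V] [Module F V] [FiniteDimensional F V]
    (f : LinearMap.BilinForm F V) (hA : f.IsAlt) (hn : ∀ x, (∀ y, f x y = 0) → x = 0)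
    (c : V ≃ₗ[F] V) (a : Fˣ) (hc : ∀ x y, f (c x) (c y) = a * f x y) {M : ℕ} (hM : finrank F V = 2 * M) :
    LinearMap.det (c : V →ₗ[F] V) = (a : F) ^ M := by
  classical
  have hnd : f.Nondegenerate := (LinearMap.IsRefl.nondegenerate_iff_separatingLeft hA.isRefl).2 hn
  obtain ⟨e, he⟩ := Cfsg.Agent.Lib.Classical.Symp.SympBasis.exists_sympEquiv f hA hnd hM
  let c' : (Fin M ⊕ Fin M → F) ≃ₗ[F] (Fin M ⊕ Fin M → F) := e.symm.trans (c.trans e)
  have hc' : ∀ u v, sympForm M F (c' u) (c' v) = a * sympForm M F u v := by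
    intro u v
    simp only [c', LinearEquiv.trans_apply]
    rw [he, hc, ← he, LinearEquiv.apply_symm_apply, LinearEquiv.apply_symm_apply]
  let g' : GL (Fin M ⊕ Fin M) F := ofE c'
  have h1 : ∀ u v, sympForm M F ((g' : Matrix _ _ F) *ᵥ u) ((g' : Matrix _ _ F) *ᵥ v) = a * sympForm M F u v := by
    intro u v
    rw [mulVec_ofE, mulVec_ofE, hc']
  have h2 : ((g' * (dJ M a)⁻¹ : GL (Fin M ⊕ Fin M) F) : Matrix (Fin M ⊕ Fin M) (Fin M ⊕ Fin M) F) ∈ Matrix.symplecticGroup (Fin M) F := by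
    rw [mem_symplecticGroup_iff_forall]
    intro u v
    rw [Units.val_mul, ← Matrix.mulVec_mulVec, ← Matrix.mulVec_mulVec, h1]
    have h3 := sympForm_dJ M a (((dJ M a)⁻¹ : GL (Fin M ⊕ Fin M) F) *ᵥ u) (((dJ M a)⁻¹ : GL (Fin M ⊕ Fin M) F) *ᵥ v)
    rw [← h3, Matrix.mulVec_mulVec, Matrix.mulVec_mulVec, ← Units.val_mul, mul_inv_cancel, Units.val_one,
      Matrix.one_mulVec, Matrix.one_mulVec]
  have h3 := SymplecticGroup.det_eq_one h2
  rw [Units.val_mul, Matrix.det_mul] at h3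
  have h4 : ((dJ M a : GL (Fin M ⊕ Fin M) F) : Matrix (Fin M ⊕ Fin M) (Fin M ⊕ Fin M) F).det *
      (((dJ M a)⁻¹ : GL (Fin M ⊕ Fin M) F) : Matrix (Fin M ⊕ Fin M) (Fin M ⊕ Fin M) F).det = 1 := by
    rw [← Matrix.det_mul, ← Units.val_mul, mul_inv_cancel, Units.val_one, Matrix.det_one]
  have h5 : ((g' : GL (Fin M ⊕ Fin M) F) : Matrix (Fin M ⊕ Fin M) (Fin M ⊕ Fin M) F).det = (a : F) ^ M := by
    have h6 := congrArg Units.val (det_dJ M a)
    rw [Matrix.GeneralLinearGroup.val_det_apply, Units.val_pow_eq_pow_val] at h6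
    rw [← h6]
    calc ((g' : GL (Fin M ⊕ Fin M) F) : Matrix (Fin M ⊕ Fin M) (Fin M ⊕ Fin M) F).det
        = ((g' : GL (Fin M ⊕ Fin M) F) : Matrix (Fin M ⊕ Fin M) (Fin M ⊕ Fin M) F).det * (((dJ M a : GL (Fin M ⊕ Fin M) F) : Matrix (Fin M ⊕ Fin M) (Fin M ⊕ Fin M) F).det *
          (((dJ M a)⁻¹ : GL (Fin M ⊕ Fin M) F) : Matrix (Fin M ⊕ Fin M) (Fin M ⊕ Fin M) F).det) := by rw [h4, mul_one]
      _ = _ := by
        rw [mul_left_comm, h3, mul_one]
  have h7 : LinearMap.det (c' : (Fin M ⊕ Fin M → F) →ₗ[F] (Fin M ⊕ Fin M → F)) =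
      ((g' : GL (Fin M ⊕ Fin M) F) : Matrix (Fin M ⊕ Fin M) (Fin M ⊕ Fin M) F).det := by
    rw [← LinearMap.det_toLin']
    congr 1
    apply LinearMap.ext
    intro x
    rw [Matrix.toLin'_apply, mulVec_ofE]
    rfl
  have h8 : (c' : (Fin M ⊕ Fin M → F) →ₗ[F] (Fin M ⊕ Fin M → F)) =
      (e : V →ₗ[F] (Fin M ⊕ Fin M → F)) ∘ₗ (c : V →ₗ[F] V) ∘ₗ (e.symm : (Fin M ⊕ Fin M → F) →ₗ[F] V) := rfl
  rw [h8, LinearMap.det_conj, h5] at h7
  exact h7

variable {ι : Type} [Fintype ι] [DecidableEq ι] {Q : QuadraticForm F (ι → F)} {M : ℕ} (D : Data Q M)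

open Cfsg.Agent.Lib.Classical.Herm.FusTorus in
include D in
/-- The similarity of non-square multiplier. -/
theorem exists_sim_comm (g : ↥(Cfsg.isometryGroup F (⇑Q))) {r : ℕ} (hr0 : (r : F) ≠ 0) (hro : Odd r)
    (hgr : g ^ r = 1) :
    ∃ C : SimG Q, C * ofO g = ofO g * C ∧ D.sgn1 C ≠ 1 ∧ D.sgn2 C = 1 := by
  classical
  have h2 := D.h2
  let B : LinearMap.BilinForm F (ι → F) := polarBilin Q
  have hBp : ∀ x y, B x y = polar (⇑Q) x y := fun _ _ => rfl
  have hB : ∀ x y, B x y = B y x := fun x y => polar_comm _ _ _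
  have hn : ∀ x, (∀ y, B x y = 0) → x = 0 := fun x hx => D.hQ.1 x hx
  let G := gE g
  have hGB : ∀ x y, B (G x) (G y) = B x y := fun x y => polar_act g x y
  have hGr : (G : Module.End F (ι → F)) ^ r = 1 := by
    apply LinearMap.ext
    intro x
    rw [gE_pow, hgr, act_one]
    rfl
  have hcompl := TwoForms.isCompl_ker_range (G : Module.End F (ι → F)) (1 : F) hGr (one_pow r) hr0
  set U₀ := LinearMap.ker ((G : Module.End F (ι → F)) - (1 : F) • 1) with hU₀
  set U₁ := LinearMap.range ((G : Module.End F (ι → F)) - (1 : F) • 1) with hU₁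
  have hmemU₀ : ∀ x, x ∈ U₀ ↔ G x = x := by
    intro x
    simp [hU₀, sub_eq_zero]
  have hεε : (1 : F) * 1 = 1 := by simp
  have horth : ∀ u ∈ U₀, ∀ w ∈ U₁, B u w = 0 ∧ B w u = 0 :=
    fun u hu w hw => TwoForms.orth_ker_range hGB hεε hu hw
  have hnoFix : ∀ x ∈ U₁, G (G x) = x → x = 0 := by
    intro x hx hxx
    obtain ⟨j, hj⟩ := hro
    have h1 : ∀ i : ℕ, ((G : Module.End F (ι → F)) ^ (2 * i)) x = x := by
      intro i
      induction i with
      | zero => simp
      | succ i ih =>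
        rw [show 2 * (i + 1) = 2 * i + 2 by ring, pow_add, Module.End.mul_apply, pow_two, Module.End.mul_apply]
        exact (congrArg _ hxx).trans ih
    have h3 : G x = x := by
      have h4 : ((G : Module.End F (ι → F)) ^ r) x = x := by rw [hGr]; rfl
      rw [hj, pow_succ', Module.End.mul_apply, h1] at h4
      exact h4
    exact Submodule.disjoint_def.1 hcompl.disjoint x ((hmemU₀ x).2 h3) hx
  have hGU₁ : ∀ x ∈ U₁, G x ∈ U₁ := by
    rintro _ ⟨z, rfl⟩
    refine ⟨G z, ?_⟩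
    simp
  have hGsU₁ : ∀ x ∈ U₁, G.symm x ∈ U₁ := by
    rintro _ ⟨z, rfl⟩
    refine ⟨G.symm z, ?_⟩
    simp
  have hGU₀ : ∀ x ∈ U₀, G x ∈ U₀ := by
    intro x hx
    rw [hmemU₀] at hx ⊢
    rw [hx, hx]
  have hnU₀ : ∀ x : U₀, (∀ y : U₀, B.restrict U₀ x y = 0) → x = 0 :=
    TwoForms.nondeg_restrict hcompl.symm hn (fun u hu w hw => (horth w hw u hu).1)
  have hnU₁ : ∀ x : U₁, (∀ y : U₁, B.restrict U₁ x y = 0) → x = 0 :=
    TwoForms.nondeg_restrict hcompl hn (fun u hu w hw => (horth u hu w hw).2)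
  -- the alternating form
  let Δ : (ι → F) →ₗ[F] (ι → F) := (G : (ι → F) →ₗ[F] (ι → F)) - (G.symm : (ι → F) →ₗ[F] (ι → F))
  have hΔ : ∀ x, Δ x = G x - G.symm x := fun _ => rfl
  let f : LinearMap.BilinForm F (ι → F) := B.comp Δ LinearMap.id
  have hf : ∀ x y, f x y = B (G x - G.symm x) y := fun _ _ => rfl
  have hfalt : f.IsAlt := by
    intro x
    rw [hf, map_sub, LinearMap.sub_apply]
    have h3 := hGB (G.symm x) x
    rw [G.apply_symm_apply] at h3
    rw [← h3, hB x, sub_self]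
  have hΔinj : ∀ x ∈ U₁, G x - G.symm x = 0 → x = 0 := by
    intro x hx h3
    apply hnoFix x hx
    rw [sub_eq_zero.1 h3]
    simp
  have hfU₁ : ∀ x : U₁, (∀ y : U₁, f.restrict U₁ x y = 0) → x = 0 := by
    intro x hx
    apply Subtype.ext
    apply hΔinj x x.2
    have hmem : G (x : ι → F) - G.symm x ∈ U₁ := U₁.sub_mem (hGU₁ _ x.2) (hGsU₁ _ x.2)
    have h3 := hnU₁ ⟨_, hmem⟩ (fun y => hx y)
    exact congrArg Subtype.val h3
  have hev₁ : Even (finrank F U₁) :=
    Cfsg.Agent.Lib.Classical.Witt.Parity.even_finrank_of_alt (f.restrict U₁) (fun x => hfalt x) hfU₁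
  have hdim : finrank F U₀ + finrank F U₁ = 2 * M := by
    rw [Submodule.finrank_add_eq_of_isCompl hcompl, Module.finrank_fintype_fun_eq_card, D.hM]
  obtain ⟨m₀, hm₀⟩ : ∃ m₀, finrank F U₀ = 2 * m₀ := by
    have hev₀ : Even (finrank F U₀) := by
      have h3 : Even (finrank F U₀ + finrank F U₁) := by
        rw [hdim]
        exact even_two_mul M
      exact (Nat.even_add.1 h3).2 hev₁
    exact even_iff_two_dvd.1 hev₀
  -- the multiplier
  let a : Fˣ := Units.mk0 D.c D.c0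
  have ha : (a : F) = D.c := rfl
  let Bₐ : LinearMap.BilinForm F (ι → F) := (a : F) • B
  have hBₐ : ∀ x y, Bₐ x y = a * B x y := fun _ _ => rfl
  have hGBₐ : ∀ x y, Bₐ (G x) (G y) = Bₐ x y := fun x y => by rw [hBₐ, hBₐ, hGB]
  have hAorth : ∀ u ∈ U₀, ∀ w ∈ U₁, Bₐ u w = 0 ∧ Bₐ w u = 0 := by
    intro u hu w hw
    rw [hBₐ, hBₐ, (horth u hu w hw).1, (horth u hu w hw).2]
    simp
  have hGood₁ : TwoForms.Good (B.restrict U₁) (Bₐ.restrict U₁) (TwoForms.resE G U₁ hGU₁) := by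
    refine TwoForms.good_of_injective (ε := 1) hεε ?_ ?_ hnU₁ ?_ _ (fun x y => hGB _ _) (fun x y => hGBₐ _ _) ?_
    · intro x y
      rw [one_mul]
      exact hB _ _
    · intro x y
      rw [one_mul]
      show (a : F) * B _ _ = (a : F) * B _ _
      rw [hB]
    · intro x hx
      apply hnU₁
      intro y
      have h3 := hx y
      have h4 : (a : F) * B x y = 0 := h3
      exact (mul_eq_zero.1 h4).resolve_left a.ne_zero
    · intro x hx
      apply Subtype.ext
      exact hnoFix x x.2 (congrArg Subtype.val hx)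
  have hGood₀ : TwoForms.Good (B.restrict U₀) (Bₐ.restrict U₀) (TwoForms.resE G U₀ hGU₀) := by
    obtain ⟨c₀, hc₀⟩ := sim_even h2 (B.restrict U₀) (fun x y => hB _ _) hnU₀ hm₀ a
    refine ⟨c₀, ?_, hc₀⟩
    intro x
    have h3 : ∀ y : U₀, TwoForms.resE G U₀ hGU₀ y = y := fun y =>
      Subtype.ext ((hmemU₀ _).1 y.2)
    rw [h3, h3]
  obtain ⟨c, hcG, hcB⟩ := TwoForms.glue hcompl (B₁ := B) (B₂ := Bₐ) (g := G) (gU := TwoForms.resE G U₀ hGU₀) (gW := TwoForms.resE G U₁ hGU₁)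
    (fun _ => rfl) (fun _ => rfl)
    (fun u hu w hw => (horth u hu w hw).1) (fun u hu w hw => (horth u hu w hw).2)
    (fun u hu w hw => (hAorth u hu w hw).1) (fun u hu w hw => (hAorth u hu w hw).2) hGood₀ hGood₁
  have hcB' : ∀ x y, B (c x) (c y) = a * B x y := hcB
  have hpolarQ : ∀ x : ι → F, B x x = 2 * Q x := by
    intro x
    rw [hBp, polar_self]
    simp
  have hcQ : ∀ v, Q (c v) = D.c * Q v := by
    intro v
    apply mul_left_cancel₀ h2
    rw [← hpolarQ, hcB', hpolarQ, ha]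
    ring
  -- the element of the group
  let C₀ : SimG Q := ⟨ofE c, ⟨Units.mk0 D.c D.c0, fun v => by
    rw [mulVec_ofE, hcQ]
    rfl⟩⟩
  have hC₀ : ∀ x, (C₀.1 : Matrix ι ι F) *ᵥ x = c x := fun x => mulVec_ofE c x
  have hext : ∀ {X Y : SimG Q}, (∀ x, (X.1 : Matrix ι ι F) *ᵥ x = (Y.1 : Matrix ι ι F) *ᵥ x) → X = Y := by
    intro X Y h
    apply Subtype.ext
    apply Units.ext
    exact Matrix.ext_of_mulVec_single (fun j => h _)
  have hmulapp : ∀ (X Y : SimG Q) x, ((X * Y).1 : Matrix ι ι F) *ᵥ x =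
      (X.1 : Matrix ι ι F) *ᵥ ((Y.1 : Matrix ι ι F) *ᵥ x) := by
    intro X Y x
    show (((X.1 * Y.1 : GL ι F)) : Matrix ι ι F) *ᵥ x = _
    rw [Units.val_mul, Matrix.mulVec_mulVec]
  have hC₀g : C₀ * ofO g = ofO g * C₀ := by
    apply hext
    intro x
    rw [hmulapp, hmulapp, hC₀, hC₀]
    exact hcG x
  have hmult : (mult C₀ : F) = D.c := by
    have h3 : ∀ v, Q ((C₀.1 : Matrix ι ι F) *ᵥ v) = D.c * Q v := fun v => by rw [hC₀, hcQ]
    exact multHom_of_spec D.hQ D.hι h3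
  have hsgn1 : D.sgn1 C₀ ≠ 1 := by
    rw [Ne, D.sgn1_eq_one_iff, hmult]
    exact D.hc
  have hdetC₀ : (C₀.1 : Matrix ι ι F).det = LinearMap.det (c : (ι → F) →ₗ[F] (ι → F)) := by
    rw [← LinearMap.det_toLin']
    congr 1
    apply LinearMap.ext
    intro x
    rw [Matrix.toLin'_apply, hC₀]
    rfl
  by_cases hU₀b : U₀ = ⊥
  · -- no fixed vectors
    have hU₁t : U₁ = ⊤ := by
      have := hcompl.sup_eq_top
      rwa [hU₀b, bot_sup_eq] at this
    have hfn : ∀ x, (∀ y, f x y = 0) → x = 0 := by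
      intro x hx
      apply hΔinj x (by rw [hU₁t]; trivial)
      apply hn
      exact hx
    have hΔc : ∀ x, G (c x) - G.symm (c x) = c (G x - G.symm x) := by
      intro x
      rw [map_sub, ← hcG]
      congr 1
      apply G.injective
      rw [G.apply_symm_apply, ← hcG, G.apply_symm_apply]
    have hdet := det_of_alt_sim f hfalt hfn c a (fun x y => by
      rw [hf, hf, hΔc, hcB']) (M := M) (by rw [Module.finrank_fintype_fun_eq_card, D.hM])
    refine ⟨C₀, hC₀g, hsgn1, ?_⟩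
    rw [D.sgn2_eq_one_iff, D.ratio_eq_one_iff, hmult, hdetC₀, hdet]
    rfl
  · by_cases hs : D.sgn2 C₀ = 1
    · exact ⟨C₀, hC₀g, hsgn1, hs⟩
    obtain ⟨v, hv⟩ : ∃ v : U₀, B.restrict U₀ v v ≠ 0 := by
      obtain ⟨x, hx, hx0⟩ := (Submodule.ne_bot_iff U₀).1 hU₀b
      have h3 : ∃ y : U₀, B.restrict U₀ ⟨x, hx⟩ y ≠ 0 := by
        by_contra hcon
        push Not at hcon
        exact hx0 (congrArg Subtype.val (hnU₀ ⟨x, hx⟩ hcon))
      obtain ⟨y, hy⟩ := h3
      exact exists_self_ne h2 (B.restrict U₀) (fun x y => hB _ _) hy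
    have hv' : Q (v : ι → F) ≠ 0 := by
      intro h3
      apply hv
      show B v v = 0
      rw [hpolarQ, h3, mul_zero]
    let ρ := reflectionIso Q (v : ι → F) hv'
    have hρg : ρ * g = g * ρ := by
      have hgv : act g (v : ι → F) = v := (hmemU₀ _).1 v.2
      apply ext_act
      intro x
      rw [act_mul, act_mul, reflectionIso_act, reflectionIso_act, act_sub, act_smul, hgv]
      have h3 : polar (⇑Q) (v : ι → F) (act g x) = polar (⇑Q) (v : ι → F) x := by
        conv_lhs => rw [← hgv]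
        exact polar_act g _ _
      rw [h3]
    have hρ1 : D.sgn2 (ofO ρ) ≠ 1 := by
      rw [Ne, D.sgn2_eq_one_iff, D.ratio_ofO_eq_one_iff]
      show (Cfsg.reflectionMatrix (⇑Q) (v : ι → F)).det ≠ 1
      rw [det_reflectionMatrix Q hv']
      intro h
      apply D.h2
      linear_combination -h
    have hm1 : ∀ x : ℤˣ, x ≠ 1 → x = -1 := fun x hx => (Int.units_eq_one_or x).resolve_left hx
    refine ⟨C₀ * ofO ρ, ?_, ?_, ?_⟩
    · have h3 : ofO ρ * ofO g = ofO g * ofO ρ := by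
        rw [← ofO_mul, ← ofO_mul, hρg]
      rw [mul_assoc, h3, ← mul_assoc, hC₀g, mul_assoc]
    · rw [map_mul, D.sgn1_ofO, mul_one]
      exact hsgn1
    · rw [map_mul, hm1 _ hs, hm1 _ hρ1]
      rfl

end Cfsg.Agent.Lib.Classical.Herm.FusSim
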