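import Mathlib
import Cfsg.Agent.Lib.Classical.Herm.FusSim
import Cfsg.Agent.Lib.Classical.Orth.SimAut3

/-!
# Class fusion of semisimple automorphisms of odd prime order of `PΩ^±`

Let `x` be the image in the automorphism group of `PΩ` of a similarity, of odd prime order `r` prime to
the characteristic.  The classes of `x` under `Ω`, `SO` and the class-preserving similarities coincide;
and the classes of `x` under `O` and under all similarities coincide.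
-/

set_option autoImplicit false
set_option linter.style.haveILetI false
set_option linter.unusedSectionVars false
set_option linter.unusedVariables false
set_option linter.unusedSimpArgs false

namespace Cfsg.Agent.Lib.Classical.Herm.FusMain

open Matrix QuadraticMap Module
open Cfsg.Agent.Lib.Classical.Orth.Basic
open Cfsg.Agent.Lib.Classical.Orth.Spinor
open Cfsg.Agent.Lib.Classical.Orth.SimAut
open Cfsg.Agent.Lib.Classical.Orth.SimAut2
open Cfsg.Agent.Lib.Classical.Herm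
open Cfsg.Agent.Lib.Classical.Herm.FusTorus
open Cfsg.Agent.Lib.Classical.Herm.FusSim
open scoped MatrixGroups

variable {ι : Type} [Fintype ι] [DecidableEq ι] {F : Type*} [Field F] [Fintype F]
variable {Q : QuadraticForm F (ι → F)} {M : ℕ} (D : Data Q M)

include D in
/-- A similarity of square multiplier is an isometry times a scalar. -/
theorem exists_iso_of_sq (x : SimG Q) (hx : IsSquare (mult x : F)) :
    ∃ (o : ↥(Cfsg.isometryGroup F (⇑Q))) (z : SimG Q), z ∈ ZG (⇑Q) ∧ x = ofO o * z := by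
  obtain ⟨t, ht⟩ := hx
  have ht0 : t ≠ 0 := by
    rintro rfl
    rw [mul_zero] at ht
    exact (Units.ne_zero _) ht
  set u : Fˣ := Units.mk0 t ht0 with hu
  have hu' : (u : F) = t := rfl
  have hmul : scalG (Q := Q) u⁻¹ * scalG (Q := Q) u = 1 := by
    apply Subtype.ext
    apply Units.ext
    show ((scalG (Q := Q) u⁻¹).1 : Matrix ι ι F) * ((scalG (Q := Q) u).1 : Matrix ι ι F) = 1
    rw [D.scalG_mat, D.scalG_mat]
    simp [hu', smul_smul, ht0]
  have hmat : (((x * scalG (Q := Q) u⁻¹).1 : GL ι F) : Matrix ι ι F) = (u⁻¹ : Fˣ).val • (x.1 : Matrix ι ι F) := by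
    show (x.1 : Matrix ι ι F) * ((scalG (Q := Q) u⁻¹).1 : Matrix ι ι F) = _
    rw [D.scalG_mat]
    simp
  have hmem : (x * scalG (Q := Q) u⁻¹).1 ∈ Cfsg.isometryGroup F (⇑Q) := by
    rw [mem_isometryGroup_iff]
    intro v
    rw [hmat, Matrix.smul_mulVec, Q_smul, mult_spec, ht]
    simp only [Units.val_inv_eq_inv_val, hu']
    field_simp
  refine ⟨⟨_, hmem⟩, scalG u, D.scalG_mem u, ?_⟩
  show x = (x * scalG u⁻¹) * scalG u
  rw [mul_assoc, hmul, mul_one]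

/-- The composite of `ofO` and the action on `PΩ`. -/
noncomputable def φO (Q : QuadraticForm F (ι → F)) : ↥(Cfsg.isometryGroup F (⇑Q)) →* MulAut (Cfsg.POmega F (⇑Q)) where
  toFun a := simHom (⇑Q) (ofO a)
  map_one' := map_one (simHom (⇑Q))
  map_mul' a b := by
    rw [ofO_mul, map_mul]

theorem φO_apply (a : ↥(Cfsg.isometryGroup F (⇑Q))) : φO Q a = simHom (⇑Q) (ofO a) := rfl

include D in
/-- Lift of an element of odd order to an isometry of the same order. -/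
theorem exists_lift {x : MulAut (Cfsg.POmega F (⇑Q))} (hx : x ∈ Cfsg.pgoAut F (⇑Q)) {r : ℕ} (hr : r.Prime)
    (hro : Odd r) (hxr : orderOf x = r) :
    ∃ g : ↥(Cfsg.isometryGroup F (⇑Q)), simHom (⇑Q) (ofO g) = x ∧ g ^ r = 1 ∧ g ≠ 1 := by
  rw [pgoAut_eq] at hx
  obtain ⟨s, -, rfl⟩ := hx
  have hker := ker_simHom D.hQ D.hn
  have hsr : s ^ r ∈ (simHom (⇑Q)).ker := by
    rw [MonoidHom.mem_ker, map_pow, ← hxr, pow_orderOf_eq_one]
  rw [hker] at hsr
  obtain ⟨t, ht⟩ := D.eq_scalG hsr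
  have hmul : (mult s : F) ^ r = t * t := by
    have h1 := congrArg (fun z => (multHom D.hQ D.hι z : F)) ht
    simp only [map_pow, Units.val_pow_eq_pow_val, multHom_apply] at h1
    rw [h1, D.mult_scalG]
  obtain ⟨j, hj⟩ := hro
  have hsq : IsSquare (mult s : F) := by
    have h0 : (mult s : F) ≠ 0 := Units.ne_zero _
    refine ⟨t / (mult s : F) ^ j, ?_⟩
    have h3 : (mult s : F) * ((mult s : F) ^ j * (mult s : F) ^ j) = t * t := by
      rw [← hmul, hj]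
      ring
    field_simp
    linear_combination h3
  obtain ⟨o, z, hz, hs⟩ := exists_iso_of_sq D s hsq
  have hφz : simHom (⇑Q) z = 1 := by
    have : z ∈ (simHom (⇑Q)).ker := by rw [hker]; exact hz
    exact this
  have hφo : φO Q o = simHom (⇑Q) s := by
    rw [φO_apply, hs, map_mul, hφz, mul_one]
  have hor : φO Q (o ^ r) = 1 := by
    rw [map_pow, hφo, ← hxr, pow_orderOf_eq_one]
  have hZ : ofO (o ^ r) ∈ ZG (⇑Q) := by
    rw [← hker]
    exact hor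
  have hsq2 : (o ^ r) * (o ^ r) = 1 := by
    rcases D.scalar_isometry hZ with h | h
    · rw [h, mul_one]
    · rw [h, negO_mul_negO]
  refine ⟨o ^ (r + 1), ?_, ?_, ?_⟩
  · show φO Q (o ^ (r + 1)) = _
    rw [pow_succ, map_mul, hor, one_mul, hφo]
  · have h1 : (o ^ (r + 1)) ^ r = ((o ^ r) * (o ^ r)) ^ (j + 1) := by
      rw [← pow_mul, ← pow_add, ← pow_mul]
      congr 1
      rw [hj]
      ring
    rw [h1, hsq2, one_pow]
  · intro h
    have h1 : φO Q (o ^ (r + 1)) = simHom (⇑Q) s := by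
      rw [pow_succ, map_mul, hor, one_mul, hφo]
    rw [h, map_one] at h1
    have h3 : orderOf (simHom (⇑Q) s) = 1 := by
      rw [← h1, orderOf_one]
    rw [hxr] at h3
    exact hr.one_lt.ne' h3

/-- Transfer of conjugacy along a decomposition into a subgroup and a centraliser. -/
theorem conj_transfer {g : ↥(Cfsg.isometryGroup F (⇑Q))} {H K : Subgroup (SimG Q)} (hle : H ≤ K)
    (hdec : ∀ k ∈ K, ∃ a ∈ H, ∃ κ : SimG Q, κ * ofO g = ofO g * κ ∧ k = a * κ)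
    (y : MulAut (Cfsg.POmega F (⇑Q))) :
    Cfsg.IsConjUnder (H.map (simHom (⇑Q))) (simHom (⇑Q) (ofO g)) y ↔
      Cfsg.IsConjUnder (K.map (simHom (⇑Q))) (simHom (⇑Q) (ofO g)) y := by
  constructor
  · rintro ⟨h, hh, rfl⟩
    exact ⟨h, Subgroup.map_mono hle hh, rfl⟩
  · rintro ⟨_, ⟨k, hk, rfl⟩, rfl⟩
    obtain ⟨a, ha, κ, hκ, rfl⟩ := hdec k hk
    refine ⟨simHom (⇑Q) a, ⟨a, ha, rfl⟩, ?_⟩
    have h1 : simHom (⇑Q) κ * simHom (⇑Q) (ofO g) * (simHom (⇑Q) κ)⁻¹ = simHom (⇑Q) (ofO g) := by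
      rw [← map_mul, hκ, map_mul, mul_inv_cancel_right]
    rw [map_mul]
    calc simHom (⇑Q) a * simHom (⇑Q) κ * simHom (⇑Q) (ofO g) * (simHom (⇑Q) a * simHom (⇑Q) κ)⁻¹
        = simHom (⇑Q) a * (simHom (⇑Q) κ * simHom (⇑Q) (ofO g) * (simHom (⇑Q) κ)⁻¹) * (simHom (⇑Q) a)⁻¹ := by
          group
      _ = _ := by rw [h1]

include D in
/-- The main theorem, in terms of the data. -/
theorem fusion {x : MulAut (Cfsg.POmega F (⇑Q))} (hx : x ∈ Cfsg.pgoAut F (⇑Q)) {r : ℕ} (hr : r.Prime)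
    (hro : Odd r) (hr0 : (r : F) ≠ 0) (hxr : orderOf x = r) :
    (∀ y : MulAut (Cfsg.POmega F (⇑Q)),
      (Cfsg.IsConjUnder (Cfsg.Inn (Cfsg.POmega F (⇑Q))) x y ↔ Cfsg.IsConjUnder (D.H₂.map (simHom (⇑Q))) x y) ∧
      (Cfsg.IsConjUnder (Cfsg.psoAut F (⇑Q)) x y ↔ Cfsg.IsConjUnder (D.H₂.map (simHom (⇑Q))) x y)) ∧
    (∀ y : MulAut (Cfsg.POmega F (⇑Q)),
      Cfsg.IsConjUnder (Cfsg.poAut F (⇑Q)) x y ↔ Cfsg.IsConjUnder (Cfsg.pgoAut F (⇑Q)) x y) := by
  obtain ⟨g, rfl, hgr, hg1⟩ := exists_lift D hx hr hro hxr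
  obtain ⟨s, hsg, hsdet, hsΩ⟩ := exists_torus_iso D g hr0 hro hgr hg1
  obtain ⟨C, hCg, hC1, hC2⟩ := exists_sim_comm D g hr0 hro hgr
  have hm1 : ∀ x : ℤˣ, x ≠ 1 → x = -1 := fun x hx => (Int.units_eq_one_or x).resolve_left hx
  have hsgC : ofO s * ofO g = ofO g * ofO s := by
    rw [← ofO_mul, ← ofO_mul, hsg]
  -- the centraliser
  let Cen : Subgroup (SimG Q) := Subgroup.centralizer {ofO g}
  have hCen : ∀ {κ : SimG Q}, κ ∈ Cen ↔ κ * ofO g = ofO g * κ := by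
    intro κ
    rw [Subgroup.mem_centralizer_singleton_iff]
  have hCC : C ∈ Cen := hCen.2 hCg
  have hsC : ofO s ∈ Cen := hCen.2 hsgC
  have hZC : ∀ {z : SimG Q}, z ∈ ZG (⇑Q) → z ∈ Cen := fun hz => hCen.2 (ZG_comm hz _)
  -- reduction to square multiplier
  have hstep1 : ∀ h : SimG Q, ∃ h₁ : SimG Q, ∃ κ ∈ Cen, h = h₁ * κ ∧ D.sgn1 h₁ = 1 ∧ D.sgn2 h₁ = D.sgn2 h := by
    intro h
    by_cases hh : D.sgn1 h = 1
    · exact ⟨h, 1, Cen.one_mem, by simp, hh, rfl⟩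
    · refine ⟨h * C⁻¹, C, hCC, by simp, ?_, ?_⟩
      · rw [map_mul, map_inv, hm1 _ hh, hm1 _ hC1]
        rfl
      · rw [map_mul, map_inv, hC2]
        simp
  have hdecO : ∀ k ∈ (⊤ : Subgroup (SimG Q)), ∃ a ∈ OG (⇑Q), ∃ κ : SimG Q, κ * ofO g = ofO g * κ ∧ k = a * κ := by
    intro k _
    obtain ⟨h₁, κ, hκ, rfl, hh₁, -⟩ := hstep1 k
    rw [D.sgn1_eq_one_iff] at hh₁
    obtain ⟨o, z, hz, rfl⟩ := exists_iso_of_sq D h₁ hh₁
    exact ⟨ofO o, o.2, z * κ, hCen.1 (Cen.mul_mem (hZC hz) hκ), mul_assoc _ _ _⟩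
  have hdecΩ : ∀ k ∈ D.H₂, ∃ a ∈ ΩG (⇑Q), ∃ κ : SimG Q, κ * ofO g = ofO g * κ ∧ k = a * κ := by
    intro k hk
    have hk' : D.sgn2 k = 1 := hk
    obtain ⟨h₁, κ, hκ, rfl, hh₁, hh₂⟩ := hstep1 k
    rw [hk'] at hh₂
    haveI := D.ZG_normal
    obtain ⟨a, ha, z, hz, rfl⟩ := Subgroup.mem_sup_of_normal_right.1 ((D.signs_eq_one_iff h₁).1 ⟨hh₁, hh₂⟩)
    obtain ⟨b, hb, rfl⟩ := D.SOG_eq ha
    by_cases hbΩ : b ∈ Cfsg.Omega F (⇑Q)
    · exact ⟨ofO b, (ofO_mem_ΩG_iff b).2 hbΩ, z * κ, hCen.1 (Cen.mul_mem (hZC hz) hκ), mul_assoc _ _ _⟩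
    · have hb1 : spinorSign Q D.h2 b = -1 :=
        hm1 _ (fun h => hbΩ ((D.so_mem_omega b hb).2 h))
      have hs1 : spinorSign Q D.h2 s = -1 :=
        hm1 _ (fun h => hsΩ ((D.so_mem_omega s hsdet).2 h))
      have hdet' : (((b * s⁻¹ : ↥(Cfsg.isometryGroup F (⇑Q))).1 : GL ι F) : Matrix ι ι F).det = 1 := by
        have h3 : ((b * s⁻¹ * s : ↥(Cfsg.isometryGroup F (⇑Q))).1 : GL ι F) = (b.1 : GL ι F) := by simp
        have h4 : (((b * s⁻¹ : ↥(Cfsg.isometryGroup F (⇑Q))).1 : GL ι F) : Matrix ι ι F).det * ((s.1 : GL ι F) : Matrix ι ι F).det =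
            ((b.1 : GL ι F) : Matrix ι ι F).det := by
          rw [← Matrix.det_mul, ← h3]
          rfl
        rw [hsdet, hb, mul_one] at h4
        exact h4
      have hmem : b * s⁻¹ ∈ Cfsg.Omega F (⇑Q) := by
        apply (D.so_mem_omega _ hdet').2
        rw [map_mul, map_inv, hb1, hs1]
        rfl
      refine ⟨ofO (b * s⁻¹), (ofO_mem_ΩG_iff _).2 hmem, ofO s * (z * κ),
        hCen.1 (Cen.mul_mem hsC (Cen.mul_mem (hZC hz) hκ)), ?_⟩
      have h3 : ofO b = ofO (b * s⁻¹) * ofO s := by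
        rw [← ofO_mul, inv_mul_cancel_right]
      rw [h3, mul_assoc, mul_assoc]
  have hSOH : SOG (⇑Q) ≤ D.H₂ := fun a ha => (D.signs_SOG ha).2
  have hΩH : ΩG (⇑Q) ≤ D.H₂ := D.ΩG_le_SOG.trans hSOH
  refine ⟨fun y => ⟨?_, ?_⟩, fun y => ?_⟩
  · rw [inn_eq]
    exact conj_transfer hΩH hdecΩ y
  · rw [psoAut_eq]
    refine conj_transfer hSOH ?_ y
    intro k hk
    obtain ⟨a, ha, κ, hκ, hak⟩ := hdecΩ k hk
    exact ⟨a, D.ΩG_le_SOG ha, κ, hκ, hak⟩
  · rw [poAut_eq, pgoAut_eq]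
    exact conj_transfer le_top hdecO y

end Cfsg.Agent.Lib.Classical.Herm.FusMain
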