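import Mathlib
import Cfsg.Agent.Lib.Classical.GraphAut.Disc
import Cfsg.Agent.Lib.Classical.Herm.FieldCent

/-!
# Involutory graph automorphisms of `PSU_n(q)`: transfer to `PSL_n(q)`

Every involutory graph automorphism of `PSU_n(q)` comes, through Hilbert 90, from a symmetric or
alternating form over the field with `q` elements; conjugacy and centralisers in `Inndiag` correspond to
those of the involutory graph automorphism of `PSL_n(q)` attached to that form.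
-/

set_option autoImplicit false
set_option linter.unusedSectionVars false
set_option linter.unusedSimpArgs false
set_option linter.unusedVariables false
set_option linter.style.haveILetI false

open scoped Matrix MatrixGroups
open Cfsg
open Cfsg.Agent.Lib.Classical.Herm.Basic Cfsg.Agent.Lib.Classical.Herm.Form
open Cfsg.Agent.Lib.Classical.Herm.GU Cfsg.Agent.Lib.Classical.Herm.SU
open Cfsg.Agent.Lib.Classical.Herm.AutMain Cfsg.Agent.Lib.Classical.Herm.AutStruct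
open Cfsg.Agent.Lib.Classical.Herm.Descent Cfsg.Agent.Lib.Classical.Herm.FieldCent
open Cfsg.Agent.Lib.Classical.Herm.SplitAbs Cfsg.Agent.Lib.Classical.Herm.GLDescent
open Cfsg.Agent.Lib.Classical.Herm.PSLGraphField
open Cfsg.Agent.Lib.Linalg.AutPSLBasic Cfsg.Agent.Lib.Linalg.AutPSLStd Cfsg.Agent.Lib.Linalg.AutPSLCount
open Cfsg.Agent.Lib.Linalg.AutPSLMain
open Cfsg.Agent.Lib.Classical.GraphAut.Basic Cfsg.Agent.Lib.Classical.GraphAut.Forms
open Module

namespace Cfsg.Agent.Lib.Classical.Herm.GraphU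

variable {F : Type*} [Field F] [Fintype F] {q n : ℕ}

attribute [local instance] finite_ringAut

/-! ### Scalars and the operations on `GL` -/

section Ops

theorem smul_mulG (u : Fˣ) (g h : GL (Fin n) F) : (u • g) * h = u • (g * h) := by
  apply Units.ext
  change ((u : F) • (g : Matrix (Fin n) (Fin n) F)) * (h : Matrix (Fin n) (Fin n) F) = (u : F) • ((g : Matrix (Fin n) (Fin n) F) * (h : Matrix (Fin n) (Fin n) F))
  rw [Matrix.smul_mul]

theorem mul_smulG (u : Fˣ) (g h : GL (Fin n) F) : g * (u • h) = u • (g * h) := by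
  apply Units.ext
  change (g : Matrix (Fin n) (Fin n) F) * ((u : F) • (h : Matrix (Fin n) (Fin n) F)) = (u : F) • ((g : Matrix (Fin n) (Fin n) F) * (h : Matrix (Fin n) (Fin n) F))
  rw [Matrix.mul_smul]

theorem smul_invG (u : Fˣ) (g : GL (Fin n) F) : (u • g)⁻¹ = u⁻¹ • g⁻¹ := by
  apply inv_eq_of_mul_eq_one_right
  rw [smul_mulG, mul_smulG, smul_smul, mul_inv_cancel, mul_inv_cancel, one_smul]

theorem sG_eq_smul (u : Fˣ) : sG n u = u • (1 : GL (Fin n) F) := by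
  apply Units.ext
  ext i j
  change Matrix.scalar (Fin n) (u : F) i j = (u : F) * (1 : Matrix (Fin n) (Fin n) F) i j
  by_cases h : i = j
  · subst h; simp
  · simp [h, Matrix.one_apply]

theorem sG_mul_eq_smul (u : Fˣ) (g : GL (Fin n) F) : sG n u * g = u • g := by
  rw [sG_eq_smul, smul_mulG, one_mul]

/-- A scalar fixing a matrix is trivial. -/
theorem eq_one_of_smul_eq (hn : 1 ≤ n) {u : Fˣ} {g : GL (Fin n) F} (h : u • g = g) : u = 1 := by
  have h1 : u • (1 : GL (Fin n) F) = 1 := by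
    have h2 := congrArg (fun w => w * g⁻¹) h
    simp only [smul_mulG, mul_inv_cancel] at h2
    exact h2
  have h3 := congrArg (fun w : GL (Fin n) F => (w : Matrix (Fin n) (Fin n) F) ⟨0, by omega⟩ ⟨0, by omega⟩) h1
  apply Units.ext
  have h4 : (u : F) * (1 : Matrix (Fin n) (Fin n) F) ⟨0, by omega⟩ ⟨0, by omega⟩ = (1 : Matrix (Fin n) (Fin n) F) ⟨0, by omega⟩ ⟨0, by omega⟩ := h3
  simpa using h4

theorem smul_left_cancelG (hn : 1 ≤ n) {u v : Fˣ} {g : GL (Fin n) F} (h : u • g = v • g) : u = v := by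
  have h1 : (v⁻¹ * u) • g = g := by
    rw [mul_smul, h, smul_smul, inv_mul_cancel, one_smul]
  have h2 := eq_one_of_smul_eq hn h1
  calc u = v * (v⁻¹ * u) := by group
    _ = v := by rw [h2, mul_one]

variable (σ : F ≃+* F)

theorem mapG_mul (a b : GL (Fin n) F) : mapG σ (a * b) = mapG σ a * mapG σ b :=
  map_mul (Matrix.GeneralLinearGroup.map (σ : F →+* F)) a b

theorem mapG_one : mapG σ (1 : GL (Fin n) F) = 1 :=
  map_one (Matrix.GeneralLinearGroup.map (σ : F →+* F))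

theorem mapG_inv (a : GL (Fin n) F) : mapG σ a⁻¹ = (mapG σ a)⁻¹ :=
  map_inv (Matrix.GeneralLinearGroup.map (σ : F →+* F)) a

/-- The field automorphism on scalars. -/
noncomputable def su (u : Fˣ) : Fˣ := Units.map (σ : F →+* F).toMonoidHom u

theorem coe_su (u : Fˣ) : ((su σ u : Fˣ) : F) = σ u := rfl

theorem su_mul (u v : Fˣ) : su σ (u * v) = su σ u * su σ v := map_mul _ _ _

theorem su_inv (u : Fˣ) : su σ u⁻¹ = (su σ u)⁻¹ := map_inv (Units.map (σ : F →+* F).toMonoidHom) u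

theorem su_one : su σ (1 : Fˣ) = 1 := map_one _

theorem mapG_smul (u : Fˣ) (g : GL (Fin n) F) : mapG σ (u • g) = su σ u • mapG σ g := by
  apply Units.ext
  ext i j
  change σ ((u : F) * (g : Matrix (Fin n) (Fin n) F) i j) = σ (u : F) * σ ((g : Matrix (Fin n) (Fin n) F) i j)
  rw [map_mul]

theorem tG_smul (u : Fˣ) (g : GL (Fin n) F) : tG (u • g) = u • tG g := by
  apply Units.ext
  rw [coe_tG]
  ext i j
  change (u : F) * (g : Matrix (Fin n) (Fin n) F) j i = (u : F) * (tG g : Matrix (Fin n) (Fin n) F) i j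
  rw [coe_tG]
  rfl

theorem tG_one : tG (1 : GL (Fin n) F) = 1 := by
  apply Units.ext
  rw [coe_tG]
  simp

theorem tG_tG (g : GL (Fin n) F) : tG (tG g) = g := by
  apply Units.ext
  rw [coe_tG, coe_tG, Matrix.transpose_transpose]

theorem tG_mapG (g : GL (Fin n) F) : tG (mapG σ g) = mapG σ (tG g) := by
  apply Units.ext
  rw [coe_tG, coe_mapG, coe_mapG, coe_tG]
  ext i j
  rfl

end Ops

/-! ### The real structure -/

section Real

variable (hF : Fintype.card F = q ^ 2)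

theorem mapG_sig_sig (g : GL (Fin n) F) : mapG (sigE hF) (mapG (sigE hF) g) = g := by
  apply Units.ext
  rw [coe_mapG, coe_mapG]
  exact map_map_sigE hF _

theorem su_su (u : Fˣ) : su (sigE hF) (su (sigE hF) u) = u := by
  apply Units.ext
  exact sigma_sigma hF _

theorem orderOf_sigE : orderOf (sigE hF) = 2 := orderOf_eq_prime (sigE_sq hF) (sigE_ne_one hF)

/-- Hilbert 90 for scalars. -/
theorem hilbert_sc (t : Fˣ) (ht : t * su (sigE hF) t = 1) : ∃ r : Fˣ, t * su (sigE hF) r = r := by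
  have hN : Nk (sigE hF) (t : F) (orderOf (sigE hF)) = 1 := by
    rw [orderOf_sigE, Nk_two]
    have := congrArg Units.val ht
    exact this
  obtain ⟨a, ha, hta⟩ := exists_hilbert_units (sigE hF) hN
  exact ⟨Units.mk0 a ha, Units.ext hta⟩

/-- The norm is onto the fixed scalars. -/
theorem norm_sc (v : Fˣ) (hv : su (sigE hF) v = v) : ∃ r : Fˣ, r * su (sigE hF) r = v := by
  have hv' : sigE hF (v : F) = v := congrArg Units.val hv
  obtain ⟨a, ha, hNa⟩ := exists_norm_units (sigE hF) v.ne_zero hv'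
  rw [orderOf_sigE, Nk_two] at hNa
  exact ⟨Units.mk0 a ha, Units.ext hNa⟩

/-- A semilinear fixed multiple of a matrix. -/
theorem real_multiple (hn : 1 ≤ n) {M : GL (Fin n) F} {t : Fˣ} (h : mapG (sigE hF) M = t • M) :
    ∃ r : Fˣ, mapG (sigE hF) (r • M) = r • M := by
  have h1 : t * su (sigE hF) t = 1 := by
    have h2 := mapG_sig_sig hF M
    rw [h, mapG_smul, h, smul_smul] at h2
    have h3 := eq_one_of_smul_eq hn h2
    rw [mul_comm]
    exact h3
  obtain ⟨r, hr⟩ := hilbert_sc hF t h1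
  refine ⟨r, ?_⟩
  rw [mapG_smul, h, smul_smul, mul_comm, hr]

/-- Unitary matrices. -/
theorem tG_mul_mapG {u : GL (Fin n) F} (hu : u ∈ GU n F q) : tG u * mapG (sigE hF) u = 1 := by
  apply Units.ext
  rw [Units.val_mul, coe_tG, coe_mapG, Units.val_one]
  exact transpose_mul_of_GU hF u hu

theorem mapG_of_mem {u : GL (Fin n) F} (hu : u ∈ GU n F q) : mapG (sigE hF) u = (tG u)⁻¹ :=
  eq_inv_of_mul_eq_one_right (tG_mul_mapG hF hu)

theorem mem_GU_of_eq {u : GL (Fin n) F} (h : tG u * mapG (sigE hF) u = 1) : u ∈ GU n F q := by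
  apply mem_GU_of hF
  have := congrArg (fun w : GL (Fin n) F => (w : Matrix (Fin n) (Fin n) F)) h
  simpa only [Units.val_mul, coe_tG, coe_mapG, Units.val_one] using this

theorem tG_inv' (g : GL (Fin n) F) : tG g⁻¹ = (tG g)⁻¹ := tG_inv g

variable {F₀ : Type*} [Field F₀] [Fintype F₀] (j : F₀ →+* F)

/-- `j` is an isomorphism onto the fixed field of `x ↦ x^q`. -/
structure IsFix : Prop where
  fixed : ∀ y, sigE hF (j y) = j y
  onto : ∀ y, sigE hF y = y → ∃ z, j z = y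

/-- `j` on scalars. -/
noncomputable def ju (a : F₀ˣ) : Fˣ := Units.map j.toMonoidHom a

theorem coe_ju (a : F₀ˣ) : ((ju j a : Fˣ) : F) = j a := rfl

theorem ju_mul (a b : F₀ˣ) : ju j (a * b) = ju j a * ju j b := map_mul _ _ _

theorem ju_inv (a : F₀ˣ) : ju j a⁻¹ = (ju j a)⁻¹ := map_inv (Units.map j.toMonoidHom) a

theorem ju_one : ju j (1 : F₀ˣ) = 1 := map_one _

theorem ju_injective : Function.Injective (ju j) := by
  intro a b h
  apply Units.ext
  exact j.injective (congrArg Units.val h)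

theorem JG_injective : Function.Injective (JG n j) := by
  intro a b h
  apply Units.ext
  ext i l
  apply j.injective
  have := congrArg (fun w : GL (Fin n) F => (w : Matrix (Fin n) (Fin n) F) i l) h
  exact this

theorem JG_smul (a : F₀ˣ) (m : GL (Fin n) F₀) : JG n j (a • m) = ju j a • JG n j m := by
  apply Units.ext
  ext i l
  change j ((a : F₀) * (m : Matrix (Fin n) (Fin n) F₀) i l) = (j (a : F₀)) * j ((m : Matrix (Fin n) (Fin n) F₀) i l)
  rw [map_mul]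

theorem tG_JG (m : GL (Fin n) F₀) : tG (JG n j m) = JG n j (tG m) := by
  apply Units.ext
  rw [coe_tG, coe_JG, coe_JG, coe_tG]
  ext i l
  rfl

variable {hF j}

theorem IsFix.mapG_JG (hE : IsFix hF j) (m : GL (Fin n) F₀) : mapG (sigE hF) (JG n j m) = JG n j m := by
  apply Units.ext
  rw [coe_mapG, coe_JG]
  ext i l
  exact hE.fixed _

theorem IsFix.su_ju (hE : IsFix hF j) (a : F₀ˣ) : su (sigE hF) (ju j a) = ju j a := by
  apply Units.ext
  exact hE.fixed _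

theorem IsFix.exists_JG (hE : IsFix hF j) {v : GL (Fin n) F} (h : mapG (sigE hF) v = v) :
    ∃ m : GL (Fin n) F₀, JG n j m = v := by
  apply Cfsg.Agent.Lib.Classical.Herm.GLDescent.exists_JG
  intro a b
  apply hE.onto
  have := congrArg (fun w : GL (Fin n) F => (w : Matrix (Fin n) (Fin n) F) a b) h
  exact this

theorem IsFix.exists_ju (hE : IsFix hF j) {w : Fˣ} (h : su (sigE hF) w = w) :
    ∃ a : F₀ˣ, ju j a = w := by
  obtain ⟨z, hz⟩ := hE.onto (w : F) (congrArg Units.val h)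
  have hz0 : z ≠ 0 := by
    rintro rfl
    rw [map_zero] at hz
    exact w.ne_zero hz.symm
  exact ⟨Units.mk0 z hz0, Units.ext hz⟩

/-- A scalar relating two real matrices is real. -/
theorem IsFix.exists_of_JG_eq (hE : IsFix hF j) (hn : 1 ≤ n) {m m' : GL (Fin n) F₀} {w : Fˣ}
    (h : JG n j m = w • JG n j m') : ∃ a : F₀ˣ, ju j a = w ∧ m = a • m' := by
  have h1 : su (sigE hF) w = w := by
    have h2 := congrArg (mapG (sigE hF)) h
    rw [hE.mapG_JG, mapG_smul, hE.mapG_JG, h] at h2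
    exact (smul_left_cancelG hn h2).symm
  obtain ⟨a, rfl⟩ := hE.exists_ju h1
  refine ⟨a, rfl, ?_⟩
  apply JG_injective j
  rw [h, JG_smul]

variable (hF j)

/-- The relation between a unitary matrix `G` and a form `B` over the fixed field. -/
structure Twin (x : GL (Fin n) F) (B : GL (Fin n) F₀) (G : GL (Fin n) F) : Prop where
  hc : ∃ c : Fˣ, G = c • (tG x * JG n j B * x)
  hμ : ∃ μ : Fˣ, mapG (sigE hF) x = μ • (x * G⁻¹)

variable {hF j}

theorem smul_word {u v : Fˣ} {a b : GL (Fin n) F} (h1 : u = v) (h2 : a = b) : u • a = v • b := by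
  rw [h1, h2]

/-- From unitary matrices to real matrices. -/
theorem exists_k_of_h (hE : IsFix hF j) (hn : 1 ≤ n) {x x' : GL (Fin n) F} {B B' : GL (Fin n) F₀}
    {G G' : GL (Fin n) F} (T : Twin hF j x B G) (T' : Twin hF j x' B' G')
    {h : GL (Fin n) F} (hh : h ∈ GU n F q) {s : Fˣ} (hs : G' = s • (tG h * G * h)) :
    ∃ (k : GL (Fin n) F₀) (a : F₀ˣ) (r : Fˣ), JG n j k = r • (x * h * x'⁻¹) ∧ tG k * B * k = a • B' := by
  obtain ⟨c, hc⟩ := T.hc
  obtain ⟨μ, hμ⟩ := T.hμ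
  obtain ⟨c', hc'⟩ := T'.hc
  obtain ⟨μ', hμ'⟩ := T'.hμ
  have hSh := mapG_of_mem hF hh
  have h1 : ∃ t : Fˣ, mapG (sigE hF) (x * h * x'⁻¹) = t • (x * h * x'⁻¹) := by
    rw [mapG_mul, mapG_mul, mapG_inv, hμ, hSh, hμ', hs]
    simp only [smul_mulG, mul_smulG, smul_invG, smul_smul, mul_inv_rev, inv_inv]
    refine ⟨_, smul_word rfl ?_⟩
    group
  obtain ⟨t, ht⟩ := h1
  obtain ⟨r, hr⟩ := real_multiple hF hn ht
  obtain ⟨k, hk⟩ := hE.exists_JG hr
  have hB : JG n j B = c⁻¹ • ((tG x)⁻¹ * G * x⁻¹) := by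
    rw [hc]
    simp only [smul_mulG, mul_smulG, smul_invG, smul_smul, mul_inv_rev, inv_inv, inv_mul_cancel, one_smul]
    group
  have hB' : G' = c' • (tG x' * JG n j B' * x') := hc'
  have h3 : ∃ w : Fˣ, JG n j (tG k * B * k) = w • JG n j B' := by
    have h4 : JG n j B' = c'⁻¹ • ((tG x')⁻¹ * G' * x'⁻¹) := by
      rw [hc']
      simp only [smul_mulG, mul_smulG, smul_invG, smul_smul, mul_inv_rev, inv_inv, inv_mul_cancel, one_smul]
      group
    rw [map_mul, map_mul, ← tG_JG, hk, hB, h4, hs]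
    simp only [tG_smul, tG_mul, tG_inv', tG_tG, smul_mulG, mul_smulG, smul_invG, smul_smul, mul_inv_rev, inv_inv]
    refine ⟨r * r * c⁻¹ * (c'⁻¹ * s)⁻¹, ?_⟩
    refine smul_word ?_ ?_
    · rw [mul_assoc (r * r * c⁻¹), inv_mul_cancel, mul_one, mul_comm c⁻¹ r, mul_assoc]
    · group
  obtain ⟨w, hw⟩ := h3
  obtain ⟨a, -, ha⟩ := hE.exists_of_JG_eq hn hw
  exact ⟨k, a, r, hk, ha⟩

/-- From real matrices to unitary matrices. -/
theorem exists_h_of_k (hE : IsFix hF j) (hn : 1 ≤ n) {x x' : GL (Fin n) F} {B B' : GL (Fin n) F₀}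
    {G G' : GL (Fin n) F} (T : Twin hF j x B G) (T' : Twin hF j x' B' G')
    (hG : G ∈ GU n F q) (hG' : G' ∈ GU n F q)
    {k : GL (Fin n) F₀} {a : F₀ˣ} (hk : tG k * B * k = a • B') :
    ∃ (h : GL (Fin n) F) (_ : h ∈ GU n F q) (r s : Fˣ), JG n j k = r • (x * h * x'⁻¹) ∧ G' = s • (tG h * G * h) := by
  obtain ⟨c, hc⟩ := T.hc
  obtain ⟨μ, hμ⟩ := T.hμ
  obtain ⟨c', hc'⟩ := T'.hc
  obtain ⟨μ', hμ'⟩ := T'.hμ
  set M : GL (Fin n) F := x⁻¹ * JG n j k * x' with hM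
  have hkh : tG (JG n j k) * JG n j B * JG n j k = ju j a • JG n j B' := by
    rw [tG_JG, ← map_mul, ← map_mul, hk, JG_smul]
  have h1 : ∃ w : Fˣ, tG M * G * M = w • G' := by
    rw [hc, hc', hM]
    refine ⟨c * ju j a * c'⁻¹, ?_⟩
    have h2 : tG (x⁻¹ * JG n j k * x') * (c • (tG x * JG n j B * x)) * (x⁻¹ * JG n j k * x') =
        c • (tG x' * (tG (JG n j k) * JG n j B * JG n j k) * x') := by
      simp only [tG_smul, tG_mul, tG_inv', tG_tG, smul_mulG, mul_smulG, smul_invG, smul_smul, mul_inv_rev, inv_inv]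
      refine smul_word rfl ?_
      group
    rw [h2, hkh]
    simp only [smul_mulG, mul_smulG, smul_smul]
    refine smul_word ?_ rfl
    rw [mul_assoc (c * ju j a), inv_mul_cancel, mul_one]
  obtain ⟨w, hw⟩ := h1
  have h2 : ∃ v : Fˣ, mapG (sigE hF) M = v • (tG M)⁻¹ := by
    have h3 : (tG M)⁻¹ = w⁻¹ • (G * M * G'⁻¹) := by
      apply inv_eq_of_mul_eq_one_right
      rw [mul_smulG]
      have h4 : tG M * (G * M * G'⁻¹) = w • (1 : GL (Fin n) F) := by
        calc tG M * (G * M * G'⁻¹) = (tG M * G * M) * G'⁻¹ := by group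
          _ = _ := by rw [hw, smul_mulG, mul_inv_cancel]
      rw [h4, smul_smul, inv_mul_cancel, one_smul]
    have h5 : ∃ u : Fˣ, mapG (sigE hF) M = u • (G * M * G'⁻¹) := by
      rw [hM, mapG_mul, mapG_mul, mapG_inv, hμ, hE.mapG_JG, hμ']
      simp only [smul_mulG, mul_smulG, smul_invG, smul_smul, mul_inv_rev, inv_inv]
      refine ⟨_, smul_word rfl ?_⟩
      group
    obtain ⟨u, hu⟩ := h5
    refine ⟨u * w, ?_⟩
    rw [h3, hu, smul_smul, mul_assoc u, mul_inv_cancel, mul_one]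
  obtain ⟨v, hv⟩ := h2
  have hv1 : tG M * mapG (sigE hF) M = v • (1 : GL (Fin n) F) := by
    rw [hv, mul_smulG, mul_inv_cancel]
  have hv2 : su (sigE hF) v = v := by
    have h3 := congrArg (mapG (sigE hF)) hv1
    rw [mapG_mul, mapG_sig_sig, mapG_smul, mapG_one] at h3
    have h4 := congrArg tG hv1
    rw [tG_mul, tG_tG, tG_smul, tG_one, tG_mapG] at h4
    exact smul_left_cancelG hn (h3.symm.trans h4)
  obtain ⟨r, hr⟩ := norm_sc hF v⁻¹ (by rw [su_inv, hv2])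
  have hmem : (r • M) ∈ GU n F q := by
    apply mem_GU_of_eq hF
    rw [tG_smul, mapG_smul, smul_mulG, mul_smulG, hv1, smul_smul, smul_smul, hr, inv_mul_cancel, one_smul]
  refine ⟨r • M, hmem, r⁻¹, (r * r * w)⁻¹, ?_, ?_⟩
  · rw [hM]
    simp only [smul_mulG, mul_smulG, smul_smul, inv_mul_cancel, one_smul]
    group
  · have h6 : tG (r • M) * G * (r • M) = (r * r * w) • G' := by
      rw [tG_smul]
      simp only [smul_mulG, mul_smulG, smul_smul]
      rw [hw, smul_smul]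
    rw [h6, smul_smul, inv_mul_cancel, one_smul]

/-! ### Existence of twins -/

/-- A form determines a unitary matrix. -/
theorem exists_twin_of_form (hE : IsFix hF j) (hn : 1 ≤ n) (B : GL (Fin n) F₀) (ε₀ : F₀ˣ) (hB : tG B = ε₀ • B) :
    ∃ (x G : GL (Fin n) F), G ∈ GU n F q ∧ Twin hF j x B G ∧ tG G = ju j ε₀ • G := by
  set ε : Fˣ := ju j ε₀ with hε
  have hBh : tG (JG n j B) = ε • JG n j B := by
    rw [tG_JG, hB, JG_smul]
  have hε2 : ε * ε = 1 := by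
    have h1 := congrArg tG hBh
    rw [tG_tG, tG_smul, hBh, smul_smul] at h1
    exact eq_one_of_smul_eq hn h1.symm
  have hεi : ε⁻¹ = ε := inv_eq_of_mul_eq_one_right hε2
  have hσε : su (sigE hF) ε = ε := hE.su_ju ε₀
  obtain ⟨τ, hτ⟩ := hilbert_sc hF ε (by rw [hσε, hε2])
  have hστ : su (sigE hF) τ = ε * τ := by
    calc su (sigE hF) τ = ε⁻¹ * (ε * su (sigE hF) τ) := by group
      _ = ε * τ := by rw [hτ, hεi]
  obtain ⟨y, hy⟩ := exists_herm_factor hF (τ • (JG n j B)⁻¹) (by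
    have h1 : tG (mapG (sigE hF) (τ • (JG n j B)⁻¹)) = τ • (JG n j B)⁻¹ := by
      rw [mapG_smul, mapG_inv, hE.mapG_JG, tG_smul, tG_inv', hBh, hστ, smul_invG, smul_smul, hεi,
        mul_comm ε τ, mul_assoc, hε2, mul_one]
    have h2 := congrArg (fun w : GL (Fin n) F => (w : Matrix (Fin n) (Fin n) F)) h1
    simpa only [coe_tG, coe_mapG] using h2)
  set x : GL (Fin n) F := mapG (sigE hF) y with hx
  have hxy : mapG (sigE hF) x * tG x = τ • (JG n j B)⁻¹ := by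
    apply Units.ext
    rw [hx, mapG_sig_sig, Units.val_mul, coe_tG, coe_mapG, ← hy]
  have htx : tG x = τ • ((mapG (sigE hF) x)⁻¹ * (JG n j B)⁻¹) := by
    rw [← mul_smulG, ← hxy, inv_mul_cancel_left]
  obtain ⟨lam, hlam⟩ := norm_sc hF ε⁻¹ (by rw [su_inv, hσε])
  set G₁ : GL (Fin n) F := lam • ((mapG (sigE hF) x)⁻¹ * x) with hG₁
  have hform : G₁ = (lam * τ⁻¹) • (tG x * JG n j B * x) := by
    rw [htx, hG₁]
    simp only [smul_mulG, mul_smulG, smul_smul]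
    rw [mul_assoc lam, inv_mul_cancel, mul_one]
    refine smul_word rfl ?_
    group
  have hGinv : G₁⁻¹ = lam⁻¹ • (x⁻¹ * mapG (sigE hF) x) := by
    rw [hG₁, smul_invG, mul_inv_rev, inv_inv]
  have htG : tG G₁ = ε • G₁ := by
    rw [hform, tG_smul]
    simp only [tG_mul, tG_tG, hBh, smul_mulG, mul_smulG, smul_smul]
    refine smul_word (mul_comm _ _) ?_
    group
  have hmG : mapG (sigE hF) G₁ = (su (sigE hF) lam * lam) • G₁⁻¹ := by
    rw [hG₁, mapG_smul, mapG_mul, mapG_inv, mapG_sig_sig, smul_invG]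
    simp only [smul_smul, mul_inv_rev, inv_inv]
    rw [mul_assoc, mul_inv_cancel, mul_one]
  have hU : G₁ ∈ GU n F q := by
    apply mem_GU_of_eq hF
    rw [htG, hmG, smul_mulG, mul_smulG, mul_inv_cancel, smul_smul, mul_comm (su _ _), hlam,
      hεi, hε2, one_smul]
  refine ⟨x, G₁, hU, ⟨⟨_, hform⟩, ⟨lam, ?_⟩⟩, htG⟩
  rw [hGinv, mul_smulG, mul_inv_cancel_left, smul_smul, mul_inv_cancel, one_smul]

theorem normGL_two (g : GL (Fin n) F) (σ : F ≃+* F) : normGL g σ 2 = g * mapG σ g := by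
  simp only [normGL, mapG_mul, mapG_one, mul_one]

/-- Hilbert 90 for `GL`, in the shape we need. -/
theorem exists_x_of_norm (M : GL (Fin n) F) (hM : M * mapG (sigE hF) M = 1) :
    ∃ x : GL (Fin n) F, mapG (sigE hF) x = x * M := by
  obtain ⟨Y, hY⟩ := exists_gl_of_iterate (sigE hF) M (by
    intro v
    rw [orderOf_sigE, iterate_Tg, normGL_two, hM, sigE_sq, Tg]
    change (1 : Matrix (Fin n) (Fin n) F) *ᵥ _ = v
    rw [Matrix.one_mulVec]
    rfl)
  refine ⟨Y⁻¹, ?_⟩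
  rw [mapG_inv]
  apply inv_eq_of_mul_eq_one_right
  calc mapG (sigE hF) Y * (Y⁻¹ * M) = mapG (sigE hF) Y * ((M * mapG (sigE hF) Y)⁻¹ * M) := by rw [hY]
    _ = 1 := by group

/-- A unitary matrix that is symmetric up to a scalar comes from a form. -/
theorem exists_twin_of_unitary (hE : IsFix hF j) (hn : 1 ≤ n) {G : GL (Fin n) F} (hG : G ∈ GU n F q)
    {ε : Fˣ} (hε : tG G = ε • G) :
    ∃ (x : GL (Fin n) F) (B : GL (Fin n) F₀) (ε₀ : F₀ˣ), Twin hF j x B G ∧ tG B = ε₀ • B ∧ ju j ε₀ = ε := by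
  have hε2 : ε * ε = 1 := by
    have h1 := congrArg tG hε
    rw [tG_tG, tG_smul, hε, smul_smul] at h1
    exact eq_one_of_smul_eq hn h1.symm
  have hεi : ε⁻¹ = ε := inv_eq_of_mul_eq_one_right hε2
  have hSG : mapG (sigE hF) G = ε⁻¹ • G⁻¹ := by
    rw [mapG_of_mem hF hG, hε, smul_invG]
  have hσε : su (sigE hF) ε = ε := by
    have h1 := mapG_sig_sig hF G
    rw [hSG, mapG_smul, mapG_inv, hSG, smul_invG, inv_inv, smul_smul, su_inv] at h1
    have h2 := eq_one_of_smul_eq hn h1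
    exact inv_mul_eq_one.mp h2
  obtain ⟨κ, hκ⟩ := norm_sc hF ε hσε
  obtain ⟨x, hx⟩ := exists_x_of_norm (hF := hF) (κ • G⁻¹) (by
    simp only [mapG_smul, mapG_inv, hSG, smul_invG, inv_inv, smul_mulG, mul_smulG, smul_smul, inv_mul_cancel]
    rw [mul_right_comm, mul_comm (su _ κ), hκ, hε2, one_smul])
  have hμ : mapG (sigE hF) x = κ • (x * G⁻¹) := by
    rw [hx, mul_smulG]
  -- the real form
  set B₁ : GL (Fin n) F := (tG x)⁻¹ * G * x⁻¹ with hB₁
  have hG₁ : G = tG x * B₁ * x := by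
    rw [hB₁]
    group
  have h1 : ∃ t : Fˣ, mapG (sigE hF) B₁ = t • B₁ := by
    have h2 : mapG (sigE hF) (tG x) = κ • ((tG G)⁻¹ * tG x) := by
      rw [← tG_mapG, hμ, tG_smul, tG_mul, tG_inv']
    rw [hB₁, mapG_mul, mapG_mul, mapG_inv, mapG_inv, h2, hSG, hμ, hε]
    simp only [smul_mulG, mul_smulG, smul_invG, smul_smul, mul_inv_rev, inv_inv]
    refine ⟨_, smul_word rfl ?_⟩
    group
  obtain ⟨t, ht⟩ := h1
  obtain ⟨r, hr⟩ := real_multiple hF hn ht
  obtain ⟨B, hB⟩ := hE.exists_JG hr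
  have hform : G = r⁻¹ • (tG x * JG n j B * x) := by
    rw [hB]
    simp only [smul_mulG, mul_smulG, smul_smul, inv_mul_cancel, one_smul]
    exact hG₁
  have htB : tG (JG n j B) = ε • JG n j B := by
    rw [hB, tG_smul, hB₁]
    simp only [tG_mul, tG_inv', tG_tG, hε, smul_mulG, mul_smulG, smul_smul]
    refine smul_word (mul_comm _ _) (by group)
  obtain ⟨ε₀, hε₀⟩ := hE.exists_ju hσε
  refine ⟨x, B, ε₀, ⟨⟨_, hform⟩, ⟨_, hμ⟩⟩, ?_, hε₀⟩
  apply JG_injective j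
  rw [← tG_JG, htB, JG_smul, hε₀]

end Real

/-! ### Graph automorphisms of `PSU` attached to unitary matrices -/

section Gamma

variable (hF : Fintype.card F = q ^ 2)

/-- The automorphism attached to a unitary matrix `G`, thought of as a form. -/
noncomputable def gamma (G : GU n F q) : MulAut (PSU n F q) := deltaOf G⁻¹ * phiOf (sigE hF)

theorem coe_guMap_sigE (h : GU n F q) : ((guMap hF (sigE hF) h).1 : GL (Fin n) F) = mapG (sigE hF) h.1 := by
  apply Units.ext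
  rfl

theorem conj_gamma (h G : GU n F q) :
    (deltaOf h * gamma hF G * (deltaOf h)⁻¹ : MulAut (PSU n F q)) = gamma hF (guMap hF (sigE hF) h * G * h⁻¹) := by
  have h1 : (phiOf (sigE hF) * (deltaOf h)⁻¹ : MulAut (PSU n F q)) = (deltaOf (guMap hF (sigE hF) h))⁻¹ * phiOf (sigE hF) := by
    rw [eq_inv_mul_iff_mul_eq, ← mul_assoc, ← phi_delta hF, mul_assoc, mul_inv_cancel, mul_one]
  rw [gamma, gamma, mul_assoc, mul_assoc, h1]
  simp only [← mul_assoc]
  congr 1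
  change deltaHom hF h * deltaHom hF G⁻¹ * (deltaHom hF (guMap hF (sigE hF) h))⁻¹ = deltaHom hF _
  rw [← map_inv, ← map_mul, ← map_mul]
  congr 1
  group

theorem coe_conj_elt (h G : GU n F q) :
    ((guMap hF (sigE hF) h * G * h⁻¹ : GU n F q).1 : GL (Fin n) F) = tG (h⁻¹ : GU n F q).1 * G.1 * (h⁻¹ : GU n F q).1 := by
  change ((guMap hF (sigE hF) h).1 : GL (Fin n) F) * G.1 * (h⁻¹ : GU n F q).1 = _
  rw [coe_guMap_sigE, mapG_of_mem hF h.2, Subgroup.coe_inv, tG_inv']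

theorem gamma_eq_iff (hn : 3 ≤ n) (h32 : ¬ (n = 3 ∧ q = 2)) (G G' : GU n F q) :
    gamma hF G = gamma hF G' ↔ ∃ u : Fˣ, G'.1 = u • G.1 := by
  constructor
  · intro h
    have h1 : (deltaOf G⁻¹ : MulAut (PSU n F q)) = deltaOf G'⁻¹ := mul_right_cancel h
    have h2 : (deltaOf (G' * G⁻¹) : MulAut (PSU n F q)) = 1 := by
      change deltaHom hF _ = 1
      rw [map_mul]
      change deltaHom hF G' * deltaOf G⁻¹ = 1
      rw [h1]
      change deltaHom hF G' * deltaHom hF G'⁻¹ = 1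
      rw [← map_mul, mul_inv_cancel, map_one]
    obtain ⟨μ, hμ, hG⟩ := scalar_of_delta hF hn h32 h2
    have hμ0 : μ ≠ 0 := by
      rintro rfl
      rw [zero_pow (by omega)] at hμ
      exact zero_ne_one hμ
    refine ⟨Units.mk0 μ hμ0, ?_⟩
    have h3 : ((G' * G⁻¹ : GU n F q).1 : GL (Fin n) F) = sG n (Units.mk0 μ hμ0) := by
      apply Units.ext
      rw [hG]
      rfl
    rw [← sG_mul_eq_smul, ← h3]
    change G'.1 = G'.1 * (G⁻¹ : GU n F q).1 * G.1
    rw [Subgroup.coe_inv]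
    group
  · rintro ⟨u, hu⟩
    have h1 : (deltaOf (G' * G⁻¹) : MulAut (PSU n F q)) = 1 := by
      apply deltaOf_scalar (μ := (u : F))
      have h2 : ((G' * G⁻¹ : GU n F q).1 : GL (Fin n) F) = sG n u := by
        change G'.1 * (G⁻¹ : GU n F q).1 = _
        rw [hu, Subgroup.coe_inv, smul_mulG, mul_inv_cancel, sG_eq_smul]
      rw [h2]
      rfl
    rw [gamma, gamma]
    congr 1
    have h3 : (deltaOf G⁻¹ : MulAut (PSU n F q)) = deltaOf G'⁻¹ * deltaOf (G' * G⁻¹) := by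
      change deltaHom hF _ = deltaHom hF _ * deltaHom hF _
      rw [← map_mul]
      congr 1
      group
    rw [h3, h1, mul_one]

theorem conj_gamma_iff (hn : 3 ≤ n) (h32 : ¬ (n = 3 ∧ q = 2)) (G G' : GU n F q) :
    IsConjUnder (inndiagPSU n F q) (gamma hF G) (gamma hF G') ↔
      ∃ (h : GU n F q) (s : Fˣ), G'.1 = s • (tG h.1 * G.1 * h.1) := by
  rw [IsConjUnder, inndiag_eq hF]
  constructor
  · rintro ⟨_, ⟨h₀, rfl⟩, hy⟩
    have h1 : gamma hF G' = gamma hF (guMap hF (sigE hF) h₀ * G * h₀⁻¹) := by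
      rw [hy, ← conj_gamma]
      rfl
    obtain ⟨u, hu⟩ := (gamma_eq_iff hF hn h32 _ _).mp h1.symm
    refine ⟨h₀⁻¹, u, ?_⟩
    rw [hu, coe_conj_elt]
  · rintro ⟨h, s, hs⟩
    refine ⟨_, ⟨h⁻¹, rfl⟩, ?_⟩
    have h1 : gamma hF (guMap hF (sigE hF) h⁻¹ * G * h⁻¹⁻¹) = gamma hF G' := by
      rw [gamma_eq_iff hF hn h32]
      refine ⟨s, ?_⟩
      rw [coe_conj_elt, hs, inv_inv]
    rw [← h1, ← conj_gamma]
    rfl

theorem comm_gamma_iff (hn : 3 ≤ n) (h32 : ¬ (n = 3 ∧ q = 2)) (G h : GU n F q) :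
    gamma hF G * deltaOf h = deltaOf h * gamma hF G ↔ ∃ s : Fˣ, G.1 = s • (tG h.1 * G.1 * h.1) := by
  have hinv : (deltaOf h⁻¹ : MulAut (PSU n F q)) = (deltaOf h)⁻¹ := map_inv (deltaHom hF) h
  have h1 : gamma hF G * deltaOf h = deltaOf h * gamma hF G ↔
      (deltaOf h⁻¹ * gamma hF G * (deltaOf h⁻¹)⁻¹ : MulAut (PSU n F q)) = gamma hF G := by
    rw [hinv, inv_inv, mul_assoc, inv_mul_eq_iff_eq_mul]
  rw [h1, conj_gamma, eq_comm, gamma_eq_iff hF hn h32]
  have key := coe_conj_elt hF h⁻¹ G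
  simp only [inv_inv] at key ⊢
  simp only [key]
  constructor
  · rintro ⟨u, hu⟩
    exact ⟨u⁻¹, by rw [hu, smul_smul, inv_mul_cancel, one_smul]⟩
  · rintro ⟨s, hs⟩
    refine ⟨s⁻¹, ?_⟩
    conv_rhs => rw [hs]
    rw [smul_smul, inv_mul_cancel, one_smul]

variable {F₀ : Type*} [Field F₀] [Fintype F₀] {j : F₀ →+* F}

local notation "P₀" => Matrix.ProjectiveSpecialLinearGroup (Fin n) F₀

/-- Conjugacy over the fixed field. -/
theorem conj_PSL_iff (hn : 2 ≤ n) (B B' : GL (Fin n) F₀) :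
    IsConjUnder (inndiagPSL n F₀) (gaP B⁻¹ : MulAut P₀) (gaP B'⁻¹) ↔
      ∃ (k : GL (Fin n) F₀) (a : F₀ˣ), tG k * B * k = a • B' := by
  rw [conj_iff hn]
  constructor
  · rintro ⟨h, u, hu⟩
    refine ⟨h⁻¹, u, ?_⟩
    rw [sG_mul_eq_smul] at hu
    have h1 : B' = u⁻¹ • (h * B⁻¹ * tG h)⁻¹ := by
      rw [← smul_invG, ← hu, inv_inv]
    rw [h1, smul_smul, mul_inv_cancel, one_smul, tG_inv']
    group
  · rintro ⟨k, a, hk⟩
    refine ⟨k⁻¹, a, ?_⟩
    rw [sG_mul_eq_smul]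
    have h1 : B'⁻¹ = a • (tG k * B * k)⁻¹ := by
      rw [hk, smul_invG, smul_smul, mul_inv_cancel, one_smul]
    rw [h1, tG_inv']
    refine smul_word rfl ?_
    group

theorem comm_PSL_iff (hn : 2 ≤ n) (B k : GL (Fin n) F₀) :
    (gaP B⁻¹ * conjP k : MulAut P₀) = conjP k * gaP B⁻¹ ↔ ∃ a : F₀ˣ, tG k * B * k = a • B := by
  rw [comm_iff hn]
  have e : ∀ u : F₀ˣ, k * B⁻¹ * tG k = sG n u * B⁻¹ ↔ tG k * B * k = u • B := fun u => by
    rw [← sG_mul_eq_smul]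
    exact central_swap (fun g => sG_comm u g)
  simp only [e]

/-- **Conjugacy transfers.** -/
theorem conj_transfer (hE : IsFix hF j) (hn : 3 ≤ n) (h32 : ¬ (n = 3 ∧ q = 2)) {x x' : GL (Fin n) F}
    {B B' : GL (Fin n) F₀} {G G' : GU n F q} (T : Twin hF j x B G.1) (T' : Twin hF j x' B' G'.1) :
    IsConjUnder (inndiagPSL n F₀) (gaP B⁻¹ : MulAut P₀) (gaP B'⁻¹) ↔
      IsConjUnder (inndiagPSU n F q) (gamma hF G) (gamma hF G') := by
  rw [conj_PSL_iff (by omega), conj_gamma_iff hF hn h32]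
  constructor
  · rintro ⟨k, a, hk⟩
    obtain ⟨h, hh, r, s, -, hs⟩ := exists_h_of_k hE (by omega) T T' G.2 G'.2 hk
    exact ⟨⟨h, hh⟩, s, hs⟩
  · rintro ⟨h, s, hs⟩
    obtain ⟨k, a, r, -, hk⟩ := exists_k_of_h hE (by omega) T T' h.2 hs
    exact ⟨k, a, hk⟩

/-- Two surjections with the same kernel. -/
theorem iso_of_corr {P A A' : Type*} [Group P] [Group A] [Group A'] (f : P →* A) (f' : P →* A')
    (hf : Function.Surjective f) (hf' : Function.Surjective f') (hk : f.ker = f'.ker) : Nonempty (A ≃* A') :=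
  ⟨(QuotientGroup.quotientKerEquivOfSurjective f hf).symm.trans
    ((QuotientGroup.quotientMulEquivOfEq hk).trans (QuotientGroup.quotientKerEquivOfSurjective f' hf'))⟩

/-- The pairs `(k, h)` of corresponding elements. -/
def corr (j : F₀ →+* F) (x : GL (Fin n) F) (B : GL (Fin n) F₀) : Subgroup (GL (Fin n) F₀ × GU n F q) where
  carrier := {p | (∃ r : Fˣ, JG n j p.1 = r • (x * p.2.1 * x⁻¹)) ∧ ∃ a : F₀ˣ, tG p.1 * B * p.1 = a • B}
  one_mem' := by
    refine ⟨⟨1, ?_⟩, ⟨1, ?_⟩⟩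
    · change JG n j 1 = (1 : Fˣ) • (x * (1 : GL (Fin n) F) * x⁻¹)
      simp
    · change tG (1 : GL (Fin n) F₀) * B * 1 = (1 : F₀ˣ) • B
      rw [tG_one]
      simp
  mul_mem' := by
    rintro ⟨k, h⟩ ⟨k', h'⟩ ⟨⟨r, hr⟩, ⟨a, ha⟩⟩ ⟨⟨r', hr'⟩, ⟨a', ha'⟩⟩
    refine ⟨⟨r * r', ?_⟩, ⟨a * a', ?_⟩⟩
    · change JG n j (k * k') = (r * r') • (x * (h.1 * h'.1) * x⁻¹)
      rw [map_mul, hr, hr']
      simp only [smul_mulG, mul_smulG, smul_smul]
      refine smul_word (mul_comm _ _) ?_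
      group
    · change tG (k * k') * B * (k * k') = (a * a') • B
      rw [tG_mul]
      calc tG k' * tG k * B * (k * k') = tG k' * (tG k * B * k) * k' := by group
        _ = _ := by
          rw [ha]
          simp only [smul_mulG, mul_smulG, smul_smul]
          rw [ha', smul_smul]
  inv_mem' := by
    rintro ⟨k, h⟩ ⟨⟨r, hr⟩, ⟨a, ha⟩⟩
    refine ⟨⟨r⁻¹, ?_⟩, ⟨a⁻¹, ?_⟩⟩
    · change JG n j k⁻¹ = r⁻¹ • (x * (h⁻¹ : GU n F q).1 * x⁻¹)
      rw [map_inv, hr, smul_invG, Subgroup.coe_inv]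
      refine smul_word rfl ?_
      group
    · change tG k⁻¹ * B * k⁻¹ = a⁻¹ • B
      have h1 : (tG k)⁻¹ * (a • B) * k⁻¹ = B := by
        rw [← ha]
        group
      rw [tG_inv']
      calc (tG k)⁻¹ * B * k⁻¹ = a⁻¹ • ((tG k)⁻¹ * (a • B) * k⁻¹) := by
            simp only [smul_mulG, mul_smulG, smul_smul, inv_mul_cancel, one_smul]
        _ = a⁻¹ • B := by rw [h1]

/-- **Centralisers transfer.** -/
theorem cent_transfer (hE : IsFix hF j) (hn : 3 ≤ n) (h32 : ¬ (n = 3 ∧ q = 2)) {x : GL (Fin n) F}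
    {B : GL (Fin n) F₀} {G : GU n F q} (T : Twin hF j x B G.1) :
    Nonempty (↥(inndiagPSL n F₀ ⊓ Subgroup.centralizer {(gaP B⁻¹ : MulAut P₀)}) ≃*
      ↥(inndiagPSU n F q ⊓ Subgroup.centralizer {gamma hF G})) := by
  classical
  have hn1 : 1 ≤ n := by omega
  have hn2 : 2 ≤ n := by omega
  let Γ : Subgroup (GL (Fin n) F₀ × GU n F q) := corr j x B
  let f₀ : Γ →* MulAut P₀ := (conjHom : GL (Fin n) F₀ →* MulAut P₀).comp ((MonoidHom.fst _ _).comp Γ.subtype)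
  let f₁ : Γ →* MulAut (PSU n F q) := (deltaHom hF).comp ((MonoidHom.snd _ _).comp Γ.subtype)
  have hf₀ : ∀ m : Γ, f₀ m = conjP (m.1.1) := fun m => rfl
  have hf₁ : ∀ m : Γ, f₁ m = deltaOf (m.1.2) := fun m => rfl
  have hmem₀ : ∀ m, f₀ m ∈ inndiagPSL n F₀ ⊓ Subgroup.centralizer {(gaP B⁻¹ : MulAut P₀)} := by
    intro m
    refine Subgroup.mem_inf.mpr ⟨?_, ?_⟩
    · rw [inndiagPSL_eq]
      exact ⟨_, rfl⟩
    · rw [Subgroup.mem_centralizer_iff]
      rintro y rfl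
      rw [hf₀]
      exact (comm_PSL_iff hn2 B _).mpr m.2.2
  have hmem₁ : ∀ m, f₁ m ∈ inndiagPSU n F q ⊓ Subgroup.centralizer {gamma hF G} := by
    intro m
    refine Subgroup.mem_inf.mpr ⟨?_, ?_⟩
    · rw [inndiag_eq hF]
      exact ⟨_, rfl⟩
    · rw [Subgroup.mem_centralizer_iff]
      rintro y rfl
      rw [hf₁]
      obtain ⟨a, ha⟩ := m.2.2
      obtain ⟨h, hh, r, s, hr, hs⟩ := exists_h_of_k hE hn1 T T G.2 G.2 ha
      -- `h` and `m.1.2` differ by a scalar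
      obtain ⟨r', hr'⟩ := m.2.1
      have h1 : h = (r⁻¹ * r') • (m.1.2).1 := by
        have h2 : r • (x * h * x⁻¹) = r' • (x * (m.1.2).1 * x⁻¹) := hr.symm.trans hr'
        have h3 : x * h * x⁻¹ = (r⁻¹ * r') • (x * (m.1.2).1 * x⁻¹) := by
          rw [← smul_smul, ← h2, smul_smul, inv_mul_cancel, one_smul]
        have h4 := congrArg (fun w => x⁻¹ * w * x) h3
        simp only [smul_mulG, mul_smulG] at h4
        have e1 : ∀ w : GL (Fin n) F, x⁻¹ * (x * w * x⁻¹) * x = w := fun w => by group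
        rw [e1, e1] at h4
        exact h4
      apply (comm_gamma_iff hF hn h32 G m.1.2).mpr
      rw [h1, tG_smul] at hs
      simp only [smul_mulG, mul_smulG, smul_smul] at hs
      exact ⟨_, hs⟩
  let f : Γ →* ↥(inndiagPSL n F₀ ⊓ Subgroup.centralizer {(gaP B⁻¹ : MulAut P₀)}) := f₀.codRestrict _ hmem₀
  let f' : Γ →* ↥(inndiagPSU n F q ⊓ Subgroup.centralizer {gamma hF G}) := f₁.codRestrict _ hmem₁
  have hfs : Function.Surjective f := by
    rintro ⟨β, hβ⟩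
    obtain ⟨hβ1, hβ2⟩ := Subgroup.mem_inf.mp hβ
    rw [inndiagPSL_eq] at hβ1
    obtain ⟨k, rfl⟩ := hβ1
    rw [Subgroup.mem_centralizer_iff] at hβ2
    have h3 := hβ2 _ rfl
    obtain ⟨a, ha⟩ := (comm_PSL_iff hn2 B k).mp h3
    obtain ⟨h, hh, r, s, hr, hs⟩ := exists_h_of_k hE hn1 T T G.2 G.2 ha
    refine ⟨⟨(k, ⟨h, hh⟩), ⟨r, hr⟩, ⟨a, ha⟩⟩, ?_⟩
    apply Subtype.ext
    rfl
  have hfs' : Function.Surjective f' := by
    rintro ⟨β, hβ⟩
    obtain ⟨hβ1, hβ2⟩ := Subgroup.mem_inf.mp hβ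
    rw [inndiag_eq hF] at hβ1
    obtain ⟨h, rfl⟩ := hβ1
    rw [Subgroup.mem_centralizer_iff] at hβ2
    have h3 := hβ2 _ rfl
    obtain ⟨s, hs⟩ := (comm_gamma_iff hF hn h32 G h).mp h3
    obtain ⟨k, a, r, hr, ha⟩ := exists_k_of_h hE hn1 T T h.2 hs
    refine ⟨⟨(k, h), ⟨r, hr⟩, ⟨a, ha⟩⟩, ?_⟩
    apply Subtype.ext
    rfl
  refine iso_of_corr f f' hfs hfs' ?_
  ext m
  rw [MonoidHom.mem_ker, MonoidHom.mem_ker]
  have e1 : f m = 1 ↔ (conjP (m.1.1) : MulAut P₀) = 1 := by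
    rw [Subtype.ext_iff]
    rfl
  have e2 : f' m = 1 ↔ (deltaOf (m.1.2) : MulAut (PSU n F q)) = 1 := by
    rw [Subtype.ext_iff]
    rfl
  rw [e1, e2]
  obtain ⟨r, hr⟩ := m.2.1
  constructor
  · intro h1
    obtain ⟨a, ha⟩ := exists_scalar_of_conjP hn2 h1
    apply deltaOf_scalar (μ := ((r⁻¹ * ju j a : Fˣ) : F))
    have h2 : m.1.1 = a • (1 : GL (Fin n) F₀) := by
      have h6 := ha
      rw [sG_eq_smul] at h6
      exact h6
    rw [h2, JG_smul, map_one] at hr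
    have h3 : x * (m.1.2).1 * x⁻¹ = (r⁻¹ * ju j a) • (1 : GL (Fin n) F) := by
      rw [← smul_smul, hr, smul_smul, inv_mul_cancel, one_smul]
    have h4 : (m.1.2).1 = (r⁻¹ * ju j a) • (1 : GL (Fin n) F) := by
      have h5 := congrArg (fun w => x⁻¹ * w * x) h3
      simp only [smul_mulG, mul_smulG] at h5
      have e3 : x⁻¹ * (x * (m.1.2).1 * x⁻¹) * x = (m.1.2).1 := by group
      rw [e3] at h5
      rw [h5]
      simp
    rw [h4, ← sG_eq_smul]
    rfl
  · intro h1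
    obtain ⟨μ, hμ, hG'⟩ := scalar_of_delta hF hn h32 h1
    have hμ0 : μ ≠ 0 := by
      rintro rfl
      rw [zero_pow (by omega)] at hμ
      exact zero_ne_one hμ
    have h2 : (m.1.2).1 = (Units.mk0 μ hμ0) • (1 : GL (Fin n) F) := by
      rw [← sG_eq_smul]
      apply Units.ext
      rw [hG']
      rfl
    rw [h2] at hr
    have h3 : JG n j (m.1.1) = (r * Units.mk0 μ hμ0) • JG n j (1 : GL (Fin n) F₀) := by
      rw [hr, map_one]
      simp only [smul_mulG, mul_smulG, smul_smul, mul_one, mul_inv_cancel]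
    obtain ⟨a, -, ha⟩ := hE.exists_of_JG_eq hn1 h3
    rw [ha, ← sG_eq_smul]
    exact conjP_sG a

/-! ### Order two -/

theorem normG_two (g : GU n F q) : normG hF g (sigE hF) 2 = g * guMap hF (sigE hF) g := by
  have h3 : guMap hF (sigE hF) (1 : GU n F q) = 1 := by
    apply Subtype.ext
    rw [coe_guMap_sigE hF]
    exact mapG_one (sigE hF)
  have h4 : ∀ a b : GU n F q, guMap hF (sigE hF) (a * b) = guMap hF (sigE hF) a * guMap hF (sigE hF) b := by
    intro a b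
    apply Subtype.ext
    rw [Subgroup.coe_mul, coe_guMap_sigE hF, coe_guMap_sigE hF, coe_guMap_sigE hF]
    exact mapG_mul (sigE hF) _ _
  simp only [normG, mul_one, h3, h4]

theorem gamma_sq (G : GU n F q) (ε : Fˣ) (hε : tG G.1 = ε • G.1) :
    (gamma hF G : MulAut (PSU n F q)) ^ 2 = 1 := by
  rw [gamma, pow_delta_phi hF, sigE_sq, phiOf_one, mul_one]
  apply deltaOf_scalar (μ := (ε : F))
  have h1 : ((normG hF G⁻¹ (sigE hF) 2 : GU n F q).1 : GL (Fin n) F) = sG n ε := by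
    rw [normG_two hF]
    change (G⁻¹ : GU n F q).1 * ((guMap hF (sigE hF) G⁻¹).1 : GL (Fin n) F) = _
    rw [coe_guMap_sigE, Subgroup.coe_inv, mapG_inv, mapG_of_mem hF G.2, inv_inv, hε, mul_smulG, inv_mul_cancel,
      sG_eq_smul]
  rw [h1]
  rfl

theorem gamma_order {p : ℕ} [Fact p.Prime] [CharP F p] (hpq : p ∣ q) (hn : 3 ≤ n) (h32 : ¬ (n = 3 ∧ q = 2))
    (G : GU n F q) (ε : Fˣ) (hε : tG G.1 = ε • G.1) : orderOf (gamma hF G : MulAut (PSU n F q)) = 2 := by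
  apply orderOf_eq_prime (gamma_sq hF G ε hε)
  intro h
  have h1 := sigmaHom_eq (n := n) p hpq hF hn h32 G⁻¹ (sigE hF)
  have h2 : (deltaOf G⁻¹ * phiOf (sigE hF) : MulAut (PSU n F q)) = 1 := h
  rw [h2, map_one] at h1
  exact sigE_ne_one hF h1.symm

/-- Involutory graph automorphisms. -/
theorem graph_data_U {p f : ℕ} [hp : Fact p.Prime] [CharP F p] (hpq : p ∣ q) (hq : q = p ^ f) (hn : 3 ≤ n)
    (h32 : ¬ (n = 3 ∧ q = 2)) {γ : MulAut (PSU n F q)} (hγ : IsGraphAutClassPSU γ) (hγ2 : orderOf γ = 2) :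
    ∃ (G : GU n F q) (ε : Fˣ), γ = gamma hF G ∧ tG G.1 = ε • G.1 := by
  obtain ⟨-, δ, φ, τ, hτ, hδ, hφ, rfl⟩ := hγ
  obtain ⟨g, rfl⟩ := (isInnerDiag_iff δ).mp hδ
  have hφ' := isFieldAut_iff τ φ hφ
  subst hφ'
  have hsq : (deltaOf g * phiOf τ : MulAut (PSU n F q)) ^ 2 = 1 := by
    rw [← hγ2]
    exact pow_orderOf_eq_one _
  have hτ2 : τ ^ 2 = 1 := by
    have h1 := congrArg (sigmaHom p hpq hF hn h32) hsq
    rwa [map_pow, sigmaHom_eq, map_one] at h1
  have hτ1 : τ ≠ 1 := by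
    rintro rfl
    rw [orderOf_one] at hτ
    exact absurd hτ (by decide)
  have hcard : Fintype.card F = p ^ (f * 2) := by
    rw [hF, hq, ← pow_mul]
  have hf1 : 1 ≤ f * 2 := by
    have := two_le_q hF
    by_contra hc
    have hf0 : f = 0 := by omega
    rw [hf0, pow_zero] at hq
    omega
  obtain ⟨-, hF₂, hτE⟩ := involution_eq hcard hf1 τ hτ1 hτ2
  have hτE' : τ = sigE hF := by
    rw [hτE]
    ext x
    rw [sigE_apply, sigE_apply, Nat.mul_div_cancel _ (by norm_num), ← hq]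
  subst hτE'
  rw [pow_delta_phi hF, sigE_sq, phiOf_one, mul_one] at hsq
  obtain ⟨μ, hμ, hG⟩ := scalar_of_delta hF hn h32 hsq
  have hμ0 : μ ≠ 0 := by
    rintro rfl
    rw [zero_pow (by omega)] at hμ
    exact zero_ne_one hμ
  refine ⟨g⁻¹, Units.mk0 μ hμ0, by rw [gamma, inv_inv], ?_⟩
  have h3 := normG_two hF g
  have h4 : g.1 * mapG (sigE hF) g.1 = (Units.mk0 μ hμ0) • (1 : GL (Fin n) F) := by
    rw [← coe_guMap_sigE hF, ← sG_eq_smul]
    apply Units.ext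
    have := hG
    rw [h3] at this
    exact this
  rw [mapG_of_mem hF g.2] at h4
  rw [Subgroup.coe_inv, tG_inv']
  have h5 : g.1 = (Units.mk0 μ hμ0) • tG g.1 := by
    have h6 := congrArg (fun w => w * tG g.1) h4
    simp only [smul_mulG, inv_mul_cancel_right, one_mul] at h6
    exact h6
  conv_lhs => rw [show tG g.1 = (Units.mk0 μ hμ0)⁻¹ • g.1 by
    conv_rhs => rw [h5]
    rw [smul_smul, inv_mul_cancel, one_smul]]
  rw [smul_invG, inv_inv]

end Gamma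

/-! ### The package -/

section Package

variable (hF : Fintype.card F = q ^ 2)

theorem isFieldAut_phiOf (σ : F ≃+* F) : IsFieldAutPSUOf σ (phiOf σ : MulAut (PSU n F q)) :=
  Cfsg.Agent.Lib.Classical.Herm.Psi.isFieldAut_psuOf σ

theorem isGraph_gamma (hn : 3 ≤ n) (G : GU n F q) : IsGraphAutClassPSU (gamma hF G) := by
  refine ⟨hn, deltaOf G⁻¹, phiOf (sigE hF), sigE hF, ?_, (isInnerDiag_iff _).mpr ⟨_, rfl⟩, isFieldAut_phiOf _, rfl⟩
  rw [orderOf_sigE]
  exact even_two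

variable {F₀ : Type*} [Field F₀] [Fintype F₀]

theorem card_fix_sigE : Nat.card (fixF (sigE hF)) = q := by
  have h1 := card_eq_pow_fix (sigE hF)
  rw [orderOf_sigE, Nat.card_eq_fintype_card, hF] at h1
  exact (Nat.pow_left_injective (by norm_num : 2 ≠ 0) h1).symm

theorem exists_isFix (hF₀ : Fintype.card F₀ = q) : ∃ j : F₀ →+* F, IsFix hF j := by
  classical
  letI : Fintype (fixF (sigE hF)) := Fintype.ofFinite _
  have hcard : Fintype.card F₀ = Fintype.card (fixF (sigE hF)) := by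
    rw [hF₀, ← Nat.card_eq_fintype_card, card_fix_sigE hF]
  let j₀ : F₀ ≃+* fixF (sigE hF) := FiniteField.ringEquivOfCardEq hcard
  refine ⟨(fixF (sigE hF)).subtype.comp (j₀ : F₀ →+* fixF (sigE hF)), fun y => (j₀ y).2, ?_⟩
  intro y hy
  refine ⟨j₀.symm ⟨y, hy⟩, ?_⟩
  change ((j₀ (j₀.symm ⟨y, hy⟩) : fixF (sigE hF)) : F) = y
  rw [RingEquiv.apply_symm_apply]

variable (j : F₀ →+* F)

local notation "P₀" => Matrix.ProjectiveSpecialLinearGroup (Fin n) F₀

/-- Corresponding involutory graph automorphisms. -/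
def Tw (γ₀ : MulAut P₀) (γ : MulAut (PSU n F q)) : Prop :=
  ∃ (x : GL (Fin n) F) (B : GL (Fin n) F₀) (G : GU n F q) (ε₀ : F₀ˣ),
    γ₀ = gaP B⁻¹ ∧ γ = gamma hF G ∧ Twin hF j x B G.1 ∧ tG B = ε₀ • B ∧ tG G.1 = ju j ε₀ • G.1

variable {hF j}

theorem exists_tw_left {p : ℕ} [Fact p.Prime] [CharP F p] (hpq : p ∣ q) (hE : IsFix hF j)
    (hn : 3 ≤ n) (h32 : ¬ (n = 3 ∧ q = 2)) {γ₀ : MulAut P₀} (hg : IsGraphAutClassPSL γ₀) (ho : orderOf γ₀ = 2) :
    ∃ γ : MulAut (PSU n F q), Tw hF j γ₀ γ ∧ IsGraphAutClassPSU γ ∧ orderOf γ = 2 := by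
  obtain ⟨-, g, rfl⟩ := graph_data hg
  obtain ⟨u, hu⟩ := (orderOf_gaP_iff hn g).mp ho
  have hB : tG g⁻¹ = u • g⁻¹ := by
    rw [sG_mul_eq_smul] at hu
    rw [tG_inv']
    conv_rhs => rw [hu]
    rw [smul_invG, smul_smul, mul_inv_cancel, one_smul]
  obtain ⟨x, G, hG, T, hε⟩ := exists_twin_of_form hE (by omega) g⁻¹ u hB
  refine ⟨gamma hF ⟨G, hG⟩, ⟨x, g⁻¹, ⟨G, hG⟩, u, by rw [inv_inv], rfl, T, hB, hε⟩, isGraph_gamma hF hn _,
    gamma_order hF hpq hn h32 ⟨G, hG⟩ _ hε⟩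

theorem exists_tw_right {p f : ℕ} [Fact p.Prime] [CharP F p] (hpq : p ∣ q) (hq : q = p ^ f) (hE : IsFix hF j)
    (hn : 3 ≤ n) (h32 : ¬ (n = 3 ∧ q = 2)) {γ : MulAut (PSU n F q)} (hg : IsGraphAutClassPSU γ) (ho : orderOf γ = 2) :
    ∃ γ₀ : MulAut P₀, Tw hF j γ₀ γ ∧ IsGraphAutClassPSL γ₀ ∧ orderOf γ₀ = 2 := by
  obtain ⟨G, ε, rfl, hε⟩ := graph_data_U hF hpq hq hn h32 hg ho
  obtain ⟨x, B, ε₀, T, hB, rfl⟩ := exists_twin_of_unitary hE (by omega) G.2 hε
  refine ⟨gaP B⁻¹, ⟨x, B, G, ε₀, rfl, rfl, T, hB, hε⟩, isGraph_gaP hn _, ?_⟩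
  rw [orderOf_gaP_iff hn]
  refine ⟨ε₀, ?_⟩
  rw [sG_mul_eq_smul, tG_inv', hB, smul_invG, smul_smul, mul_inv_cancel, one_smul]

theorem Tw.conj_iff (hE : IsFix hF j) (hn : 3 ≤ n) (h32 : ¬ (n = 3 ∧ q = 2)) {γ₀ γ₀' : MulAut P₀}
    {γ γ' : MulAut (PSU n F q)} (T : Tw hF j γ₀ γ) (T' : Tw hF j γ₀' γ') :
    IsConjUnder (inndiagPSL n F₀) γ₀ γ₀' ↔ IsConjUnder (inndiagPSU n F q) γ γ' := by
  obtain ⟨x, B, G, ε₀, rfl, rfl, T₁, -, -⟩ := T
  obtain ⟨x', B', G', ε₀', rfl, rfl, T₁', -, -⟩ := T'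
  exact conj_transfer hF hE hn h32 T₁ T₁'

theorem Tw.cent (hE : IsFix hF j) (hn : 3 ≤ n) (h32 : ¬ (n = 3 ∧ q = 2)) {γ₀ : MulAut P₀}
    {γ : MulAut (PSU n F q)} (T : Tw hF j γ₀ γ) :
    Nonempty (↥(inndiagPSL n F₀ ⊓ Subgroup.centralizer {γ₀}) ≃* ↥(inndiagPSU n F q ⊓ Subgroup.centralizer {γ})) := by
  obtain ⟨x, B, G, ε₀, rfl, rfl, T₁, -, -⟩ := T
  exact cent_transfer hF hE hn h32 T₁

/-- The standard automorphism. -/
theorem tw_one (hE : IsFix hF j) : Tw hF j (itP : MulAut P₀) (phiOf (sigE hF) : MulAut (PSU n F q)) := by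
  refine ⟨1, 1, 1, 1, ?_, ?_, ⟨⟨1, ?_⟩, ⟨1, ?_⟩⟩, ?_, ?_⟩
  · rw [inv_one, gaP, conjP_one, one_mul]
  · rw [gamma, inv_one, deltaOf_one, one_mul]
  · change (1 : GL (Fin n) F) = (1 : Fˣ) • (tG 1 * JG n j 1 * 1)
    rw [tG_one, map_one]
    simp
  · change mapG (sigE hF) (1 : GL (Fin n) F) = (1 : Fˣ) • (1 * (1 : GL (Fin n) F)⁻¹)
    rw [mapG_one]
    simp
  · rw [tG_one]
    simp
  · change tG (1 : GL (Fin n) F) = ju j 1 • (1 : GL (Fin n) F)
    rw [tG_one, ju_one]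
    simp

end Package

end Cfsg.Agent.Lib.Classical.Herm.GraphU
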