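import Mathlib
import Cfsg.Agent.Lib.Classical.Herm.Subfield

/-!
# Restriction of scalars for `GU`: a coordinate bijection gives a homomorphism to matrices over the
subfield, and explicit coordinates.
-/

set_option autoImplicit false
set_option linter.unusedSectionVars false

open Cfsg
open Cfsg.Agent.Lib.Classical.Herm.Basic
open Cfsg.Agent.Lib.Classical.Herm.GU
open Cfsg.Agent.Lib.Classical.Herm.SU
open Cfsg.Agent.Lib.Classical.Herm.Subfield
open scoped Matrix

namespace Cfsg.Agent.Lib.Classical.Herm.Realify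

variable {K F : Type*} [Field K] [Fintype K] [Field F] [Fintype F] {q : ℕ}

/-- A semilinear bijection of coordinates gives a faithful representation of `GU` over `F`. -/
theorem exists_gu_hom {ι : Type} [Fintype ι] [DecidableEq ι] (j : F →+* K) (m : ℕ)
    (T : (ι → F) → (Fin m → K)) (hadd : ∀ u v, T (u + v) = T u + T v)
    (hsmul : ∀ (c : F) u, T (c • u) = j c • T u) (hbij : Function.Bijective T) :
    ∃ ρ : GU m K q →* Matrix.GeneralLinearGroup ι F, Function.Injective ρ ∧
      ∀ g w, T ((ρ g : Matrix ι ι F) *ᵥ w) = (g.1 : Matrix (Fin m) (Fin m) K) *ᵥ T w := by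
  classical
  let T' : (ι → F) ≃ (Fin m → K) := Equiv.ofBijective T hbij
  have hT' : ∀ w, T' w = T w := fun _ => rfl
  have hTs : ∀ y, T (T'.symm y) = y := fun y => T'.apply_symm_apply y
  have hsT : ∀ w, T'.symm (T w) = w := fun w => T'.symm_apply_apply w
  let L : Matrix (Fin m) (Fin m) K → ((ι → F) →ₗ[F] (ι → F)) := fun M =>
    { toFun := fun w => T'.symm (M *ᵥ T w)
      map_add' := fun u v => by
        apply hbij.1
        rw [hTs, hadd, hadd, hTs, hTs, Matrix.mulVec_add]
      map_smul' := fun c u => by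
        apply hbij.1
        rw [RingHom.id_apply, hsmul, hTs, hsmul, hTs, Matrix.mulVec_smul] }
  have hL : ∀ M w, L M w = T'.symm (M *ᵥ T w) := fun _ _ => rfl
  let ψ : GU m K q →* Matrix ι ι F :=
    { toFun := fun g => LinearMap.toMatrix' (L (g.1 : Matrix (Fin m) (Fin m) K))
      map_one' := by
        have : L ((1 : GU m K q).1 : Matrix (Fin m) (Fin m) K) = LinearMap.id := by
          apply LinearMap.ext
          intro w
          change T'.symm ((1 : Matrix (Fin m) (Fin m) K) *ᵥ T w) = w
          rw [Matrix.one_mulVec, hsT]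
        rw [this, LinearMap.toMatrix'_id]
      map_mul' := fun g h => by
        rw [← LinearMap.toMatrix'_comp]
        congr 1
        apply LinearMap.ext
        intro w
        apply hbij.1
        rw [LinearMap.comp_apply, hL, hL, hL]
        simp only [hTs]
        rw [Matrix.mulVec_mulVec]
        rfl }
  have hψ : ∀ g w, ψ g *ᵥ w = T'.symm ((g.1 : Matrix (Fin m) (Fin m) K) *ᵥ T w) := by
    intro g w
    change LinearMap.toMatrix' _ *ᵥ w = _
    rw [LinearMap.toMatrix'_mulVec]
    rfl
  refine ⟨ψ.toHomUnits, ?_, ?_⟩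
  · intro g h hgh
    have h1 : ψ g = ψ h := congrArg Units.val hgh
    apply Subtype.ext
    apply Units.ext
    apply Matrix.toLin'.injective
    apply LinearMap.ext
    intro x
    rw [Matrix.toLin'_apply, Matrix.toLin'_apply]
    obtain ⟨w, rfl⟩ := hbij.2 x
    have h2 := hψ g w
    rw [h1, hψ h w] at h2
    exact (T'.symm.injective h2).symm
  · intro g w
    change T (ψ g *ᵥ w) = _
    rw [hψ, hTs]

/-- Data: an embedding of `F`, fixed points of `x ^ q`. -/
structure Emb (K F : Type*) [Field K] [Field F] (q : ℕ) where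
  j : F →+* K
  fix : ∀ x, (j x) ^ q = j x
  surj : ∀ x : K, x ^ q = x → ∃ y, j y = x

theorem exists_emb (hK : Fintype.card K = q ^ 2) (hF : Fintype.card F = q) :
    Nonempty (Emb K F q) := by
  obtain ⟨j, h1, h2⟩ := exists_fixed_embedding (F := K) (K := F) hK hF
  exact ⟨⟨j, h1, h2⟩⟩

theorem card_coord_eq (hK : Fintype.card K = q ^ 2) (hF : Fintype.card F = q) {ι : Type} [Fintype ι] [DecidableEq ι]
    (m : ℕ) (hι : Fintype.card ι = 2 * m) :
    Fintype.card (ι → F) = Fintype.card (Fin m → K) := by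
  simp only [Fintype.card_pi, Finset.prod_const, Finset.card_univ, Fintype.card_fin, hF, hK, hι]
  rw [← pow_mul]

end Cfsg.Agent.Lib.Classical.Herm.Realify

namespace Cfsg.Agent.Lib.Classical.Herm.Realify

open Polynomial

variable {K F : Type*} [Field K] [Fintype K] [Field F] [Fintype F] {q : ℕ}

/-- An anisotropic binary form has a root in the quadratic extension. -/
theorem exists_root_of_anisotropic (E : Emb K F q) (hK : Fintype.card K = q ^ 2)
    (hF : Fintype.card F = q) (a b : F)
    (hab : ∀ z₁ z₂ : F, z₁ ^ 2 + a * z₁ * z₂ + b * z₂ ^ 2 = 0 → z₁ = 0 ∧ z₂ = 0) :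
    ∃ θ : K, θ ^ 2 - E.j a * θ + E.j b = 0 := by
  classical
  let P : F[X] := X ^ 2 - C a * X + C b
  have hdeg : P.natDegree = 2 := by
    simp only [P]
    compute_degree!
  have hmonic : P.Monic := by
    simp only [P]
    monicity!
  have hroots : P.roots = 0 := by
    rw [Multiset.eq_zero_iff_forall_notMem]
    intro r hr
    have hr' : P.IsRoot r := (Polynomial.mem_roots hmonic.ne_zero).1 hr
    have h1 : r ^ 2 - a * r + b = 0 := by
      simpa [P, Polynomial.IsRoot] using hr'
    have h2 := hab (-r) 1 (by linear_combination h1)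
    exact one_ne_zero h2.2
  have hirr : Irreducible P :=
    (hmonic.irreducible_iff_roots_eq_zero_of_degree_le_three (by omega) (by omega)).2 hroots
  have : Fact (Irreducible P) := ⟨hirr⟩
  let L := AdjoinRoot P
  let : Field L := AdjoinRoot.instField
  have hfin : Module.Finite F L := (AdjoinRoot.powerBasis hmonic.ne_zero).finite
  have : Finite L := Module.finite_of_finite F
  let : Fintype L := Fintype.ofFinite L
  have hrank : Module.finrank F L = 2 := by
    rw [PowerBasis.finrank, AdjoinRoot.powerBasis_dim hmonic.ne_zero, hdeg]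
  have hcardL : Fintype.card L = q ^ 2 := by
    rw [Module.card_eq_pow_finrank (K := F) (V := L), hrank, hF]
  have hroot : (AdjoinRoot.root P : L) ^ (q ^ 2) = AdjoinRoot.root P := by
    rw [← hcardL]
    exact FiniteField.pow_card _
  have hdvd : P ∣ (X ^ (q ^ 2) - X : F[X]) := by
    rw [← AdjoinRoot.mk_eq_zero, map_sub, map_pow, AdjoinRoot.mk_X, hroot, sub_self]
  have hdvd2 : P.map E.j ∣ (X ^ (q ^ 2) - X : K[X]) := by
    have := Polynomial.map_dvd E.j hdvd
    simpa using this
  have hne : (X ^ (q ^ 2) - X : K[X]) ≠ 0 := by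
    rw [← hK]
    exact FiniteField.X_pow_card_sub_X_ne_zero K Fintype.one_lt_card
  have hsplit : (X ^ (q ^ 2) - X : K[X]).Splits := by
    rw [← hK, Polynomial.splits_iff_card_roots, FiniteField.roots_X_pow_card_sub_X,
      FiniteField.X_pow_card_sub_X_natDegree_eq K Fintype.one_lt_card]
    simp
  have hsplit2 := hsplit.of_dvd hne hdvd2
  have hdeg2 : (P.map E.j).degree ≠ 0 := by
    rw [Polynomial.degree_map, Polynomial.degree_eq_natDegree hmonic.ne_zero, hdeg]
    norm_num
  obtain ⟨θ, hθ⟩ := hsplit2.exists_eval_eq_zero hdeg2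
  refine ⟨θ, ?_⟩
  simpa [P] using hθ

/-- Normal form for the anisotropic form: the norm form in the basis `1, θ`. -/
theorem exists_theta (E : Emb K F q) (hK : Fintype.card K = q ^ 2) (hF : Fintype.card F = q) (a b : F)
    (hab : ∀ z₁ z₂ : F, z₁ ^ 2 + a * z₁ * z₂ + b * z₂ ^ 2 = 0 → z₁ = 0 ∧ z₂ = 0) :
    ∃ θ : K, θ ^ q ≠ θ ∧ θ + θ ^ q = E.j a ∧ θ * θ ^ q = E.j b := by
  obtain ⟨θ, hθ⟩ := exists_root_of_anisotropic E hK hF a b hab
  have hne : θ ^ q ≠ θ := by
    intro h
    obtain ⟨r, rfl⟩ := E.surj θ h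
    have h1 : E.j (r ^ 2 - a * r + b) = 0 := by
      simpa [map_add, map_sub, map_mul, map_pow] using hθ
    have h2 := (map_eq_zero E.j).1 h1
    have h3 := hab (-r) 1 (by linear_combination h2)
    exact one_ne_zero h3.2
  have hθq : (θ ^ q) ^ 2 - E.j a * θ ^ q + E.j b = 0 := by
    have h1 := congrArg (fun x => x ^ q) hθ
    simp only [pow_q_add hK, pow_q_sub hK, mul_pow, E.fix, zero_pow_q hK] at h1
    rw [← pow_mul, mul_comm, pow_mul] at h1
    exact h1
  have h2 : (θ - θ ^ q) ≠ 0 := sub_ne_zero.mpr (Ne.symm hne)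
  have hsum : θ + θ ^ q = E.j a := by
    apply mul_left_cancel₀ h2
    linear_combination hθ - hθq
  refine ⟨θ, hne, hsum, ?_⟩
  linear_combination (-1 : K) * hθ + θ * hsum

end Cfsg.Agent.Lib.Classical.Herm.Realify
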