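import Mathlib
import Cfsg.Agent.Lib.Classical.Herm.Realify
import Cfsg.Prelude.Def_Classical

/-!
# Coordinates over the subfield: the Hermitian norm form of `K^2` is hyperbolic over `F`
-/

set_option autoImplicit false
set_option linter.unusedSectionVars false

open Cfsg
open Cfsg.Agent.Lib.Classical.Herm.Basic
open Cfsg.Agent.Lib.Classical.Herm.GU
open Cfsg.Agent.Lib.Classical.Herm.SU
open Cfsg.Agent.Lib.Classical.Herm.Realify
open scoped Matrix

namespace Cfsg.Agent.Lib.Classical.Herm.Realify2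

variable {K F : Type*} [Field K] [Fintype K] [Field F] [Fintype F] {q : ℕ}

theorem lemmaA (hK : Fintype.card K = q ^ 2) (U V W l z : K) (hV : V * (1 - z) = W ^ q)
    (hl : l ^ (q + 1) = -1) (hz : z ^ (q + 1) = 1) :
    (U + V) ^ (q + 1) + (l * (U + z * V)) ^ (q + 1) = U * W + (U * W) ^ q := by
  have hS : V ^ q * (1 - z ^ q) = W := by
    have h1 := congrArg (fun x => x ^ q) hV
    simp only [mul_pow, pow_q_sub hK, one_pow, pow_q_pow_q hK] at h1
    exact h1
  have hl' : l ^ q * l = -1 := by rw [← pow_succ]; exact hl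
  have hz' : z ^ q * z = 1 := by rw [← pow_succ]; exact hz
  rw [pow_succ (U + V), pow_succ (l * (U + z * V)), mul_pow U W, mul_pow l, pow_q_add hK, pow_q_add hK,
    mul_pow z]
  linear_combination ((U ^ q + z ^ q * V ^ q) * (U + z * V)) * hl' + U ^ q * hV + U * hS -
    (V ^ q * V) * hz'

/-- The parameters of the block. -/
structure Params (K F : Type*) [Field K] [Field F] (q : ℕ) where
  E : Emb K F q
  θ : K
  hθ : θ ^ q ≠ θ
  l : K
  hl : l ^ (q + 1) = -1
  z : K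
  hz : z ^ (q + 1) = 1
  hz1 : z ≠ 1

namespace Params

variable (P : Params K F q)

/-- `θ - θ ^ q`. -/
def ε : K := P.θ - P.θ ^ q
/-- dual basis -/
noncomputable def b₀ : K := -P.θ ^ q / P.ε
/-- dual basis -/
noncomputable def b₁ : K := 1 / P.ε
/-- constants -/
noncomputable def c₀ : K := P.b₀ ^ q / (1 - P.z)
/-- constants -/
noncomputable def c₁ : K := P.b₁ ^ q / (1 - P.z)

/-- The first coordinate. -/
noncomputable def X₀ (r₀ s₀ r₁ s₁ : F) : K :=
  P.E.j r₀ + P.θ * P.E.j r₁ + (P.E.j s₀ * P.c₀ + P.E.j s₁ * P.c₁)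

/-- The second coordinate. -/
noncomputable def X₁ (r₀ s₀ r₁ s₁ : F) : K :=
  P.l * (P.E.j r₀ + P.θ * P.E.j r₁ + P.z * (P.E.j s₀ * P.c₀ + P.E.j s₁ * P.c₁))

theorem ε_ne : P.ε ≠ 0 := sub_ne_zero.mpr (Ne.symm P.hθ)

theorem one_sub_z_ne : 1 - P.z ≠ 0 := sub_ne_zero.mpr (Ne.symm P.hz1)

theorem ε_pow (hK : Fintype.card K = q ^ 2) : P.ε ^ q = -P.ε := by
  simp only [ε]
  rw [pow_q_sub hK, pow_q_pow_q hK]
  ring

theorem norm_block (hK : Fintype.card K = q ^ 2) (r₀ s₀ r₁ s₁ : F) :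
    (P.X₀ r₀ s₀ r₁ s₁) ^ (q + 1) + (P.X₁ r₀ s₀ r₁ s₁) ^ (q + 1) = P.E.j (r₀ * s₀ + r₁ * s₁) := by
  have hε := P.ε_ne
  have hz := P.one_sub_z_ne
  set W : K := P.E.j s₀ * P.b₀ + P.E.j s₁ * P.b₁ with hW
  set V : K := P.E.j s₀ * P.c₀ + P.E.j s₁ * P.c₁ with hVdef
  set U : K := P.E.j r₀ + P.θ * P.E.j r₁ with hU
  have hV : V * (1 - P.z) = W ^ q := by
    rw [hW, pow_q_add hK, mul_pow, mul_pow, P.E.fix, P.E.fix, hVdef]
    simp only [c₀, c₁]
    field_simp
  have h1 := lemmaA hK U V W P.l P.z hV P.hl P.hz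
  have e0 : P.X₀ r₀ s₀ r₁ s₁ = U + V := rfl
  have e1 : P.X₁ r₀ s₀ r₁ s₁ = P.l * (U + P.z * V) := rfl
  rw [e0, e1, h1, mul_pow, hU, hW, pow_q_add hK, pow_q_add hK, mul_pow, mul_pow, mul_pow, P.E.fix,
    P.E.fix, P.E.fix, P.E.fix]
  have hb0 : P.b₀ ^ q = P.θ / P.ε := by
    simp only [b₀]
    rw [div_pow, pow_q_neg hK, pow_q_pow_q hK, P.ε_pow hK]
    field_simp
  have hb1 : P.b₁ ^ q = -1 / P.ε := by
    simp only [b₁]
    rw [div_pow, one_pow, P.ε_pow hK]
    field_simp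
  rw [hb0, hb1]
  simp only [b₀, b₁, map_add, map_mul]
  have hε' : P.θ - P.θ ^ q = P.ε := rfl
  field_simp
  have : P.ε = P.θ - P.θ ^ q := rfl
  rw [this]
  ring

theorem block_inj (hK : Fintype.card K = q ^ 2) (r₀ s₀ r₁ s₁ : F) (h0 : P.X₀ r₀ s₀ r₁ s₁ = 0)
    (h1 : P.X₁ r₀ s₀ r₁ s₁ = 0) : r₀ = 0 ∧ s₀ = 0 ∧ r₁ = 0 ∧ s₁ = 0 := by
  have hq := two_le_q hK
  have hl0 : P.l ≠ 0 := by
    intro h
    have := P.hl
    rw [h, zero_pow (by omega)] at this
    exact (neg_ne_zero.mpr one_ne_zero) this.symm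
  have hε := P.ε_ne
  have hz := P.one_sub_z_ne
  set V : K := P.E.j s₀ * P.c₀ + P.E.j s₁ * P.c₁ with hVdef
  set U : K := P.E.j r₀ + P.θ * P.E.j r₁ with hU
  have e0 : U + V = 0 := h0
  have e1 : P.l * (U + P.z * V) = 0 := h1
  have e2 : U + P.z * V = 0 := (mul_eq_zero.mp e1).resolve_left hl0
  have hV0 : V = 0 := by
    have : (1 - P.z) * V = 0 := by linear_combination e0 - e2
    exact (mul_eq_zero.mp this).resolve_left hz
  have hU0 : U = 0 := by
    rw [hV0, add_zero] at e0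
    exact e0
  -- the coordinates of U
  have hindep : ∀ a b : F, P.E.j a + P.θ * P.E.j b = 0 → a = 0 ∧ b = 0 := by
    intro a b hab
    have h1 : (P.E.j a + P.θ * P.E.j b) ^ q = 0 := by rw [hab, zero_pow_q hK]
    rw [pow_q_add hK, mul_pow, P.E.fix, P.E.fix] at h1
    have h2 : P.ε * P.E.j b = 0 := by
      simp only [ε]
      linear_combination hab - h1
    have hb : P.E.j b = 0 := (mul_eq_zero.mp h2).resolve_left hε
    rw [hb, mul_zero, add_zero] at hab
    exact ⟨(map_eq_zero P.E.j).mp hab, (map_eq_zero P.E.j).mp hb⟩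
  obtain ⟨hr0, hr1⟩ := hindep _ _ hU0
  -- the coordinates of V
  have hb0 : P.b₀ ^ q = P.θ / P.ε := by
    simp only [b₀]
    rw [div_pow, pow_q_neg hK, pow_q_pow_q hK, P.ε_pow hK]
    field_simp
  have hb1 : P.b₁ ^ q = -1 / P.ε := by
    simp only [b₁]
    rw [div_pow, one_pow, P.ε_pow hK]
    field_simp
  have hV1 : P.E.j s₀ * P.θ - P.E.j s₁ = 0 := by
    have : V * (1 - P.z) * P.ε = P.E.j s₀ * P.θ - P.E.j s₁ := by
      rw [hVdef]
      simp only [c₀, c₁, hb0, hb1]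
      field_simp
      ring
    rw [← this, hV0]
    ring
  have hs := hindep (-s₁) s₀ (by rw [map_neg]; linear_combination hV1)
  exact ⟨hr0, by simpa using hs.2, hr1, by simpa using hs.1⟩

/-- The coordinate map on `F^(2(k+k))`, hyperbolic form. -/
noncomputable def evenT (k : ℕ) (w : Fin (k + k) ⊕ Fin (k + k) → F) : Fin (k + k) → K :=
  Fin.addCases
    (fun a => P.X₀ (w (Sum.inl (Fin.castAdd k a))) (w (Sum.inr (Fin.castAdd k a)))
      (w (Sum.inl (Fin.natAdd k a))) (w (Sum.inr (Fin.natAdd k a))))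
    (fun a => P.X₁ (w (Sum.inl (Fin.castAdd k a))) (w (Sum.inr (Fin.castAdd k a)))
      (w (Sum.inl (Fin.natAdd k a))) (w (Sum.inr (Fin.natAdd k a))))

theorem evenT_add (k : ℕ) (u v : Fin (k + k) ⊕ Fin (k + k) → F) :
    P.evenT k (u + v) = P.evenT k u + P.evenT k v := by
  funext i
  refine Fin.addCases (fun a => ?_) (fun a => ?_) i
  · simp only [evenT, Fin.addCases_left, Pi.add_apply, X₀, map_add]
    ring
  · simp only [evenT, Fin.addCases_right, Pi.add_apply, X₁, map_add]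
    ring

theorem evenT_smul (k : ℕ) (c : F) (u : Fin (k + k) ⊕ Fin (k + k) → F) :
    P.evenT k (c • u) = P.E.j c • P.evenT k u := by
  funext i
  refine Fin.addCases (fun a => ?_) (fun a => ?_) i
  · simp only [evenT, Fin.addCases_left, Pi.smul_apply, smul_eq_mul, X₀, map_mul]
    ring
  · simp only [evenT, Fin.addCases_right, Pi.smul_apply, smul_eq_mul, X₁, map_mul]
    ring

theorem evenT_zero_imp (hK : Fintype.card K = q ^ 2) (k : ℕ) (w : Fin (k + k) ⊕ Fin (k + k) → F)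
    (h : P.evenT k w = 0) : w = 0 := by
  have hblock : ∀ a : Fin k, w (Sum.inl (Fin.castAdd k a)) = 0 ∧ w (Sum.inr (Fin.castAdd k a)) = 0 ∧
      w (Sum.inl (Fin.natAdd k a)) = 0 ∧ w (Sum.inr (Fin.natAdd k a)) = 0 := by
    intro a
    have h0 := congrFun h (Fin.castAdd k a)
    have h1 := congrFun h (Fin.natAdd k a)
    rw [evenT, Fin.addCases_left] at h0
    rw [evenT, Fin.addCases_right] at h1
    exact P.block_inj hK _ _ _ _ h0 h1
  funext x
  rcases x with i | i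
  · refine Fin.addCases (fun a => ?_) (fun a => ?_) i
    · exact (hblock a).1
    · exact (hblock a).2.2.1
  · refine Fin.addCases (fun a => ?_) (fun a => ?_) i
    · exact (hblock a).2.1
    · exact (hblock a).2.2.2

theorem evenT_norm (hK : Fintype.card K = q ^ 2) (k : ℕ) (w : Fin (k + k) ⊕ Fin (k + k) → F) :
    hermForm (k + k) K q (P.evenT k w) (P.evenT k w) = P.E.j (quadFormPlus (k + k) F w) := by
  simp only [hermForm, quadFormPlus, Fin.sum_univ_add, map_add, map_sum]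
  rw [← Finset.sum_add_distrib, ← Finset.sum_add_distrib]
  refine Finset.sum_congr rfl fun a _ => ?_
  simp only [evenT, Fin.addCases_left, Fin.addCases_right]
  have := P.norm_block hK (w (Sum.inl (Fin.castAdd k a))) (w (Sum.inr (Fin.castAdd k a)))
      (w (Sum.inl (Fin.natAdd k a))) (w (Sum.inr (Fin.natAdd k a)))
  rw [map_add] at this
  rw [← this, pow_succ, pow_succ]
  ring

end Params

theorem exists_params (E : Emb K F q) (hK : Fintype.card K = q ^ 2) (θ : K) (hθ : θ ^ q ≠ θ) :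
    ∃ P : Params K F q, P.E = E ∧ P.θ = θ := by
  have hq := two_le_q hK
  obtain ⟨l, hl⟩ := exists_norm_eq hK (-1) (neg_ne_zero.mpr one_ne_zero)
    (by rw [pow_q_neg hK, one_pow])
  obtain ⟨z, hz, hz2⟩ := exists_norm_one_sq_ne_one hK
  exact ⟨⟨E, θ, hθ, l, hl, z, hz, by
    rintro rfl
    exact hz2 (one_pow 2)⟩, rfl, rfl⟩

end Cfsg.Agent.Lib.Classical.Herm.Realify2
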