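import Mathlib
import Cfsg.Agent.Lib.Classical.Herm.NormMat
import Cfsg.Agent.Lib.Classical.Herm.SU
import Cfsg.Agent.Lib.Linalg.RegularClasses

/-!
# Regular unipotent elements of the unitary groups
-/

set_option autoImplicit false
set_option linter.unusedSectionVars false
set_option linter.unusedSimpArgs false
set_option linter.unusedVariables false
set_option linter.style.haveILetI false

open scoped Matrix MatrixGroups
open Cfsg
open Cfsg.Agent.Lib.Classical.Herm.Basic Cfsg.Agent.Lib.Classical.Herm.GU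
open Cfsg.Agent.Lib.Classical.Herm.SU Cfsg.Agent.Lib.Classical.Herm.NormMat
open Cfsg.Agent.Lib.Linalg.RegularClasses Cfsg.Agent.Lib.Linalg.RegularCentralizer

namespace Cfsg.Agent.Lib.Classical.Herm.RegUnip

variable {K : Type*} [Field K] [Fintype K] {q m : ℕ}

/-- The antidiagonal matrix. -/
def anti (K : Type*) [Field K] (m : ℕ) : Matrix (Fin (m + 1)) (Fin (m + 1)) K :=
  Matrix.of fun i j => if (i : ℕ) + j = m then 1 else 0

theorem anti_apply (i j : Fin (m + 1)) : anti K m i j = if (i : ℕ) + j = m then 1 else 0 := rfl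

theorem anti_mul_anti : anti K m * anti K m = 1 := by
  classical
  ext i j
  rw [Matrix.mul_apply, Matrix.one_apply]
  have hr : ((Fin.rev i : Fin (m + 1)) : ℕ) = m - i := by
    rw [Fin.val_rev]; omega
  have hi := i.2
  rw [Finset.sum_eq_single (Fin.rev i)]
  · rw [anti_apply, anti_apply, hr, if_pos (by omega)]
    simp only [one_mul]
    by_cases h : i = j
    · subst h
      rw [if_pos (by omega), if_pos rfl]
    · have h' : (i : ℕ) ≠ j := fun h2 => h (Fin.ext h2)
      rw [if_neg (by have := j.2; omega), if_neg h]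
  · intro b _ hb
    have hb' : (i : ℕ) + b ≠ m := by
      intro h
      apply hb
      apply Fin.ext
      rw [hr]
      omega
    rw [anti_apply, if_neg hb', zero_mul]
  · simp

section

variable (hK : Fintype.card K = q ^ 2)
include hK

theorem cs_anti : cs q (anti K m) = anti K m := by
  have hq := two_le_q hK
  ext i j
  rw [cs_apply, anti_apply, anti_apply]
  by_cases h : (i : ℕ) + j = m
  · rw [if_pos h, if_pos (by omega), one_pow]
  · rw [if_neg h, if_neg (by omega), zero_pow (by omega)]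

theorem cs_shift : cs q (shift K m) = (shift K m)ᵀ := by
  have hq := two_le_q hK
  ext i j
  rw [cs_apply, Matrix.transpose_apply, shift_apply]
  by_cases h : (i : ℕ) + 1 = j
  · rw [if_pos h, one_pow]
  · rw [if_neg h, zero_pow (by omega)]

omit hK in
theorem shift_transpose_anti : (shift K m)ᵀ * anti K m = anti K m * shift K m := by
  classical
  ext i j
  rw [Matrix.mul_apply, Matrix.mul_apply]
  simp only [Matrix.transpose_apply, shift_apply, anti_apply]
  by_cases hi : (i : ℕ) + 1 < m + 1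
  · by_cases hj : (j : ℕ) + 1 < m + 1
    · rw [Finset.sum_eq_single (⟨(i : ℕ) + 1, hi⟩ : Fin (m + 1)),
        Finset.sum_eq_single (⟨(j : ℕ) + 1, hj⟩ : Fin (m + 1))]
      · simp only [if_true, one_mul, mul_one]
        have : ((i : ℕ) + 1 + (j : ℕ) = m) ↔ ((i : ℕ) + ((j : ℕ) + 1) = m) := by omega
        simp only [this]
      · intro b _ hb
        have : ¬ ((j : ℕ) + 1 = b) := fun h => hb (Fin.ext h.symm)
        simp [this]
      · simp
      · intro b _ hb
        have : ¬ ((i : ℕ) + 1 = b) := fun h => hb (Fin.ext h.symm)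
        simp [this]
      · simp
    · have hj' : (j : ℕ) = m := by have := j.2; omega
      rw [Finset.sum_eq_zero, Finset.sum_eq_zero]
      · intro b _
        have : ¬ ((j : ℕ) + 1 = b) := by have := b.2; omega
        simp [this]
      · intro b _
        by_cases hb : (i : ℕ) + 1 = b
        · have : ¬ ((b : ℕ) + j = m) := by omega
          simp [this]
        · simp [hb]
  · have hi' : (i : ℕ) = m := by have := i.2; omega
    rw [Finset.sum_eq_zero, Finset.sum_eq_zero]
    · intro b _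
      by_cases hb : (j : ℕ) + 1 = b
      · have : ¬ ((i : ℕ) + b = m) := by omega
        simp [this]
      · simp [hb]
    · intro b _
      have : ¬ ((i : ℕ) + 1 = b) := by have := b.2; omega
      simp [this]

/-- A hermitian regular nilpotent matrix. -/
theorem exists_herm_regular :
    ∃ N : Matrix (Fin (m + 1)) (Fin (m + 1)) K, cs q N = N ∧ N ^ (m + 1) = 0 ∧ N.rank = m := by
  classical
  have hHu : IsUnit (anti K m) := IsUnit.of_mul_eq_one _ anti_mul_anti
  obtain ⟨y, hy, -⟩ := exists_norm_factor hK (cs_anti hK) hHu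
  have hyu : IsUnit y := by
    have h1 : IsUnit (cs q y * y) := hy ▸ hHu
    exact isUnit_of_mul_isUnit_right h1
  obtain ⟨Y, rfl⟩ := hyu
  let Y' : Matrix (Fin (m + 1)) (Fin (m + 1)) K := ((Y⁻¹ : (Matrix (Fin (m + 1)) (Fin (m + 1)) K)ˣ) : _)
  have hY1 : (Y : Matrix (Fin (m + 1)) (Fin (m + 1)) K) * Y' = 1 := Units.mul_inv Y
  have hY2 : Y' * (Y : Matrix (Fin (m + 1)) (Fin (m + 1)) K) = 1 := Units.inv_mul Y
  refine ⟨(Y : Matrix _ _ K) * shift K m * Y', ?_, ?_, ?_⟩
  · -- `cs Y' * Sᵀ * cs Y = Y * S * Y'`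
    have hcs1 : cs q Y' * cs q (Y : Matrix _ _ K) = 1 := by
      rw [← cs_mul hK, hY1, cs_one hK]
    rw [cs_mul hK, cs_mul hK, cs_shift hK]
    have key : (shift K m)ᵀ * cs q (Y : Matrix _ _ K) * (Y : Matrix _ _ K) =
        cs q (Y : Matrix _ _ K) * (Y : Matrix _ _ K) * shift K m := by
      rw [Matrix.mul_assoc, hy, shift_transpose_anti]
    calc cs q Y' * (((shift K m)ᵀ * cs q (Y : Matrix _ _ K)))
        = cs q Y' * ((shift K m)ᵀ * cs q (Y : Matrix _ _ K) * (Y : Matrix _ _ K)) * Y' := by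
          simp only [Matrix.mul_assoc, hY1, Matrix.mul_one]
      _ = cs q Y' * (cs q (Y : Matrix _ _ K) * (Y : Matrix _ _ K) * shift K m) * Y' := by rw [key]
      _ = (Y : Matrix _ _ K) * shift K m * Y' := by
          rw [← Matrix.mul_assoc (cs q Y'), ← Matrix.mul_assoc (cs q Y'), hcs1, Matrix.one_mul]
  · have : ((Y : Matrix _ _ K) * shift K m * Y') ^ (m + 1) =
        (Y : Matrix _ _ K) * (shift K m) ^ (m + 1) * Y' := Units.conj_pow Y _ _
    rw [this, shift_pow_card]
    simp
  · have h1 : IsUnit (Y : Matrix (Fin (m + 1)) (Fin (m + 1)) K).det :=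
      (Matrix.isUnit_iff_isUnit_det _).1 Y.isUnit
    have h2 : IsUnit Y'.det :=
      (Matrix.isUnit_iff_isUnit_det _).1 (Y⁻¹).isUnit
    rw [Matrix.rank_mul_eq_left_of_isUnit_det _ _ h2, Matrix.rank_mul_eq_right_of_isUnit_det _ _ h1,
      shift_rank]

/-- There is `a` not fixed by the Frobenius. -/
theorem exists_pow_q_ne : ∃ a : K, a ^ q ≠ a := by
  by_contra hcon
  push Not at hcon
  apply sigma_ne_id hK
  ext x
  exact hcon x

theorem cs_pow (X : Matrix (Fin (m + 1)) (Fin (m + 1)) K) (k : ℕ) :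
    cs q (X ^ k) = (cs q X) ^ k := by
  induction k with
  | zero => simp [cs_one hK]
  | succ k ih => rw [pow_succ, cs_mul hK, ih, pow_succ']

/-- A regular unipotent element of the unitary group. -/
theorem exists_regular :
    ∃ u : Cfsg.GU (m + 1) K q,
      (((u : GL (Fin (m + 1)) K) : Matrix (Fin (m + 1)) (Fin (m + 1)) K) - 1) ^ (m + 1) = 0 ∧
      (((u : GL (Fin (m + 1)) K) : Matrix (Fin (m + 1)) (Fin (m + 1)) K) - 1).rank = m := by
  classical
  obtain ⟨N, hNh, hNn, hNr⟩ := exists_herm_regular (m := m) hK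
  obtain ⟨a, ha⟩ := exists_pow_q_ne hK
  set b := a ^ q with hb
  have hbq : b ^ q = a := pow_q_pow_q hK a
  have hNnil : IsNilpotent N := ⟨_, hNn⟩
  set A : Matrix (Fin (m + 1)) (Fin (m + 1)) K := 1 + a • N with hA
  set E : Matrix (Fin (m + 1)) (Fin (m + 1)) K := 1 + b • N with hE
  have hAu : IsUnit A := IsNilpotent.isUnit_one_add (hNnil.smul a)
  have hEu : IsUnit E := IsNilpotent.isUnit_one_add (hNnil.smul b)
  have hcsA : cs q A = E := by
    rw [hA, hE, cs_add hK, cs_one hK, cs_smul hK, hNh]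
  have hcsE : cs q E = A := by
    rw [hA, hE, cs_add hK, cs_one hK, cs_smul hK, hNh, hbq]
  have hNE : Commute N E :=
    (Commute.one_right N).add_right ((Commute.refl N).smul_right b)
  have hAE : Commute A E :=
    (Commute.one_left E).add_left (hNE.smul_left a)
  let Ae : (Matrix (Fin (m + 1)) (Fin (m + 1)) K)ˣ := hAu.unit
  let Eu : (Matrix (Fin (m + 1)) (Fin (m + 1)) K)ˣ := hEu.unit
  have hAeq : (Ae : Matrix (Fin (m + 1)) (Fin (m + 1)) K) = A := rfl
  have hEeq : (Eu : Matrix (Fin (m + 1)) (Fin (m + 1)) K) = E := rfl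
  let Ei : Matrix (Fin (m + 1)) (Fin (m + 1)) K := ((Eu⁻¹ : (Matrix (Fin (m + 1)) (Fin (m + 1)) K)ˣ) : _)
  have hE1 : E * Ei = 1 := Units.mul_inv Eu
  have hE2 : Ei * E = 1 := Units.inv_mul Eu
  have hNEi : Commute N Ei := by
    have : Commute N (Eu : Matrix _ _ K) := hNE
    exact this.units_inv_right
  let g : GL (Fin (m + 1)) K := Ae * Eu⁻¹
  have hg : (g : Matrix (Fin (m + 1)) (Fin (m + 1)) K) = A * Ei := rfl
  have hgmem : g ∈ Cfsg.GU (m + 1) K q := by
    rw [mem_GU_iff_cs hK, hg, cs_mul hK, hcsA]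
    have h1 : cs q Ei * A = 1 := by
      rw [← hcsE, ← cs_mul hK, hE1, cs_one hK]
    calc cs q Ei * E * (A * Ei) = cs q Ei * (E * A) * Ei := by simp only [Matrix.mul_assoc]
      _ = cs q Ei * (A * E) * Ei := by rw [hAE.eq]
      _ = (cs q Ei * A) * (E * Ei) := by simp only [Matrix.mul_assoc]
      _ = 1 := by rw [h1, hE1, Matrix.one_mul]
  have hR : (g : Matrix (Fin (m + 1)) (Fin (m + 1)) K) - 1 = N * ((a - b) • Ei) := by
    rw [hg]
    have h1 : (1 : Matrix (Fin (m + 1)) (Fin (m + 1)) K) = E * Ei := hE1.symm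
    have h2 : A - E = (a - b) • N := by
      rw [hA, hE, sub_smul]
      abel
    calc A * Ei - 1 = A * Ei - E * Ei := by rw [← h1]
      _ = (A - E) * Ei := (sub_mul _ _ _).symm
      _ = N * ((a - b) • Ei) := by rw [h2, Matrix.smul_mul, Matrix.mul_smul]
  refine ⟨⟨g, hgmem⟩, ?_, ?_⟩
  · show ((g : Matrix (Fin (m + 1)) (Fin (m + 1)) K) - 1) ^ (m + 1) = 0
    rw [hR, (hNEi.smul_right (a - b)).mul_pow, hNn, zero_mul]
  · show ((g : Matrix (Fin (m + 1)) (Fin (m + 1)) K) - 1).rank = m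
    rw [hR, Matrix.rank_mul_eq_left_of_isUnit_det, hNr]
    have hne : a - b ≠ 0 := fun h => ha (sub_eq_zero.1 h).symm
    rw [Matrix.det_smul]
    exact (isUnit_iff_ne_zero.2 (pow_ne_zero _ hne)).mul ((Matrix.isUnit_iff_isUnit_det _).1 (Eu⁻¹).isUnit)

/-- Determinants of centralising elements. -/
theorem exists_det_of_commute (u c : Cfsg.GU (m + 1) K q)
    (hnil : (((u : GL (Fin (m + 1)) K) : Matrix (Fin (m + 1)) (Fin (m + 1)) K) - 1) ^ (m + 1) = 0)
    (hreg : (((u : GL (Fin (m + 1)) K) : Matrix (Fin (m + 1)) (Fin (m + 1)) K) - 1).rank = m)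
    (hc : c * u = u * c) :
    ∃ e : K, e ^ (q + 1) = 1 ∧ ((c : GL (Fin (m + 1)) K) : Matrix (Fin (m + 1)) (Fin (m + 1)) K).det = e ^ (m + 1) := by
  classical
  set U : Matrix (Fin (m + 1)) (Fin (m + 1)) K := ((u : GL (Fin (m + 1)) K) : Matrix (Fin (m + 1)) (Fin (m + 1)) K) with hU
  set C : Matrix (Fin (m + 1)) (Fin (m + 1)) K := ((c : GL (Fin (m + 1)) K) : Matrix (Fin (m + 1)) (Fin (m + 1)) K) with hC
  set N := U - 1 with hN
  have hCU : C * U = U * C := by
    have := congrArg (fun x : Cfsg.GU (m + 1) K q => ((x : GL (Fin (m + 1)) K) : Matrix (Fin (m + 1)) (Fin (m + 1)) K)) hc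
    exact this
  have hcomm : Commute N C := by
    show (U - 1) * C = C * (U - 1)
    rw [sub_mul, mul_sub, hCU, one_mul, mul_one]
  obtain ⟨v, hv⟩ := exists_cyclic_vector N hnil hreg
  obtain ⟨f, hf⟩ := exists_polyOf_of_commute N hnil hv hcomm
  rw [polyOf_eq] at hf
  set T := ∑ i : Fin m, f i.succ • N ^ (i : ℕ) with hT
  have hNnil : IsNilpotent N := ⟨_, hnil⟩
  have hMnil : IsNilpotent (N * T) := (commute_tail N f).isNilpotent_mul_right hNnil
  set M := N * T with hM
  refine ⟨f 0, ?_, ?_⟩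
  · -- the constant term has norm one
    have hcs : cs q C * C = 1 := (mem_GU_iff_cs hK _).1 c.2
    have hcs' : C * cs q C = 1 := mul_eq_one_comm.mp hcs
    have hCC : Commute C (cs q C) := by
      show C * cs q C = cs q C * C
      rw [hcs, hcs']
    set M' := cs q M with hM'
    have hcsC : cs q C = (f 0) ^ q • 1 + M' := by
      rw [hf, cs_add hK, cs_smul hK, cs_one hK]
    have hM'nil : IsNilpotent M' := by
      obtain ⟨k, hk⟩ := hMnil
      refine ⟨k, ?_⟩
      rw [hM', ← cs_pow hK, hk, cs_zero hK]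
    have hMC : Commute M C := by
      have h1 : M = C - f 0 • 1 := by rw [hf]; abel
      rw [h1]
      exact (Commute.refl C).sub_left ((Commute.one_left C).smul_left _)
    have hMCs : Commute M (cs q C) := by
      have h1 : M = C - f 0 • 1 := by rw [hf]; abel
      rw [h1]
      exact hCC.sub_left ((Commute.one_left _).smul_left _)
    have hMM' : Commute M M' := by
      have h1 : M' = cs q C - (f 0) ^ q • 1 := by rw [hcsC]; abel
      rw [h1]
      exact hMCs.sub_right ((Commute.one_right _).smul_right _)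
    have key : (1 - f 0 ^ (q + 1)) • (1 : Matrix (Fin (m + 1)) (Fin (m + 1)) K) =
        f 0 • M' + (f 0) ^ q • M + M * M' := by
      have h2 : C * cs q C = (f 0 ^ (q + 1)) • 1 + (f 0 • M' + (f 0) ^ q • M + M * M') := by
        rw [hcsC]
        have h3 : C = f 0 • 1 + M := hf
        rw [h3]
        simp only [add_mul, mul_add, smul_mul_assoc, mul_smul_comm, one_mul, mul_one, smul_smul, smul_add]
        rw [pow_succ (f 0) q]
        abel
      rw [hcs'] at h2
      rw [sub_smul, one_smul]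
      exact sub_eq_of_eq_add' h2
    have hnil2 : IsNilpotent ((1 - f 0 ^ (q + 1)) • (1 : Matrix (Fin (m + 1)) (Fin (m + 1)) K)) := by
      rw [key]
      have hW : IsNilpotent (M * M') := hMM'.isNilpotent_mul_right hMnil
      have hPQ : Commute (f 0 • M') ((f 0) ^ q • M) := (hMM'.symm.smul_left _).smul_right _
      have hPW : Commute (f 0 • M') (M * M') :=
        ((hMM'.symm.mul_right (Commute.refl M')).smul_left _)
      have hQW : Commute ((f 0) ^ q • M) (M * M') :=
        (((Commute.refl M).mul_right hMM').smul_left _)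
      apply Commute.isNilpotent_add (hPW.add_left hQW)
      · exact Commute.isNilpotent_add hPQ (hM'nil.smul _) (hMnil.smul _)
      · exact hW
    obtain ⟨k, hk⟩ := hnil2
    rw [smul_pow, one_pow] at hk
    have h5 : (1 - f 0 ^ (q + 1)) ^ k = 0 := by
      have := congrFun (congrFun hk 0) 0
      simpa using this
    have h7 : 1 - f 0 ^ (q + 1) = 0 := by
      exact eq_zero_of_pow_eq_zero h5 
    exact (sub_eq_zero.1 h7).symm
  · rw [hf, det_smul_one_add_of_isNilpotent _ hMnil, Fintype.card_fin]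

/-- The scalar element of `GU`. -/
noncomputable def scalarGU (m : ℕ) (e : K) (he : e ^ (q + 1) = 1) : Cfsg.GU (m + 1) K q :=
  ⟨Matrix.GeneralLinearGroup.scalar (Fin (m + 1)) (Units.mk0 e (by
      rintro rfl
      rw [zero_pow (by omega)] at he
      exact zero_ne_one he)), by
    show Preserves q (Matrix.scalar (Fin (m + 1)) e)
    exact preserves_scalar e he⟩

theorem coe_scalarGU (e : K) (he : e ^ (q + 1) = 1) :
    (((scalarGU m e he : Cfsg.GU (m + 1) K q) : GL (Fin (m + 1)) K) : Matrix (Fin (m + 1)) (Fin (m + 1)) K) =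
      Matrix.scalar (Fin (m + 1)) e := rfl

/-- The conjugate of a fixed unipotent element, as an element of `SU`. -/
noncomputable def cU (u₀ : Cfsg.GU (m + 1) K q)
    (hu : ((u₀ : GL (Fin (m + 1)) K) : Matrix (Fin (m + 1)) (Fin (m + 1)) K).det = 1)
    (g : Cfsg.GU (m + 1) K q) : Cfsg.SU (m + 1) K q :=
  mkSU (((g * u₀ * g⁻¹ : Cfsg.GU (m + 1) K q) : GL (Fin (m + 1)) K) : Matrix (Fin (m + 1)) (Fin (m + 1)) K)
    (by
      show (((g : GL (Fin (m + 1)) K) * (u₀ : GL (Fin (m + 1)) K) * (g : GL (Fin (m + 1)) K)⁻¹ : GL (Fin (m + 1)) K) :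
        Matrix (Fin (m + 1)) (Fin (m + 1)) K).det = 1
      rw [Units.val_mul, Units.val_mul, Matrix.det_units_conj, hu])
    (g * u₀ * g⁻¹).2

/-- The inclusion of `SU` in `GU`. -/
def su2gu : Cfsg.SU (m + 1) K q →* Cfsg.GU (m + 1) K q where
  toFun s := ⟨Matrix.SpecialLinearGroup.toGL s.1, s.2⟩
  map_one' := Subtype.ext (map_one _)
  map_mul' a b := Subtype.ext (map_mul _ _ _)

omit hK in
theorem su2gu_injective : Function.Injective (su2gu (K := K) (q := q) (m := m)) := by
  intro a b h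
  apply Subtype.ext
  apply Matrix.SpecialLinearGroup.toGL_injective
  exact congrArg Subtype.val h

omit hK in
theorem det_su2gu (s : Cfsg.SU (m + 1) K q) : detGU (m + 1) K q (su2gu s) = 1 := by
  apply Units.ext
  exact s.1.2

omit hK in
theorem su2gu_cU (u₀ : Cfsg.GU (m + 1) K q)
    (hu : ((u₀ : GL (Fin (m + 1)) K) : Matrix (Fin (m + 1)) (Fin (m + 1)) K).det = 1)
    (g : Cfsg.GU (m + 1) K q) : su2gu (cU u₀ hu g) = g * u₀ * g⁻¹ := by
  apply Subtype.ext
  apply Units.ext
  rfl

theorem main_card :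
    Nat.card {C : ConjClasses (Cfsg.SU (m + 1) K q) // ∃ u : Cfsg.SU (m + 1) K q, ConjClasses.mk u = C ∧
      (((u : GL (Fin (m + 1)) K) : Matrix (Fin (m + 1)) (Fin (m + 1)) K) - 1) ^ (m + 1) = 0 ∧
      (((u : GL (Fin (m + 1)) K) : Matrix (Fin (m + 1)) (Fin (m + 1)) K) - 1).rank = m} =
      Nat.gcd (m + 1) (q + 1) := by
  classical
  obtain ⟨u₀, hu₀n, hu₀r⟩ := exists_regular (m := m) hK
  have hdetu₀ : ((u₀ : GL (Fin (m + 1)) K) : Matrix (Fin (m + 1)) (Fin (m + 1)) K).det = 1 := by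
    have h1 : ((u₀ : GL (Fin (m + 1)) K) : Matrix (Fin (m + 1)) (Fin (m + 1)) K) =
        1 + (((u₀ : GL (Fin (m + 1)) K) : Matrix (Fin (m + 1)) (Fin (m + 1)) K) - 1) := by abel
    rw [h1]
    exact det_one_add_of_isNilpotent ⟨_, hu₀n⟩
  -- the regular property of conjugates
  have hreg : ∀ g : Cfsg.GU (m + 1) K q,
      (((cU u₀ hdetu₀ g : Cfsg.SU (m + 1) K q) : GL (Fin (m + 1)) K) - 1 : Matrix (Fin (m + 1)) (Fin (m + 1)) K) ^ (m + 1) = 0 ∧
      ((((cU u₀ hdetu₀ g : Cfsg.SU (m + 1) K q) : GL (Fin (m + 1)) K) : Matrix (Fin (m + 1)) (Fin (m + 1)) K) - 1).rank = m := by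
    intro g
    set G : Matrix (Fin (m + 1)) (Fin (m + 1)) K := ((g : GL (Fin (m + 1)) K) : Matrix (Fin (m + 1)) (Fin (m + 1)) K) with hG
    set G' : Matrix (Fin (m + 1)) (Fin (m + 1)) K := (((g : GL (Fin (m + 1)) K)⁻¹ : GL (Fin (m + 1)) K) : Matrix (Fin (m + 1)) (Fin (m + 1)) K) with hG'
    have hGG : G * G' = 1 := Units.mul_inv _
    have hX : ((((cU u₀ hdetu₀ g : Cfsg.SU (m + 1) K q) : GL (Fin (m + 1)) K)) : Matrix (Fin (m + 1)) (Fin (m + 1)) K) - 1 =
        G * (((u₀ : GL (Fin (m + 1)) K) : Matrix (Fin (m + 1)) (Fin (m + 1)) K) - 1) * G' := by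
      show G * ((u₀ : GL (Fin (m + 1)) K) : Matrix (Fin (m + 1)) (Fin (m + 1)) K) * G' - 1 = _
      rw [Matrix.mul_sub, Matrix.sub_mul, Matrix.mul_one, hGG]
    constructor
    · rw [hX]
      have := Units.conj_pow (g : GL (Fin (m + 1)) K) (((u₀ : GL (Fin (m + 1)) K) : Matrix (Fin (m + 1)) (Fin (m + 1)) K) - 1) (m + 1)
      rw [hu₀n] at this
      have h5 : (G * (((u₀ : GL (Fin (m + 1)) K) : Matrix (Fin (m + 1)) (Fin (m + 1)) K) - 1) * G') ^ (m + 1) = G * 0 * G' := this
      rw [h5]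
      simp
    · rw [hX, Matrix.rank_mul_eq_left_of_isUnit_det, Matrix.rank_mul_eq_right_of_isUnit_det, hu₀r]
      · exact (Matrix.isUnit_iff_isUnit_det _).1 (Units.isUnit _)
      · exact (Matrix.isUnit_iff_isUnit_det _).1 (Units.isUnit _)
  let Y := {C : ConjClasses (Cfsg.SU (m + 1) K q) // ∃ u : Cfsg.SU (m + 1) K q, ConjClasses.mk u = C ∧
      (((u : GL (Fin (m + 1)) K) : Matrix (Fin (m + 1)) (Fin (m + 1)) K) - 1) ^ (m + 1) = 0 ∧
      (((u : GL (Fin (m + 1)) K) : Matrix (Fin (m + 1)) (Fin (m + 1)) K) - 1).rank = m}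
  let κ : Cfsg.GU (m + 1) K q → Y := fun g => ⟨ConjClasses.mk (cU u₀ hdetu₀ g), cU u₀ hdetu₀ g, rfl, (hreg g).1, (hreg g).2⟩
  have hδmem : ∀ g : Cfsg.GU (m + 1) K q, detGU (m + 1) K q g ∈ normOne K q := by
    intro g
    rw [← detGU_range hK (n := m + 1) (by omega)]
    exact ⟨g, rfl⟩
  let δ : Cfsg.GU (m + 1) K q → normOne K q := fun g => ⟨detGU (m + 1) K q g, hδmem g⟩
  let H : Subgroup (normOne K q) := (powMonoidHom (m + 1) : normOne K q →* normOne K q).range
  have hidx : H.index = Nat.gcd (m + 1) (q + 1) := by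
    rw [IsCyclic.index_powMonoidHom_range, card_normOne hK, Nat.gcd_comm]
  rw [← hidx]
  apply card_of_quotient_control H κ δ
  · -- surjectivity onto the classes
    rintro ⟨C, u, rfl, h1, h2⟩
    have hdetu : ((su2gu u : Cfsg.GU (m + 1) K q) : GL (Fin (m + 1)) K).val = ((u : GL (Fin (m + 1)) K) : Matrix (Fin (m + 1)) (Fin (m + 1)) K) := rfl
    have hconj : IsConj (u₀ : GL (Fin (m + 1)) K) ((su2gu u : Cfsg.GU (m + 1) K q) : GL (Fin (m + 1)) K) := by
      obtain ⟨P₀, hP₀, hP₀'⟩ := exists_conj_shift hu₀n hu₀r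
      obtain ⟨P, hP, hP'⟩ := exists_conj_shift h1 h2
      rw [isConj_iff]
      refine ⟨hP.unit * hP₀.unit⁻¹, ?_⟩
      rw [mul_inv_eq_iff_eq_mul]
      apply Units.ext
      set M₀ : Matrix (Fin (m + 1)) (Fin (m + 1)) K := ((u₀ : GL (Fin (m + 1)) K) : Matrix (Fin (m + 1)) (Fin (m + 1)) K) with hM₀
      set M : Matrix (Fin (m + 1)) (Fin (m + 1)) K := ((u : GL (Fin (m + 1)) K) : Matrix (Fin (m + 1)) (Fin (m + 1)) K) with hM
      let P₀i : Matrix (Fin (m + 1)) (Fin (m + 1)) K := ((hP₀.unit⁻¹ : GL (Fin (m + 1)) K) : Matrix (Fin (m + 1)) (Fin (m + 1)) K)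
      have h01 : P₀ * P₀i = 1 := Units.mul_inv hP₀.unit
      have h02 : P₀i * P₀ = 1 := Units.inv_mul hP₀.unit
      show P * P₀i * M₀ = M * (P * P₀i)
      have e1 : M₀ * P₀ = P₀ * (1 + shift K m) := by
        rw [Matrix.mul_add, Matrix.mul_one, ← hP₀', sub_mul, one_mul]
        abel
      have e2 : M * P = P * (1 + shift K m) := by
        rw [Matrix.mul_add, Matrix.mul_one, ← hP', sub_mul, one_mul]
        abel
      have e3 : P₀i * M₀ = (1 + shift K m) * P₀i := by
        calc P₀i * M₀ = P₀i * (M₀ * (P₀ * P₀i)) := by rw [h01, Matrix.mul_one]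
          _ = P₀i * ((M₀ * P₀) * P₀i) := by rw [Matrix.mul_assoc M₀]
          _ = P₀i * (P₀ * (1 + shift K m) * P₀i) := by rw [e1]
          _ = (P₀i * P₀) * (1 + shift K m) * P₀i := by simp only [Matrix.mul_assoc]
          _ = (1 + shift K m) * P₀i := by rw [h02, Matrix.one_mul]
      calc P * P₀i * M₀ = P * (P₀i * M₀) := Matrix.mul_assoc _ _ _
        _ = P * ((1 + shift K m) * P₀i) := by rw [e3]
        _ = (P * (1 + shift K m)) * P₀i := (Matrix.mul_assoc _ _ _).symm
        _ = (M * P) * P₀i := by rw [e2]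
        _ = M * (P * P₀i) := Matrix.mul_assoc _ _ _
    obtain ⟨g, hg⟩ := isConj_iff.1 (isConj_of_GL hK _ _ hconj)
    refine ⟨g, ?_⟩
    apply Subtype.ext
    show ConjClasses.mk (cU u₀ hdetu₀ g) = ConjClasses.mk u
    congr 1
    apply Subtype.ext
    apply Subtype.ext
    exact congrArg (fun x : Cfsg.GU (m + 1) K q => ((x : GL (Fin (m + 1)) K) : Matrix (Fin (m + 1)) (Fin (m + 1)) K)) hg
  · -- surjectivity of the determinant
    rintro ⟨z, hz⟩
    rw [← detGU_range hK (n := m + 1) (by omega)] at hz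
    obtain ⟨g, rfl⟩ := hz
    exact ⟨g, rfl⟩
  · intro g h
    rw [Subtype.mk.injEq, ConjClasses.mk_eq_mk_iff_isConj]
    have hdeltaeq : ∀ x y : Cfsg.GU (m + 1) K q, (((δ x)⁻¹ * δ y : normOne K q) : Kˣ) =
        (detGU (m + 1) K q x)⁻¹ * detGU (m + 1) K q y := fun x y => rfl
    constructor
    · intro hc
      obtain ⟨s, hs⟩ := isConj_iff.1 hc
      have h1 := congrArg su2gu hs
      rw [map_mul, map_mul, map_inv, su2gu_cU, su2gu_cU] at h1
      set S := su2gu s with hS
      set c : Cfsg.GU (m + 1) K q := h⁻¹ * S * g with hc'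
      have hcu : c * u₀ = u₀ * c := by
        have h2 : c * u₀ * c⁻¹ = u₀ := by
          calc c * u₀ * c⁻¹ = h⁻¹ * (S * (g * u₀ * g⁻¹) * S⁻¹) * h := by rw [hc']; group
            _ = u₀ := by rw [h1]; group
        rw [mul_inv_eq_iff_eq_mul] at h2
        exact h2
      obtain ⟨e, he, hdet⟩ := exists_det_of_commute hK u₀ c hu₀n hu₀r hcu
      have he0 : e ≠ 0 := by
        rintro rfl
        rw [zero_pow (by omega)] at he
        exact zero_ne_one he
      let ε : Kˣ := Units.mk0 e he0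
      have hε : ε ∈ normOne K q := by
        rw [mem_normOne]
        apply Units.ext
        simpa [ε] using he
      have hdc : detGU (m + 1) K q c = ε ^ (m + 1) := by
        apply Units.ext
        simpa [ε] using hdet
      have hdc2 : detGU (m + 1) K q c = (detGU (m + 1) K q h)⁻¹ * detGU (m + 1) K q g := by
        rw [hc', map_mul, map_mul, map_inv, hS, det_su2gu, mul_one]
      refine ⟨(⟨ε, hε⟩ : normOne K q)⁻¹, ?_⟩
      apply Subtype.ext
      rw [hdeltaeq]
      show (ε⁻¹) ^ (m + 1) = _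
      rw [inv_pow, ← hdc, hdc2, _root_.mul_inv_rev, inv_inv]
    · rintro ⟨⟨x, hx⟩, hxe⟩
      have hxe' : x ^ (m + 1) = (detGU (m + 1) K q g)⁻¹ * detGU (m + 1) K q h := by
        have := congrArg Subtype.val hxe
        exact this
      have hxq : (x : K) ^ (q + 1) = 1 := by
        rw [mem_normOne] at hx
        have := congrArg Units.val hx
        simpa using this
      set c : Cfsg.GU (m + 1) K q := scalarGU m (x : K) hxq with hc'
      have hdc : detGU (m + 1) K q c = x ^ (m + 1) := by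
        apply Units.ext
        show (Matrix.scalar (Fin (m + 1)) (x : K)).det = _
        rw [det_scalar']
        simp
      have hcc : ∀ w : Cfsg.GU (m + 1) K q, c * w = w * c := by
        intro w
        apply Subtype.ext
        apply Units.ext
        exact (Matrix.scalar_commute (x : K) (fun r' => mul_comm _ _) _)
      set s₀ : Cfsg.GU (m + 1) K q := h * c⁻¹ * g⁻¹ with hs₀
      have hdets₀ : detGU (m + 1) K q s₀ = 1 := by
        rw [hs₀, map_mul, map_mul, map_inv, map_inv, hdc, hxe', _root_.mul_inv_rev, inv_inv]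
        group
      have hdets₁ : ((s₀ : GL (Fin (m + 1)) K) : Matrix (Fin (m + 1)) (Fin (m + 1)) K).det = 1 := by
        have := congrArg Units.val hdets₀
        simpa using this
      let s : Cfsg.SU (m + 1) K q := mkSU _ hdets₁ s₀.2
      have hss : su2gu s = s₀ := by
        apply Subtype.ext
        apply Units.ext
        rfl
      apply isConj_iff.2
      refine ⟨s, ?_⟩
      apply su2gu_injective
      rw [map_mul, map_mul, map_inv, su2gu_cU, su2gu_cU, hss]
      have h5 : c⁻¹ * u₀ = u₀ * c⁻¹ := by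
        have : c * u₀ = u₀ * c := hcc u₀
        calc c⁻¹ * u₀ = c⁻¹ * (u₀ * c) * c⁻¹ := by group
          _ = c⁻¹ * (c * u₀) * c⁻¹ := by rw [this]
          _ = u₀ * c⁻¹ := by group
      calc s₀ * (g * u₀ * g⁻¹) * s₀⁻¹ = h * (c⁻¹ * u₀) * c * h⁻¹ := by
            rw [hs₀]; group
        _ = h * u₀ * h⁻¹ := by rw [h5]; group

end

end Cfsg.Agent.Lib.Classical.Herm.RegUnip
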