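import Mathlib
import Cfsg.Prelude.Def_RootSubgroups

/-!
# Siegel transvection groups of a quadratic space as a set of abstract root subgroups

The data: a quadratic space `(V, Q)` with polar form `f`, non-degenerate in a strong sense, and a group `G` acting
faithfully and isometrically which contains every Siegel transformation `v ↦ v + c (f(v, r) p - f(v, p) r)` attached
to a singular line `⟨p, r⟩`.
-/

set_option autoImplicit false
set_option linter.unusedSectionVars false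
set_option linter.unusedVariables false

open Cfsg

namespace Cfsg.Agent.Lib.Classical.Herm.RootSiegel

/-- The data of a quadratic space with a group containing the Siegel transformations. -/
structure Sys (F V G : Type*) [Field F] [AddCommGroup V] [Module F V] [Group G] where
  Q : V → F
  f : V → V → F
  f_def : ∀ v w, f v w = Q (v + w) - Q v - Q w
  f_add : ∀ u v w, f (u + v) w = f u w + f v w
  f_smul : ∀ (a : F) v w, f (a • v) w = a * f v w
  f_comm : ∀ v w, f v w = f w v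
  Q_smul : ∀ (a : F) v, Q (a • v) = a * a * Q v
  act : G →* Module.End F V
  inj : Function.Injective act
  Q_act : ∀ g v, Q (act g v) = Q v
  dual : ∀ (W : Submodule F V) (v : V), v ∉ W → ∃ u, f u v = 1 ∧ ∀ w ∈ W, f u w = 0
  ex : ∀ p r, Q p = 0 → Q r = 0 → f p r = 0 → ∀ c : F, ∃ g, ∀ v, act g v = v + c • (f v r • p - f v p • r)

variable {F V G : Type*} [Field F] [AddCommGroup V] [Module F V] [Group G] (D : Sys F V G)

namespace Sys

theorem f_add_right (u v w : V) : D.f w (u + v) = D.f w u + D.f w v := by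
  rw [D.f_comm, D.f_add, D.f_comm u, D.f_comm v]

theorem f_smul_right (a : F) (v w : V) : D.f w (a • v) = a * D.f w v := by
  rw [D.f_comm, D.f_smul, D.f_comm v]

theorem f_zero_left (w : V) : D.f 0 w = 0 := by
  have := D.f_smul 0 0 w
  simpa using this

theorem f_zero_right (w : V) : D.f w 0 = 0 := by
  rw [D.f_comm, f_zero_left]

theorem f_neg_left (v w : V) : D.f (-v) w = - D.f v w := by
  have := D.f_smul (-1) v w
  simpa using this

theorem f_sub_left (u v w : V) : D.f (u - v) w = D.f u w - D.f v w := by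
  rw [sub_eq_add_neg, f_add, f_neg_left]
  ring

theorem f_sub_right (u v w : V) : D.f w (u - v) = D.f w u - D.f w v := by
  rw [D.f_comm, f_sub_left, D.f_comm u, D.f_comm v]

theorem Q_add (v w : V) : D.Q (v + w) = D.Q v + D.Q w + D.f v w := by
  rw [D.f_def]
  ring

theorem Q_zero : D.Q 0 = 0 := by
  have := D.Q_smul 0 0
  simpa using this

theorem Q_neg (v : V) : D.Q (-v) = D.Q v := by
  have := D.Q_smul (-1) v
  simpa using this

theorem f_self (v : V) : D.f v v = 2 * D.Q v := by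
  rw [D.f_def]
  have h : v + v = (2 : F) • v := by rw [two_smul]
  rw [h, D.Q_smul]
  ring

theorem f_self_eq_zero {v : V} (h : D.Q v = 0) : D.f v v = 0 := by
  rw [f_self, h, mul_zero]

theorem act_mul (g h : G) (v : V) : D.act (g * h) v = D.act g (D.act h v) := by
  rw [map_mul, Module.End.mul_apply]

theorem act_one (v : V) : D.act 1 v = v := by
  rw [map_one, Module.End.one_apply]

theorem act_inv_act (g : G) (v : V) : D.act g⁻¹ (D.act g v) = v := by
  rw [← act_mul, inv_mul_cancel, act_one]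

theorem act_act_inv (g : G) (v : V) : D.act g (D.act g⁻¹ v) = v := by
  rw [← act_mul, mul_inv_cancel, act_one]

theorem act_eq_zero {g : G} {v : V} (h : D.act g v = 0) : v = 0 := by
  rw [← act_inv_act D g v, h, map_zero]

theorem f_act (g : G) (v w : V) : D.f (D.act g v) (D.act g w) = D.f v w := by
  rw [D.f_def, D.f_def, ← map_add, D.Q_act, D.Q_act, D.Q_act]

theorem nondeg {a : V} (h : ∀ x, D.f a x = 0) : a = 0 := by
  by_contra h0
  have h1 : a ∉ (⊥ : Submodule F V) := by simpa using h0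
  obtain ⟨u, hu, -⟩ := D.dual ⊥ a h1
  rw [D.f_comm, h] at hu
  exact zero_ne_one hu

/-- A singular line, with a basis. -/
structure Line (D : Sys F V G) (p r : V) : Prop where
  hp : D.Q p = 0
  hr : D.Q r = 0
  hpr : D.f p r = 0
  li : ∀ s t : F, s • p + t • r = 0 → s = 0 ∧ t = 0

/-- The Siegel transformation. -/
def S (D : Sys F V G) (p r : V) (c : F) (v : V) : V := v + c • (D.f v r • p - D.f v p • r)

/-- The generators of a Siegel transvection group: the elements fixing the perpendicular space of the line. -/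
def TS (D : Sys F V G) (p r : V) : Set G := {g | ∀ v, D.f v p = 0 → D.f v r = 0 → D.act g v = v}

/-- The Siegel transvection group. -/
def T (D : Sys F V G) (p r : V) : Subgroup G := Subgroup.closure (D.TS p r)

variable {D} {p r p' r' : V}

theorem Line.p_ne (h : D.Line p r) : p ≠ 0 := by
  rintro rfl
  have := (h.li 1 0 (by simp)).1
  exact one_ne_zero this

theorem Line.r_ne (h : D.Line p r) : r ≠ 0 := by
  rintro rfl
  have := (h.li 0 1 (by simp)).2
  exact one_ne_zero this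

theorem Line.fpp (h : D.Line p r) : D.f p p = 0 := f_self_eq_zero D h.hp
theorem Line.frr (h : D.Line p r) : D.f r r = 0 := f_self_eq_zero D h.hr
theorem Line.frp (h : D.Line p r) : D.f r p = 0 := by rw [D.f_comm, h.hpr]

theorem Line.Q_add (h : D.Line p r) (v : V) (α β : F) :
    D.Q (v + α • p + β • r) = D.Q v + α * D.f v p + β * D.f v r := by
  rw [add_assoc, Sys.Q_add, Sys.Q_add, D.Q_smul, D.Q_smul, h.hp, h.hr, f_add_right, f_smul_right, f_smul_right,
    D.f_smul, f_smul_right, h.hpr]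
  ring

theorem Line.swap (h : D.Line p r) : D.Line r p :=
  ⟨h.hr, h.hp, h.frp, fun s t e => by
    have := h.li t s (by rw [add_comm]; exact e)
    exact ⟨this.2, this.1⟩⟩

theorem T_congr (h : ∀ v, (D.f v p = 0 ∧ D.f v r = 0) ↔ (D.f v p' = 0 ∧ D.f v r' = 0)) : D.T p r = D.T p' r' := by
  have : D.TS p r = D.TS p' r' := by
    ext g
    constructor
    · intro hg v h1 h2
      exact hg v ((h v).2 ⟨h1, h2⟩).1 ((h v).2 ⟨h1, h2⟩).2
    · intro hg v h1 h2
      exact hg v ((h v).1 ⟨h1, h2⟩).1 ((h v).1 ⟨h1, h2⟩).2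
  rw [T, T, this]

theorem T_swap : D.T r p = D.T p r := T_congr (fun v => and_comm)

/-- The duals of a basis of a singular line. -/
theorem Line.exists_dual (h : D.Line p r) : ∃ u w, D.f u p = 1 ∧ D.f u r = 0 ∧ D.f w p = 0 ∧ D.f w r = 1 := by
  have h1 : p ∉ Submodule.span F {r} := by
    intro hm
    obtain ⟨a, ha⟩ := Submodule.mem_span_singleton.1 hm
    have := (h.li 1 (-a) (by rw [← ha]; simp)).1
    exact one_ne_zero this
  have h2 : r ∉ Submodule.span F {p} := by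
    intro hm
    obtain ⟨a, ha⟩ := Submodule.mem_span_singleton.1 hm
    have := (h.li (-a) 1 (by rw [← ha]; simp)).2
    exact one_ne_zero this
  obtain ⟨u, hu, hu'⟩ := D.dual _ _ h1
  obtain ⟨w, hw, hw'⟩ := D.dual _ _ h2
  exact ⟨u, w, hu, hu' r (Submodule.mem_span_singleton_self r), hw' p (Submodule.mem_span_singleton_self p), hw⟩

theorem f_S_left (h : D.Line p r) (c : F) (v x : V) : D.f (D.S p r c v) x = D.f v x + c * (D.f v r * D.f p x - D.f v p * D.f r x) := by
  simp only [S, D.f_add, D.f_smul, f_sub_left]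

/-- The shape of an element fixing the perpendicular space. -/
theorem mem_TS_iff (h : D.Line p r) {g : G} : g ∈ D.TS p r ↔ ∃ c, ∀ v, D.act g v = D.S p r c v := by
  constructor
  · intro hg
    obtain ⟨u, w, h1, h2, h3, h4⟩ := h.exists_dual
    have hfrp := h.frp
    have hfpp := h.fpp
    have hfrr := h.frr
    have hpr := h.hpr
    -- the general shape
    have hv₀ : ∀ v, D.act g (v - D.f v p • u - D.f v r • w) = v - D.f v p • u - D.f v r • w := by
      intro v
      apply hg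
      · simp only [f_sub_left, D.f_smul, h1, h3]
        ring
      · simp only [f_sub_left, D.f_smul, h2, h4]
        ring
    have hshape : ∀ v, D.act g v = v + D.f v p • (D.act g u - u) + D.f v r • (D.act g w - w) := by
      intro v
      have := hv₀ v
      simp only [map_sub, map_smul] at this
      have e : D.act g v = (D.act g v - D.f v p • D.act g u - D.f v r • D.act g w) + D.f v p • D.act g u + D.f v r • D.act g w := by
        abel
      rw [e, this]
      module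
    have hperp : ∀ a, (a = u ∨ a = w) → ∀ x, D.f x p = 0 → D.f x r = 0 → D.f (D.act g a - a) x = 0 := by
      intro a _ x hx hx'
      have e := D.f_act g a x
      rw [hg x hx hx'] at e
      rw [f_sub_left, e]
      ring
    have hexp : ∀ a, (a = u ∨ a = w) → D.act g a - a = D.f (D.act g a - a) u • p + D.f (D.act g a - a) w • r := by
      intro a ha
      have key : D.act g a - a - (D.f (D.act g a - a) u • p + D.f (D.act g a - a) w • r) = 0 := by
        apply nondeg D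
        intro x
        have h0 := hperp a ha (x - D.f x p • u - D.f x r • w) (by
          simp only [f_sub_left, D.f_smul, h1, h3]
          ring) (by
          simp only [f_sub_left, D.f_smul, h2, h4]
          ring)
        simp only [f_sub_right, f_smul_right] at h0
        simp only [f_sub_left, D.f_add, D.f_smul]
        rw [D.f_comm p x, D.f_comm r x]
        simp only [f_sub_left] at h0
        linear_combination h0
      exact sub_eq_zero.1 key
    set a₁ := D.f (D.act g u - u) u with ha₁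
    set a₂ := D.f (D.act g u - u) w with ha₂
    set b₁ := D.f (D.act g w - w) u with hb₁
    set b₂ := D.f (D.act g w - w) w with hb₂
    have ea := hexp u (Or.inl rfl)
    have eb := hexp w (Or.inr rfl)
    rw [← ha₁, ← ha₂] at ea
    rw [← hb₁, ← hb₂] at eb
    have hshape' : ∀ v, D.act g v = v + (D.f v p * a₁ + D.f v r * b₁) • p + (D.f v p * a₂ + D.f v r * b₂) • r := by
      intro v
      rw [hshape, ea, eb]
      module
    have hQ : ∀ v, (D.f v p * a₁ + D.f v r * b₁) * D.f v p + (D.f v p * a₂ + D.f v r * b₂) * D.f v r = 0 := by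
      intro v
      have e := D.Q_act g v
      rw [hshape'] at e
      rw [h.Q_add] at e
      linear_combination e
    have e1 := hQ u
    have e2 := hQ w
    have e3 := hQ (u + w)
    simp only [D.f_add, h1, h2, h3, h4] at e1 e2 e3
    have ha10 : a₁ = 0 := by linear_combination e1
    have hb20 : b₂ = 0 := by linear_combination e2
    have hab : a₂ = - b₁ := by linear_combination e3 - e1 - e2
    refine ⟨b₁, fun v => ?_⟩
    rw [hshape', ha10, hb20, hab, S]
    module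
  · rintro ⟨c, hc⟩ v h1 h2
    rw [hc, S, h1, h2]
    simp

theorem S_mul (h : D.Line p r) (c d : F) (v : V) : D.S p r c (D.S p r d v) = D.S p r (c + d) v := by
  have := h.fpp
  have := h.frr
  have := h.hpr
  have := h.frp
  simp only [S, D.f_add, D.f_smul, f_sub_left, h.fpp, h.frr, h.hpr, h.frp]
  module

theorem S_zero (c : F) : D.S p r 0 = id := by
  ext v
  simp [S]

theorem exists_S (h : D.Line p r) (c : F) : ∃ g, ∀ v, D.act g v = D.S p r c v :=
  D.ex p r h.hp h.hr h.hpr c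

theorem mem_T (h : D.Line p r) {g : G} : g ∈ D.T p r ↔ ∃ c, ∀ v, D.act g v = D.S p r c v := by
  rw [← mem_TS_iff h]
  constructor
  · intro hg
    induction hg using Subgroup.closure_induction with
    | mem x hx => exact hx
    | one =>
      intro v _ _
      exact act_one D v
    | mul x y _ _ hx hy =>
      intro v h1 h2
      rw [act_mul, hy v h1 h2, hx v h1 h2]
    | inv x _ hx =>
      intro v h1 h2
      have := hx v h1 h2
      conv_lhs => rw [← this]
      exact act_inv_act D x v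
  · exact fun hg => Subgroup.subset_closure hg

theorem mem_T_of (h : D.Line p r) {g : G} {c : F} (hg : ∀ v, D.act g v = D.S p r c v) : g ∈ D.T p r :=
  (mem_T h).2 ⟨c, hg⟩

theorem T_comm (h : D.Line p r) {a b : G} (ha : a ∈ D.T p r) (hb : b ∈ D.T p r) : a * b = b * a := by
  obtain ⟨c, hc⟩ := (mem_T h).1 ha
  obtain ⟨d, hd⟩ := (mem_T h).1 hb
  apply D.inj
  ext v
  rw [act_mul, act_mul, hd, hc, hc, hd, S_mul h, S_mul h, add_comm]

theorem T_isMulCommutative (h : D.Line p r) : IsMulCommutative (D.T p r) := by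
  refine ⟨⟨fun a b => ?_⟩⟩
  apply Subtype.ext
  exact T_comm h a.2 b.2

theorem T_nilpotent (h : D.Line p r) : Group.IsNilpotent (D.T p r) := by
  haveI : IsMulCommutative (D.T p r) := T_isMulCommutative h
  letI : CommGroup (D.T p r) := { (inferInstance : Group (D.T p r)) with mul_comm := fun a b => mul_comm' a b }
  infer_instance

theorem S_ne (h : D.Line p r) {c : F} (hc : c ≠ 0) : ∃ v, D.S p r c v ≠ v := by
  obtain ⟨u, w, h1, h2, h3, h4⟩ := h.exists_dual
  refine ⟨w, ?_⟩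
  rw [S, h3, h4]
  intro e
  have e1 : c • ((1 : F) • p - (0 : F) • r) = 0 := by simpa using e
  simp only [one_smul, zero_smul, sub_zero] at e1
  rcases smul_eq_zero.1 e1 with h5 | h5
  · exact hc h5
  · exact h.p_ne h5

theorem T_ne_bot (h : D.Line p r) : D.T p r ≠ ⊥ := by
  intro e
  obtain ⟨g, hg⟩ := exists_S h (1 : F)
  have h1 : g ∈ D.T p r := mem_T_of h hg
  rw [e, Subgroup.mem_bot] at h1
  obtain ⟨v, hv⟩ := S_ne h (one_ne_zero (α := F))
  apply hv
  rw [← hg, h1, act_one]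

theorem conj_T (g : G) : conjBy (D.T p r) g = D.T (D.act g p) (D.act g r) := by
  have key : ∀ (g : G) (p r : V), conjBy (D.T p r) g ≤ D.T (D.act g p) (D.act g r) := by
    intro g p r
    rw [conjBy, T, MonoidHom.map_closure, Subgroup.closure_le]
    rintro _ ⟨x, hx, rfl⟩
    apply Subgroup.subset_closure
    intro v h1 h2
    simp only [MulEquiv.coe_toMonoidHom, MulAut.conj_apply]
    have e1 : D.f (D.act g⁻¹ v) p = 0 := by
      rw [← D.f_act g, act_act_inv]
      exact h1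
    have e2 : D.f (D.act g⁻¹ v) r = 0 := by
      rw [← D.f_act g, act_act_inv]
      exact h2
    rw [act_mul, act_mul, hx _ e1 e2, act_act_inv]
  apply le_antisymm (key g p r)
  intro x hx
  have h1 := key g⁻¹ _ _ (show g⁻¹ * x * g⁻¹⁻¹ ∈ conjBy (D.T (D.act g p) (D.act g r)) g⁻¹ from ⟨x, hx, by simp⟩)
  rw [act_inv_act, act_inv_act] at h1
  exact ⟨_, h1, by simp [mul_assoc]⟩

theorem Line.act (h : D.Line p r) (g : G) : D.Line (D.act g p) (D.act g r) := by
  refine ⟨by rw [D.Q_act, h.hp], by rw [D.Q_act, h.hr], by rw [f_act, h.hpr], fun s t e => ?_⟩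
  rw [← map_smul, ← map_smul, ← map_add] at e
  exact h.li s t (act_eq_zero D e)

/-! ### Normal forms of pairs of lines -/

/-- Change of the basis of a line, first vector. -/
theorem Line.add_left (h : D.Line p r) (b : F) : D.Line (p + b • r) r ∧ D.T (p + b • r) r = D.T p r := by
  refine ⟨⟨?_, h.hr, ?_, fun s t e => ?_⟩, T_congr (fun v => ?_)⟩
  · rw [Sys.Q_add, D.Q_smul, h.hp, h.hr, f_smul_right, h.hpr]
    ring
  · rw [D.f_add, D.f_smul, h.hpr, h.frr]
    ring
  · have e' : s • p + (s * b + t) • r = 0 := by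
      rw [← e]
      module
    obtain ⟨h1, h2⟩ := h.li _ _ e'
    subst h1
    simpa using h2
  · rw [f_add_right, f_smul_right]
    constructor
    · rintro ⟨h1, h2⟩
      rw [h2, mul_zero, add_zero] at h1
      exact ⟨h1, h2⟩
    · rintro ⟨h1, h2⟩
      rw [h1, h2]
      simp

theorem Line.smul_left (h : D.Line p r) {a : F} (ha : a ≠ 0) : D.Line (a • p) r ∧ D.T (a • p) r = D.T p r := by
  refine ⟨⟨?_, h.hr, ?_, fun s t e => ?_⟩, T_congr (fun v => ?_)⟩
  · rw [D.Q_smul, h.hp, mul_zero]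
  · rw [D.f_smul, h.hpr, mul_zero]
  · rw [smul_smul] at e
    obtain ⟨h1, h2⟩ := h.li _ _ e
    exact ⟨(mul_eq_zero.1 h1).resolve_right ha, h2⟩
  · rw [f_smul_right]
    simp [ha]

/-- The two lines in the first normal form: opposite. -/
structure NF (D : Sys F V G) (p₁ r₁ p₂ r₂ : V) : Prop where
  l₁ : D.Line p₁ r₁
  l₂ : D.Line p₂ r₂
  a : D.f p₁ p₂ = 1
  b : D.f p₁ r₂ = 0
  c : D.f r₁ p₂ = 0
  d : D.f r₁ r₂ = 1

/-- The two lines in the second normal form. -/
structure NF1 (D : Sys F V G) (p₁ r₁ p₂ r₂ : V) : Prop where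
  l₁ : D.Line p₁ r₁
  l₂ : D.Line p₂ r₂
  a : D.f p₁ p₂ = 0
  b : D.f p₁ r₂ = 0
  c : D.f r₁ p₂ = 0
  d : D.f r₁ r₂ = 1

/-- Normal form when the last entry of the pairing does not vanish. -/
theorem normal_of_d {p₁ r₁ p₂ r₂ : V} (l₁ : D.Line p₁ r₁) (l₂ : D.Line p₂ r₂) (hd : D.f r₁ r₂ ≠ 0) :
    ∃ p₁' r₁' p₂' r₂', D.T p₁' r₁' = D.T p₁ r₁ ∧ D.T p₂' r₂' = D.T p₂ r₂ ∧
      (D.NF p₁' r₁' p₂' r₂' ∨ D.NF1 p₁' r₁' p₂' r₂') := by
  set d := D.f r₁ r₂ with hd'
  set a := D.f p₁ p₂ with ha'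
  set b := D.f p₁ r₂ with hb'
  set c := D.f r₁ p₂ with hc'
  have l₁' := l₁.add_left (-(b * d⁻¹))
  have l₂' := l₂.add_left (-(c * d⁻¹))
  have l₂'' := l₂'.1.swap.smul_left (inv_ne_zero hd)
  have hT₂ : D.T (p₂ + (-(c * d⁻¹)) • r₂) (d⁻¹ • r₂) = D.T p₂ r₂ := by
    rw [T_swap, l₂''.2, T_swap, l₂'.2]
  have hl₂ : D.Line (p₂ + (-(c * d⁻¹)) • r₂) (d⁻¹ • r₂) := l₂''.1.swap
  have e1 : D.f (p₁ + (-(b * d⁻¹)) • r₁) (p₂ + (-(c * d⁻¹)) • r₂) = a - b * c * d⁻¹ := by
    simp only [D.f_add, D.f_smul, f_add_right, f_smul_right, ← ha', ← hb', ← hc', ← hd']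
    field_simp
    ring
  have e2 : D.f (p₁ + (-(b * d⁻¹)) • r₁) (d⁻¹ • r₂) = 0 := by
    simp only [D.f_add, D.f_smul, f_add_right, f_smul_right, ← ha', ← hb', ← hc', ← hd']
    field_simp
    ring
  have e3 : D.f r₁ (p₂ + (-(c * d⁻¹)) • r₂) = 0 := by
    simp only [D.f_add, D.f_smul, f_add_right, f_smul_right, ← ha', ← hb', ← hc', ← hd']
    field_simp
    ring
  have e4 : D.f r₁ (d⁻¹ • r₂) = 1 := by
    rw [f_smul_right, ← hd']
    field_simp
  by_cases hδ : a - b * c * d⁻¹ = 0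
  · exact ⟨_, _, _, _, l₁'.2, hT₂, Or.inr ⟨l₁'.1, hl₂, by rw [e1, hδ], e2, e3, e4⟩⟩
  · have l₃ := hl₂.smul_left (inv_ne_zero hδ)
    refine ⟨_, _, _, _, l₁'.2, l₃.2.trans hT₂, Or.inl ⟨l₁'.1, l₃.1, ?_, e2, ?_, e4⟩⟩
    · rw [f_smul_right, e1]
      exact inv_mul_cancel₀ hδ
    · rw [f_smul_right, e3, mul_zero]

/-- Normal forms of two lines: commuting pairing, or one of the two normal forms. -/
theorem normal {p₁ r₁ p₂ r₂ : V} (l₁ : D.Line p₁ r₁) (l₂ : D.Line p₂ r₂) :
    (D.f p₁ p₂ = 0 ∧ D.f p₁ r₂ = 0 ∧ D.f r₁ p₂ = 0 ∧ D.f r₁ r₂ = 0) ∨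
    ∃ p₁' r₁' p₂' r₂', D.T p₁' r₁' = D.T p₁ r₁ ∧ D.T p₂' r₂' = D.T p₂ r₂ ∧
      (D.NF p₁' r₁' p₂' r₂' ∨ D.NF1 p₁' r₁' p₂' r₂') := by
  by_cases h1 : D.f r₁ r₂ = 0
  · by_cases h2 : D.f r₁ p₂ = 0
    · by_cases h3 : D.f p₁ r₂ = 0
      · by_cases h4 : D.f p₁ p₂ = 0
        · exact Or.inl ⟨h4, h3, h2, h1⟩
        · right
          obtain ⟨a, b, c, d, e1, e2, h⟩ := normal_of_d l₁.swap l₂.swap h4
          exact ⟨a, b, c, d, e1.trans T_swap, e2.trans T_swap, h⟩
      · right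
        obtain ⟨a, b, c, d, e1, e2, h⟩ := normal_of_d l₁.swap l₂ h3
        exact ⟨a, b, c, d, e1.trans T_swap, e2, h⟩
    · right
      obtain ⟨a, b, c, d, e1, e2, h⟩ := normal_of_d l₁ l₂.swap h2
      exact ⟨a, b, c, d, e1, e2.trans T_swap, h⟩
  · exact Or.inr (normal_of_d l₁ l₂ h1)

/-! ### Commuting -/

theorem comm_of_perp {p₁ r₁ p₂ r₂ : V} (l₁ : D.Line p₁ r₁) (l₂ : D.Line p₂ r₂)
    (h : D.f p₁ p₂ = 0 ∧ D.f p₁ r₂ = 0 ∧ D.f r₁ p₂ = 0 ∧ D.f r₁ r₂ = 0) {a b : G}
    (ha : a ∈ D.T p₁ r₁) (hb : b ∈ D.T p₂ r₂) : a * b = b * a := by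
  obtain ⟨h1, h2, h3, h4⟩ := h
  obtain ⟨c, hc⟩ := (mem_T l₁).1 ha
  obtain ⟨d, hd⟩ := (mem_T l₂).1 hb
  have h1' : D.f p₂ p₁ = 0 := by rw [D.f_comm, h1]
  have h2' : D.f r₂ p₁ = 0 := by rw [D.f_comm, h2]
  have h3' : D.f p₂ r₁ = 0 := by rw [D.f_comm, h3]
  have h4' : D.f r₂ r₁ = 0 := by rw [D.f_comm, h4]
  apply D.inj
  ext v
  rw [act_mul, act_mul, hd, hc, hc, hd]
  simp only [S, D.f_add, D.f_smul, f_sub_left, h1, h2, h3, h4, h1', h2', h3', h4']
  module

theorem conjBy_self_of_comm {A : Subgroup G} {g : G} (h : ∀ a ∈ A, a * g = g * a) : conjBy A g = A := by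
  have key : ∀ a ∈ A, (MulAut.conj g).toMonoidHom a = a := by
    intro a ha
    simp only [MulEquiv.coe_toMonoidHom, MulAut.conj_apply]
    rw [← h a ha]
    group
  ext x
  constructor
  · rintro ⟨y, hy, rfl⟩
    rw [key y hy]
    exact hy
  · intro hx
    exact ⟨x, hx, key x hx⟩

/-- A commuting pair is not a rank one pair. -/
theorem not_rankOne_of_comm {A B : Subgroup G} (hA : A ≠ ⊥) (h : ∀ a ∈ A, ∀ b ∈ B, a * b = b * a) : ¬ IsRankOnePair A B := by
  intro hR
  obtain ⟨a, ha1⟩ := Subgroup.ne_bot_iff_exists_ne_one.1 hA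
  obtain ⟨b, hb, -, e⟩ := hR.cond_left a.1 a.2 (fun e => ha1 (Subtype.ext e))
  have h1 : conjBy A b⁻¹ = A := conjBy_self_of_comm (fun x hx =>
    (Commute.inv_right (show Commute x b from h x hx b hb)).eq)
  have h2 : conjBy B a.1⁻¹ = B := conjBy_self_of_comm (fun x hx =>
    (Commute.inv_right (show Commute x a.1 from (h a.1 a.2 x hx).symm)).eq)
  rw [h1, h2] at e
  exact hR.ne e

theorem comm_bot {A B : Subgroup G} (h : ∀ a ∈ A, ∀ b ∈ B, a * b = b * a) : ⁅A, B⁆ = ⊥ := by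
  rw [Subgroup.commutator_eq_bot_iff_le_centralizer]
  intro a ha
  rw [Subgroup.mem_centralizer_iff]
  intro b hb
  exact (h a ha b hb).symm

/-! ### The first normal form: an image of `SL₂` -/

/-- The elementary matrices. -/
def xx (t : F) : Matrix.SpecialLinearGroup (Fin 2) F := ⟨!![1, t; 0, 1], by simp [Matrix.det_fin_two]⟩

/-- The elementary matrices. -/
def yy (t : F) : Matrix.SpecialLinearGroup (Fin 2) F := ⟨!![1, 0; t, 1], by simp [Matrix.det_fin_two]⟩

theorem val_mul (a b : Matrix.SpecialLinearGroup (Fin 2) F) : (a * b).1 = a.1 * b.1 := rfl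

theorem val_xx (t : F) : (xx t).1 = !![1, t; 0, 1] := rfl

theorem val_yy (t : F) : (yy t).1 = !![1, 0; t, 1] := rfl

theorem sl2_induction {P : Matrix.SpecialLinearGroup (Fin 2) F → Prop} (h1 : P 1)
    (hmul : ∀ a b, P a → P b → P (a * b)) (hx : ∀ t, P (xx t)) (hy : ∀ t, P (yy t))
    (g : Matrix.SpecialLinearGroup (Fin 2) F) : P g := by
  have key : ∀ g : Matrix.SpecialLinearGroup (Fin 2) F, g.1 1 0 ≠ 0 → P g := by
    intro g hc
    have e : g = xx ((g.1 0 0 - 1) / g.1 1 0) * yy (g.1 1 0) * xx ((g.1 1 1 - 1) / g.1 1 0) := by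
      have hdet := g.2
      rw [Matrix.det_fin_two] at hdet
      apply Subtype.ext
      ext i j
      fin_cases i <;> fin_cases j <;>
        simp [val_mul, val_xx, val_yy, Matrix.mul_apply, Fin.sum_univ_two]
      · field_simp
        ring
      · field_simp
        linear_combination -hdet
      · field_simp
        ring
    rw [e]
    exact hmul _ _ (hmul _ _ (hx _) (hy _)) (hx _)
  by_cases hc : g.1 1 0 = 0
  · have hdet := g.2
    rw [Matrix.det_fin_two, hc, mul_zero, sub_zero] at hdet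
    have ha : g.1 0 0 ≠ 0 := left_ne_zero_of_mul_eq_one hdet
    have e : g = yy (-1) * (yy 1 * g) := by
      apply Subtype.ext
      ext i j
      fin_cases i <;> fin_cases j <;>
        simp [val_mul, val_yy, Matrix.mul_apply, Fin.sum_univ_two, Matrix.vecMul, dotProduct]
    rw [e]
    refine hmul _ _ (hy _) (key _ ?_)
    simp [val_mul, val_yy, Matrix.mul_apply, Fin.sum_univ_two, hc, ha]
  · exact key g hc

theorem xx_mem_upper (t : F) : xx t ∈ upperUnipotentSL2 F :=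
  Subgroup.subset_closure ⟨by simp [xx], by simp [xx], by simp [xx]⟩

theorem yy_mem_lower (t : F) : yy t ∈ lowerUnipotentSL2 F :=
  Subgroup.subset_closure ⟨by simp [yy], by simp [yy], by simp [yy]⟩

section NFS

variable {p₁ r₁ p₂ r₂ : V}

/-- The linear action of a matrix on the sum of the two lines. -/
def MM (D : Sys F V G) (p₁ r₁ p₂ r₂ : V) (A : Matrix (Fin 2) (Fin 2) F) (v : V) : V :=
  v + ((A 0 0 - 1) * D.f v p₂ - A 0 1 * D.f v r₁) • p₁ + (-(A 1 0 * D.f v p₂ - (A 1 1 - 1) * D.f v r₁)) • r₂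
    + ((A 0 0 - 1) * D.f v r₂ + A 0 1 * D.f v p₁) • r₁ + (A 1 0 * D.f v r₂ + (A 1 1 - 1) * D.f v p₁) • p₂

theorem NF.f_vals (h : D.NF p₁ r₁ p₂ r₂) :
    D.f p₂ p₁ = 1 ∧ D.f r₂ p₁ = 0 ∧ D.f p₂ r₁ = 0 ∧ D.f r₂ r₁ = 1 := by
  refine ⟨?_, ?_, ?_, ?_⟩
  · rw [D.f_comm, h.a]
  · rw [D.f_comm, h.b]
  · rw [D.f_comm, h.c]
  · rw [D.f_comm, h.d]

theorem MM_mul (h : D.NF p₁ r₁ p₂ r₂) (A B : Matrix (Fin 2) (Fin 2) F) (v : V) :
    D.MM p₁ r₁ p₂ r₂ (A * B) v = D.MM p₁ r₁ p₂ r₂ A (D.MM p₁ r₁ p₂ r₂ B v) := by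
  obtain ⟨h1, h2, h3, h4⟩ := h.f_vals
  have h5 := h.l₁.fpp
  have h6 := h.l₁.frr
  have h7 := h.l₁.hpr
  have h8 := h.l₁.frp
  have h9 := h.l₂.fpp
  have h10 := h.l₂.frr
  have h11 := h.l₂.hpr
  have h12 := h.l₂.frp
  have ha := h.a
  have hb := h.b
  have hc := h.c
  have hd := h.d
  simp only [MM, Matrix.mul_apply, Fin.sum_univ_two]
  simp only [D.f_add, D.f_smul, h1, h2, h3, h4, h5, h6, h7, h8, h9, h10, h11, h12, ha, hb, hc, hd]
  module

theorem MM_one (A : Matrix (Fin 2) (Fin 2) F) (h00 : A 0 0 = 1) (h01 : A 0 1 = 0) (h10 : A 1 0 = 0) (h11 : A 1 1 = 1)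
    (v : V) : D.MM p₁ r₁ p₂ r₂ A v = v := by
  simp [MM, h00, h01, h10, h11]

theorem exists_MM (h : D.NF p₁ r₁ p₂ r₂) (g : Matrix.SpecialLinearGroup (Fin 2) F) :
    ∃ x : G, ∀ v, D.act x v = D.MM p₁ r₁ p₂ r₂ g.1 v := by
  induction g using sl2_induction with
  | h1 =>
    refine ⟨1, fun v => ?_⟩
    rw [act_one, MM_one] <;> simp
  | hmul a b ha hb =>
    obtain ⟨x, hx⟩ := ha
    obtain ⟨y, hy⟩ := hb
    refine ⟨x * y, fun v => ?_⟩
    rw [act_mul, hy, hx, Matrix.SpecialLinearGroup.coe_mul, MM_mul h]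
  | hx t =>
    obtain ⟨x, hx⟩ := exists_S h.l₁ (-t)
    refine ⟨x, fun v => ?_⟩
    rw [hx]
    simp only [MM, S, xx, Matrix.of_apply, Matrix.cons_val', Matrix.cons_val_zero, Matrix.cons_val_one]
    module
  | hy t =>
    obtain ⟨x, hx⟩ := exists_S h.l₂ t
    refine ⟨x, fun v => ?_⟩
    rw [hx]
    simp only [MM, S, yy, Matrix.of_apply, Matrix.cons_val', Matrix.cons_val_zero, Matrix.cons_val_one]
    module

/-- The homomorphism from `SL₂(F)`. -/
noncomputable def phi (h : D.NF p₁ r₁ p₂ r₂) : Matrix.SpecialLinearGroup (Fin 2) F →* G :=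
  MonoidHom.mk' (fun g => Classical.choose (exists_MM h g)) (by
    intro a b
    apply D.inj
    ext v
    rw [act_mul, Classical.choose_spec (exists_MM h (a * b)) v,
      Classical.choose_spec (exists_MM h b) v, Classical.choose_spec (exists_MM h a),
      Matrix.SpecialLinearGroup.coe_mul, MM_mul h])

theorem act_phi (h : D.NF p₁ r₁ p₂ r₂) (g : Matrix.SpecialLinearGroup (Fin 2) F) (v : V) :
    D.act (phi h g) v = D.MM p₁ r₁ p₂ r₂ g.1 v :=
  Classical.choose_spec (exists_MM h g) v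

theorem phi_inj (h : D.NF p₁ r₁ p₂ r₂) : Function.Injective (phi h) := by
  rw [injective_iff_map_eq_one]
  intro g hg
  obtain ⟨u₁, w₁, h1, h2, h3, h4⟩ := h.l₁.exists_dual
  obtain ⟨h5, h6, h7, h8⟩ := h.f_vals
  have h9 := h.l₁.fpp
  have h10 := h.l₁.frr
  have h11 := h.l₁.hpr
  have h12 := h.l₁.frp
  have ha := h.a
  have hb := h.b
  have hc := h.c
  have hd := h.d
  have hv : ∀ v, D.MM p₁ r₁ p₂ r₂ g.1 v = v := by
    intro v
    rw [← act_phi h, hg, act_one]
  -- evaluate at `p₂`: the coefficient functionals are `f · p₂`, and so on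
  have e1 := hv p₁
  have e2 := hv r₂
  have key : ∀ (v : V) (a b c d : F), v + a • p₁ + b • r₂ + c • r₁ + d • p₂ = v → a = 0 ∧ b = 0 ∧ c = 0 ∧ d = 0 := by
    intro v a b c d e
    have e0 : a • p₁ + b • r₂ + c • r₁ + d • p₂ = 0 := by
      have e' : v + (a • p₁ + b • r₂ + c • r₁ + d • p₂) = v := by
        refine Eq.trans ?_ e
        abel
      exact add_eq_left.1 e'
    have f1 := congrArg (fun w => D.f w p₂) e0
    have f2 := congrArg (fun w => D.f w r₂) e0
    have f3 := congrArg (fun w => D.f w p₁) e0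
    have f4 := congrArg (fun w => D.f w r₁) e0
    simp only [D.f_add, D.f_smul, f_zero_left, h5, h6, h7, h8, h9, h10, h11, h12, ha, hb, hc, hd, h.l₂.fpp, h.l₂.frr,
      h.l₂.hpr, h.l₂.frp, mul_zero, mul_one, add_zero, zero_add] at f1 f2 f3 f4
    exact ⟨f1, f4, f2, f3⟩
  simp only [MM, h9, h10, h11, h12, ha, hb, hc, hd, h5, h6, h7, h8, h.l₂.fpp, h.l₂.frr, h.l₂.hpr, h.l₂.frp, mul_zero,
    mul_one, sub_zero, zero_sub, add_zero, zero_add] at e1 e2
  obtain ⟨k1, k2, k3, k4⟩ := key _ _ _ _ _ e1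
  obtain ⟨k5, k6, k7, k8⟩ := key _ _ _ _ _ e2
  have e00 : g.1 0 0 = 1 := sub_eq_zero.1 k1
  have e10 : g.1 1 0 = 0 := by simpa using k2
  have e01 : g.1 0 1 = 0 := by simpa using k5
  have e11 : g.1 1 1 = 1 := by
    have : g.1 1 1 - 1 = 0 := by simpa using k6
    exact sub_eq_zero.1 this
  apply Subtype.ext
  ext i j
  fin_cases i <;> fin_cases j <;> simp [e00, e01, e10, e11]

theorem map_upper (h : D.NF p₁ r₁ p₂ r₂) : (upperUnipotentSL2 F).map (phi h) = D.T p₁ r₁ := by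
  apply le_antisymm
  · rw [upperUnipotentSL2, Subgroup.map_le_iff_le_comap, Subgroup.closure_le]
    rintro g ⟨h10, h00, h11⟩
    refine mem_T_of h.l₁ (c := -g.1 0 1) (fun v => ?_)
    rw [act_phi]
    simp only [MM, S, h10, h00, h11]
    module
  · intro y hy
    obtain ⟨c, hc⟩ := (mem_T h.l₁).1 hy
    refine ⟨xx (-c), xx_mem_upper _, ?_⟩
    apply D.inj
    ext v
    rw [act_phi, hc]
    simp only [MM, S, xx, Matrix.of_apply, Matrix.cons_val', Matrix.cons_val_zero, Matrix.cons_val_one]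
    module

theorem map_lower (h : D.NF p₁ r₁ p₂ r₂) : (lowerUnipotentSL2 F).map (phi h) = D.T p₂ r₂ := by
  apply le_antisymm
  · rw [lowerUnipotentSL2, Subgroup.map_le_iff_le_comap, Subgroup.closure_le]
    rintro g ⟨h01, h00, h11⟩
    refine mem_T_of h.l₂ (c := g.1 1 0) (fun v => ?_)
    rw [act_phi]
    simp only [MM, S, h01, h00, h11]
    module
  · intro y hy
    obtain ⟨c, hc⟩ := (mem_T h.l₂).1 hy
    refine ⟨yy c, yy_mem_lower _, ?_⟩
    apply D.inj
    ext v
    rw [act_phi, hc]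
    simp only [MM, S, yy, Matrix.of_apply, Matrix.cons_val', Matrix.cons_val_zero, Matrix.cons_val_one]
    module

theorem psl2 (h : D.NF p₁ r₁ p₂ r₂) : IsPSL2PairOver F (D.T p₁ r₁) (D.T p₂ r₂) := by
  refine ⟨phi h, ?_, ?_, map_upper h, map_lower h⟩
  · apply le_antisymm
    · rintro _ ⟨g, rfl⟩
      induction g using sl2_induction with
      | h1 =>
        rw [map_one]
        exact one_mem _
      | hmul a b ha hb =>
        rw [map_mul]
        exact mul_mem ha hb
      | hx t =>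
        refine Subgroup.mem_sup_left ?_
        rw [← map_upper h]
        exact ⟨_, xx_mem_upper t, rfl⟩
      | hy t =>
        refine Subgroup.mem_sup_right ?_
        rw [← map_lower h]
        exact ⟨_, yy_mem_lower t, rfl⟩
    · refine sup_le ?_ ?_
      · rw [← map_upper h]
        rintro _ ⟨g, -, rfl⟩
        exact ⟨g, rfl⟩
      · rw [← map_lower h]
        rintro _ ⟨g, -, rfl⟩
        exact ⟨g, rfl⟩
  · intro g hg
    have : g = 1 := phi_inj h (by rw [hg, map_one])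
    rw [this]
    exact one_mem _

/-- The inverse of a Siegel element. -/
theorem act_inv_S {l : D.Line p r} {g : G} {c : F} (hg : ∀ v, D.act g v = D.S p r c v) (v : V) :
    D.act g⁻¹ v = D.S p r (-c) v := by
  have : D.act g (D.S p r (-c) v) = v := by
    rw [hg, S_mul l]
    simp [S]
  have h2 := congrArg (D.act g⁻¹) this
  rw [act_inv_act] at h2
  exact h2.symm

/-- The key identity for the rank one condition. -/
theorem key_conj (h : D.NF p₁ r₁ p₂ r₂) {a b : G} {c d : F} (hc : c ≠ 0) (hcd : c * d = -1)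
    (ha : ∀ v, D.act a v = D.S p₁ r₁ c v) (hb : ∀ v, D.act b v = D.S p₂ r₂ d v) :
    conjBy (D.T p₁ r₁) b⁻¹ = conjBy (D.T p₂ r₂) a⁻¹ := by
  obtain ⟨h5, h6, h7, h8⟩ := h.f_vals
  have e1 : D.act b⁻¹ p₁ = p₁ + d • r₂ := by
    rw [act_inv_S (l := h.l₂) hb, S, h.a, h.b]
    module
  have e2 : D.act b⁻¹ r₁ = r₁ + (-d) • p₂ := by
    rw [act_inv_S (l := h.l₂) hb, S, h.c, h.d]
    module
  have e3 : D.act a⁻¹ p₂ = c • (r₁ + (-d) • p₂) := by
    rw [act_inv_S (l := h.l₁) ha, S, h5, h7, smul_add, smul_smul]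
    have : c * -d = 1 := by linear_combination -hcd
    rw [this]
    module
  have e4 : D.act a⁻¹ r₂ = (-c) • (p₁ + d • r₂) := by
    rw [act_inv_S (l := h.l₁) ha, S, h6, h8, smul_add, smul_smul]
    have : -c * d = 1 := by linear_combination -hcd
    rw [this]
    module
  rw [conj_T, conj_T, e1, e2, e3, e4]
  apply T_congr
  intro v
  rw [f_smul_right, f_smul_right]
  have hc' : -c ≠ 0 := neg_ne_zero.2 hc
  simp only [mul_eq_zero, hc, hc', false_or]
  exact and_comm

theorem c_ne_of_ne_one {a : G} {c : F} (ha : ∀ v, D.act a v = D.S p r c v) (h1 : a ≠ 1) : c ≠ 0 := by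
  rintro rfl
  apply h1
  apply D.inj
  ext v
  rw [ha, map_one, Module.End.one_apply]
  simp [S]

theorem ne_one_of_ne (l : D.Line p r) {a : G} {c : F} (ha : ∀ v, D.act a v = D.S p r c v) (hc : c ≠ 0) : a ≠ 1 := by
  rintro rfl
  obtain ⟨v, hv⟩ := S_ne l hc
  apply hv
  rw [← ha, act_one]

theorem rankOne (h : D.NF p₁ r₁ p₂ r₂) : IsRankOnePair (D.T p₁ r₁) (D.T p₂ r₂) := by
  obtain ⟨h5, h6, h7, h8⟩ := h.f_vals
  refine ⟨?_, T_nilpotent h.l₁, T_nilpotent h.l₂, ?_, ?_⟩
  · intro e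
    obtain ⟨g, hg⟩ := exists_S h.l₁ (1 : F)
    have h1 : g ∈ D.T p₂ r₂ := e ▸ mem_T_of h.l₁ hg
    obtain ⟨d, hd⟩ := (mem_T h.l₂).1 h1
    have h2 := hd p₂
    rw [hg] at h2
    simp only [S, h7, h5, h.l₂.frp, h.l₂.fpp, h.l₂.hpr] at h2
    have h3 : (-1 : F) • r₁ = 0 := by
      have : p₂ + (-1 : F) • r₁ = p₂ + 0 := by
        rw [add_zero]
        refine Eq.trans ?_ (h2.trans ?_)
        · module
        · simp
      exact add_left_cancel this
    rw [neg_smul, one_smul, neg_eq_zero] at h3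
    exact h.l₁.r_ne h3
  · intro a ha ha1
    obtain ⟨c, hc⟩ := (mem_T h.l₁).1 ha
    have hc0 := c_ne_of_ne_one hc ha1
    obtain ⟨b, hb⟩ := exists_S h.l₂ (-c⁻¹)
    refine ⟨b, mem_T_of h.l₂ hb, ne_one_of_ne h.l₂ hb (neg_ne_zero.2 (inv_ne_zero hc0)), ?_⟩
    exact key_conj h hc0 (by field_simp) hc hb
  · intro b hb hb1
    obtain ⟨d, hd⟩ := (mem_T h.l₂).1 hb
    have hd0 := c_ne_of_ne_one hd hb1
    obtain ⟨a, ha⟩ := exists_S h.l₁ (-d⁻¹)
    refine ⟨a, mem_T_of h.l₁ ha, ne_one_of_ne h.l₁ ha (neg_ne_zero.2 (inv_ne_zero hd0)), ?_⟩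
    exact (key_conj h (neg_ne_zero.2 (inv_ne_zero hd0)) (by field_simp) ha hd).symm

end NFS

/-! ### The second normal form: commutators -/

section NF1S

variable {p₁ r₁ p₂ r₂ : V}

theorem comm_formula (h : D.NF1 p₁ r₁ p₂ r₂) (c d : F) (v : V) :
    D.S p₁ r₁ c (D.S p₂ r₂ d v) = D.S p₂ r₂ d (D.S p₁ r₁ c v) + (-(c * d)) • (D.f v p₂ • p₁ - D.f v p₁ • p₂) := by
  have h1 : D.f p₂ p₁ = 0 := by rw [D.f_comm, h.a]
  have h2 : D.f r₂ p₁ = 0 := by rw [D.f_comm, h.b]
  have h3 : D.f p₂ r₁ = 0 := by rw [D.f_comm, h.c]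
  have h4 : D.f r₂ r₁ = 1 := by rw [D.f_comm, h.d]
  simp only [S, D.f_add, D.f_smul, f_sub_left, h1, h2, h3, h4, h.a, h.b, h.c, h.d]
  module

theorem NF1.comm_of_dep (h : D.NF1 p₁ r₁ p₂ r₂) (hd : ¬ ∀ s t : F, s • p₁ + t • p₂ = 0 → s = 0 ∧ t = 0) {a b : G}
    (ha : a ∈ D.T p₁ r₁) (hb : b ∈ D.T p₂ r₂) : a * b = b * a := by
  push Not at hd
  obtain ⟨s, t, e, hst⟩ := hd
  have ht : t ≠ 0 := by
    rintro rfl
    apply hst _ rfl
    have : s • p₁ = 0 := by simpa using e
    exact (smul_eq_zero.1 this).resolve_right h.l₁.p_ne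
  have e' : p₂ = (-(s * t⁻¹)) • p₁ := by
    have h3 : t • p₂ = (-s) • p₁ := by
      rw [neg_smul]
      exact eq_neg_of_add_eq_zero_right e
    have h4 := congrArg (fun w => t⁻¹ • w) h3
    simp only [smul_smul, inv_mul_cancel₀ ht, one_smul] at h4
    rw [h4]
    congr 1
    ring
  obtain ⟨c, hc⟩ := (mem_T h.l₁).1 ha
  obtain ⟨d, hd⟩ := (mem_T h.l₂).1 hb
  apply D.inj
  ext v
  rw [act_mul, act_mul, hd, hc, hc, hd, comm_formula h]
  have : D.f v p₂ • p₁ - D.f v p₁ • p₂ = 0 := by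
    rw [e', f_smul_right]
    module
  rw [this]
  simp

theorem NF1.line (h : D.NF1 p₁ r₁ p₂ r₂) (hd : ∀ s t : F, s • p₁ + t • p₂ = 0 → s = 0 ∧ t = 0) : D.Line p₁ p₂ :=
  ⟨h.l₁.hp, h.l₂.hp, h.a, hd⟩

/-- The commutator of two Siegel elements. -/
theorem NF1.comm_eq (h : D.NF1 p₁ r₁ p₂ r₂) (hl : D.Line p₁ p₂) {a b g : G} {c d : F}
    (ha : ∀ v, D.act a v = D.S p₁ r₁ c v) (hb : ∀ v, D.act b v = D.S p₂ r₂ d v)
    (hg : ∀ v, D.act g v = D.S p₁ p₂ (-(c * d)) v) : a * b * a⁻¹ * b⁻¹ = g := by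
  have key : a * b = g * (b * a) := by
    apply D.inj
    ext v
    have e3 : ∀ w, D.S p₁ p₂ (-(c * d)) w = w + (-(c * d)) • (D.f w p₂ • p₁ - D.f w p₁ • p₂) := fun _ => rfl
    rw [act_mul, act_mul, act_mul, ha, hb, hg, hb, ha, comm_formula h, e3]
    have e1 : D.f (D.S p₂ r₂ d (D.S p₁ r₁ c v)) p₂ = D.f v p₂ := by
      simp only [S, D.f_add, D.f_smul, f_sub_left, h.l₂.fpp, h.l₂.frp, h.c, hl.frp, hl.fpp, h.l₁.frp, h.a]
      ring
    have e2 : D.f (D.S p₂ r₂ d (D.S p₁ r₁ c v)) p₁ = D.f v p₁ := by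
      simp only [S, D.f_add, D.f_smul, f_sub_left, h.l₁.fpp, h.l₁.frp, hl.frp, h.a, h.b]
      have : D.f r₂ p₁ = 0 := by rw [D.f_comm, h.b]
      rw [this]
      ring
    rw [e1, e2]
  rw [key]
  group

end NF1S

/-! ### The main theorem -/

/-- The set of Siegel transvection groups. -/
def Cl (D : Sys F V G) : Set (Subgroup G) := {A | ∃ p r, D.Line p r ∧ A = D.T p r}

theorem not_rankOne_NF1 {p₁ r₁ p₂ r₂ : V} (h : D.NF1 p₁ r₁ p₂ r₂) (hl : D.Line p₁ p₂) :
    ¬ IsRankOnePair (D.T p₁ r₁) (D.T p₂ r₂) := by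
  intro hR
  obtain ⟨a, ha⟩ := exists_S h.l₁ (1 : F)
  obtain ⟨b, hb, -, e⟩ := hR.cond_left a (mem_T_of h.l₁ ha) (ne_one_of_ne h.l₁ ha one_ne_zero)
  have h1 : b⁻¹ * a * b⁻¹⁻¹ ∈ conjBy (D.T p₁ r₁) b⁻¹ := ⟨a, mem_T_of h.l₁ ha, by simp⟩
  rw [e] at h1
  obtain ⟨b', hb', e'⟩ := h1
  simp only [MulEquiv.coe_toMonoidHom, MulAut.conj_apply, inv_inv] at e'
  obtain ⟨d, hd⟩ := (mem_T h.l₂).1 hb
  obtain ⟨d', hd'⟩ := (mem_T h.l₂).1 hb'
  -- a test vector
  have hns : r₁ ∉ Submodule.span F {p₁, p₂, r₂} := by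
    intro hm
    have : ∀ w ∈ Submodule.span F {p₁, p₂, r₂}, D.f w r₂ = 0 := by
      intro w hw
      induction hw using Submodule.span_induction with
      | mem x hx =>
        simp only [Set.mem_insert_iff, Set.mem_singleton_iff] at hx
        rcases hx with rfl | rfl | rfl
        · exact h.b
        · exact h.l₂.hpr
        · exact h.l₂.frr
      | zero => exact f_zero_left D _
      | add x y _ _ hx hy => rw [D.f_add, hx, hy, add_zero]
      | smul a x _ hx => rw [D.f_smul, hx, mul_zero]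
    have h0 := this _ hm
    rw [h.d] at h0
    exact one_ne_zero h0
  obtain ⟨v, hv1, hv2⟩ := D.dual _ _ hns
  have hv3 : D.f v p₁ = 0 := hv2 _ (Submodule.subset_span (by simp))
  have hv4 : D.f v p₂ = 0 := hv2 _ (Submodule.subset_span (by simp))
  have hv5 : D.f v r₂ = 0 := hv2 _ (Submodule.subset_span (by simp))
  have e0 : D.act b v = v := by
    rw [hd]
    simp [S, hv4, hv5]
  have e1 : D.act a v = v + p₁ := by
    rw [ha]
    simp [S, hv1, hv3]
  have e2 : D.act b' (v + p₁) = v + p₁ := by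
    rw [hd']
    simp [S, D.f_add, hv4, hv5, h.a, h.b]
  have e3 : D.act a⁻¹ (v + p₁) = v := by
    rw [act_inv_S (l := h.l₁) ha]
    simp [S, D.f_add, hv1, hv3, h.l₁.fpp, h.l₁.hpr]
  have e4 : D.act b⁻¹ (v + p₁) = v + p₁ := by
    rw [act_inv_S (l := h.l₂) hd]
    simp [S, D.f_add, hv4, hv5, h.a, h.b]
  have h2 := congrArg (fun g => D.act g v) e'
  simp only [act_mul] at h2
  rw [e0, e1, e2, e3, e4] at h2
  apply h.l₁.p_ne
  have : v + p₁ = v + 0 := by rw [add_zero]; exact h2.symm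
  exact add_left_cancel this

/-- The commutator case. -/
theorem comm_case {p₁ r₁ p₂ r₂ : V} (h : D.NF1 p₁ r₁ p₂ r₂) (hl : D.Line p₁ p₂) :
    RootCommutatorCase D.Cl (D.T p₁ r₁) (D.T p₂ r₂) := by
  have hcomm : ∀ a ∈ D.T p₁ r₁, ∀ b ∈ D.T p₂ r₂, a * b * a⁻¹ * b⁻¹ ∈ D.T p₁ p₂ := by
    intro a ha b hb
    obtain ⟨c, hc⟩ := (mem_T h.l₁).1 ha
    obtain ⟨d, hd⟩ := (mem_T h.l₂).1 hb
    obtain ⟨g, hg⟩ := exists_S hl (-(c * d))
    rw [NF1.comm_eq h hl hc hd hg]
    exact mem_T_of hl hg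
  have heq : ⁅D.T p₁ r₁, D.T p₂ r₂⁆ = D.T p₁ p₂ := by
    apply le_antisymm
    · rw [Subgroup.commutator_le]
      intro a ha b hb
      rw [commutatorElement_def]
      exact hcomm a ha b hb
    · intro g hg
      obtain ⟨e, he⟩ := (mem_T hl).1 hg
      obtain ⟨a, ha⟩ := exists_S h.l₁ (1 : F)
      obtain ⟨b, hb⟩ := exists_S h.l₂ (-e)
      have h1 := NF1.comm_eq h hl ha hb (g := g) (by
        intro v
        rw [he]
        congr 1
        ring)
      rw [← h1, ← commutatorElement_def]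
      exact Subgroup.commutator_mem_commutator (mem_T_of h.l₁ ha) (mem_T_of h.l₂ hb)
  unfold RootCommutatorCase
  rw [heq]
  refine ⟨⟨_, _, hl, rfl⟩, ?_, ?_, ?_⟩
  · intro c hc x hx
    have h1 : D.T p₁ r₁ ≤ Subgroup.centralizer (D.T p₁ p₂ : Set G) := by
      intro a ha
      rw [Subgroup.mem_centralizer_iff]
      intro z hz
      exact comm_of_perp hl h.l₁ ⟨h.l₁.fpp, h.l₁.hpr, by rw [D.f_comm, h.a], by rw [D.f_comm, h.c]⟩ hz ha
    have h2 : D.T p₂ r₂ ≤ Subgroup.centralizer (D.T p₁ p₂ : Set G) := by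
      intro a ha
      rw [Subgroup.mem_centralizer_iff]
      intro z hz
      exact comm_of_perp hl h.l₂ ⟨h.a, h.b, h.l₂.fpp, h.l₂.hpr⟩ hz ha
    have h3 := (sup_le h1 h2) hx
    rw [Subgroup.mem_centralizer_iff] at h3
    exact h3 c hc
  · intro a ha ha1
    obtain ⟨c, hc⟩ := (mem_T h.l₁).1 ha
    have hc0 := c_ne_of_ne_one hc ha1
    apply le_antisymm
    · rw [Subgroup.closure_le]
      rintro _ ⟨b, hb, rfl⟩
      exact hcomm a ha b hb
    · intro g hg
      obtain ⟨e, he⟩ := (mem_T hl).1 hg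
      obtain ⟨b, hb⟩ := exists_S h.l₂ (-(e * c⁻¹))
      refine Subgroup.subset_closure ⟨b, mem_T_of h.l₂ hb, ?_⟩
      refine NF1.comm_eq h hl hc hb (fun v => ?_)
      rw [he]
      congr 1
      field_simp
  · intro b hb hb1
    obtain ⟨d, hd⟩ := (mem_T h.l₂).1 hb
    have hd0 := c_ne_of_ne_one hd hb1
    apply le_antisymm
    · rw [Subgroup.closure_le]
      rintro _ ⟨a, ha, rfl⟩
      exact hcomm a ha b hb
    · intro g hg
      obtain ⟨e, he⟩ := (mem_T hl).1 hg
      obtain ⟨a, ha⟩ := exists_S h.l₁ (-(e * d⁻¹))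
      refine Subgroup.subset_closure ⟨a, mem_T_of h.l₁ ha, ?_⟩
      refine NF1.comm_eq h hl ha hd (fun v => ?_)
      rw [he]
      congr 1
      field_simp

/-- **The Siegel transvection groups form a set of `F`-root subgroups.** -/
theorem main (hgen : (⨆ A ∈ D.Cl, A) = ⊤) : IsKRootSubgroupSet F D.Cl := by
  refine ⟨⟨?_, ?_, hgen, ?_, ?_⟩, ?_⟩
  · rintro _ ⟨p, r, h, rfl⟩
    exact T_isMulCommutative h
  · rintro _ ⟨p, r, h, rfl⟩
    exact T_ne_bot h
  · rintro _ ⟨p, r, h, rfl⟩ g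
    exact ⟨_, _, h.act g, conj_T g⟩
  · rintro _ ⟨p₁, r₁, l₁, rfl⟩ _ ⟨p₂, r₂, l₂, rfl⟩
    rcases normal l₁ l₂ with h | ⟨a, b, c, d, e₁, e₂, h | h⟩
    · exact Or.inl (comm_bot (fun _ ha _ hb => comm_of_perp l₁ l₂ h ha hb))
    · rw [← e₁, ← e₂]
      exact Or.inr (Or.inl (rankOne h))
    · rw [← e₁, ← e₂]
      by_cases hd : ∀ s t : F, s • a + t • c = 0 → s = 0 ∧ t = 0
      · exact Or.inr (Or.inr (comm_case h (h.line hd)))
      · exact Or.inl (comm_bot (fun _ ha _ hb => NF1.comm_of_dep h hd ha hb))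
  · rintro _ ⟨p₁, r₁, l₁, rfl⟩ _ ⟨p₂, r₂, l₂, rfl⟩ hR
    rcases normal l₁ l₂ with h | ⟨a, b, c, d, e₁, e₂, h | h⟩
    · exact absurd hR (not_rankOne_of_comm (T_ne_bot l₁) (fun _ ha _ hb => comm_of_perp l₁ l₂ h ha hb))
    · rw [← e₁, ← e₂]
      exact psl2 h
    · rw [← e₁, ← e₂] at hR
      by_cases hd : ∀ s t : F, s • a + t • c = 0 → s = 0 ∧ t = 0
      · exact absurd hR (not_rankOne_NF1 h (h.line hd))
      · exact absurd hR (not_rankOne_of_comm (T_ne_bot h.l₁) (fun _ ha _ hb => NF1.comm_of_dep h hd ha hb))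

/-! ### Connectivity -/

section Conn

variable {a b : V}

theorem dual3 {v x₁ x₂ x₃ : V} (hv : v ∉ Submodule.span F {x₁, x₂, x₃}) :
    ∃ u, D.f u v = 1 ∧ D.f u x₁ = 0 ∧ D.f u x₂ = 0 ∧ D.f u x₃ = 0 := by
  obtain ⟨u, h1, h2⟩ := D.dual _ _ hv
  exact ⟨u, h1, h2 _ (Submodule.subset_span (by simp)), h2 _ (Submodule.subset_span (by simp)),
    h2 _ (Submodule.subset_span (by simp))⟩

theorem Adj_of_NF {p₁ r₁ p₂ r₂ : V} (h : D.NF p₁ r₁ p₂ r₂) : FAdj D.Cl (D.T p₁ r₁) (D.T p₂ r₂) :=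
  ⟨⟨_, _, h.l₁, rfl⟩, ⟨_, _, h.l₂, rfl⟩, rankOne h⟩

/-- Two lines in a totally singular plane have a common opposite. -/
theorem conn_plane (l₁ : D.Line p a) (l₂ : D.Line p b) (hab : D.f a b = 0)
    (hind : ∀ s t u : F, s • p + t • a + u • b = 0 → s = 0 ∧ t = 0 ∧ u = 0) :
    Relation.ReflTransGen (FAdj D.Cl) (D.T p a) (D.T p b) := by
  have hpa := l₁.hpr
  have hpb := l₂.hpr
  have hap := l₁.frp
  have hbp := l₂.frp
  have hba : D.f b a = 0 := by rw [D.f_comm, hab]
  have hpp := l₁.fpp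
  have haa := l₁.frr
  have hbb := l₂.frr
  have h1 : p ∉ Submodule.span F {a, b, (0 : V)} := by
    intro hm
    rw [Submodule.mem_span_insert] at hm
    obtain ⟨α, z, hz, e⟩ := hm
    rw [Submodule.mem_span_pair] at hz
    obtain ⟨β, γ, rfl⟩ := hz
    have := hind (-1) α β (by
      rw [e]
      simp only [smul_zero, add_zero, neg_smul, one_smul]
      abel)
    exact neg_ne_zero.2 one_ne_zero this.1
  obtain ⟨x₀, hx1, hx2, hx3, -⟩ := dual3 (D := D) h1
  set x := x₀ - D.Q x₀ • p with hxdef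
  have hxQ : D.Q x = 0 := by
    rw [hxdef, sub_eq_add_neg, ← neg_smul, Sys.Q_add, D.Q_smul, l₁.hp, f_smul_right, hx1]
    ring
  have hxp : D.f x p = 1 := by
    rw [hxdef, f_sub_left, D.f_smul, hpp, hx1]
    ring
  have hxa : D.f x a = 0 := by
    rw [hxdef, f_sub_left, D.f_smul, hpa, hx2]
    ring
  have hxb : D.f x b = 0 := by
    rw [hxdef, f_sub_left, D.f_smul, hpb, hx3]
    ring
  have h2 : a ∉ Submodule.span F {p, b, x} := by
    intro hm
    rw [Submodule.mem_span_insert] at hm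
    obtain ⟨α, z, hz, e⟩ := hm
    rw [Submodule.mem_span_pair] at hz
    obtain ⟨β, γ, rfl⟩ := hz
    have h0 := congrArg (fun w => D.f w p) e
    simp only [D.f_add, D.f_smul, hap, hpp, hbp, hxp, mul_zero, mul_one, zero_add] at h0
    subst h0
    have := hind α (-1) β (by
      rw [e]
      module)
    exact neg_ne_zero.2 one_ne_zero this.2.1
  have h3 : b ∉ Submodule.span F {p, a, x} := by
    intro hm
    rw [Submodule.mem_span_insert] at hm
    obtain ⟨α, z, hz, e⟩ := hm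
    rw [Submodule.mem_span_pair] at hz
    obtain ⟨β, γ, rfl⟩ := hz
    have h0 := congrArg (fun w => D.f w p) e
    simp only [D.f_add, D.f_smul, hap, hpp, hbp, hxp, mul_zero, mul_one, zero_add] at h0
    subst h0
    have := hind α β (-1) (by
      rw [e]
      module)
    exact neg_ne_zero.2 one_ne_zero this.2.2
  obtain ⟨y₁, hy1, hy2, hy3, hy4⟩ := dual3 (D := D) h2
  obtain ⟨y₂, hz1, hz2, hz3, hz4⟩ := dual3 (D := D) h3
  set y₀ := y₁ + y₂ with hy₀
  have hy₀p : D.f y₀ p = 0 := by rw [hy₀, D.f_add, hy2, hz2, add_zero]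
  have hy₀a : D.f y₀ a = 1 := by rw [hy₀, D.f_add, hy1, hz3, add_zero]
  have hy₀b : D.f y₀ b = 1 := by rw [hy₀, D.f_add, hy3, hz1, zero_add]
  have hy₀x : D.f y₀ x = 0 := by rw [hy₀, D.f_add, hy4, hz4, add_zero]
  set y := y₀ - D.Q y₀ • a with hydef
  have hyQ : D.Q y = 0 := by
    rw [hydef, sub_eq_add_neg, ← neg_smul, Sys.Q_add, D.Q_smul, l₁.hr, f_smul_right, hy₀a]
    ring
  have hyp : D.f y p = 0 := by
    rw [hydef, f_sub_left, D.f_smul, hap, hy₀p]
    ring
  have hya : D.f y a = 1 := by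
    rw [hydef, f_sub_left, D.f_smul, haa, hy₀a]
    ring
  have hyb : D.f y b = 1 := by
    rw [hydef, f_sub_left, D.f_smul, hab, hy₀b]
    ring
  have hyx : D.f y x = 0 := by
    rw [hydef, f_sub_left, D.f_smul, D.f_comm a x, hxa, hy₀x]
    ring
  have hl : D.Line x y := by
    refine ⟨hxQ, hyQ, by rw [D.f_comm, hyx], fun s t e => ?_⟩
    have e1 := congrArg (fun w => D.f w p) e
    have e2 := congrArg (fun w => D.f w a) e
    simp only [D.f_add, D.f_smul, hxp, hyp, hxa, hya, f_zero_left, mul_one, mul_zero, add_zero, zero_add] at e1 e2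
    exact ⟨e1, e2⟩
  have n1 : D.NF x y p a := ⟨hl, l₁, hxp, hxa, hyp, hya⟩
  have n2 : D.NF x y p b := ⟨hl, l₂, hxp, hxb, hyp, hyb⟩
  have a1 := Adj_of_NF n1
  have a2 := Adj_of_NF n2
  exact Relation.ReflTransGen.trans
    (Relation.ReflTransGen.single (⟨a1.2.1, a1.1, RankOnePair_symm a1.2.2⟩ : FAdj D.Cl (D.T p a) (D.T x y)))
    (Relation.ReflTransGen.single a2)

/-- The same without the independence. -/
theorem conn_plane' (l₁ : D.Line p a) (l₂ : D.Line p b) (hab : D.f a b = 0) :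
    Relation.ReflTransGen (FAdj D.Cl) (D.T p a) (D.T p b) := by
  by_cases hm : a ∈ Submodule.span F {p, b}
  · rw [Submodule.mem_span_pair] at hm
    obtain ⟨α, β, e⟩ := hm
    have hβ : β ≠ 0 := by
      rintro rfl
      have := (l₁.li α (-1) (by rw [← e]; module)).2
      exact neg_ne_zero.2 one_ne_zero this
    have : D.T p a = D.T p b := by
      apply T_congr
      intro v
      rw [← e, f_add_right, f_smul_right, f_smul_right]
      constructor
      · rintro ⟨h1, h2⟩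
        rw [h1] at h2
        simp only [mul_zero, zero_add, mul_eq_zero, hβ, false_or] at h2
        exact ⟨h1, h2⟩
      · rintro ⟨h1, h2⟩
        rw [h1, h2]
        simp
    rw [this]
  · apply conn_plane l₁ l₂ hab
    intro s t u e
    have ht : t = 0 := by
      by_contra ht
      apply hm
      rw [Submodule.mem_span_pair]
      refine ⟨-(t⁻¹ * s), -(t⁻¹ * u), ?_⟩
      have h1 : t • a = -(s • p + u • b) := by
        have h2 : s • p + t • a + u • b = t • a + (s • p + u • b) := by abel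
        rw [h2] at e
        exact eq_neg_of_add_eq_zero_left e
      have h3 := congrArg (fun w => t⁻¹ • w) h1
      simp only [smul_smul, inv_mul_cancel₀ ht, one_smul] at h3
      rw [h3]
      simp only [smul_neg, smul_add, smul_smul, neg_smul]
      abel
    subst ht
    have := l₂.li s u (by simpa using e)
    exact ⟨this.1, rfl, this.2⟩

/-- The hypothesis of the connectivity theorem: a big totally singular subspace. -/
def HasM (D : Sys F V G) : Prop :=
  ∃ M : Set V, (∀ z ∈ M, D.Q z = 0) ∧ (∀ z ∈ M, ∀ z' ∈ M, D.f z z' = 0) ∧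
    ∀ p r, D.Line p r → ∃ z ∈ M, D.f z p = 0 ∧ D.f z r = 0 ∧ z ∉ Submodule.span F {p, r}

theorem line_of_M {M : Set V} (h0 : ∀ z ∈ M, D.Q z = 0) {z : V} (hz : z ∈ M) (l : D.Line p a) (h1 : D.f z p = 0)
    (h3 : z ∉ Submodule.span F {p, a}) : D.Line p z := by
  refine ⟨l.hp, h0 z hz, by rw [D.f_comm, h1], fun s t e => ?_⟩
  have ht : t = 0 := by
    by_contra ht
    apply h3
    rw [Submodule.mem_span_pair]
    refine ⟨-(t⁻¹ * s), 0, ?_⟩
    have h4 : t • z = -(s • p) := eq_neg_of_add_eq_zero_right e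
    have h5 := congrArg (fun w => t⁻¹ • w) h4
    simp only [smul_smul, inv_mul_cancel₀ ht, one_smul] at h5
    rw [h5]
    simp only [smul_neg, smul_smul, neg_smul, zero_smul, add_zero]
  subst ht
  have : s • p = 0 := by simpa using e
  exact ⟨(smul_eq_zero.1 this).resolve_right l.p_ne, rfl⟩

/-- Two lines through a point are connected. -/
theorem conn_point (hM : D.HasM) (l₁ : D.Line p a) (l₂ : D.Line p b) :
    Relation.ReflTransGen (FAdj D.Cl) (D.T p a) (D.T p b) := by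
  obtain ⟨M, h0, h1, h2⟩ := hM
  obtain ⟨z, hz, z1, z2, z3⟩ := h2 p a l₁
  obtain ⟨z', hz', z1', z2', z3'⟩ := h2 p b l₂
  have l₃ := line_of_M h0 hz l₁ z1 z3
  have l₄ := line_of_M h0 hz' l₂ z1' z3'
  exact (conn_plane' l₁ l₃ (by rw [D.f_comm, z2])).trans
    ((conn_plane' l₃ l₄ (h1 z hz z' hz')).trans (conn_plane' l₄ l₂ z2'))

/-- A point of one line perpendicular to the other. -/
theorem conn_perp (hM : D.HasM) {p₁ r₁ p₂ r₂ : V} (l₁ : D.Line p₁ r₁) (l₂ : D.Line p₂ r₂) (h1 : D.f p₁ p₂ = 0)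
    (h2 : D.f p₁ r₂ = 0) : Relation.ReflTransGen (FAdj D.Cl) (D.T p₁ r₁) (D.T p₂ r₂) := by
  by_cases hm : p₁ ∈ Submodule.span F {p₂, r₂}
  · rw [Submodule.mem_span_pair] at hm
    obtain ⟨α, β, e⟩ := hm
    by_cases hα : α = 0
    · subst hα
      have hβ : β ≠ 0 := by
        rintro rfl
        apply l₁.p_ne
        rw [← e]
        simp
      have l₃ : D.Line p₁ p₂ := by
        refine ⟨l₁.hp, l₂.hp, h1, fun s t e' => ?_⟩
        rw [← e] at e'
        have e'' : t • p₂ + (s * β) • r₂ = 0 := by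
          rw [← e']
          module
        obtain ⟨k1, k2⟩ := l₂.li _ _ e''
        exact ⟨(mul_eq_zero.1 k2).resolve_right hβ, k1⟩
      have : D.T p₂ r₂ = D.T p₁ p₂ := by
        apply T_congr
        intro v
        rw [← e, f_add_right, f_smul_right, f_smul_right]
        simp [hβ, and_comm]
      rw [this]
      exact conn_point hM l₁ l₃
    · have l₃ : D.Line p₁ r₂ := by
        refine ⟨l₁.hp, l₂.hr, h2, fun s t e' => ?_⟩
        rw [← e] at e'
        have e'' : (s * α) • p₂ + (s * β + t) • r₂ = 0 := by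
          rw [← e']
          module
        obtain ⟨k1, k2⟩ := l₂.li _ _ e''
        have hs := (mul_eq_zero.1 k1).resolve_right hα
        subst hs
        simpa using k2
      have : D.T p₂ r₂ = D.T p₁ r₂ := by
        apply T_congr
        intro v
        rw [← e, f_add_right, f_smul_right, f_smul_right]
        constructor
        · rintro ⟨k1, k2⟩
          rw [k1, k2]
          simp
        · rintro ⟨k1, k2⟩
          rw [k2] at k1
          simp only [mul_zero, add_zero, mul_eq_zero, hα, false_or] at k1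
          exact ⟨k1, k2⟩
      rw [this]
      exact conn_point hM l₁ l₃
  · have l₃ : D.Line p₁ p₂ := by
      refine ⟨l₁.hp, l₂.hp, h1, fun s t e' => ?_⟩
      have hs : s = 0 := by
        by_contra hs
        apply hm
        rw [Submodule.mem_span_pair]
        refine ⟨-(s⁻¹ * t), 0, ?_⟩
        have h4 : s • p₁ = -(t • p₂) := eq_neg_of_add_eq_zero_left e'
        have h5 := congrArg (fun w => s⁻¹ • w) h4
        simp only [smul_smul, inv_mul_cancel₀ hs, one_smul] at h5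
        rw [h5]
        simp only [smul_neg, smul_smul, neg_smul, zero_smul, add_zero]
      subst hs
      have : t • p₂ = 0 := by simpa using e'
      exact ⟨rfl, (smul_eq_zero.1 this).resolve_right l₂.p_ne⟩
    have e1 := conn_point hM l₁ l₃
    have e2 := conn_point hM l₃.swap l₂
    rw [T_swap] at e2
    exact e1.trans e2

/-- **The graph of rank one pairs is connected.** -/
theorem connected (hM : D.HasM) : IsConnectedFamily (FAdj D.Cl) D.Cl := by
  rintro _ ⟨p₁, r₁, l₁, rfl⟩ _ ⟨p₂, r₂, l₂, rfl⟩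
  rcases normal l₁ l₂ with h | ⟨a, b, c, d, e₁, e₂, h | h⟩
  · exact conn_perp hM l₁ l₂ h.1 h.2.1
  · rw [← e₁, ← e₂]
    exact Relation.ReflTransGen.single (Adj_of_NF h)
  · rw [← e₁, ← e₂]
    exact conn_perp hM h.l₁ h.l₂ h.a h.b

end Conn

end Sys

end Cfsg.Agent.Lib.Classical.Herm.RootSiegel
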