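import Mathlib
import Cfsg.Prelude.Def_Classical
import Cfsg.Agent.Lib.Classical.Herm.RootSiegel
import Cfsg.Agent.Lib.Linalg.IsomRep

/-!
# Siegel transvection groups of the hyperbolic quadratic space
-/

set_option autoImplicit false
set_option linter.unusedSectionVars false
set_option linter.unusedVariables false

open Matrix Cfsg

namespace Cfsg.Agent.Lib.Classical.Herm.RootSiegelPlus

open Cfsg.Agent.Lib.Classical.Herm.RootSiegel

variable {n : ℕ} {F : Type*} [Field F]

local notation "QQ" => Cfsg.quadFormPlus n F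

/-- The polar form. -/
def ff (n : ℕ) (F : Type*) [Field F] (v w : Fin n ⊕ Fin n → F) : F :=
  Cfsg.quadFormPlus n F (v + w) - Cfsg.quadFormPlus n F v - Cfsg.quadFormPlus n F w

theorem ff_apply (v w : Fin n ⊕ Fin n → F) :
    ff n F v w = ∑ i, (v (.inl i) * w (.inr i) + w (.inl i) * v (.inr i)) := by
  simp only [ff, Cfsg.quadFormPlus, Pi.add_apply]
  rw [← Finset.sum_sub_distrib, ← Finset.sum_sub_distrib]
  refine Finset.sum_congr rfl fun i _ => ?_
  ring

theorem ff_add (u v w : Fin n ⊕ Fin n → F) : ff n F (u + v) w = ff n F u w + ff n F v w := by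
  simp only [ff_apply, Pi.add_apply]
  rw [← Finset.sum_add_distrib]
  refine Finset.sum_congr rfl fun i _ => ?_
  ring

theorem ff_smul (a : F) (v w : Fin n ⊕ Fin n → F) : ff n F (a • v) w = a * ff n F v w := by
  simp only [ff_apply, Pi.smul_apply, smul_eq_mul]
  rw [Finset.mul_sum]
  refine Finset.sum_congr rfl fun i _ => ?_
  ring

theorem ff_sub (u v w : Fin n ⊕ Fin n → F) : ff n F (u - v) w = ff n F u w - ff n F v w := by
  simp only [ff_apply, Pi.sub_apply]
  rw [← Finset.sum_sub_distrib]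
  refine Finset.sum_congr rfl fun i _ => ?_
  ring

theorem ff_comm (v w : Fin n ⊕ Fin n → F) : ff n F v w = ff n F w v := by
  simp only [ff_apply]
  refine Finset.sum_congr rfl fun i _ => ?_
  ring

theorem ff_smul_right (a : F) (v w : Fin n ⊕ Fin n → F) : ff n F w (a • v) = a * ff n F w v := by
  rw [ff_comm, ff_smul, ff_comm]

theorem ff_add_right (u v w : Fin n ⊕ Fin n → F) : ff n F w (u + v) = ff n F w u + ff n F w v := by
  rw [ff_comm, ff_add, ff_comm u, ff_comm v]

theorem QQ_smul (a : F) (v : Fin n ⊕ Fin n → F) : Cfsg.quadFormPlus n F (a • v) = a * a * Cfsg.quadFormPlus n F v := by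
  simp only [Cfsg.quadFormPlus, Pi.smul_apply, smul_eq_mul]
  rw [Finset.mul_sum]
  refine Finset.sum_congr rfl fun i _ => ?_
  ring

theorem QQ_add (v w : Fin n ⊕ Fin n → F) :
    Cfsg.quadFormPlus n F (v + w) = Cfsg.quadFormPlus n F v + Cfsg.quadFormPlus n F w + ff n F v w := by
  rw [ff]
  ring

/-- The form separates points and subspaces. -/
theorem exists_dual (W : Submodule F (Fin n ⊕ Fin n → F)) (v : Fin n ⊕ Fin n → F) (hv : v ∉ W) :
    ∃ u, ff n F u v = 1 ∧ ∀ w ∈ W, ff n F u w = 0 := by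
  classical
  obtain ⟨φ, h1, h2⟩ := Submodule.exists_le_ker_of_notMem hv
  have key : ∀ x : Fin n ⊕ Fin n → F, ff n F (Sum.elim (fun i => φ (Pi.single (.inr i) 1)) (fun i => φ (Pi.single (.inl i) 1))) x = φ x := by
    intro x
    have hx : x = ∑ j, x j • (Pi.single j 1 : Fin n ⊕ Fin n → F) := by
      ext k
      simp [Finset.sum_apply, Pi.single_apply]
    conv_rhs => rw [hx]
    rw [map_sum, Fintype.sum_sum_type, ff_apply, ← Finset.sum_add_distrib]
    refine Finset.sum_congr rfl fun i _ => ?_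
    simp only [map_smul, smul_eq_mul, Sum.elim_inl, Sum.elim_inr]
    ring
  refine ⟨(φ v)⁻¹ • Sum.elim (fun i => φ (Pi.single (.inr i) 1)) (fun i => φ (Pi.single (.inl i) 1)), ?_, fun w hw => ?_⟩
  · rw [ff_smul, key]
    exact inv_mul_cancel₀ h1
  · rw [ff_smul, key, (LinearMap.mem_ker.1 (h2 hw)), mul_zero]

/-- The Siegel map. -/
def LL (p r : Fin n ⊕ Fin n → F) (c : F) : (Fin n ⊕ Fin n → F) →ₗ[F] (Fin n ⊕ Fin n → F) where
  toFun v := v + c • (ff n F v r • p - ff n F v p • r)
  map_add' := by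
    intro u v
    simp only [ff_add]
    module
  map_smul' := by
    intro a v
    simp only [ff_smul, RingHom.id_apply]
    module

theorem LL_apply (p r : Fin n ⊕ Fin n → F) (c : F) (v : Fin n ⊕ Fin n → F) :
    LL p r c v = v + c • (ff n F v r • p - ff n F v p • r) := rfl

theorem LL_comp {p r : Fin n ⊕ Fin n → F} (hp : Cfsg.quadFormPlus n F p = 0) (hr : Cfsg.quadFormPlus n F r = 0)
    (hpr : ff n F p r = 0) (c d : F) : (LL p r c).comp (LL p r d) = LL p r (c + d) := by
  have h1 : ff n F p p = 0 := by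
    have : ∑ i, (p (.inl i) * p (.inr i) + p (.inl i) * p (.inr i)) = 2 * Cfsg.quadFormPlus n F p := by
      simp only [Cfsg.quadFormPlus]
      rw [Finset.mul_sum]
      refine Finset.sum_congr rfl fun i _ => ?_
      ring
    rw [ff_apply, this, hp, mul_zero]
  have h2 : ff n F r r = 0 := by
    have : ∑ i, (r (.inl i) * r (.inr i) + r (.inl i) * r (.inr i)) = 2 * Cfsg.quadFormPlus n F r := by
      simp only [Cfsg.quadFormPlus]
      rw [Finset.mul_sum]
      refine Finset.sum_congr rfl fun i _ => ?_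
      ring
    rw [ff_apply, this, hr, mul_zero]
  have h3 : ff n F r p = 0 := by rw [ff_comm, hpr]
  apply LinearMap.ext
  intro v
  have k1 : ff n F (LL p r d v) r = ff n F v r := by
    rw [LL_apply]
    simp only [ff_add, ff_smul, ff_sub, h2, h3, hpr]
    ring
  have k2 : ff n F (LL p r d v) p = ff n F v p := by
    rw [LL_apply]
    simp only [ff_add, ff_smul, ff_sub, h1, h3]
    ring
  show LL p r c (LL p r d v) = _
  rw [LL_apply p r c, k1, k2, LL_apply p r d, LL_apply p r (c + d)]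
  module

/-- The Siegel matrix. -/
noncomputable def MM (p r : Fin n ⊕ Fin n → F) (c : F) : Matrix (Fin n ⊕ Fin n) (Fin n ⊕ Fin n) F :=
  LinearMap.toMatrix' (LL p r c)

theorem MM_mulVec (p r : Fin n ⊕ Fin n → F) (c : F) (v : Fin n ⊕ Fin n → F) : MM p r c *ᵥ v = LL p r c v := by
  rw [MM, LinearMap.toMatrix'_mulVec]

theorem LL_zero (p r : Fin n ⊕ Fin n → F) : LL p r (0 : F) = LinearMap.id := by
  apply LinearMap.ext
  intro v
  rw [LL_apply]
  simp

theorem MM_mul {p r : Fin n ⊕ Fin n → F} (hp : Cfsg.quadFormPlus n F p = 0) (hr : Cfsg.quadFormPlus n F r = 0)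
    (hpr : ff n F p r = 0) (c d : F) : MM p r c * MM p r d = MM p r (c + d) := by
  rw [MM, MM, MM, ← LinearMap.toMatrix'_comp, LL_comp hp hr hpr]

theorem MM_zero (p r : Fin n ⊕ Fin n → F) : MM p r (0 : F) = 1 := by
  rw [MM, LL_zero, LinearMap.toMatrix'_id]

/-- The Siegel element of the general linear group. -/
noncomputable def GG {p r : Fin n ⊕ Fin n → F} (hp : Cfsg.quadFormPlus n F p = 0) (hr : Cfsg.quadFormPlus n F r = 0)
    (hpr : ff n F p r = 0) (c : F) : Matrix.GeneralLinearGroup (Fin n ⊕ Fin n) F where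
  val := MM p r c
  inv := MM p r (-c)
  val_inv := by rw [MM_mul hp hr hpr, add_neg_cancel, MM_zero]
  inv_val := by rw [MM_mul hp hr hpr, neg_add_cancel, MM_zero]

theorem GG_mem {p r : Fin n ⊕ Fin n → F} (hp : Cfsg.quadFormPlus n F p = 0) (hr : Cfsg.quadFormPlus n F r = 0)
    (hpr : ff n F p r = 0) (c : F) : GG hp hr hpr c ∈ Cfsg.isometryGroup F (Cfsg.quadFormPlus n F) := by
  rw [Cfsg.Agent.Lib.Linalg.IsomRep.mem_isometryGroup]
  intro v
  show Cfsg.quadFormPlus n F (MM p r c *ᵥ v) = _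
  rw [MM_mulVec, LL_apply]
  have e : c • (ff n F v r • p - ff n F v p • r) = (c * ff n F v r) • p + (-(c * ff n F v p)) • r := by module
  have e1 : ff n F ((c * ff n F v r) • p) ((-(c * ff n F v p)) • r) = 0 := by
    rw [ff_smul, ff_smul_right, hpr]
    ring
  rw [e, QQ_add, QQ_add, QQ_smul, QQ_smul, hp, hr, e1, ff_add_right, ff_smul_right, ff_smul_right]
  ring

section SysDef

variable {G : Type*} [Group G] (i : G →* Cfsg.isometryGroup F (Cfsg.quadFormPlus n F))

/-- The action on column vectors. -/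
noncomputable def actHom : G →* Module.End F (Fin n ⊕ Fin n → F) where
  toFun g := Matrix.toLin' (((i g : Cfsg.isometryGroup F (Cfsg.quadFormPlus n F)) : Matrix.GeneralLinearGroup (Fin n ⊕ Fin n) F) : Matrix (Fin n ⊕ Fin n) (Fin n ⊕ Fin n) F)
  map_one' := by
    rw [map_one]
    exact Matrix.toLin'_one
  map_mul' := by
    intro a b
    rw [map_mul]
    exact Matrix.toLin'_mul _ _

theorem actHom_apply (g : G) (v : Fin n ⊕ Fin n → F) :
    actHom i g v = (((i g : Cfsg.isometryGroup F (Cfsg.quadFormPlus n F)) : Matrix.GeneralLinearGroup (Fin n ⊕ Fin n) F) : Matrix (Fin n ⊕ Fin n) (Fin n ⊕ Fin n) F) *ᵥ v := rfl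

/-- The system attached to a group of isometries containing the Siegel elements. -/
noncomputable def sysOf (hi : Function.Injective i)
    (hT : ∀ (p r : Fin n ⊕ Fin n → F) (hp : Cfsg.quadFormPlus n F p = 0) (hr : Cfsg.quadFormPlus n F r = 0)
      (hpr : ff n F p r = 0) (c : F), ∃ g : G, ((i g : Cfsg.isometryGroup F (Cfsg.quadFormPlus n F)) : Matrix.GeneralLinearGroup (Fin n ⊕ Fin n) F) = GG hp hr hpr c) :
    Sys F (Fin n ⊕ Fin n → F) G where
  Q := Cfsg.quadFormPlus n F
  f := ff n F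
  f_def := fun _ _ => rfl
  f_add := ff_add
  f_smul := ff_smul
  f_comm := ff_comm
  Q_smul := QQ_smul
  act := actHom i
  inj := by
    intro a b h
    apply hi
    apply Subtype.ext
    apply Units.ext
    have h1 := congrArg (fun φ : Module.End F (Fin n ⊕ Fin n → F) => LinearMap.toMatrix' φ) h
    simpa [actHom] using h1
  Q_act := by
    intro g v
    rw [actHom_apply]
    exact Cfsg.Agent.Lib.Linalg.IsomRep.mem_isometryGroup.1 (i g).2 v
  dual := exists_dual
  ex := by
    intro p r hp hr hpr c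
    obtain ⟨g, hg⟩ := hT p r hp hr hpr c
    refine ⟨g, fun v => ?_⟩
    rw [actHom_apply, hg]
    exact MM_mulVec p r c v

end SysDef

/-! ### The totally singular subspace -/

/-- There is a vector of the standard maximal totally singular subspace perpendicular to a given line, outside of it. -/
theorem exists_M (hn : 3 ≤ n) {p r : Fin n ⊕ Fin n → F} (hli : ∀ s t : F, s • p + t • r = 0 → s = 0 ∧ t = 0) :
    ∃ z : Fin n ⊕ Fin n → F, (∀ i, z (.inr i) = 0) ∧ ff n F z p = 0 ∧ ff n F z r = 0 ∧ z ∉ Submodule.span F {p, r} := by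
  classical
  let A : Matrix (Fin 2) (Fin n) F := Matrix.of ![fun j => p (.inr j), fun j => r (.inr j)]
  let ι₁ : (Fin n → F) →ₗ[F] (Fin n ⊕ Fin n → F) :=
    { toFun := fun x => Sum.elim x 0
      map_add' := by
        intro x y
        ext (i | i) <;> simp
      map_smul' := by
        intro a x
        ext (i | i) <;> simp }
  let c : (Fin 2 → F) →ₗ[F] (Fin n ⊕ Fin n → F) :=
    { toFun := fun w => w 0 • p + w 1 • r
      map_add' := by
        intro x y
        simp only [Pi.add_apply]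
        module
      map_smul' := by
        intro a x
        simp only [Pi.smul_apply, RingHom.id_apply, smul_eq_mul]
        module }
  have hι : Function.Injective ι₁ := by
    intro x y h
    ext i
    exact congrFun h (.inl i)
  have hc : Function.Injective c := by
    rw [← LinearMap.ker_eq_bot, LinearMap.ker_eq_bot']
    intro w hw
    obtain ⟨h1, h2⟩ := hli _ _ hw
    ext i
    fin_cases i
    · exact h1
    · exact h2
  set K := LinearMap.ker A.mulVecLin with hK
  set R := LinearMap.ker Aᵀ.mulVecLin with hR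
  by_contra hcon
  push Not at hcon
  have hform : ∀ (x : Fin n → F) (y : Fin n ⊕ Fin n → F), ff n F (ι₁ x) y = ∑ j, x j * y (.inr j) := by
    intro x y
    rw [ff_apply]
    refine Finset.sum_congr rfl fun j _ => ?_
    have e1 : ι₁ x (.inl j) = x j := rfl
    have e2 : ι₁ x (.inr j) = 0 := rfl
    rw [e1, e2]
    ring
  have hle : K.map ι₁ ≤ R.map c := by
    rintro _ ⟨x, hx, rfl⟩
    have hx0 : A *ᵥ x = 0 := hx
    have h0 := congrFun hx0 0
    have h1 := congrFun hx0 1
    simp only [Matrix.mulVec, dotProduct, A, Matrix.of_apply, Matrix.cons_val_zero, Matrix.cons_val_one, Pi.zero_apply] at h0 h1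
    have hm := hcon (ι₁ x) (fun i => rfl) (by
      rw [hform]
      rw [← h0]
      refine Finset.sum_congr rfl fun j _ => ?_
      ring) (by
      rw [hform]
      rw [← h1]
      refine Finset.sum_congr rfl fun j _ => ?_
      ring)
    obtain ⟨s, t, e⟩ := Submodule.mem_span_pair.1 hm
    refine ⟨![s, t], ?_, ?_⟩
    · show Aᵀ *ᵥ ![s, t] = 0
      ext j
      have h2 := congrFun e (.inr j)
      have e2 : ι₁ x (.inr j) = 0 := rfl
      rw [e2] at h2
      simp only [Pi.add_apply, Pi.smul_apply, smul_eq_mul] at h2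
      simp only [Matrix.mulVec, dotProduct, Fin.sum_univ_two, Matrix.transpose_apply, A, Matrix.of_apply, Matrix.cons_val_zero,
        Matrix.cons_val_one, Pi.zero_apply]
      linear_combination h2
    · show (![s, t] : Fin 2 → F) 0 • p + (![s, t] : Fin 2 → F) 1 • r = _
      simpa using e
  have h1 : Module.finrank F (K.map ι₁) ≤ Module.finrank F (R.map c) := Submodule.finrank_mono hle
  have h2 : Module.finrank F (K.map ι₁) = Module.finrank F K := (Submodule.equivMapOfInjective ι₁ hι K).finrank_eq.symm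
  have h3 : Module.finrank F (R.map c) = Module.finrank F R := (Submodule.equivMapOfInjective c hc R).finrank_eq.symm
  have h4 := LinearMap.finrank_range_add_finrank_ker A.mulVecLin
  have h5 := LinearMap.finrank_range_add_finrank_ker Aᵀ.mulVecLin
  have h6 := Matrix.rank_transpose A
  rw [Matrix.rank, Matrix.rank] at h6
  rw [← hK] at h4
  rw [← hR] at h5
  simp only [Module.finrank_fin_fun] at h4 h5
  omega

theorem hasM (hn : 3 ≤ n) {G : Type*} [Group G] (D : Sys F (Fin n ⊕ Fin n → F) G) (hQ : D.Q = Cfsg.quadFormPlus n F)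
    (hf : D.f = ff n F) : D.HasM := by
  refine ⟨{z | ∀ i, z (.inr i) = 0}, ?_, ?_, ?_⟩
  · intro z hz
    rw [hQ]
    simp only [Cfsg.quadFormPlus]
    refine Finset.sum_eq_zero fun i _ => ?_
    rw [hz i, mul_zero]
  · intro z hz z' hz'
    rw [hf, ff_apply]
    refine Finset.sum_eq_zero fun i _ => ?_
    rw [hz i, hz' i]
    ring
  · intro p r l
    obtain ⟨z, h1, h2, h3, h4⟩ := exists_M hn l.li
    exact ⟨z, h1, by rw [hf]; exact h2, by rw [hf]; exact h3, h4⟩

/-- The literal generators. -/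
def gens (n : ℕ) (F : Type*) [Field F] (p r : Fin n ⊕ Fin n → F) : Set (Cfsg.isometryGroup F (Cfsg.quadFormPlus n F)) :=
  {σ | ∀ v : Fin n ⊕ Fin n → F,
    Cfsg.quadFormPlus n F (v + p) - Cfsg.quadFormPlus n F v - Cfsg.quadFormPlus n F p = 0 →
    Cfsg.quadFormPlus n F (v + r) - Cfsg.quadFormPlus n F v - Cfsg.quadFormPlus n F r = 0 →
      ((σ : Matrix.GeneralLinearGroup (Fin n ⊕ Fin n) F) : Matrix (Fin n ⊕ Fin n) (Fin n ⊕ Fin n) F) *ᵥ v = v}

/-- The literal set. -/
def Z (n : ℕ) (F : Type*) [Field F] : Set (Subgroup (Cfsg.isometryGroup F (Cfsg.quadFormPlus n F))) :=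
  {A | ∃ p r : Fin n ⊕ Fin n → F, LinearIndependent F ![p, r] ∧
    Cfsg.quadFormPlus n F p = 0 ∧ Cfsg.quadFormPlus n F r = 0 ∧ Cfsg.quadFormPlus n F (p + r) = 0 ∧
    A = Subgroup.closure (gens n F p r)}

theorem iSup_subgroupOf_image {Γ : Type*} [Group Γ] (Y : Set (Subgroup Γ)) :
    (⨆ A ∈ (fun A : Subgroup Γ => A.subgroupOf (⨆ B ∈ Y, B)) '' Y, A) = ⊤ := by
  apply Subgroup.map_injective (Subgroup.subtype_injective (⨆ B ∈ Y, B))
  rw [iSup_image]
  simp only [Subgroup.map_iSup]
  rw [← MonoidHom.range_eq_map, Subgroup.range_subtype]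
  refine iSup_congr fun B => iSup_congr fun hB => ?_
  exact Subgroup.map_subgroupOf_eq_of_le (le_iSup₂_of_le B hB le_rfl)

/-- **The theorem.** -/
theorem main (hn : 3 ≤ n) :
    IsKRootSubgroupSet F ((fun A : Subgroup (Cfsg.isometryGroup F (Cfsg.quadFormPlus n F)) => A.subgroupOf (⨆ B ∈ Z n F, B)) '' Z n F) ∧
      IsConnectedFamily (FAdj (Z n F)) (Z n F) := by
  classical
  -- the full isometry group
  let D₁ : Sys F (Fin n ⊕ Fin n → F) (Cfsg.isometryGroup F (Cfsg.quadFormPlus n F)) :=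
    sysOf (MonoidHom.id _) (fun _ _ h => h) (fun p r hp hr hpr c => ⟨⟨_, GG_mem hp hr hpr c⟩, rfl⟩)
  have hLine : ∀ p r : Fin n ⊕ Fin n → F, LinearIndependent F ![p, r] → Cfsg.quadFormPlus n F p = 0 →
      Cfsg.quadFormPlus n F r = 0 → Cfsg.quadFormPlus n F (p + r) = 0 → D₁.Line p r := by
    intro p r h1 h2 h3 h4
    refine ⟨h2, h3, ?_, LinearIndependent.pair_iff.1 h1⟩
    show ff n F p r = 0
    rw [ff, h2, h3, h4]
    ring
  have hLine' : ∀ p r : Fin n ⊕ Fin n → F, D₁.Line p r → LinearIndependent F ![p, r] ∧ Cfsg.quadFormPlus n F p = 0 ∧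
      Cfsg.quadFormPlus n F r = 0 ∧ Cfsg.quadFormPlus n F (p + r) = 0 := by
    intro p r l
    refine ⟨LinearIndependent.pair_iff.2 l.li, l.hp, l.hr, ?_⟩
    have h1 : ff n F p r = 0 := l.hpr
    have h2 : Cfsg.quadFormPlus n F p = 0 := l.hp
    have h3 : Cfsg.quadFormPlus n F r = 0 := l.hr
    rw [QQ_add, h1, h2, h3]
    ring
  have hCl₁ : D₁.Cl = Z n F := by
    ext A
    constructor
    · rintro ⟨p, r, l, rfl⟩
      obtain ⟨h1, h2, h3, h4⟩ := hLine' p r l
      exact ⟨p, r, h1, h2, h3, h4, rfl⟩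
    · rintro ⟨p, r, h1, h2, h3, h4, rfl⟩
      exact ⟨p, r, hLine p r h1 h2 h3 h4, rfl⟩
  -- the generated subgroup
  let G₀ := ⨆ B ∈ Z n F, B
  have hT0 : ∀ (p r : Fin n ⊕ Fin n → F) (hp : Cfsg.quadFormPlus n F p = 0) (hr : Cfsg.quadFormPlus n F r = 0)
      (hpr : ff n F p r = 0) (c : F), ∃ g : G₀, ((G₀.subtype g : Cfsg.isometryGroup F (Cfsg.quadFormPlus n F)) : Matrix.GeneralLinearGroup (Fin n ⊕ Fin n) F) = GG hp hr hpr c := by
    intro p r hp hr hpr c
    by_cases hli : ∀ s t : F, s • p + t • r = 0 → s = 0 ∧ t = 0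
    · have l : D₁.Line p r := ⟨hp, hr, hpr, hli⟩
      obtain ⟨h1, h2, h3, h4⟩ := hLine' p r l
      have hmem : (⟨_, GG_mem hp hr hpr c⟩ : Cfsg.isometryGroup F (Cfsg.quadFormPlus n F)) ∈ G₀ := by
        refine (le_iSup₂_of_le (Subgroup.closure (gens n F p r)) ⟨p, r, h1, h2, h3, h4, rfl⟩ le_rfl :
          Subgroup.closure (gens n F p r) ≤ G₀) (Subgroup.subset_closure ?_)
        intro v hv hv'
        show MM p r c *ᵥ v = v
        rw [MM_mulVec, LL_apply]
        have e1 : ff n F v p = 0 := hv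
        have e2 : ff n F v r = 0 := hv'
        rw [e1, e2]
        simp
      exact ⟨⟨_, hmem⟩, rfl⟩
    · refine ⟨1, ?_⟩
      apply Units.ext
      show (1 : Matrix (Fin n ⊕ Fin n) (Fin n ⊕ Fin n) F) = MM p r c
      push Not at hli
      obtain ⟨s, t, e, hst⟩ := hli
      have hz : ∀ v : Fin n ⊕ Fin n → F, ff n F v r • p - ff n F v p • r = 0 := by
        intro v
        by_cases hs : s = 0
        · subst hs
          have ht : t ≠ 0 := fun ht => hst rfl ht
          have : r = 0 := by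
            have : t • r = 0 := by simpa using e
            exact (smul_eq_zero.1 this).resolve_left ht
          rw [this]
          have : ff n F v 0 = 0 := by
            have := ff_smul_right (0 : F) 0 v
            simpa using this
          rw [this]
          simp
        · have hp' : p = (-(s⁻¹ * t)) • r := by
            have h4 : s • p = -(t • r) := eq_neg_of_add_eq_zero_left e
            have h5 := congrArg (fun w => s⁻¹ • w) h4
            simp only [smul_smul, inv_mul_cancel₀ hs, one_smul] at h5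
            rw [h5]
            simp only [smul_neg, smul_smul, neg_smul]
          rw [hp', ff_smul_right]
          module
      have hL : LL p r c = LinearMap.id := by
        apply LinearMap.ext
        intro v
        rw [LL_apply, hz]
        simp
      rw [MM, hL, LinearMap.toMatrix'_id]
  let D₀ : Sys F (Fin n ⊕ Fin n → F) G₀ := sysOf G₀.subtype (Subgroup.subtype_injective _) hT0
  have hsub : ∀ p r, ∀ l : D₁.Line p r, (D₁.T p r).subgroupOf G₀ = D₀.T p r := by
    intro p r l
    have l₀ : D₀.Line p r := ⟨l.hp, l.hr, l.hpr, l.li⟩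
    ext g
    rw [Subgroup.mem_subgroupOf, Sys.mem_T l, Sys.mem_T l₀]
    exact Iff.rfl
  have hCl₀ : (fun A : Subgroup (Cfsg.isometryGroup F (Cfsg.quadFormPlus n F)) => A.subgroupOf (⨆ B ∈ Z n F, B)) '' Z n F = D₀.Cl := by
    ext A
    constructor
    · rintro ⟨B, hB, rfl⟩
      rw [← hCl₁] at hB
      obtain ⟨p, r, l, rfl⟩ := hB
      exact ⟨p, r, ⟨l.hp, l.hr, l.hpr, l.li⟩, hsub p r l⟩
    · rintro ⟨p, r, l, rfl⟩
      have l₁ : D₁.Line p r := ⟨l.hp, l.hr, l.hpr, l.li⟩
      exact ⟨_, (by rw [← hCl₁]; exact ⟨p, r, l₁, rfl⟩), hsub p r l₁⟩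
  have hgen : (⨆ A ∈ D₀.Cl, A) = ⊤ := by
    rw [← hCl₀]
    exact iSup_subgroupOf_image _
  refine ⟨?_, ?_⟩
  · rw [hCl₀]
    exact D₀.main hgen
  · rw [← hCl₁]
    exact D₁.connected (hasM hn D₁ rfl rfl)

end Cfsg.Agent.Lib.Classical.Herm.RootSiegelPlus
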