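import Mathlib
import Cfsg.Prelude.Def_RootSubgroups

/-!
# Transvection groups of a skew-Hermitian space as a degenerate class of abstract root subgroups

The data: a field `K` with an involution `σ` with fixed field `L`, a `K`-space `V` with a skew-Hermitian form `f`, and a
group `G` acting faithfully and isometrically, which contains every transvection `v ↦ v + c f(v, p) p` with `c ∈ L`
and `p` isotropic.  The transvection groups `T p` form a degenerate class of `L`-root subgroups.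
-/

set_option autoImplicit false
set_option linter.unusedSectionVars false

open Cfsg

namespace Cfsg.Agent.Lib.Classical.Herm.RootTv

/-- The data of a skew-Hermitian space with a group containing the transvections. -/
structure Sys (K L V G : Type*) [Field K] [Field L] [AddCommGroup V] [Module K V] [Group G] where
  σ : K →+* K
  σσ : ∀ x, σ (σ x) = x
  ι : L →+* K
  σι : ∀ y, σ (ι y) = ι y
  fix : ∀ x, σ x = x → ∃ y, ι y = x
  f : V → V → K
  f_add : ∀ u v w, f (u + v) w = f u w + f v w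
  f_smul : ∀ (a : K) v w, f (a • v) w = a * f v w
  f_symm : ∀ v w, f w v = - σ (f v w)
  act : G →* Module.End K V
  inj : Function.Injective act
  f_act : ∀ g v w, f (act g v) (act g w) = f v w
  nondeg : ∀ p, p ≠ 0 → ∃ v, f v p ≠ 0
  ex : ∀ p, f p p = 0 → ∀ c, ∃ g, ∀ v, act g v = v + (ι c * f v p) • p

variable {K L V G : Type*} [Field K] [Field L] [AddCommGroup V] [Module K V] [Group G] (D : Sys K L V G)

namespace Sys

theorem f_add_right (u v w : V) : D.f w (u + v) = D.f w u + D.f w v := by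
  rw [D.f_symm (u + v) w, D.f_add, map_add, neg_add, ← D.f_symm, ← D.f_symm]

theorem f_smul_right (a : K) (v w : V) : D.f w (a • v) = D.σ a * D.f w v := by
  rw [D.f_symm (a • v) w, D.f_smul, map_mul, D.f_symm v w]
  ring

theorem f_zero_left (w : V) : D.f 0 w = 0 := by
  have := D.f_smul 0 0 w
  simpa using this

theorem f_zero_right (w : V) : D.f w 0 = 0 := by
  have := D.f_smul_right 0 0 w
  simpa using this

theorem f_eq_zero_symm {v w : V} (h : D.f v w = 0) : D.f w v = 0 := by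
  rw [D.f_symm v w, h]
  simp

theorem act_mul (g h : G) (v : V) : D.act (g * h) v = D.act g (D.act h v) := by
  rw [map_mul, Module.End.mul_apply]

theorem act_one (v : V) : D.act 1 v = v := by
  rw [map_one, Module.End.one_apply]

theorem act_inv_act (g : G) (v : V) : D.act g⁻¹ (D.act g v) = v := by
  rw [← act_mul, inv_mul_cancel, act_one]

theorem act_act_inv (g : G) (v : V) : D.act g (D.act g⁻¹ v) = v := by
  rw [← act_mul, mul_inv_cancel, act_one]

theorem act_eq_zero {g : G} {v : V} (h : D.act g v = 0) : v = 0 := by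
  rw [← act_inv_act D g v, h, map_zero]

theorem f_act_inv (g : G) (v w : V) : D.f (D.act g⁻¹ v) w = D.f v (D.act g w) := by
  rw [← D.f_act g (D.act g⁻¹ v) w, act_act_inv]

/-- The generators of a transvection group. -/
def TS (p : V) : Set G := {g | ∃ c, ∀ v, D.act g v = v + (D.ι c * D.f v p) • p}

/-- The transvection group. -/
def T (p : V) : Subgroup G := Subgroup.closure (D.TS p)

theorem TS_mul {p : V} (hp : D.f p p = 0) {g h : G} (hg : g ∈ D.TS p) (hh : h ∈ D.TS p) : g * h ∈ D.TS p := by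
  obtain ⟨c, hc⟩ := hg
  obtain ⟨d, hd⟩ := hh
  refine ⟨c + d, fun v => ?_⟩
  rw [act_mul, hd, hc, D.f_add, D.f_smul, hp, map_add]
  module

theorem TS_one (p : V) : (1 : G) ∈ D.TS p := by
  refine ⟨0, fun v => ?_⟩
  rw [act_one]
  simp

theorem TS_inv {p : V} (hp : D.f p p = 0) {g : G} (hg : g ∈ D.TS p) : g⁻¹ ∈ D.TS p := by
  obtain ⟨c, hc⟩ := hg
  refine ⟨-c, fun v => ?_⟩
  apply (show Function.Injective (D.act g) from fun a b e => by
    have := congrArg (D.act g⁻¹) e
    rwa [act_inv_act, act_inv_act] at this)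
  rw [act_act_inv, hc, D.f_add, D.f_smul, hp, map_neg]
  simp only [neg_mul, neg_smul, mul_zero, add_zero, map_add, map_neg, map_smul]
  abel

theorem mem_T {p : V} (hp : D.f p p = 0) {g : G} : g ∈ D.T p ↔ g ∈ D.TS p := by
  constructor
  · intro h
    induction h using Subgroup.closure_induction with
    | mem x hx => exact hx
    | one => exact D.TS_one p
    | mul x y _ _ hx hy => exact D.TS_mul hp hx hy
    | inv x _ hx => exact D.TS_inv hp hx
  · exact fun h => Subgroup.subset_closure h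

theorem TS_smul {p : V} {a : K} (ha : a ≠ 0) : D.TS (a • p) = D.TS p := by
  have hfix : D.σ (D.σ a * a) = D.σ a * a := by
    rw [map_mul, D.σσ, mul_comm]
  obtain ⟨μ, hμ⟩ := D.fix _ hfix
  have hσ : D.σ a ≠ 0 := by
    intro h
    apply ha
    have := D.σσ a
    rw [h, map_zero] at this
    exact this.symm
  have hμ0 : μ ≠ 0 := by
    rintro rfl
    rw [map_zero] at hμ
    exact mul_ne_zero hσ ha hμ.symm
  ext g
  constructor
  · rintro ⟨c, hc⟩
    refine ⟨c * μ, fun v => ?_⟩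
    rw [hc, D.f_smul_right, map_mul, hμ, smul_smul]
    congr 2
    ring
  · rintro ⟨c, hc⟩
    refine ⟨c * μ⁻¹, fun v => ?_⟩
    rw [hc, D.f_smul_right, map_mul, map_inv₀, hμ, smul_smul]
    congr 2
    field_simp

theorem T_smul {p : V} {a : K} (ha : a ≠ 0) : D.T (a • p) = D.T p := by
  rw [T, T, D.TS_smul ha]

theorem conj_mem_TS {p : V} {x : G} (hx : x ∈ D.TS p) (g : G) : g * x * g⁻¹ ∈ D.TS (D.act g p) := by
  obtain ⟨c, hc⟩ := hx
  refine ⟨c, fun v => ?_⟩
  rw [act_mul, act_mul, hc, map_add, map_smul, act_act_inv, f_act_inv]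

theorem conj_T (p : V) (g : G) : conjBy (D.T p) g = D.T (D.act g p) := by
  rw [conjBy, T, T, MonoidHom.map_closure]
  congr 1
  ext y
  constructor
  · rintro ⟨x, hx, rfl⟩
    exact D.conj_mem_TS hx g
  · intro hy
    refine ⟨g⁻¹ * y * g, ?_, by simp [mul_assoc]⟩
    have := D.conj_mem_TS hy g⁻¹
    rw [act_inv_act, inv_inv] at this
    exact this

theorem comm_of_perp {p r : V} (hp : D.f p p = 0) (hr : D.f r r = 0) (h : D.f p r = 0) {a b : G}
    (ha : a ∈ D.T p) (hb : b ∈ D.T r) : a * b = b * a := by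
  obtain ⟨c, hc⟩ := (D.mem_T hp).1 ha
  obtain ⟨d, hd⟩ := (D.mem_T hr).1 hb
  have h' := D.f_eq_zero_symm h
  apply D.inj
  ext v
  rw [act_mul, act_mul, hd, hc, hc, hd, D.f_add, D.f_add, D.f_smul, D.f_smul, h, h']
  simp only [mul_zero, add_zero]
  abel

theorem T_comm {p : V} (hp : D.f p p = 0) {a b : G} (ha : a ∈ D.T p) (hb : b ∈ D.T p) : a * b = b * a :=
  D.comm_of_perp hp hp hp ha hb

theorem T_isMulCommutative {p : V} (hp : D.f p p = 0) : IsMulCommutative (D.T p) := by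
  refine ⟨⟨fun a b => ?_⟩⟩
  exact Subtype.ext (D.T_comm hp a.2 b.2)

theorem T_nilpotent {p : V} (hp : D.f p p = 0) : Group.IsNilpotent (D.T p) := by
  haveI := D.T_isMulCommutative hp
  letI : CommGroup (D.T p) := { (inferInstance : Group (D.T p)) with mul_comm := fun a b => mul_comm' a b }
  exact CommGroup.isNilpotent

theorem act_TS_ne {p : V} (hp0 : p ≠ 0) {g : G} {c : L} (hc : ∀ v, D.act g v = v + (D.ι c * D.f v p) • p)
    (h : g = 1 ) : c = 0 := by
  obtain ⟨v, hv⟩ := D.nondeg p hp0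
  have h1 := hc v
  rw [h, act_one] at h1
  have h2 : (D.ι c * D.f v p) • p = 0 := by
    have := h1.symm
    simpa using this
  rcases smul_eq_zero.1 h2 with h3 | h3
  · rcases mul_eq_zero.1 h3 with h4 | h4
    · exact (map_eq_zero D.ι).1 h4
    · exact absurd h4 hv
  · exact absurd h3 hp0

theorem T_ne_bot {p : V} (hp : D.f p p = 0) (hp0 : p ≠ 0) : D.T p ≠ ⊥ := by
  obtain ⟨g, hg⟩ := D.ex p hp 1
  intro h
  have h1 : g ∈ D.T p := (D.mem_T hp).2 ⟨1, hg⟩
  rw [h, Subgroup.mem_bot] at h1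
  have := D.act_TS_ne hp0 hg h1
  exact one_ne_zero this

/-! ### The hyperbolic pairs -/

section Hyp

variable {D} {p r : V}

theorem f_rp (h : D.f p r = 1) : D.f r p = -1 := by
  rw [D.f_symm p r, h, map_one]

/-- The rank one condition for a hyperbolic pair. -/
theorem cond_hyp (hp : D.f p p = 0) (hr : D.f r r = 0) (hp0 : p ≠ 0) (hpr : D.f p r = 1) :
    RankOneCondition (D.T p) (D.T r) := by
  have hrp := f_rp hpr
  have hr0 : r ≠ 0 := by
    rintro rfl
    rw [D.f_zero_right] at hpr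
    exact zero_ne_one hpr
  intro a ha ha1
  obtain ⟨c, hc⟩ := (D.mem_T hp).1 ha
  have hc0 : c ≠ 0 := by
    rintro rfl
    apply ha1
    apply D.inj
    ext v
    rw [hc, map_one, Module.End.one_apply]
    simp
  obtain ⟨b, hb⟩ := D.ex r hr (-c⁻¹)
  have hb1 : b ≠ 1 := by
    intro h
    have := D.act_TS_ne hr0 hb h
    exact neg_ne_zero.2 (inv_ne_zero hc0) this
  refine ⟨b, (D.mem_T hr).2 ⟨_, hb⟩, hb1, ?_⟩
  have hιc : D.ι c ≠ 0 := (map_ne_zero D.ι).2 hc0
  have e1 : D.act a⁻¹ r = r + D.ι c • p := by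
    have : D.act a (r + D.ι c • p) = r := by
      rw [hc, D.f_add, D.f_smul, hp, hrp]
      module
    have h9 := congrArg (D.act a⁻¹) this
    rw [act_inv_act] at h9
    exact h9.symm
  have e2 : D.act b⁻¹ p = (D.ι c)⁻¹ • (r + D.ι c • p) := by
    have : D.act b ((D.ι c)⁻¹ • (r + D.ι c • p)) = p := by
      rw [hb, D.f_smul, D.f_add, D.f_smul, hr, hpr]
      rw [map_neg, map_inv₀]
      have e : (-(D.ι c)⁻¹ * ((D.ι c)⁻¹ * (0 + D.ι c * 1))) = -(D.ι c)⁻¹ := by
        field_simp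
        simp
      rw [e, smul_add, smul_smul, inv_mul_cancel₀ hιc, one_smul, neg_smul]
      abel
    have h9 := congrArg (D.act b⁻¹) this
    rw [act_inv_act] at h9
    exact h9.symm
  rw [D.conj_T, D.conj_T, e1, e2, D.T_smul (inv_ne_zero hιc)]

/-- The linear action of a matrix on the hyperbolic line. -/
def MM (D : Sys K L V G) (p r : V) (A : Matrix (Fin 2) (Fin 2) L) (v : V) : V :=
  v + ((D.ι (A 0 0) - 1) * D.f v r - D.ι (A 0 1) * D.f v p) • p +
    (D.ι (A 1 0) * D.f v r - (D.ι (A 1 1) - 1) * D.f v p) • r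

theorem MM_mul (hp : D.f p p = 0) (hr : D.f r r = 0) (hpr : D.f p r = 1) (A B : Matrix (Fin 2) (Fin 2) L) (v : V) :
    D.MM p r (A * B) v = D.MM p r A (D.MM p r B v) := by
  have hrp := f_rp hpr
  simp only [MM, Matrix.mul_apply, Fin.sum_univ_two, map_add, map_mul]
  simp only [D.f_add, D.f_smul, hp, hr, hpr, hrp, mul_zero, mul_one, add_zero, mul_neg, sub_neg_eq_add]
  module

theorem MM_one (A : Matrix (Fin 2) (Fin 2) L) (h00 : A 0 0 = 1) (h01 : A 0 1 = 0) (h10 : A 1 0 = 0) (h11 : A 1 1 = 1)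
    (v : V) : D.MM p r A v = v := by
  simp [MM, h00, h01, h10, h11]

/-- The upper unitriangular matrices. -/
def xx (t : L) : Matrix.SpecialLinearGroup (Fin 2) L := ⟨!![1, t; 0, 1], by simp [Matrix.det_fin_two]⟩

/-- The lower unitriangular matrices. -/
def yy (t : L) : Matrix.SpecialLinearGroup (Fin 2) L := ⟨!![1, 0; t, 1], by simp [Matrix.det_fin_two]⟩

theorem val_mul (a b : Matrix.SpecialLinearGroup (Fin 2) L) : (a * b).1 = a.1 * b.1 := rfl

theorem val_xx (t : L) : (xx t).1 = !![1, t; 0, 1] := rfl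

theorem val_yy (t : L) : (yy t).1 = !![1, 0; t, 1] := rfl

theorem sl2_induction {P : Matrix.SpecialLinearGroup (Fin 2) L → Prop} (h1 : P 1)
    (hmul : ∀ a b, P a → P b → P (a * b)) (hx : ∀ t, P (xx t)) (hy : ∀ t, P (yy t))
    (g : Matrix.SpecialLinearGroup (Fin 2) L) : P g := by
  have key : ∀ g : Matrix.SpecialLinearGroup (Fin 2) L, g.1 1 0 ≠ 0 → P g := by
    intro g hc
    have e : g = xx ((g.1 0 0 - 1) / g.1 1 0) * yy (g.1 1 0) * xx ((g.1 1 1 - 1) / g.1 1 0) := by
      have hdet := g.2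
      rw [Matrix.det_fin_two] at hdet
      apply Subtype.ext
      ext i j
      fin_cases i <;> fin_cases j <;>
        simp [val_mul, val_xx, val_yy, Matrix.mul_apply, Fin.sum_univ_two]
      · field_simp
        ring
      · field_simp
        linear_combination -hdet
      · field_simp
        ring
    rw [e]
    exact hmul _ _ (hmul _ _ (hx _) (hy _)) (hx _)
  by_cases hc : g.1 1 0 = 0
  · have hdet := g.2
    rw [Matrix.det_fin_two, hc, mul_zero, sub_zero] at hdet
    have ha : g.1 0 0 ≠ 0 := left_ne_zero_of_mul_eq_one hdet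
    have e : g = yy (-1) * (yy 1 * g) := by
      apply Subtype.ext
      ext i j
      fin_cases i <;> fin_cases j <;>
        simp [val_mul, val_yy, Matrix.mul_apply, Fin.sum_univ_two, Matrix.vecMul, dotProduct]
    rw [e]
    refine hmul _ _ (hy _) (key _ ?_)
    simp [val_mul, val_yy, Matrix.mul_apply, Fin.sum_univ_two, hc, ha]
  · exact key g hc

theorem exists_MM (hp : D.f p p = 0) (hr : D.f r r = 0) (hpr : D.f p r = 1) (g : Matrix.SpecialLinearGroup (Fin 2) L) :
    ∃ x : G, ∀ v, D.act x v = D.MM p r g.1 v := by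
  induction g using sl2_induction with
  | h1 =>
    refine ⟨1, fun v => ?_⟩
    rw [act_one, MM_one] <;> simp
  | hmul a b ha hb =>
    obtain ⟨x, hx⟩ := ha
    obtain ⟨y, hy⟩ := hb
    refine ⟨x * y, fun v => ?_⟩
    rw [act_mul, hy, hx, Matrix.SpecialLinearGroup.coe_mul, MM_mul hp hr hpr]
  | hx t =>
    obtain ⟨x, hx⟩ := D.ex p hp (-t)
    refine ⟨x, fun v => ?_⟩
    rw [hx]
    simp only [MM, xx, Matrix.of_apply, Matrix.cons_val', Matrix.cons_val_zero, Matrix.cons_val_one, map_neg, map_one, map_zero]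
    simp
  | hy t =>
    obtain ⟨x, hx⟩ := D.ex r hr t
    refine ⟨x, fun v => ?_⟩
    rw [hx]
    simp only [MM, yy, Matrix.of_apply, Matrix.cons_val', Matrix.cons_val_zero, Matrix.cons_val_one, map_neg, map_one, map_zero]
    simp

/-- The homomorphism from `SL₂(L)`. -/
noncomputable def phi (hp : D.f p p = 0) (hr : D.f r r = 0) (hpr : D.f p r = 1) :
    Matrix.SpecialLinearGroup (Fin 2) L →* G :=
  MonoidHom.mk' (fun g => Classical.choose (exists_MM hp hr hpr g)) (by
    intro a b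
    apply D.inj
    ext v
    rw [act_mul, Classical.choose_spec (exists_MM hp hr hpr (a * b)) v,
      Classical.choose_spec (exists_MM hp hr hpr b) v, Classical.choose_spec (exists_MM hp hr hpr a),
      Matrix.SpecialLinearGroup.coe_mul, MM_mul hp hr hpr])

theorem act_phi (hp : D.f p p = 0) (hr : D.f r r = 0) (hpr : D.f p r = 1) (g : Matrix.SpecialLinearGroup (Fin 2) L)
    (v : V) : D.act (phi hp hr hpr g) v = D.MM p r g.1 v :=
  Classical.choose_spec (exists_MM hp hr hpr g) v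

theorem phi_inj (hp : D.f p p = 0) (hr : D.f r r = 0) (hpr : D.f p r = 1) :
    Function.Injective (phi (D := D) hp hr hpr) := by
  rw [injective_iff_map_eq_one]
  intro g hg
  have hrp := f_rp hpr
  have h1 : ∀ v, D.MM p r g.1 v = v := by
    intro v
    rw [← act_phi hp hr hpr, hg, act_one]
  have hp' := h1 p
  have hr' := h1 r
  simp only [MM, hp, hr, hpr, hrp, mul_zero, mul_one, sub_zero, mul_neg, sub_neg_eq_add, add_zero, zero_add] at hp' hr'
  have a1 : (D.ι (g.1 0 0) - 1) • p + D.ι (g.1 1 0) • r = 0 := by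
    have : p + (D.ι (g.1 0 0) - 1) • p + D.ι (g.1 1 0) • r = p + ((D.ι (g.1 0 0) - 1) • p + D.ι (g.1 1 0) • r) := by abel
    rw [this] at hp'
    simpa using hp'
  have a2 : D.ι (g.1 0 1) • p + (D.ι (g.1 1 1) - 1) • r = 0 := by
    have : r + D.ι (g.1 0 1) • p + (D.ι (g.1 1 1) - 1) • r = r + (D.ι (g.1 0 1) • p + (D.ι (g.1 1 1) - 1) • r) := by abel
    rw [this] at hr'
    simpa using hr'
  have b1 := congrArg (fun w => D.f w r) a1
  have b2 := congrArg (fun w => D.f w p) a1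
  have b3 := congrArg (fun w => D.f w r) a2
  have b4 := congrArg (fun w => D.f w p) a2
  simp only [D.f_add, D.f_smul, hp, hr, hpr, hrp, mul_zero, mul_one, add_zero, zero_add, D.f_zero_left, mul_neg,
    neg_eq_zero] at b1 b2 b3 b4
  have e00 : g.1 0 0 = 1 := by
    have : D.ι (g.1 0 0) = D.ι 1 := by
      rw [map_one]
      exact sub_eq_zero.1 b1
    exact D.ι.injective this
  have e11 : g.1 1 1 = 1 := by
    have : D.ι (g.1 1 1) = D.ι 1 := by
      rw [map_one]
      have : D.ι (g.1 1 1) - 1 = 0 := b4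
      exact sub_eq_zero.1 this
    exact D.ι.injective this
  have e10 : g.1 1 0 = 0 := (map_eq_zero D.ι).1 b2
  have e01 : g.1 0 1 = 0 := (map_eq_zero D.ι).1 b3
  apply Subtype.ext
  ext i j
  fin_cases i <;> fin_cases j <;> simp [e00, e01, e10, e11]

theorem map_upper (hp : D.f p p = 0) (hr : D.f r r = 0) (hpr : D.f p r = 1) :
    (upperUnipotentSL2 L).map (phi (D := D) hp hr hpr) = D.T p := by
  rw [upperUnipotentSL2, T, MonoidHom.map_closure]
  congr 1
  ext y
  constructor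
  · rintro ⟨g, ⟨h10, h00, h11⟩, rfl⟩
    refine ⟨-g.1 0 1, fun v => ?_⟩
    rw [act_phi]
    simp only [MM, h10, h00, h11, map_one, map_zero, map_neg]
    simp
  · rintro ⟨c, hc⟩
    refine ⟨xx (-c), ⟨by simp [xx], by simp [xx], by simp [xx]⟩, ?_⟩
    apply D.inj
    ext v
    rw [act_phi, hc]
    simp [MM, xx]

theorem map_lower (hp : D.f p p = 0) (hr : D.f r r = 0) (hpr : D.f p r = 1) :
    (lowerUnipotentSL2 L).map (phi (D := D) hp hr hpr) = D.T r := by
  rw [lowerUnipotentSL2, T, MonoidHom.map_closure]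
  congr 1
  ext y
  constructor
  · rintro ⟨g, ⟨h01, h00, h11⟩, rfl⟩
    refine ⟨g.1 1 0, fun v => ?_⟩
    rw [act_phi]
    simp only [MM, h01, h00, h11, map_one, map_zero]
    simp
  · rintro ⟨c, hc⟩
    refine ⟨yy c, ⟨by simp [yy], by simp [yy], by simp [yy]⟩, ?_⟩
    apply D.inj
    ext v
    rw [act_phi, hc]
    simp [MM, yy]

theorem xx_mem_upper (t : L) : xx t ∈ upperUnipotentSL2 L :=
  Subgroup.subset_closure ⟨by simp [xx], by simp [xx], by simp [xx]⟩

theorem yy_mem_lower (t : L) : yy t ∈ lowerUnipotentSL2 L :=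
  Subgroup.subset_closure ⟨by simp [yy], by simp [yy], by simp [yy]⟩

theorem psl2_hyp (hp : D.f p p = 0) (hr : D.f r r = 0) (hpr : D.f p r = 1) :
    IsPSL2PairOver L (D.T p) (D.T r) := by
  refine ⟨phi hp hr hpr, ?_, ?_, map_upper hp hr hpr, map_lower hp hr hpr⟩
  · apply le_antisymm
    · rintro _ ⟨g, rfl⟩
      induction g using sl2_induction with
      | h1 =>
        rw [map_one]
        exact one_mem _
      | hmul a b ha hb =>
        rw [map_mul]
        exact mul_mem ha hb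
      | hx t =>
        refine Subgroup.mem_sup_left ?_
        rw [← map_upper hp hr hpr]
        exact ⟨_, xx_mem_upper t, rfl⟩
      | hy t =>
        refine Subgroup.mem_sup_right ?_
        rw [← map_lower hp hr hpr]
        exact ⟨_, yy_mem_lower t, rfl⟩
    · refine sup_le ?_ ?_
      · rw [← map_upper hp hr hpr]
        rintro _ ⟨g, -, rfl⟩
        exact ⟨g, rfl⟩
      · rw [← map_lower hp hr hpr]
        rintro _ ⟨g, -, rfl⟩
        exact ⟨g, rfl⟩
  · intro g hg
    have : g = 1 := phi_inj hp hr hpr (by rw [hg, map_one])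
    rw [this]
    exact one_mem _

/-- The commutator does not commute. -/
theorem not_central_hyp (hp : D.f p p = 0) (hr : D.f r r = 0) (hpr : D.f p r = 1) :
    ¬ ∀ c ∈ ⁅D.T p, D.T r⁆, ∀ x ∈ D.T p ⊔ D.T r, c * x = x * c := by
  intro h
  have hx : phi (D := D) hp hr hpr (xx 1) ∈ D.T p := by
    rw [← map_upper hp hr hpr]
    exact ⟨_, xx_mem_upper 1, rfl⟩
  have hy : phi (D := D) hp hr hpr (yy 1) ∈ D.T r := by
    rw [← map_lower hp hr hpr]
    exact ⟨_, yy_mem_lower 1, rfl⟩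
  have h1 := h _ (Subgroup.commutator_mem_commutator hx hy) _ (Subgroup.mem_sup_right hy)
  rw [commutatorElement_def, ← map_inv, ← map_inv, ← map_mul, ← map_mul, ← map_mul, ← map_mul, ← map_mul] at h1
  have h2 := phi_inj hp hr hpr h1
  have ex : (xx (1 : L))⁻¹ = xx (-1) := by
    rw [inv_eq_iff_mul_eq_one]
    apply Subtype.ext
    ext i j
    fin_cases i <;> fin_cases j <;> simp [val_mul, val_xx, Matrix.mul_apply, Fin.sum_univ_two]
  have ey : (yy (1 : L))⁻¹ = yy (-1) := by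
    rw [inv_eq_iff_mul_eq_one]
    apply Subtype.ext
    ext i j
    fin_cases i <;> fin_cases j <;> simp [val_mul, val_yy, Matrix.mul_apply, Fin.sum_univ_two]
  rw [ex, ey] at h2
  have h3 := congrArg (fun g : Matrix.SpecialLinearGroup (Fin 2) L => g.1 0 0) h2
  simp [val_mul, val_xx, val_yy, Matrix.mul_apply, Fin.sum_univ_two] at h3

end Hyp

section Main

variable {D} {p r : V}

theorem exists_hyp (hr : D.f r r = 0) (h : D.f p r ≠ 0) :
    ∃ r', D.f r' r' = 0 ∧ D.f p r' = 1 ∧ D.T r' = D.T r := by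
  have ha : D.σ (D.f p r)⁻¹ ≠ 0 := (map_ne_zero D.σ).2 (inv_ne_zero h)
  refine ⟨D.σ (D.f p r)⁻¹ • r, ?_, ?_, D.T_smul ha⟩
  · rw [D.f_smul, D.f_smul_right, hr]
    ring
  · rw [D.f_smul_right, D.σσ]
    exact inv_mul_cancel₀ h

theorem T_ne_of_hyp (hp0 : p ≠ 0) (hp : D.f p p = 0) (hr : D.f r r = 0) (hpr : D.f p r = 1) : D.T p ≠ D.T r := by
  intro e
  obtain ⟨g, hg⟩ := D.ex p hp 1
  have h1 : g ∈ D.T r := by
    rw [← e]
    exact (D.mem_T hp).2 ⟨1, hg⟩
  obtain ⟨c, hc⟩ := (D.mem_T hr).1 h1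
  have h2 := hc r
  rw [hg, f_rp hpr, hr] at h2
  simp only [map_one, one_mul, mul_zero, zero_smul, add_zero, add_eq_left, neg_smul, one_smul, neg_eq_zero] at h2
  exact hp0 h2

theorem rankOne (hp0 : p ≠ 0) (hp : D.f p p = 0) (hr : D.f r r = 0) (h : D.f p r ≠ 0) : IsRankOnePair (D.T p) (D.T r) := by
  obtain ⟨r', hr', hpr', e⟩ := exists_hyp hr h
  rw [← e]
  have hr0 : r' ≠ 0 := by
    rintro rfl
    rw [D.f_zero_right] at hpr'
    exact zero_ne_one hpr'
  have h1 : D.f r' ((-1 : K) • p) = 1 := by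
    rw [D.f_smul_right, f_rp hpr', map_neg, map_one]
    ring
  have h2 : D.f ((-1 : K) • p) ((-1 : K) • p) = 0 := by
    rw [D.f_smul, D.f_smul_right, hp]
    ring
  have h3 := cond_hyp hr' h2 hr0 h1
  rw [D.T_smul (neg_ne_zero.2 one_ne_zero)] at h3
  exact ⟨T_ne_of_hyp hp0 hp hr' hpr', D.T_nilpotent hp, D.T_nilpotent hr', cond_hyp hp hr' hp0 hpr', h3⟩

theorem psl2_of_ne (hp : D.f p p = 0) (hr : D.f r r = 0) (h : D.f p r ≠ 0) : IsPSL2PairOver L (D.T p) (D.T r) := by
  obtain ⟨r', hr', hpr', e⟩ := exists_hyp hr h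
  rw [← e]
  exact psl2_hyp hp hr' hpr'

/-- The members of the class. -/
def Cl (D : Sys K L V G) : Set (Subgroup G) := {A | ∃ p, p ≠ 0 ∧ D.f p p = 0 ∧ A = D.T p}

theorem comm_bot (hp : D.f p p = 0) (hr : D.f r r = 0) (h : D.f p r = 0) : ⁅D.T p, D.T r⁆ = ⊥ := by
  rw [Subgroup.commutator_eq_bot_iff_le_centralizer]
  intro a ha
  rw [Subgroup.mem_centralizer_iff]
  intro b hb
  exact (D.comm_of_perp hp hr h ha hb).symm

theorem conjBy_self_of_comm {A : Subgroup G} {g : G} (h : ∀ a ∈ A, a * g = g * a) : conjBy A g = A := by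
  have key : ∀ a ∈ A, (MulAut.conj g).toMonoidHom a = a := by
    intro a ha
    simp only [MulEquiv.coe_toMonoidHom, MulAut.conj_apply]
    rw [← h a ha]
    group
  ext x
  constructor
  · rintro ⟨y, hy, rfl⟩
    rw [key y hy]
    exact hy
  · intro hx
    exact ⟨x, hx, key x hx⟩

theorem not_rankOne_of_comm (hp0 : p ≠ 0) (hp : D.f p p = 0) (hr : D.f r r = 0) (h : D.f p r = 0) :
    ¬ IsRankOnePair (D.T p) (D.T r) := by
  intro hR
  obtain ⟨g, hg⟩ := D.ex p hp 1
  have hg' : g ∈ D.T p := (D.mem_T hp).2 ⟨1, hg⟩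
  have hg1 : g ≠ 1 := by
    intro e
    exact one_ne_zero (D.act_TS_ne hp0 hg e)
  obtain ⟨b, hb, -, e⟩ := hR.cond_left g hg' hg1
  have h1 : conjBy (D.T p) b⁻¹ = D.T p := conjBy_self_of_comm (fun a ha =>
    (Commute.inv_right (show Commute a b from D.comm_of_perp hp hr h ha hb)).eq)
  have h2 : conjBy (D.T r) g⁻¹ = D.T r := conjBy_self_of_comm (fun a ha =>
    (Commute.inv_right (show Commute a g from (D.comm_of_perp hp hr h hg' ha).symm)).eq)
  rw [h1, h2] at e
  exact hR.ne e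

theorem conjBy_conjBy' (A : Subgroup G) (x y : G) : conjBy (conjBy A x) y = conjBy A (y * x) := by
  rw [conjBy, conjBy, conjBy, Subgroup.map_map]
  congr 1
  ext z
  simp [mul_assoc]

theorem conjBy_one' (A : Subgroup G) : conjBy A 1 = A :=
  conjBy_self_of_comm (fun a _ => by simp)

theorem conj_of_rankOne {A B : Subgroup G} (h : IsRankOnePair A B) (hA : A ≠ ⊥) : ∃ g, B = conjBy A g := by
  obtain ⟨a, ha1⟩ := Subgroup.ne_bot_iff_exists_ne_one.1 hA
  obtain ⟨b, hb, -, e⟩ := h.cond_left a.1 a.2 (fun e => ha1 (Subtype.ext e))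
  refine ⟨a.1 * b⁻¹, ?_⟩
  rw [← conjBy_conjBy', e, conjBy_conjBy', mul_inv_cancel, conjBy_one']

variable (D) in
/-- **The transvection groups form a degenerate class of `L`-root subgroups.** -/
theorem main (hne : ∃ p, p ≠ 0 ∧ D.f p p = 0) (hgen : (⨆ A ∈ D.Cl, A) = ⊤)
    (hconn : ∀ p r, p ≠ 0 → D.f p p = 0 → r ≠ 0 → D.f r r = 0 → D.f p r = 0 →
      D.T r = D.T p ∨ ∃ s, s ≠ 0 ∧ D.f s s = 0 ∧ D.f p s ≠ 0 ∧ D.f s r ≠ 0) :
    IsRootSubgroupClass D.Cl ∧ IsDegenerateRootSet D.Cl ∧ IsKRootSubgroupSet L D.Cl ∧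
      IsConnectedFamily (FAdj D.Cl) D.Cl := by
  have hconnected : IsConnectedFamily (FAdj D.Cl) D.Cl := by
    rintro _ ⟨p, hp0, hp, rfl⟩ _ ⟨r, hr0, hr, rfl⟩
    by_cases h : D.f p r = 0
    · rcases hconn p r hp0 hp hr0 hr h with e | ⟨s, hs0, hs, h1, h2⟩
      · rw [e]
      · refine Relation.ReflTransGen.trans (Relation.ReflTransGen.single (b := D.T s) ⟨⟨p, hp0, hp, rfl⟩, ⟨s, hs0, hs, rfl⟩,
          rankOne hp0 hp hs h1⟩) (Relation.ReflTransGen.single ⟨⟨s, hs0, hs, rfl⟩, ⟨r, hr0, hr, rfl⟩, rankOne hs0 hs hr h2⟩)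
    · exact Relation.ReflTransGen.single ⟨⟨p, hp0, hp, rfl⟩, ⟨r, hr0, hr, rfl⟩, rankOne hp0 hp hr h⟩
  have hset : IsRootSubgroupSet D.Cl := by
    refine ⟨?_, ?_, hgen, ?_, ?_⟩
    · rintro _ ⟨p, hp0, hp, rfl⟩
      exact D.T_isMulCommutative hp
    · rintro _ ⟨p, hp0, hp, rfl⟩
      exact D.T_ne_bot hp hp0
    · rintro _ ⟨p, hp0, hp, rfl⟩ g
      refine ⟨D.act g p, fun e => hp0 (D.act_eq_zero e), by rw [D.f_act, hp], D.conj_T p g⟩
    · rintro _ ⟨p, hp0, hp, rfl⟩ _ ⟨r, hr0, hr, rfl⟩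
      by_cases h : D.f p r = 0
      · exact Or.inl (comm_bot hp hr h)
      · exact Or.inr (Or.inl (rankOne hp0 hp hr h))
  refine ⟨⟨hset, ?_⟩, ?_, ⟨hset, ?_⟩, hconnected⟩
  · refine ⟨?_, ?_⟩
    · obtain ⟨p, hp0, hp⟩ := hne
      exact ⟨D.T p, p, hp0, hp, rfl⟩
    · intro A hA B hB
      have h := hconnected A hA B hB
      induction h with
      | refl => exact ⟨1, (conjBy_one' _).symm⟩
      | @tail C E _ hCE ih =>
        obtain ⟨g, hg⟩ := ih hCE.1
        obtain ⟨hC, hE, hr⟩ := hCE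
        obtain ⟨p, hp0, hp, rfl⟩ := hC
        obtain ⟨g', hg'⟩ := conj_of_rankOne hr (D.T_ne_bot hp hp0)
        refine ⟨g' * g, ?_⟩
        rw [hg', hg, conjBy_conjBy']
  · rintro _ ⟨p, hp0, hp, rfl⟩ _ ⟨r, hr0, hr, rfl⟩ hc
    by_cases h : D.f p r = 0
    · have h1 := hc.1
      rw [comm_bot hp hr h] at h1
      obtain ⟨s, hs0, hs, e⟩ := h1
      exact D.T_ne_bot hs hs0 e.symm
    · obtain ⟨r', hr', hpr', e⟩ := exists_hyp hr h
      apply not_central_hyp hp hr' hpr'
      rw [e]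
      exact hc.2.1
  · rintro _ ⟨p, hp0, hp, rfl⟩ _ ⟨r, hr0, hr, rfl⟩ hR
    by_cases h : D.f p r = 0
    · exact absurd hR (not_rankOne_of_comm hp0 hp hr h)
    · exact psl2_of_ne hp hr h

end Main

end Sys

end Cfsg.Agent.Lib.Classical.Herm.RootTv
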