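/-
The element of order `(q²-q+1)/d` in `PSU_3(q)`: multiplication by a root of unity on the cubic extension `E` of `F`,
with the hermitian form `(x, y) ↦ Tr(x y^(q³))`.
-/
import Mathlib
import Cfsg.Agent.Lib.Classical.Herm.SU3Witness

set_option autoImplicit false
set_option linter.unusedSectionVars false

namespace Cfsg.Agent.Lib.Classical.Herm.SU3Singer

open Cfsg Cfsg.Agent.Lib.Classical.Herm.Basic Cfsg.Agent.Lib.Classical.Herm.GU Cfsg.Agent.Lib.Classical.Herm.SU
open Cfsg.Agent.Lib.Classical.Herm.HermOnb Cfsg.Agent.Lib.Classical.Herm.SU3Witness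
open Module

/-- Value of `q²-q+1` in terms of `q-2`. -/
theorem L_eq (r : ℕ) : (r + 2) ^ 2 - (r + 2) + 1 = r ^ 2 + 3 * r + 3 := by
  have : (r + 2) ^ 2 = r ^ 2 + 3 * r + 2 + (r + 2) := by ring
  omega

theorem L_dvd_card (r : ℕ) : (r + 2) ^ 2 - (r + 2) + 1 ∣ (r + 2) ^ 6 - 1 := by
  rw [L_eq]
  refine ⟨(r + 3) * (r ^ 3 + 6 * r ^ 2 + 12 * r + 7), ?_⟩
  apply Nat.sub_eq_of_eq_add
  ring

/-- `N = L/d` is coprime to `q²-1`. -/
theorem coprime_N (r : ℕ) :
    Nat.Coprime (((r + 2) ^ 2 - (r + 2) + 1) / Nat.gcd 3 (r + 2 + 1)) ((r + 2) ^ 2 - 1) := by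
  rw [L_eq]
  set L := r ^ 2 + 3 * r + 3 with hL
  set d := Nat.gcd 3 (r + 2 + 1) with hd
  have hdvd : d ∣ L := by
    have h1 : d ∣ r + 2 + 1 := Nat.gcd_dvd_right _ _
    have h2 : d ∣ 3 := Nat.gcd_dvd_left _ _
    have : L = (r + 2 + 1) * r + 3 := by rw [hL]; ring
    rw [this]
    exact dvd_add (h1.mul_right _) h2
  set N := L / d with hN
  have hNL : N ∣ L := Nat.div_dvd_of_dvd hdvd
  have e1 : (r + 2) ^ 2 - 1 = L + r := by
    have : (r + 2) ^ 2 = L + r + 1 := by rw [hL]; ring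
    omega
  rw [e1]
  set g := Nat.gcd N (L + r) with hg
  have hgN : g ∣ N := Nat.gcd_dvd_left _ _
  have hg2 : g ∣ L + r := Nat.gcd_dvd_right _ _
  have hgL : g ∣ L := hgN.trans hNL
  have hgr : g ∣ r := (Nat.dvd_add_right hgL).1 hg2
  have hg3 : g ∣ 3 := by
    have h1 : L = (r + 3) * r + 3 := by rw [hL]; ring
    rw [h1] at hgL
    exact (Nat.dvd_add_right (hgr.mul_left _)).1 hgL
  rcases (Nat.dvd_prime Nat.prime_three).1 hg3 with h | h
  · exact h
  · exfalso
    rw [h] at hgN hgr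
    obtain ⟨w, rfl⟩ := hgr
    have hd3 : d = 3 := by
      rw [hd]
      have : 3 * w + 2 + 1 = 3 * (w + 1) := by ring
      rw [this]
      exact Nat.gcd_mul_right_right _ _
    have hL3 : L = 3 * (3 * (w ^ 2 + w) + 1) := by rw [hL]; ring
    have hN3 : N = 3 * (w ^ 2 + w) + 1 := by
      rw [hN, hd3, hL3]
      exact Nat.mul_div_cancel_left _ (by norm_num)
    rw [hN3] at hgN
    omega

variable {F : Type*} [Field F] [Fintype F] {q : ℕ}

/-- The element of order `(q²-q+1)/d`. -/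
theorem exists_order_singer {p : ℕ} [Fact p.Prime] [CharP F p] (hF : Fintype.card F = q ^ 2) :
    ∃ m : PSU 3 F q, orderOf m = (q ^ 2 - q + 1) / Nat.gcd 3 (q + 1) := by
  classical
  have hq := two_le_q hF
  have hFp : CharP F p := inferInstance
  let E := FiniteField.Extension F p 3
  let _ : Fintype E := Fintype.ofFinite E
  let ι : F →+* E := algebraMap F E
  have hfin : finrank F E = 3 := FiniteField.finrank_extension F p 3
  have hcardF : Nat.card F = q ^ 2 := by rw [Nat.card_eq_fintype_card, hF]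
  have hcard : Fintype.card E = q ^ 6 := by
    rw [Fintype.card_eq_nat_card, FiniteField.natCard_extension, hcardF]
    ring
  have hE6 : ∀ z : E, z ^ (q ^ 6) = z := fun z => by
    rw [← hcard]
    exact FiniteField.pow_card z
  have hEp : CharP E p := charP_of_injective_algebraMap ι.injective p
  have hadd : ∀ x y : E, (x + y) ^ q = x ^ q + y ^ q := by
    obtain ⟨p', k, hp', hc, hqk⟩ := exists_char_pow hF
    have hpp : p' = p := CharP.eq F hc hFp
    rw [hqk, hpp]
    intro x y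
    exact add_pow_char_pow x y p k
  let T : E →ₗ[F] F := Algebra.trace F E
  have htr : ∀ z : E, ι (T z) = z + z ^ (q ^ 2) + z ^ (q ^ 4) := by
    intro z
    have h := FiniteField.algebraMap_trace_eq_sum_pow F E z
    rw [hfin, hcardF, Finset.sum_range_succ, Finset.sum_range_succ, Finset.sum_range_one] at h
    simp only [pow_zero, pow_one] at h
    rw [show (q ^ 2) ^ 2 = q ^ 4 by ring] at h
    exact h
  let h : E → E → F := fun x y => T (x * y ^ (q ^ 3))
  have hh : IsHerm q h := by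
    refine ⟨?_, ?_, ?_, ?_⟩
    · intro x y z
      simp only [h, add_mul, map_add]
    · intro c x y
      simp only [h]
      rw [Algebra.smul_def, mul_assoc, ← Algebra.smul_def, map_smul, smul_eq_mul]
    · intro x y
      apply ι.injective
      set z := x * y ^ (q ^ 3) with hz
      have hz' : y * x ^ (q ^ 3) = z ^ (q ^ 3) := by
        rw [hz, mul_pow, ← pow_mul, ← pow_add]
        have := hE6 y
        rw [show q ^ (3 + 3) = q ^ 6 by norm_num, this, mul_comm]
      simp only [h]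
      rw [hz', htr, map_pow, ← hz, htr, hadd, hadd]
      have e1 : (z ^ q ^ 3) ^ q ^ 2 = z ^ (q ^ 5) := by rw [← pow_mul]; congr 1; ring
      have e2 : (z ^ q ^ 3) ^ q ^ 4 = z ^ q := by
        have : q ^ 3 * q ^ 4 = q ^ 6 * q := by ring
        rw [← pow_mul, this, pow_mul, hE6]
      have e3 : (z ^ q ^ 2) ^ q = z ^ (q ^ 3) := by rw [← pow_mul]; rfl
      have e4 : (z ^ q ^ 4) ^ q = z ^ (q ^ 5) := by rw [← pow_mul]; rfl
      rw [e1, e2, e3, e4]
      ring
    · intro x hx
      by_contra hx0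
      obtain ⟨w, hw⟩ := Algebra.trace_surjective F E 1
      have h1 := hx ((x⁻¹ * w) ^ (q ^ 3))
      simp only [h] at h1
      have h2 : ((x⁻¹ * w) ^ q ^ 3) ^ q ^ 3 = x⁻¹ * w := by
        rw [← pow_mul, show q ^ 3 * q ^ 3 = q ^ 6 by ring, hE6]
      rw [h2, mul_inv_cancel_left₀ hx0] at h1
      have h3 : T w = 1 := hw
      rw [h1] at h3
      exact zero_ne_one h3
  obtain ⟨r, rfl⟩ : ∃ r, q = r + 2 := ⟨q - 2, by omega⟩
  set L := (r + 2) ^ 2 - (r + 2) + 1 with hLdef
  have hLe : L = r ^ 2 + 3 * r + 3 := L_eq r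
  obtain ⟨ζ, hζ0, hζ⟩ := exists_root_of_unity (E := E) (n := L) (by
    rw [hcard]
    exact L_dvd_card r)
  have hζ1 : ζ * ζ ^ ((r + 2) ^ 3) = 1 := by
    rw [← pow_succ', (hζ _)]
    refine ⟨r + 3, ?_⟩
    rw [hLe]
    ring
  have hN : ∃ d', Nat.gcd 3 (r + 2 + 1) = d' := ⟨_, rfl⟩
  set d := Nat.gcd 3 (r + 2 + 1) with hd
  have hdL : d ∣ L := by
    have h1 : d ∣ r + 2 + 1 := Nat.gcd_dvd_right _ _
    have h2 : d ∣ 3 := Nat.gcd_dvd_left _ _
    have : L = (r + 2 + 1) * r + 3 := by rw [hLe]; ring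
    rw [this]
    exact dvd_add (h1.mul_right _) h2
  have hdq2 : d ∣ (r + 2) ^ 2 - 1 := by
    have h1 : d ∣ r + 2 + 1 := Nat.gcd_dvd_right _ _
    have : (r + 2) ^ 2 - 1 = (r + 2 + 1) * (r + 1) := by
      have : (r + 2) ^ 2 = (r + 2 + 1) * (r + 1) + 1 := by ring
      omega
    rw [this]
    exact h1.mul_right _
  have hcop : Nat.Coprime (L / d) ((r + 2) ^ 2 - 1) := coprime_N r
  have hlmul : ∀ (k : ℕ) (x : E), ((Algebra.lmul F E ζ) ^ k) x = ζ ^ k * x := by
    intro k x
    rw [← map_pow]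
    rfl
  refine exists_order (V := E) hF hfin hh (Algebra.lmul F E ζ) ?_ ?_ _ ?_
  · intro x y
    simp only [h, Algebra.coe_lmul_eq_mul, LinearMap.mul_apply', mul_pow]
    congr 1
    linear_combination (x * y ^ (r + 2) ^ 3) * hζ1
  · rw [← Algebra.norm_apply]
    apply ι.injective
    have hn := FiniteField.algebraMap_norm_eq_pow_sum F E ζ
    rw [hfin, hcardF, Finset.sum_range_succ, Finset.sum_range_succ, Finset.sum_range_one] at hn
    rw [hn, map_one, hζ]
    refine ⟨(r + 2) ^ 2 + (r + 2) + 1, ?_⟩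
    rw [hLe]
    simp only [pow_zero]
    ring
  · intro k
    constructor
    · rintro ⟨c, hc⟩
      have h1 := hc 1
      rw [hlmul, mul_one, Algebra.smul_def, mul_one] at h1
      have h2 : (ζ ^ k) ^ ((r + 2) ^ 2) = ζ ^ k := by
        rw [h1, ← map_pow, ← hF, FiniteField.pow_card]
      have h3 : ζ ^ (k * ((r + 2) ^ 2 - 1)) = 1 := by
        have h4 : (ζ ^ k) ^ ((r + 2) ^ 2 - 1) * ζ ^ k = 1 * ζ ^ k := by
          rw [← pow_succ, Nat.sub_add_cancel (Nat.one_le_pow _ _ (by omega)), h2, one_mul]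
        rw [pow_mul]
        exact mul_right_cancel₀ (pow_ne_zero _ hζ0) h4
      have h5 : L ∣ k * ((r + 2) ^ 2 - 1) := (hζ _).1 h3
      exact hcop.dvd_of_dvd_mul_right ((Nat.div_dvd_of_dvd hdL).trans h5)
    · rintro ⟨j, rfl⟩
      set z := ζ ^ (L / d * j) with hz
      have hz1 : z ^ ((r + 2) ^ 2 - 1) = 1 := by
        rw [hz, ← pow_mul, hζ]
        obtain ⟨w, hw⟩ := hdq2
        have h1 : d * (L / d) = L := Nat.mul_div_cancel' hdL
        refine ⟨w * j, ?_⟩
        rw [hw]
        calc L / d * j * (d * w) = (d * (L / d)) * (w * j) := by ring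
          _ = L * (w * j) := by rw [h1]
      have hz2 : z ^ ((r + 2) ^ 2) = z := by
        have h1 : (r + 2) ^ 2 = ((r + 2) ^ 2 - 1) + 1 := by
          rw [Nat.sub_add_cancel (Nat.one_le_pow _ _ (by omega))]
        rw [h1, pow_succ, hz1, one_mul]
      have hmem : z ∈ Set.range (algebraMap F E) := by
        rw [IsGalois.mem_range_algebraMap_iff_fixed]
        intro f
        obtain ⟨i, -, rfl⟩ := FiniteField.Extension.exists_frob_pow_eq F p 3 f
        rw [FiniteField.Extension.frob_iterate_apply, hcardF]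
        induction i with
        | zero => simp
        | succ i ih =>
          rw [pow_succ, pow_mul, ih, hz2]
      obtain ⟨c, hc⟩ := hmem
      refine ⟨c, fun x => ?_⟩
      rw [hlmul, ← hz, Algebra.smul_def]
      congr 1
      exact hc.symm

end Cfsg.Agent.Lib.Classical.Herm.SU3Singer
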