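import Mathlib
import Cfsg.Agent.Lib.Linalg.RegularCentralizer
import Cfsg.Agent.Lib.Linalg.RegularClasses

/-!
# Norm one elements in a finite local ring with involution; polynomials in a regular nilpotent matrix
-/

set_option autoImplicit false
set_option linter.unusedSectionVars false

namespace Cfsg.Agent.Lib.Classical.Herm.SpRegA

open Matrix Module Cfsg.Agent.Lib.Linalg

section Abstract

variable {R : Type*} [CommRing R] [Finite R] [Nontrivial R]

/-- In a finite local commutative ring with `2` a unit and an involution trivial modulo the radical,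
the elements of norm one are twice as many as the skew elements (Cayley transform). -/
theorem card_norm_one (τ : R →+* R) (hτ : ∀ x, τ (τ x) = x) (h2 : IsUnit (2 : R))
    (hloc : ∀ x : R, IsUnit x ∨ IsNilpotent x) (hnil : ∀ x : R, IsNilpotent (x - τ x)) :
    Nat.card {c : R // τ c * c = 1} = 2 * Nat.card {a : R // τ a = - a} := by
  classical
  haveI := Fintype.ofFinite R
  have hdichot : ∀ c : R, τ c * c = 1 → IsNilpotent (c - 1) ∨ IsNilpotent (c + 1) := by
    intro c hc
    rcases hloc (c - 1) with hu | hn
    · right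
      have h1 : (c - 1) * (c + 1) = c * (c - τ c) := by
        linear_combination hc
      have h2 : IsNilpotent ((c - 1) * (c + 1)) := by
        rw [h1]
        exact Commute.isNilpotent_mul_left (Commute.all _ _) (hnil c)
      obtain ⟨v, hv⟩ := hu
      have h3 : c + 1 = ((v⁻¹ : Rˣ) : R) * ((c - 1) * (c + 1)) := by
        rw [← hv, ← mul_assoc, Units.inv_mul, one_mul]
      rw [h3]
      exact Commute.isNilpotent_mul_left (Commute.all _ _) h2
    · exact Or.inl hn
  have hdisj : ∀ c : R, IsNilpotent (c - 1) → IsNilpotent (c + 1) → False := by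
    intro c h1 h3
    have h4 : IsNilpotent ((c + 1) - (c - 1)) := Commute.isNilpotent_sub (Commute.all _ _) h3 h1
    have h5 : (c + 1) - (c - 1) = 2 := by ring
    rw [h5] at h4
    exact h4.not_isUnit h2
  -- the two pieces
  have hK : Nat.card {c : R // τ c * c = 1}
      = Nat.card {c : R // τ c * c = 1 ∧ IsNilpotent (c - 1)}
        + Nat.card {c : R // τ c * c = 1 ∧ IsNilpotent (c + 1)} := by
    rw [← Nat.card_sum]
    apply Nat.card_congr
    refine (Equiv.subtypeEquivRight (fun c => ?_)).trans
      (subtypeOrEquiv (fun c => τ c * c = 1 ∧ IsNilpotent (c - 1))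
        (fun c => τ c * c = 1 ∧ IsNilpotent (c + 1)) ?_)
    · constructor
      · intro hc
        rcases hdichot c hc with h | h
        · exact Or.inl ⟨hc, h⟩
        · exact Or.inr ⟨hc, h⟩
      · rintro (⟨h, -⟩ | ⟨h, -⟩) <;> exact h
    · rw [Pi.disjoint_iff]
      intro c
      rw [Prop.disjoint_iff]
      rintro ⟨⟨-, h1⟩, ⟨-, h3⟩⟩
      exact hdisj c h1 h3
  have hK₂ : Nat.card {c : R // τ c * c = 1 ∧ IsNilpotent (c + 1)}
      = Nat.card {c : R // τ c * c = 1 ∧ IsNilpotent (c - 1)} := by
    apply Nat.card_congr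
    refine (Equiv.neg R).subtypeEquiv (fun c => ?_)
    simp only [Equiv.neg_apply, map_neg, neg_mul, mul_neg, neg_neg]
    have : -c - 1 = -(c + 1) := by ring
    rw [this, isNilpotent_neg_iff]
  have hA : Nat.card {c : R // τ c * c = 1 ∧ IsNilpotent (c - 1)} = Nat.card {a : R // τ a = - a} := by
    symm
    obtain ⟨two, htwo⟩ : ∃ t : R, 2 * t = 1 := by
      obtain ⟨v, hv⟩ := h2
      exact ⟨((v⁻¹ : Rˣ) : R), by rw [← hv]; exact Units.mul_inv v⟩
    have hanil : ∀ a : R, τ a = - a → IsNilpotent a := by
      intro a ha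
      have h1 := hnil a
      rw [ha, sub_neg_eq_add] at h1
      have h3 : a = two * (a + a) := by linear_combination (-a) * htwo
      rw [h3]
      exact Commute.isNilpotent_mul_left (Commute.all _ _) h1
    have hU : ∀ a : R, τ a = - a → IsUnit (1 - a) := fun a ha => (hanil a ha).isUnit_one_sub
    let f : {a : R // τ a = - a} → {c : R // τ c * c = 1 ∧ IsNilpotent (c - 1)} := fun a =>
      ⟨(1 + a.1) * Ring.inverse (1 - a.1), by
        have hI : (1 - a.1) * Ring.inverse (1 - a.1) = 1 := Ring.mul_inverse_cancel _ (hU _ a.2)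
        set I := Ring.inverse (1 - a.1) with hIdef
        have hτI : τ I * (1 + a.1) = 1 := by
          have := congrArg τ hI
          rw [map_mul, map_sub, map_one, a.2, sub_neg_eq_add] at this
          rw [mul_comm]
          exact this
        constructor
        · rw [map_mul, map_add, map_one, a.2]
          calc (1 + -a.1) * τ I * ((1 + a.1) * I) = (1 - a.1) * I * (τ I * (1 + a.1)) := by ring
            _ = 1 := by rw [hτI, hI, one_mul]
        · have h3 : (1 + a.1) * I - 1 = a.1 * (2 * I) := by
            linear_combination hI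
          rw [h3]
          exact Commute.isNilpotent_mul_right (Commute.all _ _) (hanil a.1 a.2)⟩
    have hf : ∀ a, (f a : R) * (1 - a.1) = 1 + a.1 := by
      intro a
      have hI : (1 - a.1) * Ring.inverse (1 - a.1) = 1 := Ring.mul_inverse_cancel _ (hU _ a.2)
      change (1 + a.1) * Ring.inverse (1 - a.1) * (1 - a.1) = 1 + a.1
      linear_combination (1 + a.1) * hI
    have hcU : ∀ c : R, IsNilpotent (c - 1) → IsUnit (c + 1) := by
      intro c hc
      have h3 : c + 1 = 2 + (c - 1) := by ring
      rw [h3]
      exact hc.isUnit_add_left_of_commute h2 (Commute.all _ _)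
    apply Nat.card_congr
    refine Equiv.ofBijective f ⟨?_, ?_⟩
    · intro a b hab
      have h3 := hf a
      have h4 := hf b
      rw [← hab] at h4
      set c : R := (f a : R) with hc
      have h5 : c - 1 = a.1 * (c + 1) := by linear_combination h3
      have h6 : c - 1 = b.1 * (c + 1) := by linear_combination h4
      have hu := hcU c (f a).2.2
      have h7 : a.1 * (c + 1) = b.1 * (c + 1) := by rw [← h5, h6]
      exact Subtype.ext (hu.mul_right_cancel h7)
    · rintro ⟨c, hc, hcn⟩
      have hu := hcU c hcn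
      have hI : (c + 1) * Ring.inverse (c + 1) = 1 := Ring.mul_inverse_cancel _ hu
      set I := Ring.inverse (c + 1) with hIdef
      let a : R := (c - 1) * I
      have ha : a * (c + 1) = c - 1 := by
        change (c - 1) * I * (c + 1) = c - 1
        linear_combination (c - 1) * hI
      have hτa : τ a = - a := by
        have h3 := congrArg τ ha
        rw [map_mul, map_add, map_one, map_sub, map_one] at h3
        -- multiply by `c`
        have h4 : τ a * (c + 1) = 1 - c := by
          linear_combination c * h3 + (1 - τ a) * hc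
        apply hu.mul_right_cancel
        rw [h4, neg_mul, ha]
        ring
      refine ⟨⟨a, hτa⟩, ?_⟩
      apply Subtype.ext
      have h3 := hf ⟨a, hτa⟩
      have hun := hU a hτa
      apply hun.mul_right_cancel
      change _ = c * (1 - a)
      rw [h3]
      linear_combination ha
  rw [hK, hK₂, hA]
  ring

end Abstract

section Poly

variable {ι F : Type*} [Fintype ι] [DecidableEq ι] [Field F] {M : ℕ}

/-- Polynomials in `N` with given coefficients. -/
noncomputable def EE (N : Matrix ι ι F) (f : Fin (M + 1) → F) : Matrix ι ι F :=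
  ∑ i : Fin (M + 1), f i • N ^ (i : ℕ)

theorem commute_EE (N : Matrix ι ι F) (f : Fin (M + 1) → F) {X : Matrix ι ι F} (hX : Commute N X) :
    Commute (EE N f) X := by
  unfold EE
  apply Commute.sum_left
  intro i _
  exact (hX.pow_left _).smul_left _

theorem nil_EE (N : Matrix ι ι F) (f : Fin (M + 1) → F) (hn : IsNilpotent N) :
    IsNilpotent (EE N f - f 0 • 1) := by
  have h1 : EE N f - f 0 • 1 = N * ∑ i : Fin M, f i.succ • N ^ (i : ℕ) := by
    unfold EE
    rw [Fin.sum_univ_succ, Finset.mul_sum]
    simp [mul_smul_comm, pow_succ']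
  rw [h1]
  refine Commute.isNilpotent_mul_right ?_ hn
  apply Commute.sum_right
  intro i _
  exact (Commute.pow_right (Commute.refl N) _).smul_right _

variable (hc : Fintype.card ι = M + 1) (N : Matrix ι ι F) (hnil : N ^ (M + 1) = 0) (hreg : N.rank = M)

include hc hnil hreg

/-- Reindexing. -/
theorem exists_data :
    ∃ (e : ι ≃ Fin (M + 1)) (v : Fin (M + 1) → F),
      ((Matrix.reindexAlgEquiv F F e N) ^ M) *ᵥ v ≠ 0 := by
  let e : ι ≃ Fin (M + 1) := Fintype.equivFinOfCardEq hc
  refine ⟨e, ?_⟩
  apply RegularCentralizer.exists_cyclic_vector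
  · rw [← map_pow, hnil, map_zero]
  · rw [Matrix.coe_reindexAlgEquiv, Matrix.rank_reindex, hreg]

/-- Every matrix commuting with a regular nilpotent matrix is a polynomial in it. -/
theorem exists_EE {X : Matrix ι ι F} (hX : Commute N X) : ∃ f : Fin (M + 1) → F, X = EE N f := by
  obtain ⟨e, v, hv⟩ := exists_data hc N hnil hreg
  set A := Matrix.reindexAlgEquiv F F e with hA
  obtain ⟨f, hf⟩ := RegularCentralizer.exists_polyOf_of_commute (A N) (by rw [← map_pow, hnil, map_zero])
    hv (M := A X) (by
      have := hX.eq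
      change A N * A X = A X * A N
      rw [← map_mul, ← map_mul, this])
  refine ⟨f, ?_⟩
  apply A.injective
  rw [hf]
  unfold RegularCentralizer.polyOf EE
  rw [map_sum]
  refine Finset.sum_congr rfl fun i _ => ?_
  rw [map_smul, map_pow]

theorem EE_injective : Function.Injective (EE (M := M) N) := by
  obtain ⟨e, v, hv⟩ := exists_data hc N hnil hreg
  set A := Matrix.reindexAlgEquiv F F e with hA
  intro f g h
  apply RegularCentralizer.polyOf_injective (A N) (by rw [← map_pow, hnil, map_zero]) hv
  unfold RegularCentralizer.polyOf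
  have h1 := congrArg A h
  unfold EE at h1
  rw [map_sum, map_sum] at h1
  simpa [map_smul, map_pow] using h1

omit hnil hreg in
/-- Two regular nilpotent matrices are conjugate. -/
theorem exists_conj (N' : Matrix ι ι F) (hnil : N ^ (M + 1) = 0) (hreg : N.rank = M)
    (hnil' : N' ^ (M + 1) = 0) (hreg' : N'.rank = M) :
    ∃ x : Matrix ι ι F, IsUnit x ∧ x * N = N' * x := by
  let e : ι ≃ Fin (M + 1) := Fintype.equivFinOfCardEq hc
  set A := Matrix.reindexAlgEquiv F F e with hA
  have hr : ∀ Y : Matrix ι ι F, (A Y).rank = Y.rank := fun Y => by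
    rw [hA, Matrix.coe_reindexAlgEquiv, Matrix.rank_reindex]
  obtain ⟨P, hPu, hP⟩ := RegularClasses.exists_conj_shift (N := A N)
    (by rw [← map_pow, hnil, map_zero]) (by rw [hr, hreg])
  obtain ⟨P', hPu', hP'⟩ := RegularClasses.exists_conj_shift (N := A N')
    (by rw [← map_pow, hnil', map_zero]) (by rw [hr, hreg'])
  obtain ⟨U, rfl⟩ := hPu
  obtain ⟨U', rfl⟩ := hPu'
  obtain ⟨UI, hUI1, hUI2⟩ : ∃ UI : Matrix (Fin (M + 1)) (Fin (M + 1)) F,
      (U : Matrix (Fin (M + 1)) (Fin (M + 1)) F) * UI = 1 ∧ UI * (U : Matrix (Fin (M + 1)) (Fin (M + 1)) F) = 1 :=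
    ⟨((U⁻¹ : (Matrix (Fin (M + 1)) (Fin (M + 1)) F)ˣ) : Matrix (Fin (M + 1)) (Fin (M + 1)) F), U.mul_inv, U.inv_mul⟩
  have hUIu : IsUnit UI := IsUnit.of_mul_eq_one _ hUI2
  refine ⟨A.symm ((U' : Matrix (Fin (M + 1)) (Fin (M + 1)) F) * UI), ?_, ?_⟩
  · exact (U'.isUnit.mul hUIu).map A.symm
  · apply A.injective
    simp only [map_mul, AlgEquiv.apply_symm_apply]
    have h1 : UI * A N = RegularClasses.shift F M * UI := by
      calc UI * A N = UI * (A N * ((U : Matrix (Fin (M + 1)) (Fin (M + 1)) F) * UI)) := by rw [hUI1, mul_one]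
        _ = UI * (A N * (U : Matrix (Fin (M + 1)) (Fin (M + 1)) F)) * UI := by simp only [mul_assoc]
        _ = (UI * (U : Matrix (Fin (M + 1)) (Fin (M + 1)) F)) * RegularClasses.shift F M * UI := by
          rw [hP]; simp only [mul_assoc]
        _ = RegularClasses.shift F M * UI := by rw [hUI2, one_mul]
    rw [mul_assoc, h1, ← mul_assoc, ← mul_assoc, hP']

end Poly

end Cfsg.Agent.Lib.Classical.Herm.SpRegA
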