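import Mathlib
import Cfsg.Agent.Lib.Classical.Herm.SpRegA

/-!
# The symplectic adjoint and the commutant of a regular unipotent element of `Sp`
-/

set_option autoImplicit false
set_option linter.unusedSectionVars false

namespace Cfsg.Agent.Lib.Classical.Herm.SpRegB

open Matrix Module Cfsg.Agent.Lib.Classical.Herm.SpRegA

variable {F : Type*} [Field F] {m : ℕ}

local notation "Mt" => Matrix (Fin m ⊕ Fin m) (Fin m ⊕ Fin m) F
local notation "JJ" => Matrix.J (Fin m) F

/-- The adjoint for the symplectic form. -/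
noncomputable def tau (X : Matrix (Fin m ⊕ Fin m) (Fin m ⊕ Fin m) F) : Matrix (Fin m ⊕ Fin m) (Fin m ⊕ Fin m) F :=
  -(Matrix.J (Fin m) F * Xᵀ * Matrix.J (Fin m) F)

theorem tau_one : tau (1 : Mt) = 1 := by
  simp [tau, Matrix.J_squared]

theorem tau_add (X Y : Mt) : tau (X + Y) = tau X + tau Y := by
  simp [tau, mul_add, add_mul]
  abel

theorem tau_smul (c : F) (X : Mt) : tau (c • X) = c • tau X := by
  simp [tau]

theorem tau_neg (X : Mt) : tau (-X) = - tau X := by
  simp [tau]

theorem tau_sub (X Y : Mt) : tau (X - Y) = tau X - tau Y := by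
  rw [sub_eq_add_neg, tau_add, tau_neg, sub_eq_add_neg]

theorem tau_zero : tau (0 : Mt) = 0 := by
  simp [tau]

theorem tau_mul (X Y : Mt) : tau (X * Y) = tau Y * tau X := by
  simp only [tau, Matrix.transpose_mul, neg_mul_neg]
  have h1 : (JJ * Yᵀ * JJ) * (JJ * Xᵀ * JJ) = JJ * Yᵀ * (JJ * JJ) * Xᵀ * JJ := by
    simp only [mul_assoc]
  rw [h1, Matrix.J_squared]
  simp [mul_assoc]

theorem tau_tau (X : Mt) : tau (tau X) = X := by
  simp only [tau, Matrix.transpose_neg, Matrix.transpose_mul, Matrix.J_transpose, mul_neg, neg_mul,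
    neg_neg]
  have h1 : JJ * (JJ * (Xᵀᵀ * JJ)) * JJ = (JJ * JJ) * X * (JJ * JJ) := by
    simp only [mul_assoc, Matrix.transpose_transpose]
  rw [h1, Matrix.J_squared]
  simp

theorem tau_pow (X : Mt) (k : ℕ) : tau (X ^ k) = tau X ^ k := by
  induction k with
  | zero => simp [tau_one]
  | succ k ih => rw [pow_succ, tau_mul, ih, pow_succ, (Commute.pow_self _ _).eq]

theorem tau_sum {κ : Type*} (s : Finset κ) (g : κ → Mt) : tau (∑ i ∈ s, g i) = ∑ i ∈ s, tau (g i) := by
  classical
  induction s using Finset.induction_on with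
  | empty => simp [tau_zero]
  | insert a s ha ih => rw [Finset.sum_insert ha, Finset.sum_insert ha, tau_add, ih]

theorem mem_iff {X : Mt} : X ∈ symplecticGroup (Fin m) F ↔ X * tau X = 1 := by
  rw [SymplecticGroup.mem_iff]
  simp only [tau, mul_neg]
  constructor
  · intro h
    have h1 : X * (JJ * Xᵀ * JJ) = (X * JJ * Xᵀ) * JJ := by simp only [mul_assoc]
    rw [h1, h, Matrix.J_squared, neg_neg]
  · intro h
    have h1 : X * (JJ * Xᵀ * JJ) = (X * JJ * Xᵀ) * JJ := by simp only [mul_assoc]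
    rw [h1] at h
    have h2 : (X * JJ * Xᵀ) * (JJ * JJ) = - JJ := by
      rw [← mul_assoc, ← neg_inj, ← neg_mul, h, one_mul, neg_neg]
    rw [Matrix.J_squared] at h2
    simpa using h2

theorem tau_coe (u : symplecticGroup (Fin m) F) :
    tau (u : Mt) = ((u⁻¹ : symplecticGroup (Fin m) F) : Mt) := by
  rw [SymplecticGroup.coe_inv, tau]
  simp

theorem mem_of_mul {X : Mt} (h : tau X * X = 1) : X ∈ symplecticGroup (Fin m) F := by
  rw [mem_iff]
  exact mul_eq_one_comm.mp h

/-- The element `u - u⁻¹`. -/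
noncomputable def ww (u : symplecticGroup (Fin m) F) : Mt :=
  (u : Mt) - ((u⁻¹ : symplecticGroup (Fin m) F) : Mt)

theorem ui_mul (u : symplecticGroup (Fin m) F) :
    ((u⁻¹ : symplecticGroup (Fin m) F) : Mt) * (u : Mt) = 1 := by
  rw [← Submonoid.coe_mul, inv_mul_cancel]
  rfl

theorem mul_ui (u : symplecticGroup (Fin m) F) :
    (u : Mt) * ((u⁻¹ : symplecticGroup (Fin m) F) : Mt) = 1 := by
  rw [← Submonoid.coe_mul, mul_inv_cancel]
  rfl

theorem tau_ww (u : symplecticGroup (Fin m) F) : tau (ww u) = - ww u := by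
  rw [ww, tau_sub, tau_coe, ← tau_coe, tau_tau]
  abel

theorem commute_ui {u : symplecticGroup (Fin m) F} {X : Mt} (h : X * u = u * X) :
    X * ((u⁻¹ : symplecticGroup (Fin m) F) : Mt) = ((u⁻¹ : symplecticGroup (Fin m) F) : Mt) * X := by
  calc X * ((u⁻¹ : symplecticGroup (Fin m) F) : Mt)
      = ((u⁻¹ : symplecticGroup (Fin m) F) : Mt) * (u * X) * ((u⁻¹ : symplecticGroup (Fin m) F) : Mt) := by
        rw [← mul_assoc, ui_mul, one_mul]
    _ = ((u⁻¹ : symplecticGroup (Fin m) F) : Mt) * (X * u) * ((u⁻¹ : symplecticGroup (Fin m) F) : Mt) := by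
        rw [h]
    _ = ((u⁻¹ : symplecticGroup (Fin m) F) : Mt) * X := by
        rw [mul_assoc, mul_assoc, mul_ui, mul_one]

theorem commute_ww {u : symplecticGroup (Fin m) F} {X : Mt} (h : X * u = u * X) :
    Commute (ww u) X := by
  have h1 := commute_ui h
  unfold ww Commute SemiconjBy
  rw [sub_mul, mul_sub, h1, h]

theorem commute_ww_self (u : symplecticGroup (Fin m) F) : (ww u) * u = u * ww u := by
  unfold ww
  rw [sub_mul, mul_sub, ui_mul, mul_ui]

/-- Commuting with `u` is preserved by the adjoint. -/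
theorem tau_commute {u : symplecticGroup (Fin m) F} {X : Mt} (h : X * u = u * X) :
    tau X * u = u * tau X := by
  have h1 := commute_ui h
  have h2 := congrArg tau h1
  rw [tau_mul, tau_mul, ← tau_coe, tau_tau] at h2
  exact h2.symm

variable (u : symplecticGroup (Fin m) F)

/-- Regularity of `w`. -/
theorem ww_regular (h2 : (2 : F) ≠ 0) (hm : 1 ≤ m)
    (hnil : ((u : Mt) - 1) ^ (2 * m) = 0) (hreg : ((u : Mt) - 1).rank = 2 * m - 1) :
    (ww u) ^ (2 * m - 1 + 1) = 0 ∧ (ww u).rank = 2 * m - 1 := by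
  classical
  have hmm : 2 * m - 1 + 1 = 2 * m := by omega
  set N : Mt := (u : Mt) - 1 with hN
  have hNn : IsNilpotent N := ⟨_, hnil⟩
  set y : Mt := ((u : Mt) + 1) * ((u⁻¹ : symplecticGroup (Fin m) F) : Mt) with hy
  have hu1 : IsUnit ((u : Mt) + 1) := by
    have h3 : (u : Mt) + 1 = (2 : F) • (1 : Mt) + N := by
      rw [hN, two_smul]
      abel
    rw [h3]
    have h4 : IsUnit ((2 : F) • (1 : Mt)) := by
      have := (isUnit_iff_ne_zero.2 h2).map (algebraMap F Mt)
      rwa [Algebra.algebraMap_eq_smul_one] at this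
    exact hNn.isUnit_add_left_of_commute h4 (Commute.smul_right (Commute.one_right _) _)
  have hui : IsUnit ((u⁻¹ : symplecticGroup (Fin m) F) : Mt) := IsUnit.of_mul_eq_one _ (ui_mul u)
  have hyu : IsUnit y := hu1.mul hui
  have hw : ww u = N * y := by
    rw [hN, hy, ww, ← mul_assoc]
    have : ((u : Mt) - 1) * ((u : Mt) + 1) = (u : Mt) * u - 1 := by noncomm_ring
    rw [this, sub_mul, mul_assoc, mul_ui, mul_one, one_mul]
  have hcomm : Commute N y := by
    have h3 : Commute (u : Mt) ((u⁻¹ : symplecticGroup (Fin m) F) : Mt) := by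
      unfold Commute SemiconjBy
      rw [mul_ui, ui_mul]
    have h4 : Commute ((u : Mt) - 1) ((u : Mt) + 1) :=
      (Commute.sub_left (Commute.refl _) (Commute.one_left _)).add_right
        (Commute.sub_left (Commute.one_right _) (Commute.one_left _))
    have h5 : Commute ((u : Mt) - 1) ((u⁻¹ : symplecticGroup (Fin m) F) : Mt) :=
      Commute.sub_left h3 (Commute.one_left _)
    exact h4.mul_right h5
  constructor
  · rw [hmm, hw, hcomm.mul_pow, hnil, zero_mul]
  · rw [hw, Matrix.rank_mul_eq_left_of_isUnit_det _ _ ((Matrix.isUnit_iff_isUnit_det _).1 hyu)]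
    exact hreg

end Cfsg.Agent.Lib.Classical.Herm.SpRegB
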