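import Mathlib
import Cfsg.Agent.Lib.Classical.Herm.SpRegB

/-!
# The centraliser in `Sp` of a regular unipotent element has order `2 q^m`
-/

set_option autoImplicit false
set_option linter.unusedSectionVars false
set_option maxHeartbeats 1000000

namespace Cfsg.Agent.Lib.Classical.Herm.SpRegC

open Matrix Module Cfsg.Agent.Lib.Classical.Herm.SpRegA Cfsg.Agent.Lib.Classical.Herm.SpRegB

variable {F : Type*} [Field F] {m : ℕ}

local notation "Mt" => Matrix (Fin m ⊕ Fin m) (Fin m ⊕ Fin m) F

omit [Field F] in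
theorem two_ne_zero_of_odd [Field F] [Fintype F] {q : ℕ} (hF : Fintype.card F = q) (hq : Odd q) :
    (2 : F) ≠ 0 := by
  intro h
  have h1 : ringChar F ∣ 2 := by
    have := (CharP.cast_eq_zero_iff F (ringChar F) 2).1 (by simpa using h)
    exact this
  have h3 : ringChar F ≠ 1 := CharP.ringChar_ne_one
  have h4 : ringChar F = 2 := by
    rcases (Nat.dvd_prime Nat.prime_two).1 h1 with h5 | h5
    · exact absurd h5 h3
    · exact h5
  have h5 := FiniteField.even_card_of_char_two h4
  rw [hF] at h5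
  exact (Nat.not_even_iff_odd.2 hq) (Nat.even_iff.2 h5)

theorem tau_EE (u : symplecticGroup (Fin m) F) {M : ℕ} (f : Fin (M + 1) → F) :
    tau (EE (ww u) f) = EE (ww u) (fun i => (-1 : F) ^ (i : ℕ) * f i) := by
  unfold EE
  rw [tau_sum]
  refine Finset.sum_congr rfl fun i _ => ?_
  rw [tau_smul, tau_pow, tau_ww, mul_smul]
  rcases Nat.even_or_odd (i : ℕ) with h | h
  · rw [h.neg_pow, h.neg_one_pow, one_smul]
  · rw [h.neg_pow, h.neg_one_pow, smul_neg, neg_smul, one_smul]

theorem EE_neg {ι : Type*} [Fintype ι] [DecidableEq ι] (N : Matrix ι ι F) {M : ℕ} (f : Fin (M + 1) → F) :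
    EE N (fun i => - f i) = - EE N f := by
  unfold EE
  simp [Finset.sum_neg_distrib]

variable [Fintype F]

/-- The order of the centraliser. -/
theorem card_centralizer {q : ℕ} (hF : Fintype.card F = q) (hq : Odd q) (hm : 1 ≤ m)
    (u : symplecticGroup (Fin m) F) (hnil : ((u : Mt) - 1) ^ (2 * m) = 0)
    (hreg : ((u : Mt) - 1).rank = 2 * m - 1) :
    Nat.card ↥(Subgroup.centralizer ({u} : Set ↥(symplecticGroup (Fin m) F))) = 2 * q ^ m := by
  classical
  have h2 : (2 : F) ≠ 0 := two_ne_zero_of_odd hF hq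
  have hmm : 2 * m - 1 + 1 = 2 * m := by omega
  obtain ⟨M, hM⟩ : ∃ M, M = 2 * m - 1 := ⟨_, rfl⟩
  have hM1 : M + 1 = 2 * m := by omega
  have hcard : Fintype.card (Fin m ⊕ Fin m) = M + 1 := by simp; omega
  obtain ⟨hwn, hwr⟩ := ww_regular u h2 hm hnil hreg
  rw [← hM] at hwn hwr
  obtain ⟨w, hw⟩ : ∃ w, w = ww u := ⟨_, rfl⟩
  rw [← hw] at hwn hwr
  haveI : Nonempty (Fin m) := ⟨⟨0, hm⟩⟩
  have hwN : IsNilpotent w := ⟨_, hwn⟩
  let R : Subalgebra F Mt := Subalgebra.centralizer F ({(u : Mt)} : Set Mt)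
  have hmemR : ∀ X, X ∈ R ↔ X * (u : Mt) = (u : Mt) * X := by
    intro X
    rw [Subalgebra.mem_centralizer_iff]
    simp [eq_comm]
  have hcwX : ∀ X, X ∈ R → Commute w X := fun X hX => by
    rw [hw]
    exact commute_ww ((hmemR X).1 hX)
  have hE : ∀ X, X ∈ R → ∃ f : Fin (M + 1) → F, X = EE w f := fun X hX =>
    exists_EE hcard w hwn hwr (hcwX X hX)
  have hcommM : ∀ X Y, X ∈ R → Y ∈ R → X * Y = Y * X := by
    intro X Y hX hY
    obtain ⟨f, rfl⟩ := hE X hX
    exact (commute_EE w f (hcwX Y hY)).eq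
  have hEmem : ∀ f : Fin (M + 1) → F, EE w f ∈ R := by
    intro f
    rw [hmemR]
    refine (commute_EE w f (X := (u : Mt)) ?_).eq
    rw [hw]
    exact commute_ww_self u
  letI : CommRing R := { (inferInstance : Ring R) with
    mul_comm := fun x y => Subtype.ext (hcommM x y x.2 y.2) }
  haveI : Finite R := by
    haveI : Finite Mt := by
      unfold Matrix
      infer_instance
    exact Finite.of_injective (fun x : R => (x : Mt)) Subtype.val_injective
  haveI : Nontrivial R := ⟨⟨0, 1, fun h => by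
    have h3 := congrArg (fun x : R => (x : Mt)) h
    exact zero_ne_one (α := Mt) h3⟩⟩
  have htm : ∀ x : R, tau (x : Mt) ∈ R := fun x =>
    (hmemR _).2 (tau_commute ((hmemR _).1 x.2))
  let τR : R →+* R :=
    { toFun := fun x => ⟨tau x, htm x⟩
      map_one' := Subtype.ext tau_one
      map_mul' := fun x y => Subtype.ext (by
        change tau ((x : Mt) * (y : Mt)) = tau (x : Mt) * tau (y : Mt)
        rw [tau_mul]
        exact hcommM _ _ (htm y) (htm x))
      map_zero' := Subtype.ext tau_zero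
      map_add' := fun x y => Subtype.ext (tau_add _ _) }
  have hτapp : ∀ x : R, ((τR x : R) : Mt) = tau (x : Mt) := fun x => rfl
  have hτ : ∀ x, τR (τR x) = x := fun x => Subtype.ext (tau_tau _)
  have hunitR : ∀ x : R, IsUnit (x : Mt) → IsUnit x := by
    intro x hx
    obtain ⟨v, hv⟩ := hx
    have hvi : ((v⁻¹ : Mtˣ) : Mt) ∈ R := by
      rw [hmemR]
      have h3 := (hmemR _).1 x.2
      rw [← hv] at h3
      calc ((v⁻¹ : Mtˣ) : Mt) * (u : Mt)
          = ((v⁻¹ : Mtˣ) : Mt) * (u : Mt) * ((v : Mt) * ((v⁻¹ : Mtˣ) : Mt)) := by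
            rw [Units.mul_inv, mul_one]
        _ = ((v⁻¹ : Mtˣ) : Mt) * ((u : Mt) * (v : Mt)) * ((v⁻¹ : Mtˣ) : Mt) := by
            simp only [mul_assoc]
        _ = (u : Mt) * ((v⁻¹ : Mtˣ) : Mt) := by
            rw [← h3, ← mul_assoc, Units.inv_mul, one_mul]
    refine IsUnit.of_mul_eq_one ⟨_, hvi⟩ (Subtype.ext ?_)
    change (x : Mt) * ((v⁻¹ : Mtˣ) : Mt) = 1
    rw [← hv, Units.mul_inv]
  have hloc : ∀ x : R, IsUnit x ∨ IsNilpotent x := by
    intro x
    obtain ⟨f, hf⟩ := hE x x.2
    have h3 := nil_EE w f hwN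
    rw [← hf] at h3
    by_cases h0 : f 0 = 0
    · right
      rw [h0, zero_smul, sub_zero] at h3
      obtain ⟨k, hk⟩ := h3
      exact ⟨k, Subtype.ext (by simpa using hk)⟩
    · left
      apply hunitR
      have h4 : IsUnit (f 0 • (1 : Mt)) := by
        have := (isUnit_iff_ne_zero.2 h0).map (algebraMap F Mt)
        rwa [Algebra.algebraMap_eq_smul_one] at this
      have h5 := h3.isUnit_add_left_of_commute h4 (Commute.smul_right (Commute.one_right _) _)
      simpa using h5
  have hnilR : ∀ x : R, IsNilpotent (x - τR x) := by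
    intro x
    obtain ⟨f, hf⟩ := hE x x.2
    have h3 := nil_EE w f hwN
    have h4 := nil_EE w (fun i => (-1 : F) ^ (i : ℕ) * f i) hwN
    simp only [Fin.val_zero, pow_zero, one_mul] at h4
    have h5 : IsNilpotent ((EE w f - f 0 • 1) - (EE w (fun i => (-1 : F) ^ (i : ℕ) * f i) - f 0 • 1)) := by
      refine Commute.isNilpotent_sub ?_ h3 h4
      apply Commute.sub_left
      · apply Commute.sub_right
        · exact commute_EE w f (commute_EE w _ (Commute.refl w)).symm
        · exact Commute.smul_right (Commute.one_right _) _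
      · exact Commute.smul_left (Commute.one_left _) _
    have h6 : ((x - τR x : R) : Mt)
        = (EE w f - f 0 • 1) - (EE w (fun i => (-1 : F) ^ (i : ℕ) * f i) - f 0 • 1) := by
      change (x : Mt) - tau (x : Mt) = _
      rw [hf, hw, tau_EE]
      abel
    obtain ⟨k, hk⟩ := h5
    rw [← h6] at hk
    exact ⟨k, Subtype.ext (by simpa using hk)⟩
  have h2R : IsUnit (2 : R) := by
    have h3 := (isUnit_iff_ne_zero.2 h2).map (algebraMap F R)
    rwa [map_ofNat] at h3
  have key := card_norm_one τR hτ h2R hloc hnilR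
  -- the centraliser
  have hC : Nat.card ↥(Subgroup.centralizer ({u} : Set ↥(symplecticGroup (Fin m) F)))
      = Nat.card {c : R // τR c * c = 1} := by
    apply Nat.card_congr
    refine
      { toFun := fun c => ⟨⟨((c : symplecticGroup (Fin m) F) : Mt), ?_⟩, ?_⟩
        invFun := fun x => ⟨⟨(x.1 : Mt), ?_⟩, ?_⟩
        left_inv := fun c => rfl
        right_inv := fun x => rfl }
    · rw [hmemR]
      have h3 := Subgroup.mem_centralizer_singleton_iff.1 c.2
      have h4 := congrArg (fun z : symplecticGroup (Fin m) F => (z : Mt)) h3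
      exact h4
    · apply Subtype.ext
      change tau ((c : symplecticGroup (Fin m) F) : Mt) * ((c : symplecticGroup (Fin m) F) : Mt) = 1
      exact mul_eq_one_comm.mp (mem_iff.1 (c : symplecticGroup (Fin m) F).2)
    · exact mem_of_mul (congrArg Subtype.val x.2)
    · rw [Subgroup.mem_centralizer_singleton_iff]
      apply Subtype.ext
      exact (hmemR _).1 x.1.2
  -- the skew elements
  have hA : Nat.card {a : R // τR a = - a} = Nat.card {f : Fin (M + 1) → F // ∀ i : Fin (M + 1), Even (i : ℕ) → f i = 0} := by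
    symm
    apply Nat.card_congr
    have hsk : ∀ f : {f : Fin (M + 1) → F // ∀ i : Fin (M + 1), Even (i : ℕ) → f i = 0},
        (fun i : Fin (M + 1) => (-1 : F) ^ (i : ℕ) * f.1 i) = fun i => - f.1 i := by
      intro f
      funext i
      rcases Nat.even_or_odd (i : ℕ) with h | h
      · rw [f.2 i h]; simp
      · rw [h.neg_one_pow]; simp
    let φ : {f : Fin (M + 1) → F // ∀ i : Fin (M + 1), Even (i : ℕ) → f i = 0} → {a : R // τR a = - a} :=
      fun f => ⟨⟨EE w f.1, hEmem f.1⟩, Subtype.ext (by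
        change tau (EE w f.1) = - EE w f.1
        rw [hw, tau_EE, ← hw, hsk f, EE_neg])⟩
    refine Equiv.ofBijective φ ⟨?_, ?_⟩
    · intro f g hfg
      have h3 : EE w f.1 = EE w g.1 := congrArg (fun a : {a : R // τR a = - a} => ((a.1 : R) : Mt)) hfg
      exact Subtype.ext (EE_injective hcard w hwn hwr h3)
    · rintro ⟨a, ha⟩
      obtain ⟨f, hf⟩ := hE a a.2
      have h3 : tau (a : Mt) = - (a : Mt) := congrArg Subtype.val ha
      rw [hf, hw, tau_EE, ← hw, ← EE_neg] at h3
      have h4 := EE_injective hcard w hwn hwr h3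
      refine ⟨⟨f, ?_⟩, ?_⟩
      · intro i hi
        have h5 := congrFun h4 i
        simp only [hi.neg_one_pow, one_mul] at h5
        have h6 : (2 : F) * f i = 0 := by linear_combination h5
        exact (mul_eq_zero.1 h6).resolve_left h2
      · apply Subtype.ext
        apply Subtype.ext
        exact hf.symm
  have hB : Nat.card {f : Fin (M + 1) → F // ∀ i : Fin (M + 1), Even (i : ℕ) → f i = 0} = q ^ m := by
    have : Nat.card (Fin m → F) = q ^ m := by
      rw [Nat.card_eq_fintype_card, Fintype.card_fun, hF, Fintype.card_fin]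
    rw [← this]
    apply Nat.card_congr
    refine
      { toFun := fun f j => f.1 ⟨2 * (j : ℕ) + 1, by have := j.2; omega⟩
        invFun := fun g => ⟨fun i => if h : Odd (i : ℕ) then g ⟨(i : ℕ) / 2, by have := i.2; omega⟩ else 0, ?_⟩
        left_inv := ?_
        right_inv := ?_ }
    · intro i hi
      simp [Nat.not_odd_iff_even.2 hi]
    · rintro ⟨f, hf⟩
      apply Subtype.ext
      funext i
      by_cases h : Odd (i : ℕ)
      · simp only [h, dif_pos]
        congr 1
        apply Fin.ext
        obtain ⟨k, hk⟩ := h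
        simp only [hk]
        omega
      · simp only [h, dif_neg, not_false_eq_true]
        exact (hf i (Nat.not_odd_iff_even.1 h)).symm
    · intro g
      funext j
      have h : Odd (2 * (j : ℕ) + 1) := ⟨j, rfl⟩
      simp only [h, dif_pos]
      congr 1
      apply Fin.ext
      simp only
      omega
  rw [hC, key, hA, hB]

end Cfsg.Agent.Lib.Classical.Herm.SpRegC
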