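import Mathlib
import Cfsg.Agent.Lib.Classical.Herm.SpRegC
import Cfsg.Agent.Lib.Classical.Symp.RegModel
import Cfsg.Agent.Lib.Classical.Symp.SympBasis
import Cfsg.Agent.Lib.Classical.Symp.Basic
import Cfsg.Agent.Lib.Linalg.Bridge

/-!
# The regular unipotent classes of `Sp_{2m}(q)`, `q` odd
-/

set_option autoImplicit false
set_option linter.unusedSectionVars false
set_option maxHeartbeats 1000000

namespace Cfsg.Agent.Lib.Classical.Herm.SpRegD

open Matrix Module Cfsg.Agent.Lib.Classical.Herm.SpRegA Cfsg.Agent.Lib.Classical.Herm.SpRegB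
open Cfsg.Agent.Lib.Classical.Herm.SpRegC

variable {F : Type*} [Field F] {m : ℕ}

local notation "Mt" => Matrix (Fin m ⊕ Fin m) (Fin m ⊕ Fin m) F

section Rank

variable {V : Type*} [AddCommGroup V] [Module F V] [FiniteDimensional F V]

theorem finrank_ker_eq_one (L : Module.End F V) (hd : 1 ≤ finrank F V) (h0 : L ^ finrank F V = 0)
    (h1 : L ^ (finrank F V - 1) ≠ 0) : finrank F (LinearMap.ker L) = 1 := by
  set d := finrank F V with hdd
  have hlt : ∀ j, j < d → finrank F (LinearMap.ker (L ^ j)) < finrank F (LinearMap.ker (L ^ (j + 1))) := by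
    intro j hj
    apply Submodule.finrank_lt_finrank_of_lt
    refine lt_of_le_of_ne ?_ ?_
    · intro x hx
      rw [LinearMap.mem_ker] at hx ⊢
      rw [pow_succ', Module.End.mul_apply, hx, map_zero]
    · intro heq
      have hst : ∀ i x, (L ^ (j + i)) x = 0 → (L ^ j) x = 0 := by
        intro i
        induction i with
        | zero => intro x hx; simpa using hx
        | succ i ih =>
          intro x hx
          apply ih
          have h2 : (L ^ i) x ∈ LinearMap.ker (L ^ (j + 1)) := by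
            rw [LinearMap.mem_ker, ← Module.End.mul_apply, ← pow_add]
            rw [show j + 1 + i = j + (i + 1) by ring]
            exact hx
          rw [← heq, LinearMap.mem_ker, ← Module.End.mul_apply, ← pow_add] at h2
          exact h2
      apply h1
      have h3 : L ^ j = 0 := by
        apply LinearMap.ext
        intro x
        apply hst (d - j) x
        rw [show j + (d - j) = d by omega, h0]
        simp
      rw [show d - 1 = (d - 1 - j) + j by omega, pow_add, h3, mul_zero]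
  have hgrow : ∀ j, 1 ≤ j → j ≤ d → finrank F (LinearMap.ker L) + (j - 1) ≤ finrank F (LinearMap.ker (L ^ j)) := by
    intro j hj
    induction j, hj using Nat.le_induction with
    | base => intro _; rw [pow_one]; omega
    | succ j hj ih =>
      intro h2
      have h3 := ih (by omega)
      have h4 := hlt j (by omega)
      omega
  have h2 := hgrow d hd le_rfl
  rw [h0, LinearMap.ker_zero, finrank_top] at h2
  have h3 : finrank F (LinearMap.ker L) ≠ 0 := by
    intro h4
    rw [Submodule.finrank_eq_zero] at h4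
    have h5 : Function.Injective L := LinearMap.ker_eq_bot.mp h4
    have h6 : Function.Injective (L ^ d) := by
      rw [Module.End.coe_pow]
      exact h5.iterate d
    rw [h0] at h6
    haveI : Nontrivial V := Module.nontrivial_of_finrank_pos (R := F) (by rw [← hdd]; omega)
    obtain ⟨x, hx⟩ := exists_ne (0 : V)
    exact hx (h6 (by simp))
  omega

end Rank

/-- Existence of a regular unipotent element. -/
theorem exists_regular (hm : 1 ≤ m) :
    ∃ u : symplecticGroup (Fin m) F, ((u : Mt) - 1) ^ (2 * m) = 0 ∧ ((u : Mt) - 1).rank = 2 * m - 1 := by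
  classical
  open Cfsg.Agent.Lib.Classical.Symp.RegModel Cfsg.Agent.Lib.Classical.Symp.Basic
    Cfsg.Agent.Lib.Classical.Symp.AltForm Cfsg.Agent.Lib.Classical.Symp.SympBasis in
  obtain ⟨e, he⟩ := exists_sympEquiv (form m F) form_isAlt form_nondeg (k := m) (by simp)
  open Cfsg.Agent.Lib.Classical.Symp.RegModel Cfsg.Agent.Lib.Classical.Symp.Basic
    Cfsg.Agent.Lib.Classical.Symp.AltForm Cfsg.Agent.Lib.Classical.Symp.SympBasis in
  have key : ∃ u : symplecticGroup (Fin m) F, ∀ v, (u : Mt) *ᵥ v = e (uu m F (e.symm v)) := by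
    let g : (Fin m ⊕ Fin m → F) ≃ₗ[F] (Fin m ⊕ Fin m → F) := e.symm.trans ((uu m F).trans e)
    have hg : g ∈ IsomGroup (sympBilin m F) := by
      intro a b
      simp only [g, LinearEquiv.trans_apply, sympBilin_apply]
      rw [he]
      have h := uu_mem (n := m) (F := F) (e.symm a) (e.symm b)
      rw [h, ← he]
      simp
    refine ⟨spEquivIsom.symm ⟨g, hg⟩, fun v => ?_⟩
    have := spEquivIsom_apply (F := F) (m := m) (spEquivIsom.symm ⟨g, hg⟩) v
    rw [← this]
    simp [g]
  obtain ⟨u, hu⟩ := key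
  refine ⟨u, ?_⟩
  open Cfsg.Agent.Lib.Classical.Symp.RegModel in
  have hL : ∀ k (v : Fin m ⊕ Fin m → F), (((u : Mt) - 1) ^ k) *ᵥ v = e ((NN m F ^ k) (e.symm v)) := by
    intro k
    induction k with
    | zero => intro v; simp
    | succ k ih =>
      intro v
      rw [pow_succ', ← Matrix.mulVec_mulVec, ih, Matrix.sub_mulVec, hu, Matrix.one_mulVec, pow_succ',
        Module.End.mul_apply, NN_apply]
      simp
  have hLL : ((u : Mt) - 1) ^ (2 * m) = 0 := by
    apply Cfsg.Agent.Lib.Linalg.Bridge.matrix_eq_of_mulVec_eq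
    intro v
    rw [hL, Cfsg.Agent.Lib.Classical.Symp.RegModel.NN_pow_eq_zero]
    simp
  refine ⟨hLL, ?_⟩
  let L : Module.End F (Fin m ⊕ Fin m → F) := Matrix.toLin' ((u : Mt) - 1)
  have hpow : ∀ k, L ^ k = Matrix.toLin' (((u : Mt) - 1) ^ k) := fun k => (Matrix.toLin'_pow _ _).symm
  have hfin : finrank F (Fin m ⊕ Fin m → F) = 2 * m := by simp; omega
  have hk : finrank F (LinearMap.ker L) = 1 := by
    apply finrank_ker_eq_one
    · rw [hfin]; omega
    · rw [hfin, hpow, hLL]; simp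
    · rw [hfin, hpow]
      intro h0
      apply Cfsg.Agent.Lib.Classical.Symp.RegModel.NN_pow_ne_zero (n := m) (F := F) hm
      apply LinearMap.ext
      intro x
      have h1 := congrArg (fun T : Module.End F (Fin m ⊕ Fin m → F) => T (e x)) h0
      simp only [Matrix.toLin'_apply, LinearMap.zero_apply] at h1
      rw [hL] at h1
      simpa using h1
  have hr := LinearMap.finrank_range_add_finrank_ker L
  rw [hk, hfin] at hr
  have h3 : L = ((u : Mt) - 1).mulVecLin := Matrix.toLin'_apply' _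
  rw [Matrix.rank, ← h3]
  omega

section Norm

/-- Square roots of symmetric unipotents. -/
theorem exists_sqrt_sym {p : ℕ} [Fact p.Prime] [CharP F p] (hp2 : p ≠ 2) (hm : 1 ≤ m)
    {Z₁ : Mt} (h : IsNilpotent (Z₁ - 1)) (hτ : tau Z₁ = Z₁) :
    ∃ c : Mt, c * c = Z₁ ∧ tau c = c ∧ ∀ X : Mt, X * Z₁ = Z₁ * X → X * c = c * X := by
  classical
  have hp : p.Prime := Fact.out
  haveI : Nonempty (Fin m ⊕ Fin m) := ⟨Sum.inl ⟨0, hm⟩⟩
  obtain ⟨k, hk⟩ := h
  have h1 : (Z₁ - 1) ^ (p ^ k) = 0 := pow_eq_zero_of_le (Nat.lt_pow_self hp.one_lt).le hk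
  have h2 : Z₁ ^ (p ^ k) = 1 := by
    have := sub_pow_char_pow_of_commute (p := p) (n := k) (Commute.one_right Z₁)
    rw [one_pow, h1] at this
    exact sub_eq_zero.mp this.symm
  obtain ⟨t, ht⟩ : ∃ t, 2 * t = p ^ k + 1 := by
    have h3 : Odd (p ^ k) := (hp.odd_of_ne_two hp2).pow
    obtain ⟨r, hr⟩ := h3
    exact ⟨r + 1, by omega⟩
  refine ⟨Z₁ ^ t, ?_, ?_, ?_⟩
  · rw [← pow_add, ← two_mul, ht, pow_succ, h2, one_mul]
  · rw [tau_pow, hτ]
  · intro X hX
    exact (Commute.pow_right (show Commute X Z₁ from hX) t).eq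

/-- A criterion for conjugacy. -/
theorem isConj_of_norm {p : ℕ} [Fact p.Prime] [CharP F p] (hp2 : p ≠ 2) (hm : 1 ≤ m)
    (u v : symplecticGroup (Fin m) F) {x : Mt} (hxu : IsUnit x) (hx : x * u = v * x) {s : F} (hs : s ≠ 0)
    (hn : IsNilpotent (tau x * x - (s * s) • (1 : Mt))) : IsConj u v := by
  classical
  have hss : s * s ≠ 0 := mul_ne_zero hs hs
  obtain ⟨Z, hZ⟩ : ∃ Z, Z = tau x * x := ⟨_, rfl⟩
  rw [← hZ] at hn
  have htx : tau x * v = u * tau x := by
    have h1 := congrArg tau hx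
    rw [tau_mul, tau_mul, tau_coe, tau_coe] at h1
    calc tau x * v = (((u : Mt) * ((u⁻¹ : symplecticGroup (Fin m) F) : Mt)) * tau x) * v := by
          rw [mul_ui, one_mul]
      _ = u * (((u⁻¹ : symplecticGroup (Fin m) F) : Mt) * tau x) * v := by simp only [mul_assoc]
      _ = u * tau x * (((v⁻¹ : symplecticGroup (Fin m) F) : Mt) * v) := by rw [h1]; simp only [mul_assoc]
      _ = u * tau x := by rw [ui_mul, mul_one]
  have hZu : Z * u = u * Z := by
    rw [hZ, mul_assoc, hx, ← mul_assoc, htx, mul_assoc]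
  have hZτ : tau Z = Z := by
    rw [hZ, tau_mul, tau_tau]
  have hτx : IsUnit (tau x) := by
    obtain ⟨y, hy⟩ := hxu
    refine IsUnit.of_mul_eq_one (tau ((y⁻¹ : Mtˣ) : Mt)) ?_
    rw [← tau_mul, ← hy, Units.inv_mul, tau_one]
  have hZU : IsUnit Z := by
    rw [hZ]
    exact hτx.mul hxu
  have hZ₁n : IsNilpotent ((s * s)⁻¹ • Z - 1) := by
    have h1 : (s * s)⁻¹ • Z - 1 = (s * s)⁻¹ • (Z - (s * s) • 1) := by
      rw [smul_sub, smul_smul, inv_mul_cancel₀ hss, one_smul]
    rw [h1]
    obtain ⟨k, hk⟩ := hn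
    exact ⟨k, by rw [smul_pow, hk, smul_zero]⟩
  obtain ⟨c', h1, h2, h3⟩ := exists_sqrt_sym hp2 hm hZ₁n (by rw [tau_smul, hZτ])
  have huc' : (u : Mt) * c' = c' * u := by
    apply h3
    rw [smul_mul_assoc, mul_smul_comm, ← hZu]
  obtain ⟨c, hc⟩ : ∃ c, c = s • c' := ⟨_, rfl⟩
  have hcc : c * c = Z := by
    rw [hc, smul_mul_assoc, mul_smul_comm, h1, smul_smul, smul_smul]
    rw [show s * s * (s * s)⁻¹ = 1 from mul_inv_cancel₀ hss, one_smul]
  have hτc : tau c = c := by
    rw [hc, tau_smul, h2]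
  have hcu : c * u = u * c := by
    rw [hc, smul_mul_assoc, mul_smul_comm, huc']
  obtain ⟨W, hW⟩ := hZU
  obtain ⟨d, hd1, hd2⟩ : ∃ d, c * d = 1 ∧ d * c = 1 := by
    have h4 : c * (c * ((W⁻¹ : Mtˣ) : Mt)) = 1 := by
      rw [← mul_assoc, hcc, ← hW, Units.mul_inv]
    exact ⟨_, h4, mul_eq_one_comm.mp h4⟩
  have hdu : d * u = u * d := by
    calc d * (u : Mt) = d * u * (c * d) := by rw [hd1, mul_one]
      _ = d * (u * c) * d := by simp only [mul_assoc]
      _ = d * (c * u) * d := by rw [hcu]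
      _ = (d * c) * (u * d) := by simp only [mul_assoc]
      _ = u * d := by rw [hd2, one_mul]
  have hy : tau (x * d) * (x * d) = 1 := by
    rw [tau_mul]
    calc tau d * tau x * (x * d) = tau d * (tau x * x) * d := by simp only [mul_assoc]
      _ = tau d * (c * c) * d := by rw [← hZ, hcc]
      _ = (tau d * tau c) * (c * d) := by rw [hτc]; simp only [mul_assoc]
      _ = 1 := by rw [← tau_mul, hd1, tau_one, one_mul]
  have hmem := mem_of_mul hy
  rw [isConj_iff]
  refine ⟨⟨x * d, hmem⟩, ?_⟩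
  have hfin : (⟨x * d, hmem⟩ : symplecticGroup (Fin m) F) * u = v * ⟨x * d, hmem⟩ := by
    apply Subtype.ext
    change x * d * (u : Mt) = (v : Mt) * (x * d)
    rw [mul_assoc, hdu, ← mul_assoc, hx, mul_assoc]
  rw [hfin]
  simp

/-- Elements commuting with a regular unipotent element are scalars modulo nilpotents, and commute
with each other. -/
theorem exists_scalar (h2 : (2 : F) ≠ 0) (hm : 1 ≤ m) (u : symplecticGroup (Fin m) F)
    (hnil : ((u : Mt) - 1) ^ (2 * m) = 0) (hreg : ((u : Mt) - 1).rank = 2 * m - 1) {X : Mt}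
    (hX : X * u = u * X) :
    ∃ a : F, IsNilpotent (X - a • 1) ∧ ∀ Y : Mt, Y * u = u * Y → Commute X Y := by
  classical
  obtain ⟨hwn, hwr⟩ := ww_regular u h2 hm hnil hreg
  have hcard : Fintype.card (Fin m ⊕ Fin m) = 2 * m - 1 + 1 := by simp; omega
  obtain ⟨f, rfl⟩ := exists_EE hcard (ww u) hwn hwr (commute_ww hX)
  exact ⟨f 0, nil_EE _ f ⟨_, hwn⟩, fun Y hY => commute_EE _ f (commute_ww hY)⟩

theorem ne_zero_of_unit (hm : 1 ≤ m) {X : Mt} (hX : IsUnit X) {a : F} (h : IsNilpotent (X - a • 1)) :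
    a ≠ 0 := by
  classical
  haveI : Nonempty (Fin m ⊕ Fin m) := ⟨Sum.inl ⟨0, hm⟩⟩
  rintro rfl
  rw [zero_smul, sub_zero] at h
  exact h.not_isUnit hX

theorem tau_nil {X : Mt} (h : IsNilpotent X) : IsNilpotent (tau X) := by
  obtain ⟨k, hk⟩ := h
  exact ⟨k, by rw [← tau_pow, hk, tau_zero]⟩

/-- The similitude. -/
noncomputable def Dm (m : ℕ) (δ : F) : Matrix (Fin m ⊕ Fin m) (Fin m ⊕ Fin m) F :=
  Matrix.fromBlocks (δ • 1) 0 0 1

theorem tau_Dm (δ : F) : tau (Dm m δ) = Matrix.fromBlocks 1 0 0 (δ • 1) := by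
  simp [tau, Dm, Matrix.J, Matrix.fromBlocks_transpose, Matrix.fromBlocks_multiply, Matrix.fromBlocks_neg]

theorem Dm_mul_tau (δ : F) : Dm m δ * tau (Dm m δ) = δ • 1 := by
  rw [tau_Dm]
  simp [Dm, Matrix.fromBlocks_multiply, ← Matrix.fromBlocks_one, Matrix.fromBlocks_smul]

theorem tau_mul_Dm (δ : F) : tau (Dm m δ) * Dm m δ = δ • 1 := by
  rw [tau_Dm]
  simp [Dm, Matrix.fromBlocks_multiply, ← Matrix.fromBlocks_one, Matrix.fromBlocks_smul]

end Norm

variable [Fintype F]

/-- The number of classes of regular unipotent elements. -/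
theorem card_regular_classes {q : ℕ} (hF : Fintype.card F = q) (hq : Odd q) (hm : 1 ≤ m) :
    Nat.card {C : ConjClasses ↥(symplecticGroup (Fin m) F) //
      ∃ u : symplecticGroup (Fin m) F, ConjClasses.mk u = C ∧ ((u : Mt) - 1) ^ (2 * m) = 0 ∧
        ((u : Mt) - 1).rank = 2 * m - 1} = 2 := by
  classical
  have h2 : (2 : F) ≠ 0 := two_ne_zero_of_odd hF hq
  have hchar : ringChar F ≠ 2 := by
    intro h
    have h3 := FiniteField.even_card_of_char_two h
    rw [hF] at h3
    exact (Nat.not_even_iff_odd.2 hq) (Nat.even_iff.2 h3)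
  obtain ⟨p, hcp⟩ := CharP.exists F
  haveI : Fact p.Prime := ⟨CharP.char_is_prime F p⟩
  have hp2 : p ≠ 2 := by
    intro h
    rw [ringChar.eq F p] at hchar
    exact hchar h
  haveI : Nonempty (Fin m ⊕ Fin m) := ⟨Sum.inl ⟨0, hm⟩⟩
  have hcard : Fintype.card (Fin m ⊕ Fin m) = 2 * m - 1 + 1 := by simp; omega
  have hmm : 2 * m - 1 + 1 = 2 * m := by omega
  obtain ⟨u₀, hu₀n, hu₀r⟩ := exists_regular (F := F) hm
  obtain ⟨δ, hδ⟩ := FiniteField.exists_nonsquare hchar
  have hδ0 : δ ≠ 0 := by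
    rintro rfl
    exact hδ (IsSquare.zero)
  obtain ⟨D, hD⟩ : ∃ D, D = Dm m δ := ⟨_, rfl⟩
  obtain ⟨Di, hDi⟩ : ∃ Di, Di = δ⁻¹ • tau D := ⟨_, rfl⟩
  have hDDi : D * Di = 1 := by
    rw [hDi, mul_smul_comm, hD, Dm_mul_tau, smul_smul, inv_mul_cancel₀ hδ0, one_smul]
  have hDiD : Di * D = 1 := by
    rw [hDi, smul_mul_assoc, hD, tau_mul_Dm, smul_smul, inv_mul_cancel₀ hδ0, one_smul]
  have hτDi : tau Di = δ⁻¹ • D := by
    rw [hDi, tau_smul, tau_tau]
  have hDiτ : Di * tau Di = δ⁻¹ • 1 := by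
    rw [hτDi, mul_smul_comm, hDiD]
  have hτDiDi : tau Di * Di = δ⁻¹ • 1 := by
    rw [hτDi, smul_mul_assoc, hDDi]
  have hDU : IsUnit D := IsUnit.of_mul_eq_one _ hDDi
  have hDiU : IsUnit Di := IsUnit.of_mul_eq_one _ hDiD
  -- the second representative
  have hmem₁ : D * (u₀ : Mt) * Di ∈ symplecticGroup (Fin m) F := by
    apply mem_of_mul
    have h3 : tau (D * (u₀ : Mt) * Di) = tau Di * ((u₀⁻¹ : symplecticGroup (Fin m) F) : Mt) * tau D := by
      rw [tau_mul, tau_mul, tau_coe, mul_assoc]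
    rw [h3]
    calc tau Di * ((u₀⁻¹ : symplecticGroup (Fin m) F) : Mt) * tau D * (D * (u₀ : Mt) * Di)
        = tau Di * ((u₀⁻¹ : symplecticGroup (Fin m) F) : Mt) * (tau D * D) * (u₀ : Mt) * Di := by
          simp only [mul_assoc]
      _ = δ • (tau Di * (((u₀⁻¹ : symplecticGroup (Fin m) F) : Mt) * (u₀ : Mt)) * Di) := by
          rw [hD, tau_mul_Dm]
          simp only [mul_smul_comm, smul_mul_assoc, mul_one, mul_assoc]
      _ = 1 := by
          rw [ui_mul, mul_one, hτDiDi, smul_smul, mul_inv_cancel₀ hδ0, one_smul]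
  let u₁ : symplecticGroup (Fin m) F := ⟨D * (u₀ : Mt) * Di, hmem₁⟩
  have hu₁ : (u₁ : Mt) = D * (u₀ : Mt) * Di := rfl
  have hsub : (u₁ : Mt) - 1 = D * ((u₀ : Mt) - 1) * Di := by
    rw [hu₁, mul_sub, sub_mul, mul_one, hDDi]
  have hpow : ∀ k, ((u₁ : Mt) - 1) ^ k = D * ((u₀ : Mt) - 1) ^ k * Di := by
    intro k
    induction k with
    | zero => simp [hDDi]
    | succ k ih =>
      rw [pow_succ, ih, hsub]
      calc D * ((u₀ : Mt) - 1) ^ k * Di * (D * ((u₀ : Mt) - 1) * Di)
          = D * ((u₀ : Mt) - 1) ^ k * (Di * D) * ((u₀ : Mt) - 1) * Di := by simp only [mul_assoc]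
        _ = _ := by rw [hDiD, mul_one, pow_succ]; simp only [mul_assoc]
  have hu₁n : ((u₁ : Mt) - 1) ^ (2 * m) = 0 := by
    rw [hpow, hu₀n]
    simp
  have hu₁r : ((u₁ : Mt) - 1).rank = 2 * m - 1 := by
    rw [hsub, Matrix.rank_mul_eq_left_of_isUnit_det _ _ ((Matrix.isUnit_iff_isUnit_det _).1 hDiU),
      Matrix.rank_mul_eq_right_of_isUnit_det _ _ ((Matrix.isUnit_iff_isUnit_det _).1 hDU)]
    exact hu₀r
  -- every regular element is conjugate to one of the two
  have hcover : ∀ v : symplecticGroup (Fin m) F, ((v : Mt) - 1) ^ (2 * m) = 0 →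
      ((v : Mt) - 1).rank = 2 * m - 1 → IsConj u₀ v ∨ IsConj u₁ v := by
    intro v hvn hvr
    obtain ⟨x, hxu, hx⟩ := exists_conj hcard ((u₀ : Mt) - 1) ((v : Mt) - 1)
      (by rw [hmm]; exact hu₀n) hu₀r (by rw [hmm]; exact hvn) hvr
    have hx' : x * u₀ = v * x := by
      rw [mul_sub, sub_mul, mul_one, one_mul] at hx
      exact sub_left_inj.mp hx
    have hτx : IsUnit (tau x) := by
      obtain ⟨y, hy⟩ := hxu
      refine IsUnit.of_mul_eq_one (tau ((y⁻¹ : Mtˣ) : Mt)) ?_
      rw [← tau_mul, ← hy, Units.inv_mul, tau_one]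
    have htx : tau x * v = u₀ * tau x := by
      have h1 := congrArg tau hx'
      rw [tau_mul, tau_mul, tau_coe, tau_coe] at h1
      calc tau x * v = (((u₀ : Mt) * ((u₀⁻¹ : symplecticGroup (Fin m) F) : Mt)) * tau x) * v := by
            rw [mul_ui, one_mul]
        _ = u₀ * (((u₀⁻¹ : symplecticGroup (Fin m) F) : Mt) * tau x) * v := by simp only [mul_assoc]
        _ = u₀ * tau x * (((v⁻¹ : symplecticGroup (Fin m) F) : Mt) * v) := by rw [h1]; simp only [mul_assoc]
        _ = u₀ * tau x := by rw [ui_mul, mul_one]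
    have hZu : tau x * x * u₀ = u₀ * (tau x * x) := by
      rw [mul_assoc, hx', ← mul_assoc, htx, mul_assoc]
    obtain ⟨a, han, -⟩ := exists_scalar h2 hm u₀ hu₀n hu₀r hZu
    have ha0 := ne_zero_of_unit hm (hτx.mul hxu) han
    by_cases hsq : IsSquare a
    · left
      obtain ⟨s, rfl⟩ := hsq
      exact isConj_of_norm hp2 hm u₀ v hxu hx' (left_ne_zero_of_mul ha0) han
    · right
      -- `a δ` is a square
      have hsq2 : IsSquare (a * δ) := by
        have h3 := (quadraticChar_neg_one_iff_not_isSquare (a := a)).2 hsq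
        have h4 := (quadraticChar_neg_one_iff_not_isSquare (a := δ)).2 hδ
        rw [← quadraticChar_one_iff_isSquare (mul_ne_zero ha0 hδ0), map_mul, h3, h4]
        norm_num
      obtain ⟨t, ht⟩ := hsq2
      have ht0 : t ≠ 0 := by
        rintro rfl
        exact (mul_ne_zero ha0 hδ0) (by simpa using ht)
      have hx'' : (x * Di) * (u₁ : Mt) = v * (x * Di) := by
        rw [hu₁]
        calc x * Di * (D * (u₀ : Mt) * Di) = x * (Di * D) * (u₀ : Mt) * Di := by simp only [mul_assoc]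
          _ = x * (u₀ : Mt) * Di := by rw [hDiD, mul_one]
          _ = v * (x * Di) := by rw [hx', mul_assoc]
      refine isConj_of_norm hp2 hm u₁ v (hxu.mul hDiU) hx'' (s := t * δ⁻¹) (mul_ne_zero ht0 (inv_ne_zero hδ0)) ?_
      have hZ' : tau (x * Di) * (x * Di) - ((t * δ⁻¹) * (t * δ⁻¹)) • (1 : Mt)
          = δ⁻¹ • (D * (tau x * x - a • 1) * Di) := by
        have h5 : (t * δ⁻¹) * (t * δ⁻¹) = δ⁻¹ * a := by
          field_simp
          rw [pow_two, ← ht]
          ring
        have h7 : D * (tau x * x - a • 1) * Di = D * (tau x * x) * Di - a • 1 := by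
          rw [mul_sub, sub_mul, mul_smul_comm, smul_mul_assoc, mul_one, hDDi]
        have h8 : tau (x * Di) * (x * Di) = δ⁻¹ • (D * (tau x * x) * Di) := by
          rw [tau_mul, hτDi]
          simp only [smul_mul_assoc, mul_assoc]
        rw [h7, smul_sub, smul_smul, h5, h8]
      rw [hZ']
      obtain ⟨k, hk⟩ := han
      have h6 : ∀ j, (D * (tau x * x - a • 1) * Di) ^ j = D * (tau x * x - a • 1) ^ j * Di := by
        intro j
        induction j with
        | zero => simp [hDDi]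
        | succ j ih =>
          rw [pow_succ, ih]
          calc D * (tau x * x - a • 1) ^ j * Di * (D * (tau x * x - a • 1) * Di)
              = D * (tau x * x - a • 1) ^ j * (Di * D) * (tau x * x - a • 1) * Di := by simp only [mul_assoc]
            _ = _ := by rw [hDiD, mul_one, pow_succ]; simp only [mul_assoc]
      exact ⟨k, by rw [smul_pow, h6, hk]; simp⟩
  -- the two are not conjugate
  have hne : ¬ IsConj u₀ u₁ := by
    rw [isConj_iff]
    rintro ⟨y, hy⟩
    have hy' : (y : Mt) * u₀ = D * (u₀ : Mt) * Di * y := by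
      have h3 : y * u₀ = u₁ * y := by
        rw [← hy]
        simp
      exact congrArg (fun z : symplecticGroup (Fin m) F => (z : Mt)) h3
    obtain ⟨c, hc⟩ : ∃ c, c = Di * (y : Mt) := ⟨_, rfl⟩
    have hcu : c * u₀ = u₀ * c := by
      rw [hc, mul_assoc, hy']
      calc Di * (D * (u₀ : Mt) * Di * y) = (Di * D) * (u₀ : Mt) * (Di * y) := by simp only [mul_assoc]
        _ = _ := by rw [hDiD, one_mul]
    have hyU : IsUnit (y : Mt) := IsUnit.of_mul_eq_one _ (mul_ui y)
    have hcU : IsUnit c := by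
      rw [hc]
      exact hDiU.mul hyU
    obtain ⟨a, han, hcomm⟩ := exists_scalar h2 hm u₀ hu₀n hu₀r hcu
    have ha0 := ne_zero_of_unit hm hcU han
    have hτcu : tau c * u₀ = u₀ * tau c := tau_commute hcu
    have hn2 : IsNilpotent (tau c - a • 1) := by
      have := tau_nil han
      rwa [tau_sub, tau_smul, tau_one] at this
    have hcτ : c * tau c = δ⁻¹ • 1 := by
      have h3 : (y : Mt) * tau (y : Mt) = 1 := mem_iff.1 y.2
      rw [hc, tau_mul]
      calc Di * (y : Mt) * (tau (y : Mt) * tau Di) = Di * ((y : Mt) * tau (y : Mt)) * tau Di := by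
            simp only [mul_assoc]
        _ = _ := by rw [h3, mul_one, hDiτ]
    have hscalar : IsNilpotent ((δ⁻¹ - a * a) • (1 : Mt)) := by
      have h4 : (δ⁻¹ - a * a) • (1 : Mt) = (c - a • 1) * tau c + a • (tau c - a • 1) := by
        rw [sub_mul, smul_mul_assoc, one_mul, hcτ, smul_sub, sub_smul, smul_smul]
        abel
      rw [h4]
      have h5 : Commute (c - a • 1) (tau c) :=
        Commute.sub_left (hcomm _ hτcu) (Commute.smul_left (Commute.one_left _) _)
      have h6 : IsNilpotent ((c - a • 1) * tau c) := h5.isNilpotent_mul_right han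
      have h7 : IsNilpotent (a • (tau c - a • 1)) := by
        obtain ⟨k, hk⟩ := hn2
        exact ⟨k, by rw [smul_pow, hk, smul_zero]⟩
      refine Commute.isNilpotent_add ?_ h6 h7
      apply Commute.smul_right
      apply Commute.sub_right
      · apply Commute.mul_left
        · exact Commute.sub_left (hcomm _ hτcu) (Commute.smul_left (Commute.one_left _) _)
        · exact Commute.refl _
      · exact Commute.smul_right (Commute.one_right _) _
    have hzero : δ⁻¹ - a * a = 0 := by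
      by_contra h5
      obtain ⟨k, hk⟩ := hscalar
      have h6 : ((δ⁻¹ - a * a) ^ k) • (1 : Mt) = 0 := by
        rw [← hk, smul_pow, one_pow]
      rw [smul_eq_zero] at h6
      rcases h6 with h6 | h6
      · exact pow_ne_zero k h5 h6
      · exact one_ne_zero h6
    apply hδ
    refine ⟨a⁻¹, ?_⟩
    have h5 : δ⁻¹ = a * a := sub_eq_zero.mp hzero
    have h6 : δ = (a * a)⁻¹ := by rw [← h5, inv_inv]
    rw [h6, mul_inv]
  rw [Nat.card_eq_two_iff]
  refine ⟨⟨ConjClasses.mk u₀, u₀, rfl, hu₀n, hu₀r⟩, ⟨ConjClasses.mk u₁, u₁, rfl, hu₁n, hu₁r⟩, ?_, ?_⟩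
  · intro h
    apply hne
    have := congrArg Subtype.val h
    exact ConjClasses.mk_eq_mk_iff_isConj.1 this
  · ext ⟨C, v, rfl, hvn, hvr⟩
    simp only [Set.mem_insert_iff, Set.mem_singleton_iff, Set.mem_univ, iff_true, Subtype.mk.injEq]
    rcases hcover v hvn hvr with h | h
    · exact Or.inl (ConjClasses.mk_eq_mk_iff_isConj.2 h.symm)
    · exact Or.inr (ConjClasses.mk_eq_mk_iff_isConj.2 h.symm)

end Cfsg.Agent.Lib.Classical.Herm.SpRegD
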