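import Mathlib
import Cfsg.Agent.Lib.Classical.Herm.TIFrame

/-!
# The stabiliser of a totally isotropic subspace in `GU_n(q)` and `SU_n(q)`
-/

set_option autoImplicit false
set_option linter.unusedSectionVars false
set_option linter.unusedSimpArgs false
set_option linter.unusedVariables false

open scoped Matrix
open Cfsg
open Cfsg.Agent.Lib.Classical.Herm.Basic Cfsg.Agent.Lib.Classical.Herm.Form
open Cfsg.Agent.Lib.Classical.Herm.GU Cfsg.Agent.Lib.Classical.Herm.SU
open Cfsg.Agent.Lib.Classical.Herm.Isotropic Cfsg.Agent.Lib.Classical.Herm.TI2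
open Cfsg.Agent.Lib.Classical.Herm.Block Cfsg.Agent.Lib.Classical.Herm.TIFrame

namespace Cfsg.Agent.Lib.Classical.Herm.TIStab

variable {F : Type*} [Field F] [Fintype F] {q n : ℕ}

local notation "⟪" x ", " y "⟫" => hermForm _ _ q x y

/-- Orbit counting from a transitive map. -/
theorem card_eq_mul_of_fibers {G X : Type*} [Group G] (H : Subgroup G) (φ : G → X)
    (hs : Function.Surjective φ) (hf : ∀ g g', φ g = φ g' ↔ g⁻¹ * g' ∈ H) :
    Nat.card G = Nat.card X * Nat.card H := by
  let ψ : G ⧸ H → X := Quotient.lift φ (fun a b hab =>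
    (hf a b).2 (QuotientGroup.leftRel_apply.1 hab))
  have hψ : Function.Bijective ψ := by
    constructor
    · intro a b
      induction a using QuotientGroup.induction_on with | H a => ?_
      induction b using QuotientGroup.induction_on with | H b => ?_
      intro hab
      exact QuotientGroup.eq.2 ((hf a b).1 hab)
    · intro x
      obtain ⟨g, rfl⟩ := hs x
      exact ⟨(g : G ⧸ H), rfl⟩
  rw [Subgroup.card_eq_card_quotient_mul_card_subgroup H, Nat.card_congr (Equiv.ofBijective ψ hψ)]

/-- The action on vectors. -/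
def act (g : GU n F q) (v : Fin n → F) : Fin n → F := (g.1 : Matrix (Fin n) (Fin n) F) *ᵥ v

omit [Fintype F] in
theorem act_mul (g h : GU n F q) (v : Fin n → F) : act (g * h) v = act g (act h v) := by
  simp [act, Matrix.mulVec_mulVec]

omit [Fintype F] in
@[simp] theorem act_one (v : Fin n → F) : act (1 : GU n F q) v = v := by
  simp [act]

omit [Fintype F] in
theorem act_inv_act (g : GU n F q) (v : Fin n → F) : act g⁻¹ (act g v) = v := by
  rw [← act_mul, inv_mul_cancel, act_one]

omit [Fintype F] in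
theorem act_act_inv (g : GU n F q) (v : Fin n → F) : act g (act g⁻¹ v) = v := by
  rw [← act_mul, mul_inv_cancel, act_one]

omit [Fintype F] in
theorem act_form (g : GU n F q) (u v : Fin n → F) : ⟪act g u, act g v⟫ = ⟪u, v⟫ := g.2 u v

omit [Fintype F] in
theorem act_inj (g : GU n F q) {u v : Fin n → F} (h : act g u = act g v) : u = v := by
  rw [← act_inv_act g u, h, act_inv_act]

omit [Fintype F] in
/-- The linear map attached to `g`. -/
theorem act_li (g : GU n F q) {k : ℕ} {s : Fin k → Fin n → F} (hs : LinearIndependent F s) :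
    LinearIndependent F (fun i => act g (s i)) := by
  have h := hs.map' (Matrix.mulVecLin (g.1 : Matrix (Fin n) (Fin n) F)) (by
    rw [LinearMap.ker_eq_bot]
    intro u v huv
    exact act_inj g huv)
  exact h

/-- The pointwise stabiliser of a family. -/
def fixer {k : ℕ} (q : ℕ) (s : Fin k → Fin n → F) : Subgroup (GU n F q) where
  carrier := {g | ∀ i, act g (s i) = s i}
  mul_mem' := fun {a b} ha hb i => by
    rw [act_mul, hb, ha]
  one_mem' := fun i => act_one _
  inv_mem' := fun {a} ha i => by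
    conv_lhs => rw [← ha i]
    exact act_inv_act _ _

omit [Fintype F] in
theorem mem_fixer {k : ℕ} {s : Fin k → Fin n → F} {g : GU n F q} :
    g ∈ fixer q s ↔ ∀ i, act g (s i) = s i := Iff.rfl

/-- `|GU| = |TF| |fixer|`. -/
theorem card_GU_eq_fixer (hF : Fintype.card F = q ^ 2) {k m : ℕ} (hn : 2 * k + m = n)
    (s : TF F q n k) : Nat.card (GU n F q) = Nat.card (TF F q n k) * Nat.card (fixer q s.1) := by
  let φ : GU n F q → TF F q n k := fun g => ⟨fun i => act g (s.1 i), act_li g s.2.1, fun i j => by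
    rw [act_form]
    exact s.2.2 i j⟩
  apply card_eq_mul_of_fibers (fixer q s.1) φ
  · intro s'
    obtain ⟨g, hg⟩ := exists_GU_of_TF hF hn s s'
    refine ⟨g, Subtype.ext ?_⟩
    funext i
    exact hg i
  · intro g g'
    constructor
    · intro h i
      have h1 : act g (s.1 i) = act g' (s.1 i) := congrFun (congrArg Subtype.val h) i
      rw [act_mul, ← h1, act_inv_act]
    · intro h
      apply Subtype.ext
      funext i
      have h1 := h i
      rw [act_mul] at h1
      change act g (s.1 i) = act g' (s.1 i)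
      conv_lhs => rw [← h1]
      exact act_act_inv _ _

/-- The stabiliser of a set of vectors in `GU`. -/
abbrev stabGU (q : ℕ) (W : Submodule F (Fin n → F)) : Subgroup (GU n F q) :=
  (stabilizing (Units.coeHom (Matrix (Fin n) (Fin n) F)) (W : Set (Fin n → F))).subgroupOf (GU n F q)

omit [Fintype F] in
theorem mem_stabGU_iff {W : Submodule F (Fin n → F)} {g : GU n F q} :
    g ∈ stabGU q W ↔ ∀ v, v ∈ W ↔ act g v ∈ W := Iff.rfl

theorem mem_stabGU_of_maps {W : Submodule F (Fin n → F)} {g : GU n F q}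
    (h : ∀ v ∈ W, act g v ∈ W) : g ∈ stabGU q W := by
  rw [mem_stabGU_iff]
  intro v
  refine ⟨h v, fun hv => ?_⟩
  let f : W → W := fun w => ⟨act g w.1, h w.1 w.2⟩
  have hinj : Function.Injective f := fun a b hab =>
    Subtype.ext (act_inj g (congrArg Subtype.val hab))
  have hsurj : Function.Surjective f := Finite.injective_iff_surjective.1 hinj
  obtain ⟨w, hw⟩ := hsurj ⟨act g v, hv⟩
  have h1 : act g w.1 = act g v := congrArg Subtype.val hw
  rw [← act_inj g h1]
  exact w.2

omit [Fintype F] in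
theorem maps_of_span {W : Submodule F (Fin n → F)} {k : ℕ} {s : Fin k → Fin n → F}
    (hspan : Submodule.span F (Set.range s) = W) {g : GU n F q} (h : ∀ i, act g (s i) ∈ W) :
    ∀ v ∈ W, act g v ∈ W := by
  intro v hv
  rw [← hspan] at hv
  induction hv using Submodule.span_induction with
  | mem x hx =>
    obtain ⟨i, rfl⟩ := hx
    exact h i
  | zero =>
    have : act g (0 : Fin n → F) = 0 := by simp [act]
    rw [this]
    exact W.zero_mem
  | add x y _ _ hx hy =>
    have : act g (x + y) = act g x + act g y := by simp [act, Matrix.mulVec_add]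
    rw [this]
    exact W.add_mem hx hy
  | smul a x _ hx =>
    have : act g (a • x) = a • act g x := by simp [act, Matrix.mulVec_smul]
    rw [this]
    exact W.smul_mem _ hx

/-- The ordered bases of `W`. -/
abbrev Bas (W : Submodule F (Fin n → F)) (k : ℕ) : Type _ :=
  {s : Fin k → Fin n → F // LinearIndependent F s ∧ ∀ i, s i ∈ W}

theorem card_Bas (hF : Fintype.card F = q ^ 2) {W : Submodule F (Fin n → F)} {k : ℕ}
    (hWk : Module.finrank F W = k) :
    Nat.card (Bas W k) = ∏ i : Fin k, ((q ^ 2) ^ k - (q ^ 2) ^ (i : ℕ)) := by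
  have e : Bas W k ≃ {s : Fin k → W // LinearIndependent F s} :=
    { toFun := fun s => ⟨fun i => ⟨s.1 i, s.2.2 i⟩, by
        apply LinearIndependent.of_comp W.subtype
        exact s.2.1⟩
      invFun := fun s => ⟨fun i => (s.1 i : Fin n → F),
        s.2.map' W.subtype (Submodule.ker_subtype W), fun i => (s.1 i).2⟩
      left_inv := fun s => rfl
      right_inv := fun s => rfl }
  rw [Nat.card_congr e, card_linearIndependent (K := F) (V := W) (by rw [hWk]), hWk, hF]

/-- The order of the stabiliser of a totally isotropic subspace in `GU`. -/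
theorem card_stabGU (hF : Fintype.card F = q ^ 2) {k m : ℕ} (hn : 2 * k + m = n)
    (W : Submodule F (Fin n → F)) (hWk : Module.finrank F W = k)
    (hW : ∀ u ∈ W, ∀ v ∈ W, ⟪u, v⟫ = 0) :
    Nat.card (stabGU q W) = (∏ i : Fin k, ((q ^ 2) ^ k - (q ^ 2) ^ (i : ℕ))) *
      (q ^ (k * (k + 2 * m)) * Nat.card (GU m F q)) := by
  classical
  let b : Module.Basis (Fin k) F W := Module.finBasisOfFinrankEq F W hWk
  let s₀ : Fin k → Fin n → F := fun i => (b i : Fin n → F)
  have hs₀W : ∀ i, s₀ i ∈ W := fun i => (b i).2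
  have hs₀li : LinearIndependent F s₀ := b.linearIndependent.map' W.subtype (Submodule.ker_subtype W)
  have hs₀span : Submodule.span F (Set.range s₀) = W := by
    apply le_antisymm
    · rw [Submodule.span_le]
      rintro _ ⟨i, rfl⟩
      exact hs₀W i
    · intro v hv
      have h1 := b.sum_repr ⟨v, hv⟩
      have h2 := congrArg Subtype.val h1
      simp only [AddSubmonoidClass.coe_finsetSum, SetLike.val_smul] at h2
      rw [← h2]
      exact Submodule.sum_mem _ fun i _ => Submodule.smul_mem _ _ (Submodule.subset_span ⟨i, rfl⟩)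
  let S₀ : TF F q n k := ⟨s₀, hs₀li, fun i j => hW _ (hs₀W i) _ (hs₀W j)⟩
  -- first count
  have h1 := card_GU_eq_fixer hF hn S₀
  have h2 := card_GU_eq_TF (n := n) hF k m hn
  have hTFpos : 0 < Nat.card (TF F q n k) := by
    have : Nonempty (TF F q n k) := ⟨S₀⟩
    exact Nat.card_pos
  have h3 : Nat.card (fixer q s₀) = q ^ (k * (k + 2 * m)) * Nat.card (GU m F q) := by
    have h4 : Nat.card (TF F q n k) * Nat.card (fixer q s₀) =
        Nat.card (TF F q n k) * (q ^ (k * (k + 2 * m)) * Nat.card (GU m F q)) := by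
      rw [← h1, h2]
      ring
    exact Nat.eq_of_mul_eq_mul_left hTFpos h4
  -- second count
  have hle : fixer q s₀ ≤ stabGU q W := by
    intro g hg
    apply mem_stabGU_of_maps
    apply maps_of_span hs₀span
    intro i
    rw [hg i]
    exact hs₀W i
  let φ : stabGU q W → Bas W k := fun g => ⟨fun i => act g.1 (s₀ i), act_li g.1 hs₀li, fun i =>
    (mem_stabGU_iff.1 g.2 _).1 (hs₀W i)⟩
  have h5 : Nat.card (stabGU q W) = Nat.card (Bas W k) * Nat.card ((fixer q s₀).subgroupOf (stabGU q W)) := by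
    apply card_eq_mul_of_fibers _ φ
    · intro s'
      let S' : TF F q n k := ⟨s'.1, s'.2.1, fun i j => hW _ (s'.2.2 i) _ (s'.2.2 j)⟩
      obtain ⟨g, hg⟩ := exists_GU_of_TF hF hn S₀ S'
      refine ⟨⟨g, mem_stabGU_of_maps (maps_of_span hs₀span fun i => ?_)⟩, Subtype.ext ?_⟩
      · have : act g (s₀ i) = s'.1 i := hg i
        rw [this]
        exact s'.2.2 i
      · funext i
        exact hg i
    · intro g g'
      rw [Subgroup.mem_subgroupOf]
      constructor
      · intro h i
        have h1 : act g.1 (s₀ i) = act g'.1 (s₀ i) := congrFun (congrArg Subtype.val h) i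
        have h6 : ((g⁻¹ * g' : stabGU q W) : GU n F q) = g.1⁻¹ * g'.1 := rfl
        rw [h6, act_mul, ← h1, act_inv_act]
      · intro h
        apply Subtype.ext
        funext i
        have h1 := h i
        have h6 : ((g⁻¹ * g' : stabGU q W) : GU n F q) = g.1⁻¹ * g'.1 := rfl
        rw [h6, act_mul] at h1
        change act g.1 (s₀ i) = act g'.1 (s₀ i)
        conv_lhs => rw [← h1]
        exact act_act_inv _ _
  rw [h5, card_Bas hF hWk, Nat.card_congr (Subgroup.subgroupOfEquivOfLe hle).toEquiv, h3]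

/-- Hilbert 90 for `F / F_q`. -/
theorem exists_hilbert90 (hF : Fintype.card F = q ^ 2) (u : Fˣ) (hu : u ^ (q + 1) = 1) :
    ∃ x : Fˣ, x ^ (q - 1) = u := by
  have hq := two_le_q hF
  let ψ : Fˣ →* Fˣ := powMonoidHom (q - 1)
  have hcardU := card_units hF
  have hmul : (q - 1) * (q + 1) = Nat.card Fˣ := by rw [hcardU]; ring
  have hker : Nat.card ψ.ker = q - 1 := by
    change Nat.card (powMonoidHom (q - 1) : Fˣ →* Fˣ).ker = _
    rw [IsCyclic.card_powMonoidHom_ker, hcardU]
    exact Nat.gcd_eq_right (Dvd.intro_left _ rfl)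
  have hr : ψ.range = normOne F q := by
    apply Subgroup.eq_of_le_of_card_ge
    · rintro _ ⟨x, rfl⟩
      rw [mem_normOne]
      change (x ^ (q - 1)) ^ (q + 1) = 1
      rw [← pow_mul, hmul, pow_card_eq_one']
    · rw [card_normOne hF]
      have h1 := Subgroup.card_mul_index ψ.ker
      rw [Subgroup.index_ker, hker, ← hmul] at h1
      have h2 : 0 < q - 1 := by omega
      exact (Nat.eq_of_mul_eq_mul_left h2 h1).ge
  have hmem : u ∈ ψ.range := by
    rw [hr, mem_normOne]
    exact hu
  obtain ⟨x, hx⟩ := hmem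
  exact ⟨x, hx⟩

/-- The hyperbolic torus element. -/
theorem exists_hyp (hF : Fintype.card F = q ^ 2) {e f : Fin n → F} (hee : ⟪e, e⟫ = 0)
    (hff : ⟪f, f⟫ = 0) (hef : ⟪e, f⟫ = 1) (u : Fˣ) (hu : u ^ (q + 1) = 1) :
    ∃ g : GU n F q, (g.1 : Matrix (Fin n) (Fin n) F).det = u ∧
      ∃ a : F, a ≠ 0 ∧ ∃ b : F, ∀ v, act g v = v + ((a - 1) * ⟪v, f⟫) • e + (b * ⟪v, e⟫) • f := by
  classical
  have hq := two_le_q hF
  have hfe : ⟪f, e⟫ = 1 := by
    rw [← hermForm_pow_q hF, hef, one_pow]
  obtain ⟨x, hx⟩ := exists_hilbert90 hF u hu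
  -- `a = x⁻¹`, `a * (a^q)⁻¹ = x^(q-1) = u`
  let a : F := ((x⁻¹ : Fˣ) : F)
  have ha : a ≠ 0 := Units.ne_zero _
  let b : F := (a ^ q)⁻¹
  have hb : a * b = u := by
    have h1 : ((x ^ (q - 1) : Fˣ) : F) = (u : F) := by rw [hx]
    rw [← h1]
    simp only [a, b, Units.val_inv_eq_inv_val, Units.val_pow_eq_pow_val, inv_pow, inv_inv]
    have hq1 : q = (q - 1) + 1 := by omega
    have hx0 : (x : F) ≠ 0 := Units.ne_zero _
    conv_lhs => rw [hq1]
    rw [pow_succ]
    field_simp
  have hbq : b ^ q = a⁻¹ := by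
    simp only [b]
    rw [inv_pow, pow_q_pow_q hF]
  have hba : b * a ^ q = 1 := by
    simp only [b]
    exact inv_mul_cancel₀ (pow_ne_zero _ ha)
  have hab : a * b ^ q = 1 := by
    rw [hbq]
    exact mul_inv_cancel₀ ha
  let α := a - 1
  let β := b - 1
  have hαq : α ^ q = a ^ q - 1 := by
    simp only [α]
    rw [pow_q_sub hF, one_pow]
  have hβq : β ^ q = b ^ q - 1 := by
    simp only [β]
    rw [pow_q_sub hF, one_pow]
  let A : Matrix (Fin n) (Fin 2) F := Matrix.of fun i j => ![α * e i, β * f i] j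
  let B : Matrix (Fin 2) (Fin n) F := Matrix.of fun j i => ![f i ^ q, e i ^ q] j
  let M : Matrix (Fin n) (Fin n) F := 1 + A * B
  have hM : ∀ v, M *ᵥ v = v + (α * ⟪v, f⟫) • e + (β * ⟪v, e⟫) • f := by
    intro v
    simp only [M]
    rw [Matrix.add_mulVec, Matrix.one_mulVec, ← Matrix.mulVec_mulVec, add_assoc]
    congr 1
    funext i
    have hB0 : (B *ᵥ v) 0 = ⟪v, f⟫ := by
      simp only [Matrix.mulVec, dotProduct, B, hermForm, Matrix.of_apply]
      exact Finset.sum_congr rfl fun i _ => by simp [mul_comm]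
    have hB1 : (B *ᵥ v) 1 = ⟪v, e⟫ := by
      simp only [Matrix.mulVec, dotProduct, B, hermForm, Matrix.of_apply]
      exact Finset.sum_congr rfl fun i _ => by simp [mul_comm]
    have h1 : (A *ᵥ (B *ᵥ v)) i = α * e i * (B *ᵥ v) 0 + β * f i * (B *ᵥ v) 1 := by
      conv_lhs => rw [Matrix.mulVec, dotProduct, Fin.sum_univ_two]
      simp [A]
    rw [h1, hB0, hB1]
    simp only [Pi.add_apply, Pi.smul_apply, smul_eq_mul]
    ring
  have hsum : ∀ (x y : Fin n → F) (c : F), ∑ i, y i ^ q * (c * x i) = c * ⟪x, y⟫ := by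
    intro x y c
    simp only [hermForm, Finset.mul_sum]
    exact Finset.sum_congr rfl fun i _ => by ring
  have hBA : B * A = !![α, 0; 0, β] := by
    ext j l
    fin_cases j <;> fin_cases l
    · simp only [Matrix.mul_apply, A, B, Matrix.of_apply]
      simpa [hef] using hsum e f α
    · simp only [Matrix.mul_apply, A, B, Matrix.of_apply]
      simpa [hff] using hsum f f β
    · simp only [Matrix.mul_apply, A, B, Matrix.of_apply]
      simpa [hee] using hsum e e α
    · simp only [Matrix.mul_apply, A, B, Matrix.of_apply]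
      simpa [hfe] using hsum f e β
  have hdet : M.det = u := by
    simp only [M]
    rw [Matrix.det_one_add_mul_comm, hBA, Matrix.det_fin_two]
    simp [Matrix.one_apply, α, β]
    rw [← hb]
  have hP : Preserves q M := by
    intro v w
    rw [hM, hM]
    simp only [hermForm_add_left, hermForm_add_right hF, hermForm_smul_left, hermForm_smul_right]
    have e1 : ⟪e, w⟫ = ⟪w, e⟫ ^ q := (hermForm_pow_q hF _ _ _).symm
    have e2 : ⟪f, w⟫ = ⟪w, f⟫ ^ q := (hermForm_pow_q hF _ _ _).symm
    have e3 : (α * ⟪w, f⟫) ^ q = α ^ q * ⟪w, f⟫ ^ q := mul_pow _ _ _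
    have e4 : (β * ⟪w, e⟫) ^ q = β ^ q * ⟪w, e⟫ ^ q := mul_pow _ _ _
    rw [e1, e2, e3, e4, hee, hff, hef, hfe, hαq, hβq]
    simp only [α, β]
    linear_combination (⟪v, e⟫ * ⟪w, f⟫ ^ q) * hba + (⟪v, f⟫ * ⟪w, e⟫ ^ q) * hab
  refine ⟨⟨glOfPreserves hF M hP, glOfPreserves_mem hF M hP⟩, hdet, a, ha, β, fun v => ?_⟩
  exact hM v

end Cfsg.Agent.Lib.Classical.Herm.TIStab
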