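import Mathlib
import Cfsg.Agent.Lib.Classical.Herm.RegUStart

/-!
# Tools for the two-generation of `SU_n(q)`

The starting lemma for the growth of full subspaces from a non-real triple, the standard vectors,
the coordinate shift, diagonal elements, and the torus element of a hyperbolic pair.
-/

set_option autoImplicit false
set_option linter.unusedSectionVars false
set_option linter.unusedSimpArgs false

open scoped Matrix
open Cfsg
open Cfsg.Agent.Lib.Classical.Herm.Basic Cfsg.Agent.Lib.Classical.Herm.Form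
open Cfsg.Agent.Lib.Classical.Herm.GU Cfsg.Agent.Lib.Classical.Herm.SU
open Cfsg.Agent.Lib.Classical.Herm.Subfield Cfsg.Agent.Lib.Classical.Herm.Isotropic
open Cfsg.Agent.Lib.Classical.Herm.Tv Cfsg.Agent.Lib.Classical.Herm.Gen
open Cfsg.Agent.Lib.Classical.Herm.RegU

namespace Cfsg.Agent.Lib.Classical.Herm.UTwoGen

variable {F : Type*} [Field F] [Fintype F] {q n : ℕ}

local notation "⟪" x ", " y "⟫" => hermForm _ _ q x y

variable {H : Subgroup (SU n F q)}

/-- A non-real triple of full vectors starts the growth. -/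
theorem start_of_nonreal (hF : Fintype.card F = q ^ 2) {e a b : Fin n → F} {δ : F} (hδ0 : δ ≠ 0)
    (hδ : δ ^ q = -δ) (he : Full H e) (ha : Full H a) (hb : Full H b) (hae : ⟪a, e⟫ = δ)
    (hbe : ⟪b, e⟫ = δ) (hne : (⟪a, b⟫ / δ) ^ q ≠ ⟪a, b⟫ / δ) :
    ∃ S : Submodule F (Fin n → F), Nd (q := q) S ∧ FullSub H S ∧ e ∈ S ∧ 3 ≤ Module.finrank F S := by
  have hee := he.2.1
  have haa := ha.2.1
  have hea : ⟪e, a⟫ = -δ := by
    rw [← hδ, ← hae, hermForm_pow_q hF]
  have hmem : ∀ x, x ∈ Submodule.span F {e, a} ↔ ∃ α β : F, α • e + β • a = x :=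
    fun x => Submodule.mem_span_pair
  have heL : e ∈ Submodule.span F {e, a} := Submodule.subset_span (by simp)
  have haL : a ∈ Submodule.span F {e, a} := Submodule.subset_span (by simp)
  have hL : Nd (q := q) (Submodule.span F {e, a}) := by
    intro u hu hu0
    obtain ⟨α, β, rfl⟩ := (hmem u).1 hu
    have h1 := hu0 e heL
    have h2 := hu0 a haL
    simp only [hermForm_add_left, hermForm_smul_left, hee, hae, hea, haa] at h1 h2
    have hβ : β = 0 := by
      have : β * δ = 0 := by linear_combination h1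
      exact (mul_eq_zero.1 this).resolve_right hδ0
    have hα : α = 0 := by
      have : α * δ = 0 := by linear_combination -h2
      exact (mul_eq_zero.1 this).resolve_right hδ0
    simp [hα, hβ]
  have hLF : FullSub H (Submodule.span F {e, a}) := by
    intro x hx hx0 hi
    obtain ⟨α, β, rfl⟩ := (hmem x).1 hx
    exact he.plane hF ha (by rw [hea]; exact neg_ne_zero.2 hδ0) hx0 hi
  have hfin : Module.finrank F (Submodule.span F {e, a}) = 2 := by
    have hli : LinearIndependent F ![e, a] := by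
      rw [LinearIndependent.pair_iff]
      intro α β h
      have h1 := congrArg (fun w => ⟪w, e⟫) h
      have h2 := congrArg (fun w => ⟪w, a⟫) h
      simp only [hermForm_add_left, hermForm_smul_left, hee, hae, hea, haa, hermForm_zero_left] at h1 h2
      constructor
      · have : α * δ = 0 := by linear_combination -h2
        exact (mul_eq_zero.1 this).resolve_right hδ0
      · have : β * δ = 0 := by linear_combination h1
        exact (mul_eq_zero.1 this).resolve_right hδ0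
    have := finrank_span_eq_card hli
    have hr : Set.range ![e, a] = {e, a} := by
      ext x
      simp only [Set.mem_range, Fin.exists_fin_two, Matrix.cons_val_zero, Matrix.cons_val_one,
        Set.mem_insert_iff, Set.mem_singleton_iff, eq_comm]
    rw [hr] at this
    simpa using this
  have hT : ∀ g : SU (Module.finrank F (Submodule.span F {e, a})) F q,
      g ∈ T (Module.finrank F (Submodule.span F {e, a})) F q := by
    rw [hfin]
    exact mem_T_two hF
  obtain ⟨s, hs, z, rfl, hz⟩ := exists_split hF hL b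
  have hz' := perp_symm hF hz
  have hze : ⟪z, e⟫ = 0 := hz e heL
  obtain ⟨α, β, rfl⟩ := (hmem s).1 hs
  have hβ : β = 1 := by
    simp only [hermForm_add_left, hermForm_smul_left, hee, hae, hze] at hbe
    have : (β - 1) * δ = 0 := by linear_combination hbe
    have h1 := (mul_eq_zero.1 this).resolve_right hδ0
    linear_combination h1
  subst hβ
  have hazz : ⟪a, z⟫ = 0 := hz' a haL
  have hab : ⟪a, α • e + (1 : F) • a + z⟫ = α ^ q * δ := by
    simp only [hermForm_add_right hF, hermForm_smul_right, hae, haa, hazz, one_pow]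
    ring
  rw [hab, mul_div_cancel_right₀ _ hδ0, pow_q_pow_q hF] at hne
  have hss : ⟪α • e + (1 : F) • a, α • e + (1 : F) • a⟫ = δ * (α ^ q - α) := by
    simp only [hermForm_add_left, hermForm_add_right hF, hermForm_smul_left, hermForm_smul_right,
      hee, hae, hea, haa, one_pow]
    ring
  have hzz : ⟪z, z⟫ ≠ 0 := by
    intro h0
    have h1 := hb.2.1
    simp only [hermForm_add_left (u := α • e + (1 : F) • a), hermForm_add_right hF (v' := z)] at h1
    rw [hz' _ hs, hz _ hs, h0, hss] at h1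
    have h2 : δ * (α ^ q - α) = 0 := by linear_combination h1
    rcases mul_eq_zero.1 h2 with h3 | h3
    · exact hδ0 h3
    · exact hne (by linear_combination -h3)
  obtain ⟨h1, h2, h3⟩ := caseA hF (by omega) hT hL hLF hs hz hzz hb
  refine ⟨_, h2, h3, h1.le heL, ?_⟩
  have := Submodule.finrank_lt_finrank_of_lt h1
  omega

/-- The un-normalised form of the non-real triple. -/
theorem start_of_trace (hF : Fintype.card F = q ^ 2) {e a b : Fin n → F} (he : Full H e)
    (ha : Full H a) (hb : Full H b) (hA : ⟪a, e⟫ ≠ 0) (hB : ⟪b, e⟫ ≠ 0)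
    (hne : (⟪a, b⟫ / (⟪a, e⟫ * ⟪e, b⟫)) ^ q ≠ -(⟪a, b⟫ / (⟪a, e⟫ * ⟪e, b⟫))) :
    ∃ S : Submodule F (Fin n → F), Nd (q := q) S ∧ FullSub H S ∧ e ∈ S ∧ 3 ≤ Module.finrank F S := by
  obtain ⟨δ, hδ0, hδ⟩ := exists_trace_zero hF
  refine start_of_nonreal hF hδ0 hδ he (ha.smul hF (div_ne_zero hδ0 hA))
    (hb.smul hF (div_ne_zero hδ0 hB)) ?_ ?_ ?_
  · rw [hermForm_smul_left]
    field_simp
  · rw [hermForm_smul_left]
    field_simp
  · intro h
    apply hne
    have hBq : ⟪e, b⟫ = ⟪b, e⟫ ^ q := (hermForm_pow_q hF n b e).symm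
    have hBq0 : ⟪e, b⟫ ≠ 0 := by
      rw [hBq]
      exact pow_ne_zero _ hB
    have e1 : ⟪(δ / ⟪a, e⟫) • a, (δ / ⟪b, e⟫) • b⟫ / δ =
        -δ * (⟪a, b⟫ / (⟪a, e⟫ * ⟪e, b⟫)) := by
      rw [hermForm_smul_left, hermForm_smul_right, div_pow, hδ, ← hBq]
      field_simp
    rw [e1] at h
    generalize ⟪a, b⟫ / (⟪a, e⟫ * ⟪e, b⟫) = w at h
    rw [mul_pow, pow_q_neg hF, hδ] at h
    have h3 : δ * (w ^ q + w) = 0 := by linear_combination h
    have h4 := (mul_eq_zero.1 h3).resolve_left hδ0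
    linear_combination h4

/-! ### Standard vectors -/

/-- The standard basis vectors, indexed by natural numbers. -/
def E (n : ℕ) (i : ℕ) : Fin n → F := fun j => if j.val = i then 1 else 0

theorem E_eq_single {i : ℕ} (h : i < n) : (E n i : Fin n → F) = Pi.single ⟨i, h⟩ 1 := by
  funext j
  simp only [E, Pi.single_apply, Fin.ext_iff]

theorem E_eq_zero {i : ℕ} (h : n ≤ i) : (E n i : Fin n → F) = 0 := by
  funext j
  have : j.val ≠ i := by
    have := j.2
    omega
  simp [E, this]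

theorem form_E (hF : Fintype.card F = q ^ 2) {i j : ℕ} (hi : i < n) (hj : j < n) :
    ⟪(E n i : Fin n → F), E n j⟫ = if i = j then 1 else 0 := by
  rw [E_eq_single hi, E_eq_single hj, hermForm_single_single hF]
  simp only [Fin.mk.injEq]

theorem E_ne_zero {i : ℕ} (h : i < n) : (E n i : Fin n → F) ≠ 0 := by
  intro h0
  have := congrFun h0 ⟨i, h⟩
  simp [E] at this

/-- The vectors `E i` span. -/
theorem eq_top_of_E_mem {W : Submodule F (Fin n → F)} (h : ∀ i, i < n → (E n i : Fin n → F) ∈ W) : W = ⊤ := by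
  rw [eq_top_iff]
  intro v _
  rw [pi_eq_sum_univ v]
  refine Submodule.sum_mem _ fun i _ => Submodule.smul_mem _ _ ?_
  have := h i i.2
  convert this using 1
  funext j
  simp only [E, Fin.ext_iff, eq_comm]

/-! ### Diagonal elements and the coordinate shift -/

/-- A diagonal element. -/
def dg (d : Fin n → F) (hd : ∀ k, d k ^ (q + 1) = 1) (hdet : ∏ k, d k = 1) : SU n F q :=
  mkSU (Matrix.diagonal d) (by rw [Matrix.det_diagonal]; exact hdet) (preserves_diagonal d hd)

theorem act_dg (d : Fin n → F) (hd : ∀ k, d k ^ (q + 1) = 1) (hdet : ∏ k, d k = 1) (v : Fin n → F) :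
    act (dg d hd hdet) v = fun k => d k * v k := by
  funext k
  simp [act, dg, mkSU, mat, Matrix.mulVec_diagonal]

/-- The coordinate shift. -/
theorem exists_shift (hF : Fintype.card F = q ^ 2) (hn : 1 ≤ n) :
    ∃ c : SU n F q, (∀ i, i + 1 < n → act c (E n i) = E n (i + 1)) ∧
      ∃ σ : F, σ ≠ 0 ∧ act c (E n (n - 1)) = σ • E n 0 := by
  classical
  obtain ⟨m, rfl⟩ : ∃ m, n = m + 1 := ⟨n - 1, by omega⟩
  let rot : Equiv.Perm (Fin (m + 1)) := finRotate (m + 1)
  let σ : F := (-1) ^ m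
  have hσ2 : σ * σ = 1 := by
    simp only [σ]
    rw [← mul_pow]
    simp
  have hσN : σ ^ (q + 1) = 1 := by
    simp only [σ]
    rw [← pow_mul, mul_comm, pow_mul, neg_one_pow_succ hF, one_pow]
  let τ : Fin (m + 1) → F := fun j => if j = 0 then σ else 1
  have hτ : ∀ k, τ k ^ (q + 1) = 1 := by
    intro k
    simp only [τ]
    split_ifs
    · exact hσN
    · exact one_pow _
  let M : Matrix (Fin (m + 1)) (Fin (m + 1)) F := Matrix.diagonal τ * (rot⁻¹).permMatrix F
  have hdet : M.det = 1 := by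
    simp only [M]
    rw [Matrix.det_mul, Matrix.det_diagonal, Matrix.det_permutation, Equiv.Perm.sign_inv]
    have h1 : ∏ k, τ k = σ := by
      simp only [τ]
      rw [Finset.prod_ite_eq' Finset.univ (0 : Fin (m + 1)) (fun _ => σ)]
      simp
    rw [h1]
    simp only [rot, sign_finRotate, Nat.add_sub_cancel, σ]
    simp only [Units.val_pow_eq_pow_val, Units.val_neg, Units.val_one, Int.reduceNeg, Int.cast_pow,
      Int.cast_neg, Int.cast_one]
    rw [← mul_pow]
    simp
  have hM : Preserves q M := preserves_mul (preserves_diagonal τ hτ) (preserves_perm _)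
  have hact : ∀ (v : Fin (m + 1) → F) (k : Fin (m + 1)), (M *ᵥ v) (rot k) = τ (rot k) * v k := by
    intro v k
    simp only [M]
    rw [← Matrix.mulVec_mulVec, Matrix.mulVec_diagonal, Matrix.permMatrix_mulVec]
    have h9 : rot⁻¹ (rot k) = k := rot.symm_apply_apply k
    simp only [Function.comp, h9]
  refine ⟨mkSU M hdet hM, fun i hi => ?_, σ, pow_ne_zero _ (neg_ne_zero.2 one_ne_zero), ?_⟩
  · funext j
    obtain ⟨k, rfl⟩ := rot.surjective j
    change (M *ᵥ E (m + 1) i) (rot k) = _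
    rw [hact]
    simp only [E, τ]
    by_cases hk : k = Fin.last m
    · subst hk
      have h1 : rot (Fin.last m) = 0 := finRotate_last
      rw [h1]
      have h2 : m ≠ i := by omega
      simp [h2]
    · have h1 : (rot k).val = k.val + 1 := coe_finRotate_of_ne_last hk
      have h2 : rot k ≠ 0 := by
        intro h0
        rw [h0] at h1
        simp at h1
      rw [if_neg h2, h1, one_mul]
      simp only [Nat.add_right_cancel_iff]
  · funext j
    obtain ⟨k, rfl⟩ := rot.surjective j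
    change (M *ᵥ E (m + 1) (m + 1 - 1)) (rot k) = _
    rw [hact]
    simp only [E, τ, Pi.smul_apply, smul_eq_mul, Nat.add_sub_cancel]
    by_cases hk : k = Fin.last m
    · subst hk
      have h1 : rot (Fin.last m) = 0 := finRotate_last
      rw [h1]
      simp
    · have h1 : (rot k).val = k.val + 1 := coe_finRotate_of_ne_last hk
      have h2 : rot k ≠ 0 := by
        intro h0
        rw [h0] at h1
        simp at h1
      have h3 : k.val ≠ m := fun h => hk (Fin.ext h)
      rw [if_neg h2, h1]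
      simp [h3]

/-! ### The torus element of a hyperbolic pair -/

/-- The torus element of a hyperbolic pair with `h(x, y)` of trace zero. -/
theorem exists_torus_norm (hF : Fintype.card F = q ^ 2) {x y : Fin n → F} (hx : ⟪x, x⟫ = 0)
    (hy : ⟪y, y⟫ = 0) {δ : F} (hδ0 : δ ≠ 0) (hδ : δ ^ q = -δ) (hxy : ⟪x, y⟫ = δ) {κ : F}
    (hκ0 : κ ≠ 0) (hκ : κ ^ q = κ) :
    ∃ D : SU n F q, ∀ v, act D v = v + ((κ - 1) / δ * ⟪v, y⟫) • x + ((1 - κ⁻¹) / δ * ⟪v, x⟫) • y := by
  have hyx : ⟪y, x⟫ = -δ := by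
    rw [← hδ, ← hxy, hermForm_pow_q hF]
  have hXc : ∀ u : F, u ^ q = u → (-u / δ) + (-u / δ) ^ q = 0 := by
    intro u hu
    rw [div_pow, pow_q_neg hF, hu, hδ]
    field_simp
    ring
  have hYc : ∀ u : F, u ^ q = u → (u / δ) + (u / δ) ^ q = 0 := by
    intro u hu
    rw [div_pow, hu, hδ]
    field_simp
    ring
  have h1q : (1 : F) ^ q = 1 := one_pow _
  have hnq : (-1 : F) ^ q = -1 := by rw [pow_q_neg hF, h1q]
  have hκ1q : (κ - 1) ^ q = κ - 1 := by rw [pow_q_sub hF, hκ, h1q]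
  have hκiq : (-κ⁻¹) ^ q = -κ⁻¹ := by rw [pow_q_neg hF, inv_pow, hκ]
  let X₁ := tv hF hx (hXc (-1) hnq)
  let Y₁ := tv hF hy (hYc 1 h1q)
  let X₂ := tv hF hx (hXc (κ - 1) hκ1q)
  let Y₂ := tv hF hy (hYc (-κ⁻¹) hκiq)
  let X₃ := tv hF hx (hXc κ hκ)
  refine ⟨X₃ * Y₂ * X₂ * Y₁ * X₁, fun v => ?_⟩
  have hsX : ∀ (c α β : F) (w : Fin n → F),
      w + (c * ⟪v + α • x + β • y, x⟫) • x + (α • x + β • y) =
        w + (α + c * (⟪v, x⟫ - β * δ)) • x + β • y := by
    intro c α β w
    simp only [hermForm_add_left, hermForm_smul_left, hx, hyx]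
    have : ⟪v, x⟫ + α * 0 + β * -δ = ⟪v, x⟫ - β * δ := by ring
    rw [this]
    module
  have hsY : ∀ (c α β : F) (w : Fin n → F),
      w + (c * ⟪v + α • x + β • y, y⟫) • y + (α • x + β • y) =
        w + α • x + (β + c * (⟪v, y⟫ + α * δ)) • y := by
    intro c α β w
    simp only [hermForm_add_left, hermForm_smul_left, hy, hxy]
    have : ⟪v, y⟫ + α * δ + β * 0 = ⟪v, y⟫ + α * δ := by ring
    rw [this]
    module
  have step_X : ∀ (c α β : F) (hc : c + c ^ q = 0),
      act (tv hF hx hc) (v + α • x + β • y) = v + (α + c * (⟪v, x⟫ - β * δ)) • x + β • y := by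
    intro c α β hc
    rw [act_tv]
    have := hsX c α β v
    rw [← this]
    abel
  have step_Y : ∀ (c α β : F) (hc : c + c ^ q = 0),
      act (tv hF hy hc) (v + α • x + β • y) = v + α • x + (β + c * (⟪v, y⟫ + α * δ)) • y := by
    intro c α β hc
    rw [act_tv]
    have := hsY c α β v
    rw [← this]
    abel
  have h0 : v = v + (0 : F) • x + (0 : F) • y := by simp
  simp only [act_mul]
  conv_lhs => rw [h0]
  simp only [X₁, Y₁, X₂, Y₂, X₃]
  rw [step_X, step_Y, step_X, step_Y, step_X]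
  congr 2
  · congr 1
    field_simp
    ring
  · congr 1
    field_simp
    ring

/-- The torus element of a hyperbolic pair. -/
theorem exists_torus (hF : Fintype.card F = q ^ 2) {x y : Fin n → F} (hx : ⟪x, x⟫ = 0)
    (hy : ⟪y, y⟫ = 0) (hxy : ⟪x, y⟫ ≠ 0) {κ : F} (hκ0 : κ ≠ 0) (hκ : κ ^ q = κ) :
    ∃ D : SU n F q, ∀ v, act D v =
      v + ((κ - 1) / ⟪x, y⟫ * ⟪v, y⟫) • x + ((κ⁻¹ - 1) / ⟪x, y⟫ ^ q * ⟪v, x⟫) • y := by
  obtain ⟨δ, hδ0, hδ⟩ := exists_trace_zero hF
  have hlq : ⟪x, y⟫ ^ q ≠ 0 := pow_ne_zero _ hxy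
  have hμ : ((δ / ⟪x, y⟫) ^ q) ^ q = δ / ⟪x, y⟫ := pow_q_pow_q hF _
  have hy' : ⟪(δ / ⟪x, y⟫) ^ q • y, (δ / ⟪x, y⟫) ^ q • y⟫ = 0 := by
    rw [hermForm_smul_left, hermForm_smul_right, hy]
    ring
  have hxy' : ⟪x, (δ / ⟪x, y⟫) ^ q • y⟫ = δ := by
    rw [hermForm_smul_right, hμ]
    field_simp
  obtain ⟨D, hD⟩ := exists_torus_norm hF hx hy' hδ0 hδ hxy' hκ0 hκ
  refine ⟨D, fun v => ?_⟩
  rw [hD, hermForm_smul_right, hμ, smul_smul]
  have c1 : (κ - 1) / δ * (δ / ⟪x, y⟫ * ⟪v, y⟫) = (κ - 1) / ⟪x, y⟫ * ⟪v, y⟫ := by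
    field_simp
  have c2 : (1 - κ⁻¹) / δ * ⟪v, x⟫ * (δ / ⟪x, y⟫) ^ q = (κ⁻¹ - 1) / ⟪x, y⟫ ^ q * ⟪v, x⟫ := by
    rw [div_pow, hδ]
    field_simp
    ring
  rw [c1, c2]

/-- The powers of the torus element. -/
theorem torus_pow (hF : Fintype.card F = q ^ 2) {x y : Fin n → F} (hx : ⟪x, x⟫ = 0)
    (hy : ⟪y, y⟫ = 0) (hxy : ⟪x, y⟫ ≠ 0) {κ : F} (hκ0 : κ ≠ 0) {D : SU n F q}
    (hD : ∀ v, act D v =
      v + ((κ - 1) / ⟪x, y⟫ * ⟪v, y⟫) • x + ((κ⁻¹ - 1) / ⟪x, y⟫ ^ q * ⟪v, x⟫) • y) (k : ℕ) (v : Fin n → F) :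
    act (D ^ k) v =
      v + ((κ ^ k - 1) / ⟪x, y⟫ * ⟪v, y⟫) • x + ((κ⁻¹ ^ k - 1) / ⟪x, y⟫ ^ q * ⟪v, x⟫) • y := by
  have hyx : ⟪y, x⟫ = ⟪x, y⟫ ^ q := (hermForm_pow_q hF n x y).symm
  have hlq : ⟪x, y⟫ ^ q ≠ 0 := pow_ne_zero _ hxy
  induction k with
  | zero => simp
  | succ k ih =>
    rw [pow_succ', act_mul, ih, hD]
    simp only [hermForm_add_left, hermForm_smul_left, hx, hy, hyx]
    generalize ⟪v, y⟫ = r
    generalize ⟪v, x⟫ = p
    generalize ⟪x, y⟫ = l at *
    have e1 : (l ^ q) ≠ 0 := hlq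
    have c1 : (κ ^ k - 1) / l * r + (κ - 1) / l * (r + (κ ^ k - 1) / l * r * l + (κ⁻¹ ^ k - 1) / l ^ q * p * 0) =
        (κ ^ (k + 1) - 1) / l * r := by
      field_simp
      ring
    have c2 : (κ⁻¹ ^ k - 1) / l ^ q * p + (κ⁻¹ - 1) / l ^ q * (p + (κ ^ k - 1) / l * r * 0 + (κ⁻¹ ^ k - 1) / l ^ q * p * l ^ q) =
        (κ⁻¹ ^ (k + 1) - 1) / l ^ q * p := by
      rw [pow_succ κ⁻¹ k]
      field_simp
      ring
    rw [← c1, ← c2]
    module

/-- Powers of a transvection. -/
theorem tv_pow (hF : Fintype.card F = q ^ 2) {x : Fin n → F} (hx : ⟪x, x⟫ = 0) {c : F}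
    (hc : c + c ^ q = 0) (k : ℕ) (v : Fin n → F) :
    act ((tv hF hx hc) ^ k) v = v + ((k : F) * c * ⟪v, x⟫) • x := by
  induction k with
  | zero => simp
  | succ k ih =>
    rw [pow_succ', act_mul, ih, act_tv]
    simp only [hermForm_add_left, hermForm_smul_left, hx]
    push_cast
    have : (k : F) * c * ⟪v, x⟫ * 0 = 0 := by ring
    rw [this, add_zero, add_assoc, ← add_smul]
    congr 2
    ring

theorem tv_pow_card (hF : Fintype.card F = q ^ 2) {x : Fin n → F} (hx : ⟪x, x⟫ = 0) {c : F}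
    (hc : c + c ^ q = 0) : (tv hF hx hc) ^ (q ^ 2) = 1 := by
  apply ext_act
  intro v
  rw [tv_pow]
  have : ((q ^ 2 : ℕ) : F) = 0 := by
    rw [← hF]
    exact FiniteField.cast_card_eq_zero F
  rw [this]
  simp

/-- An element fixing `x` commutes with the transvections with vector `x`. -/
theorem commute_tv (hF : Fintype.card F = q ^ 2) {x : Fin n → F} (hx : ⟪x, x⟫ = 0) {c : F}
    (hc : c + c ^ q = 0) {D : SU n F q} (hD : act D x = x) : Commute (tv hF hx hc) D := by
  apply ext_act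
  intro v
  simp only [act_mul, act_tv, act_add, act_smul, hD]
  conv_lhs => rw [← hD]
  rw [h_act, hD]

/-- If `t = T D` with `T` and `D` commuting, `T` a transvection, and `D` with `D ^ (q ^ 2 - 1) = 1`,
the closure contains both. -/
theorem mem_of_prod (hF : Fintype.card F = q ^ 2) {x : Fin n → F} (hx : ⟪x, x⟫ = 0) {c : F}
    (hc : c + c ^ q = 0) {D : SU n F q} (hD : act D x = x) (hord : D ^ (q ^ 2 - 1) = 1)
    {H : Subgroup (SU n F q)} (hb : tv hF hx hc * D ∈ H) : D ∈ H ∧ tv hF hx hc ∈ H := by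
  have hq := two_le_q hF
  have h1 : (tv hF hx hc * D) ^ (q ^ 2) = D := by
    rw [(commute_tv hF hx hc hD).mul_pow, tv_pow_card, one_mul]
    have h5 : 1 ≤ q ^ 2 := Nat.one_le_pow _ _ (by omega)
    have : D ^ (q ^ 2) = D ^ (q ^ 2 - 1) * D := by
      rw [← pow_succ]
      congr 1
      omega
    rw [this, hord, one_mul]
  have h2 : D ∈ H := by
    rw [← h1]
    exact pow_mem hb _
  refine ⟨h2, ?_⟩
  have h3 : tv hF hx hc = (tv hF hx hc * D) * D⁻¹ := by group
  rw [h3]
  exact mul_mem hb (inv_mem h2)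

/-! ### Scaling -/

/-- A transvection and a scaling element make a full vector. -/
theorem full_of_scaling (hF : Fintype.card F = q ^ 2) {x₀ : Fin n → F} (hx0 : x₀ ≠ 0)
    (hiso : ⟪x₀, x₀⟫ = 0) {δ : F} (hδ0 : δ ≠ 0) (hδ : δ ^ q = -δ)
    (hT : ∃ g ∈ H, ∀ y, act g y = y + (δ * ⟪y, x₀⟫) • x₀) {h₀ : SU n F q} (hh : h₀ ∈ H) {κ : F}
    (hκ : act h₀ x₀ = κ • x₀) (hκq : κ ^ q = κ)
    (hgen : ∀ t : F, t ≠ 0 → t ^ q = t → ∃ j : ℕ, t = κ ^ j) : Full H x₀ := by
  let A : F → Prop := fun t => ∃ g ∈ H, ∀ y, act g y = y + ((δ * t) * ⟪y, x₀⟫) • x₀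
  have hA0 : A 0 := ⟨1, one_mem _, fun y => by simp⟩
  have hA1 : A 1 := by
    obtain ⟨g, hg, hga⟩ := hT
    exact ⟨g, hg, fun y => by rw [hga, mul_one]⟩
  have hAadd : ∀ s t, A s → A t → A (s + t) := by
    rintro s t ⟨g₁, hg₁, h₁⟩ ⟨g₂, hg₂, h₂⟩
    refine ⟨g₁ * g₂, mul_mem hg₁ hg₂, fun y => ?_⟩
    rw [act_mul, h₂, h₁]
    simp only [hermForm_add_left, hermForm_smul_left, hiso, mul_zero, add_zero]
    rw [add_assoc, ← add_smul]
    congr 2
    ring
  have hAneg : ∀ t, A t → A (-t) := by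
    rintro t ⟨g, hg, h₁⟩
    refine ⟨g⁻¹, inv_mem hg, fun y => ?_⟩
    have : y = act g (y + ((δ * -t) * ⟪y, x₀⟫) • x₀) := by
      rw [h₁]
      simp only [hermForm_add_left, hermForm_smul_left, hiso, mul_zero, add_zero]
      rw [add_assoc, ← add_smul]
      have : (δ * -t * ⟪y, x₀⟫ + δ * t * ⟪y, x₀⟫) = 0 := by ring
      rw [this, zero_smul, add_zero]
    conv_lhs => rw [this]
    rw [act_inv_act]
  have hAscale : ∀ t, A t → A (t * κ ^ 2) := by
    rintro t ⟨g, hg, h₁⟩
    refine ⟨h₀ * g * h₀⁻¹, mul_mem (mul_mem hh hg) (inv_mem hh), fun y => ?_⟩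
    rw [act_mul, act_mul, h₁, act_add, act_act_inv, act_smul, hκ, form_act_inv, hκ,
      hermForm_smul_right, hκq, smul_smul]
    congr 2
    ring
  have hApow : ∀ j : ℕ, A (κ ^ (2 * j)) := by
    intro j
    induction j with
    | zero => simpa using hA1
    | succ j ih =>
      have := hAscale _ ih
      rwa [← pow_add] at this
  have hAsq : ∀ r : F, r ^ q = r → A (r ^ 2) := by
    intro r hr
    by_cases hr0 : r = 0
    · subst hr0
      simpa using hA0
    obtain ⟨j, rfl⟩ := hgen r hr0 hr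
    rw [← pow_mul, mul_comm]
    exact hApow j
  have hAall : ∀ t : F, t ^ q = t → A t := by
    intro t ht
    by_cases h2 : (2 : F) = 0
    · -- characteristic two: every element is a square
      have hinj : Function.Injective (fun x : F => x ^ 2) := by
        intro a b hab
        have h3 : (a - b) ^ 2 = 0 := by
          simp only at hab
          linear_combination hab + (b ^ 2 - a * b) * h2
        have h4 := pow_eq_zero_iff (two_ne_zero) |>.1 h3
        exact sub_eq_zero.1 h4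
      obtain ⟨r, hr⟩ := (Finite.injective_iff_surjective.1 hinj) t
      simp only at hr
      have hrq : r ^ q = r := by
        apply hinj
        simp only
        rw [← pow_mul, mul_comm, pow_mul, hr, ht]
      rw [← hr]
      exact hAsq r hrq
    · have h2q : (2 : F) ^ q = 2 := by
        have : (2 : F) = 1 + 1 := by norm_num
        rw [this, pow_q_add hF, one_pow]
      have h1 : t = ((t + 1) / 2) ^ 2 + -(((t - 1) / 2) ^ 2) := by
        field_simp
        ring
      rw [h1]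
      refine hAadd _ _ (hAsq _ ?_) (hAneg _ (hAsq _ ?_))
      · rw [div_pow, pow_q_add hF, ht, h2q, one_pow]
      · rw [div_pow, pow_q_sub hF, ht, h2q, one_pow]
  refine ⟨hx0, hiso, fun c hc => ?_⟩
  have h1 : (c / δ) ^ q = c / δ := by
    rw [div_pow, hδ]
    have : c ^ q = -c := by linear_combination hc
    rw [this]
    field_simp
  obtain ⟨g, hg, hga⟩ := hAall _ h1
  refine ⟨g, hg, fun y => ?_⟩
  rw [hga]
  congr 3
  field_simp

/-! ### The spanning condition -/

/-- A full vector not orthogonal to an element of `W` lies in `W`. -/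
theorem mem_W_of_pair (hF : Fintype.card F = q ^ 2) {e x z : Fin n → F} (hx : Full H x)
    (hz : z ∈ Submodule.span F {v : Fin n → F | Full H v ∧ ⟪v, e⟫ ≠ 0}) (hxz : ⟪x, z⟫ ≠ 0) :
    x ∈ Submodule.span F {v : Fin n → F | Full H v ∧ ⟪v, e⟫ ≠ 0} := by
  -- some generator is not orthogonal to `x`
  obtain ⟨y, ⟨hy, hye⟩, hxy⟩ : ∃ y ∈ {v : Fin n → F | Full H v ∧ ⟪v, e⟫ ≠ 0}, ⟪x, y⟫ ≠ 0 := by
    by_contra hcon
    push Not at hcon
    have key : ∀ w ∈ Submodule.span F {v : Fin n → F | Full H v ∧ ⟪v, e⟫ ≠ 0}, ⟪x, w⟫ = 0 := by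
      intro w hw
      induction hw using Submodule.span_induction with
      | mem y hy => exact hcon y hy
      | zero => exact hermForm_zero_right hF _ _
      | add a b _ _ ha hb => rw [hermForm_add_right hF, ha, hb, add_zero]
      | smul t a _ ha => rw [hermForm_smul_right, ha, mul_zero]
    exact hxz (key z hz)
  by_cases hxe : ⟪x, e⟫ = 0
  · obtain ⟨δ, hδ0, hδ⟩ := exists_trace_zero hF
    have hc : δ + δ ^ q = 0 := by rw [hδ]; ring
    have h1 := hx.line hy hc
    have h2 : ⟪x + (δ * ⟪x, y⟫) • y, e⟫ ≠ 0 := by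
      rw [hermForm_add_left, hermForm_smul_left, hxe, zero_add]
      exact mul_ne_zero (mul_ne_zero hδ0 hxy) hye
    have h3 : x + (δ * ⟪x, y⟫) • y ∈ Submodule.span F {v : Fin n → F | Full H v ∧ ⟪v, e⟫ ≠ 0} :=
      Submodule.subset_span ⟨h1, h2⟩
    have h4 : y ∈ Submodule.span F {v : Fin n → F | Full H v ∧ ⟪v, e⟫ ≠ 0} :=
      Submodule.subset_span ⟨hy, hye⟩
    have h5 := Submodule.sub_mem _ h3 (Submodule.smul_mem _ (δ * ⟪x, y⟫) h4)
    rwa [add_sub_cancel_right] at h5
  · exact Submodule.subset_span ⟨hx, hxe⟩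

/-- The chain vectors. -/
def xv (n : ℕ) (θ : F) (j : ℕ) : Fin n → F := E n j + θ • E n (j + 1)

theorem form_xv_self (hF : Fintype.card F = q ^ 2) {θ : F} {j : ℕ} (hj : j + 1 < n) (hθ : θ * θ ^ q = -1) :
    ⟪xv n θ j, xv n θ j⟫ = 0 := by
  simp only [xv, hermForm_add_left, hermForm_add_right hF, hermForm_smul_left, hermForm_smul_right,
    form_E hF (show j < n by omega) (show j < n by omega), form_E hF hj hj,
    form_E hF (show j < n by omega) hj, form_E hF hj (show j < n by omega)]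
  simp only [if_true, if_neg (show ¬ j = j + 1 by omega), if_neg (show ¬ j + 1 = j by omega)]
  linear_combination hθ

theorem form_xv (hF : Fintype.card F = q ^ 2) {α β : F} {j k : ℕ} (hj : j + 1 < n) (hk : k + 1 < n) :
    ⟪xv n α j, xv n β k⟫ = (if j = k then 1 else 0) + β ^ q * (if j = k + 1 then 1 else 0) +
      α * (if j + 1 = k then 1 else 0) + α * β ^ q * (if j = k then 1 else 0) := by
  simp only [xv, hermForm_add_left, hermForm_add_right hF, hermForm_smul_left, hermForm_smul_right]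
  rw [form_E hF (show j < n by omega) (show k < n by omega),
    form_E hF (show j < n by omega) hk,
    form_E hF hj (show k < n by omega), form_E hF hj hk]
  simp only [Nat.add_right_cancel_iff]
  ring

theorem xv_ne_zero {θ : F} {j : ℕ} (hj : j < n) : (xv n θ j) ≠ 0 := by
  intro h
  have := congrFun h ⟨j, hj⟩
  simp [xv, E] at this

/-- The spanning condition from the chain. -/
theorem span_of_chain (hF : Fintype.card F = q ^ 2) (hn : 3 ≤ n) {θ : F} (hθ : θ * θ ^ q = -1)
    (hfull : ∀ j, j + 1 < n → Full H (xv n θ j))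
    (h2 : (E n 2 : Fin n → F) ∈ Submodule.span F {v : Fin n → F | Full H v ∧ ⟪v, xv n θ 0⟫ ≠ 0}) :
    Submodule.span F {v : Fin n → F | Full H v ∧ ⟪v, xv n θ 0⟫ ≠ 0} = ⊤ := by
  have hθ0 : θ ≠ 0 := by
    rintro rfl
    rw [zero_mul] at hθ
    have h1 : (1 : F) = 0 := by linear_combination hθ
    exact one_ne_zero h1
  have hθq : θ ^ q ≠ 0 := pow_ne_zero _ hθ0
  have hadj : ∀ j, j + 2 < n → ⟪xv n θ (j + 1), xv n θ j⟫ = θ ^ q := by
    intro j hj
    simp only [xv, hermForm_add_left, hermForm_add_right hF, hermForm_smul_left, hermForm_smul_right]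
    rw [form_E hF (show j + 1 < n by omega) (show j < n by omega),
      form_E hF (show j + 1 < n by omega) (show j + 1 < n by omega),
      form_E hF (show j + 1 + 1 < n by omega) (show j < n by omega),
      form_E hF (show j + 1 + 1 < n by omega) (show j + 1 < n by omega)]
    simp [show ¬ (j + 1 + 1 = j) by omega]
  have hadj' : ∀ j, j + 2 < n → ⟪xv n θ j, xv n θ (j + 1)⟫ = θ := by
    intro j hj
    have := hermForm_symm_of hF (hadj j hj)
    rwa [pow_q_pow_q hF] at this
  set W := Submodule.span F {v : Fin n → F | Full H v ∧ ⟪v, xv n θ 0⟫ ≠ 0} with hW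
  have hx1 : xv n θ 1 ∈ W := Submodule.subset_span ⟨hfull 1 (by omega), by
    rw [hadj 0 (by omega)]; exact hθq⟩
  have hx0 : xv n θ 0 ∈ W := mem_W_of_pair hF (hfull 0 (by omega)) hx1 (by
    rw [hadj' 0 (by omega)]; exact hθ0)
  have hxj : ∀ j, j + 2 < n → xv n θ (j + 1) ∈ W := by
    intro j
    induction j with
    | zero => exact fun _ => hx1
    | succ j ih =>
      intro hj
      exact mem_W_of_pair hF (hfull _ (by omega)) (ih (by omega)) (by
        rw [hadj (j + 1) (by omega)]; exact hθq)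
  have hEj : ∀ j, j + 2 < n → (E n (j + 2) : Fin n → F) ∈ W := by
    intro j
    induction j with
    | zero => exact fun _ => h2
    | succ j ih =>
      intro hj
      have h3 := hxj (j + 1) (by omega)
      have h4 := ih (by omega)
      have h5 := Submodule.smul_mem _ θ⁻¹ (Submodule.sub_mem _ h3 h4)
      have h6 : θ⁻¹ • (xv n θ (j + 1 + 1) - E n (j + 2)) = E n (j + 1 + 2) := by
        simp only [xv]
        rw [add_sub_cancel_left, smul_smul, inv_mul_cancel₀ hθ0, one_smul]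
      rwa [h6] at h5
  have hE1 : (E n 1 : Fin n → F) ∈ W := by
    have h3 := Submodule.sub_mem _ hx1 (Submodule.smul_mem _ θ (hEj 0 (by omega)))
    have h4 : xv n θ 1 - θ • E n (0 + 2) = E n 1 := by
      simp only [xv]
      abel
    rwa [h4] at h3
  have hE0 : (E n 0 : Fin n → F) ∈ W := by
    have h3 := Submodule.sub_mem _ hx0 (Submodule.smul_mem _ θ hE1)
    have h4 : xv n θ 0 - θ • E n 1 = E n 0 := by
      simp only [xv]
      abel
    rwa [h4] at h3
  apply eq_top_of_E_mem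
  intro i hi
  rcases i with _ | _ | i
  · exact hE0
  · exact hE1
  · exact hEj i (by omega)

end Cfsg.Agent.Lib.Classical.Herm.UTwoGen
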