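import Mathlib
import Cfsg.Agent.Lib.Classical.Herm.UTwoGen

/-!
# `SU_n(q)`, `n ≥ 4`, `q ≥ 3`, is generated by two elements

The coordinate shift together with the product of a transvection with a vector on the first two
coordinates and a torus element of a hyperbolic pair on the next two coordinates.
-/

set_option autoImplicit false
set_option linter.unusedSectionVars false
set_option linter.unusedSimpArgs false

open scoped Matrix
open Cfsg
open Cfsg.Agent.Lib.Classical.Herm.Basic Cfsg.Agent.Lib.Classical.Herm.Form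
open Cfsg.Agent.Lib.Classical.Herm.GU Cfsg.Agent.Lib.Classical.Herm.SU
open Cfsg.Agent.Lib.Classical.Herm.Subfield Cfsg.Agent.Lib.Classical.Herm.Isotropic
open Cfsg.Agent.Lib.Classical.Herm.Tv Cfsg.Agent.Lib.Classical.Herm.Gen
open Cfsg.Agent.Lib.Classical.Herm.RegU

namespace Cfsg.Agent.Lib.Classical.Herm.UTwoGen

variable {F : Type*} [Field F] [Fintype F] {q n : ℕ}

local notation "⟪" x ", " y "⟫" => hermForm _ _ q x y

/-- A generator of the nonzero elements of the subfield. -/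
theorem exists_real_gen (hF : Fintype.card F = q ^ 2) (hq : 3 ≤ q) :
    ∃ κ : F, κ ≠ 0 ∧ κ ≠ 1 ∧ κ ^ q = κ ∧ ∀ t : F, t ≠ 0 → t ^ q = t → ∃ j : ℕ, t = κ ^ j := by
  classical
  obtain ⟨ξ, hξ⟩ := IsCyclic.exists_generator (α := Fˣ)
  have hξ0 : (ξ : F) ≠ 0 := ξ.ne_zero
  refine ⟨(ξ : F) ^ (q + 1), pow_ne_zero _ hξ0, ?_, norm_pow_q hF _, ?_⟩
  · intro h
    have h1 : ξ ^ (q + 1) = 1 := by
      apply Units.ext
      simpa using h
    have h2 := orderOf_dvd_of_pow_eq_one h1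
    rw [orderOf_eq_card_of_forall_mem_zpowers hξ, card_units hF] at h2
    have h3 := Nat.le_of_dvd (by omega) h2
    have h4 : 2 ≤ q - 1 := by omega
    nlinarith
  · intro t ht htq
    obtain ⟨c, hc⟩ := exists_norm_eq hF t ht htq
    have hc0 : c ≠ 0 := by
      rintro rfl
      rw [zero_pow (by omega)] at hc
      exact ht hc.symm
    have h1 : Units.mk0 c hc0 ∈ Submonoid.powers ξ := by
      rw [mem_powers_iff_mem_zpowers]
      exact hξ _
    obtain ⟨m, hm⟩ := h1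
    refine ⟨m, ?_⟩
    have h2 : (ξ : F) ^ m = c := by
      have := congrArg Units.val hm
      simpa using this
    rw [← hc, ← h2]
    ring

theorem aux_nonreal {κ w w' : F} (hκ : κ ≠ 0) (hw : w ≠ 0) (hw' : w' ≠ 0)
    (h : κ⁻¹ / w' = -(κ⁻¹ / w)) : κ⁻¹ * (w + w') = 0 := by
  have e1 : κ⁻¹ * (w + w') = w * w' * (κ⁻¹ / w' + κ⁻¹ / w) := by
    field_simp
  rw [e1, h]
  ring

/-- The main theorem for `q ≥ 3`. -/
theorem main_big (hF : Fintype.card F = q ^ 2) (hq : 3 ≤ q) (hn : 4 ≤ n) :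
    ∃ a b : SU n F q, Subgroup.closure ({a, b} : Set (SU n F q)) = ⊤ := by
  classical
  obtain ⟨θ, hθ⟩ := exists_theta hF
  have hθ0 : θ ≠ 0 := by
    rintro rfl
    rw [zero_mul] at hθ
    have h1 : (1 : F) = 0 := by linear_combination hθ
    exact one_ne_zero h1
  have hθq0 : θ ^ q ≠ 0 := pow_ne_zero _ hθ0
  obtain ⟨δ, hδ0, hδ⟩ := exists_trace_zero hF
  have hδc : δ + δ ^ q = 0 := by rw [hδ]; ring
  obtain ⟨z, hz⟩ : ∃ z : F, z ^ q ≠ z := by
    by_contra hcon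
    push Not at hcon
    exact sigma_ne_id hF (RingHom.ext hcon)
  have hz0 : z ≠ 0 := by
    rintro rfl
    exact hz (zero_pow_q hF)
  have hzq0 : z ^ q ≠ 0 := pow_ne_zero _ hz0
  obtain ⟨θ₂, hθ₂, hθ₂ne⟩ : ∃ θ₂ : F, θ₂ * θ₂ ^ q = -1 ∧ θ₂ ≠ θ := by
    refine ⟨θ * (z ^ q / z), ?_, ?_⟩
    · rw [mul_pow, div_pow, pow_q_pow_q hF]
      have : θ * (z ^ q / z) * (θ ^ q * (z / z ^ q)) = (θ * θ ^ q) * ((z ^ q / z) * (z / z ^ q)) := by ring
      rw [this, hθ]
      field_simp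
    · intro h
      apply hz
      have h1 : θ * (z ^ q / z - 1) = 0 := by linear_combination h
      have h2 := (mul_eq_zero.1 h1).resolve_left hθ0
      have h3 : z ^ q / z = 1 := by linear_combination h2
      field_simp at h3
      exact h3
  obtain ⟨κ, hκ0, hκ1, hκq, hgen⟩ := exists_real_gen (F := F) hF hq
  obtain ⟨c, hc1, -⟩ := exists_shift (F := F) hF (n := n) (by omega)
  have hcx : ∀ (α : F) (j : ℕ), j + 2 < n → act c (xv n α j) = xv n α (j + 1) := by
    intro α j hj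
    simp only [xv]
    rw [act_add, act_smul, hc1 j (by omega), hc1 (j + 1) (by omega)]
  have hcinv : ∀ (α : F) (j : ℕ), j + 2 < n → act c⁻¹ (xv n α (j + 1)) = xv n α j := by
    intro α j hj
    rw [← hcx α j hj, act_inv_act]
  have hx0iso : ⟪xv n θ 0, xv n θ 0⟫ = 0 := form_xv_self hF (by omega) hθ
  have hx2iso : ⟪xv n θ 2, xv n θ 2⟫ = 0 := form_xv_self hF (by omega) hθ
  have hy2iso : ⟪xv n θ₂ 2, xv n θ₂ 2⟫ = 0 := form_xv_self hF (by omega) hθ₂
  set l : F := ⟪xv n θ 2, xv n θ₂ 2⟫ with hl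
  have hlval : l = 1 + θ * θ₂ ^ q := by
    rw [hl, form_xv hF (by omega) (by omega)]
    simp
  have hlqval : l ^ q = 1 + θ ^ q * θ₂ := by
    rw [hlval, pow_q_add hF, one_pow, mul_pow, pow_q_pow_q hF]
  have hl0 : l ≠ 0 := by
    intro h0
    rw [hlval] at h0
    apply hθ₂ne
    have h1 : θ * (θ₂ ^ q - θ ^ q) = 0 := by linear_combination h0 - hθ
    have h2 := (mul_eq_zero.1 h1).resolve_left hθ0
    have h3 : θ₂ ^ q = θ ^ q := by linear_combination h2
    have h4 := congrArg (fun w => w ^ q) h3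
    simpa only [pow_q_pow_q hF] using h4
  have hlq0 : l ^ q ≠ 0 := pow_ne_zero _ hl0
  have hlrel : l + l ^ q = l * l ^ q := by
    rw [hlqval, hlval]
    linear_combination hθ * (-θ₂ * θ₂ ^ q) + hθ₂
  obtain ⟨D, hD⟩ := exists_torus hF hx2iso hy2iso hl0 hκ0 hκq
  rw [← hl] at hD
  refine ⟨c, tv hF hx0iso hδc * D, ?_⟩
  set H := Subgroup.closure ({c, tv hF hx0iso hδc * D} : Set (SU n F q)) with hH
  have hcH : c ∈ H := Subgroup.subset_closure (by simp)
  have hbH : tv hF hx0iso hδc * D ∈ H := Subgroup.subset_closure (by simp)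
  have h02 : ⟪xv n θ 0, xv n θ 2⟫ = 0 := by
    rw [form_xv hF (by omega) (by omega)]
    simp
  have h02' : ⟪xv n θ 0, xv n θ₂ 2⟫ = 0 := by
    rw [form_xv hF (by omega) (by omega)]
    simp
  have hD0 : act D (xv n θ 0) = xv n θ 0 := by
    rw [hD, h02, h02']
    simp
  have hDord : D ^ (q ^ 2 - 1) = 1 := by
    apply ext_act
    intro v
    have h1 : κ ^ (q ^ 2 - 1) = 1 := by
      have := FiniteField.pow_card_sub_one_eq_one κ hκ0
      rwa [hF] at this
    have h2 : κ⁻¹ ^ (q ^ 2 - 1) = 1 := by rw [inv_pow, h1, inv_one]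
    have h3 := torus_pow hF hx2iso hy2iso hl0 hκ0 (by rw [← hl]; exact hD) (q ^ 2 - 1) v
    rw [h3, h1, h2]
    simp
  obtain ⟨hDH, hTH⟩ := mem_of_prod hF hx0iso hδc hD0 hDord hbH
  -- the scaling element
  have hD2 : act D (xv n θ 2) = κ • xv n θ 2 := by
    rw [hD, hx2iso, ← hl]
    have e1 : (κ - 1) / l * l = κ - 1 := by field_simp
    rw [e1, mul_zero, zero_smul, add_zero, sub_smul, one_smul]
    abel
  have hg₀ : c⁻¹ * c⁻¹ * D * c * c ∈ H :=
    mul_mem (mul_mem (mul_mem (mul_mem (inv_mem hcH) (inv_mem hcH)) hDH) hcH) hcH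
  have hg₀x : act (c⁻¹ * c⁻¹ * D * c * c) (xv n θ 0) = κ • xv n θ 0 := by
    simp only [act_mul]
    rw [hcx θ 0 (by omega), hcx θ 1 (by omega), hD2, act_smul, act_smul, hcinv θ 1 (by omega),
      hcinv θ 0 (by omega)]
  have hfull0 : Full H (xv n θ 0) :=
    full_of_scaling hF (xv_ne_zero (by omega)) hx0iso hδ0 hδ
      ⟨_, hTH, fun y => act_tv hF hx0iso hδc y⟩ hg₀ hg₀x hκq hgen
  have hfull : ∀ j, j + 1 < n → Full H (xv n θ j) := by
    intro j
    induction j with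
    | zero => exact fun _ => hfull0
    | succ j ih =>
      intro hj
      have := (ih (by omega)).conj hcH
      rwa [hcx θ j (by omega)] at this
  -- the second vector
  set a : F := (κ - 1) / l with ha
  set b : F := (κ⁻¹ - 1) / l ^ q with hb
  have hg₁ : c⁻¹ * D * c ∈ H := mul_mem (mul_mem (inv_mem hcH) hDH) hcH
  have h1y : ⟪xv n θ 1, xv n θ₂ 2⟫ = θ := by
    rw [form_xv hF (by omega) (by omega)]
    simp
  have h12 : ⟪xv n θ 1, xv n θ 2⟫ = θ := by
    rw [form_xv hF (by omega) (by omega)]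
    simp
  have ha₁ : act (c⁻¹ * D * c) (xv n θ 0) =
      xv n θ 0 + (a * θ) • xv n θ 1 + (b * θ) • xv n θ₂ 1 := by
    simp only [act_mul]
    rw [hcx θ 0 (by omega), hD, h1y, h12, act_add, act_add, act_smul, act_smul,
      hcinv θ 0 (by omega), hcinv θ 1 (by omega), hcinv θ₂ 1 (by omega)]
  have hAf : Full H (act (c⁻¹ * D * c) (xv n θ 0)) := hfull0.conj hg₁
  have h10 : ⟪xv n θ 1, xv n θ 0⟫ = θ ^ q := by
    rw [form_xv hF (by omega) (by omega)]
    simp
  have h10' : ⟪xv n θ₂ 1, xv n θ 0⟫ = θ ^ q := by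
    rw [form_xv hF (by omega) (by omega)]
    simp
  have hAval : ⟪act (c⁻¹ * D * c) (xv n θ 0), xv n θ 0⟫ = -(a + b) := by
    rw [ha₁]
    simp only [hermForm_add_left, hermForm_smul_left, hx0iso, h10, h10']
    linear_combination (a + b) * hθ
  have haq : a ^ q = (κ - 1) / l ^ q := by
    rw [ha, div_pow, pow_q_sub hF, hκq, one_pow]
  have hbq : b ^ q = (κ⁻¹ - 1) / l := by
    rw [hb, div_pow, pow_q_sub hF, inv_pow, hκq, one_pow, pow_q_pow_q hF]
  have htr : -(a + b) + (-(a + b)) ^ q = -((κ - 1) ^ 2 / κ) := by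
    rw [pow_q_neg hF, pow_q_add hF, haq, hbq, ha, hb]
    have e1 : (κ - 1) ^ 2 / κ = (κ + κ⁻¹ - 2) := by
      field_simp
      ring
    rw [e1]
    have e2 : (κ - 1) / l + (κ⁻¹ - 1) / l ^ q + ((κ - 1) / l ^ q + (κ⁻¹ - 1) / l) =
        (κ + κ⁻¹ - 2) * ((l + l ^ q) / (l * l ^ q)) := by
      field_simp
      ring
    have e3 : (l + l ^ q) / (l * l ^ q) = 1 := by
      rw [hlrel]
      exact div_self (mul_ne_zero hl0 hlq0)
    rw [e3, mul_one] at e2
    linear_combination -e2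
  have hκ10 : κ - 1 ≠ 0 := sub_ne_zero.2 hκ1
  have htr0 : (κ - 1) ^ 2 / κ ≠ 0 := div_ne_zero (pow_ne_zero _ hκ10) hκ0
  have hA0 : ⟪act (c⁻¹ * D * c) (xv n θ 0), xv n θ 0⟫ ≠ 0 := by
    rw [hAval]
    intro h0
    rw [h0, zero_pow_q hF, add_zero] at htr
    exact htr0 (by linear_combination htr)
  have hB0 : ⟪xv n θ 1, xv n θ 0⟫ ≠ 0 := by
    rw [h10]
    exact hθq0
  have h01 : ⟪xv n θ 0, xv n θ 1⟫ = θ := by
    rw [form_xv hF (by omega) (by omega)]
    simp
  have hy11 : ⟪xv n θ₂ 1, xv n θ 1⟫ = l ^ q := by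
    rw [form_xv hF (by omega) (by omega), hlqval]
    simp
    ring
  have hx1iso : ⟪xv n θ 1, xv n θ 1⟫ = 0 := form_xv_self hF (by omega) hθ
  have hC : ⟪act (c⁻¹ * D * c) (xv n θ 0), xv n θ 1⟫ = κ⁻¹ * θ := by
    rw [ha₁]
    simp only [hermForm_add_left, hermForm_smul_left, hx1iso, h01, hy11, hb]
    field_simp
    ring
  obtain ⟨S, hS, hFS, heS, hk⟩ := start_of_trace hF hfull0 hAf (hfull 1 (by omega)) hA0 hB0 (by
    rw [hC, h01, hAval]
    intro h
    have hA1 : -(a + b) ≠ 0 := by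
      rw [← hAval]
      exact hA0
    have hA2 : (-(a + b)) ^ q ≠ 0 := pow_ne_zero _ hA1
    have e1 : κ⁻¹ * θ / (-(a + b) * θ) = κ⁻¹ / (-(a + b)) := by
      field_simp
    rw [e1, div_pow, inv_pow, hκq] at h
    have h3 := aux_nonreal hκ0 hA1 hA2 h
    rw [htr] at h3
    rcases mul_eq_zero.1 h3 with h7 | h7
    · exact inv_ne_zero hκ0 h7
    · exact htr0 (by linear_combination -h7))
  -- the spanning condition
  have hspan : Submodule.span F {v : Fin n → F | Full H v ∧ ⟪v, xv n θ 0⟫ ≠ 0} = ⊤ := by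
    apply span_of_chain hF (by omega) hθ hfull
    have m1 : xv n θ 1 ∈ Submodule.span F {v : Fin n → F | Full H v ∧ ⟪v, xv n θ 0⟫ ≠ 0} :=
      Submodule.subset_span ⟨hfull 1 (by omega), hB0⟩
    have m0 : xv n θ 0 ∈ Submodule.span F {v : Fin n → F | Full H v ∧ ⟪v, xv n θ 0⟫ ≠ 0} :=
      mem_W_of_pair hF hfull0 m1 (by rw [h01]; exact hθ0)
    have m2 : act (c⁻¹ * D * c) (xv n θ 0) ∈ Submodule.span F {v : Fin n → F | Full H v ∧ ⟪v, xv n θ 0⟫ ≠ 0} :=
      Submodule.subset_span ⟨hAf, hA0⟩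
    have hb0 : b ≠ 0 := by
      rw [hb]
      refine div_ne_zero ?_ hlq0
      intro h0
      apply hκ1
      have : κ⁻¹ = 1 := by linear_combination h0
      rw [inv_eq_one] at this
      exact this
    have hne : b * θ * (θ₂ - θ) ≠ 0 :=
      mul_ne_zero (mul_ne_zero hb0 hθ0) (sub_ne_zero.2 hθ₂ne)
    have h3 := Submodule.smul_mem _ (b * θ * (θ₂ - θ))⁻¹
      (Submodule.sub_mem _ (Submodule.sub_mem _ m2 m0) (Submodule.smul_mem _ ((a + b) * θ) m1))
    have h4 : (b * θ * (θ₂ - θ))⁻¹ • (act (c⁻¹ * D * c) (xv n θ 0) - xv n θ 0 - ((a + b) * θ) • xv n θ 1) =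
        E n 2 := by
      rw [ha₁]
      have : xv n θ 0 + (a * θ) • xv n θ 1 + (b * θ) • xv n θ₂ 1 - xv n θ 0 - ((a + b) * θ) • xv n θ 1 =
          (b * θ * (θ₂ - θ)) • (E n 2 : Fin n → F) := by
        simp only [xv]
        module
      rw [this, smul_smul, inv_mul_cancel₀ hne, one_smul]
    rwa [h4] at h3
  exact eq_top_of_full hF (by omega) (by omega)
    (all_full_of_start hF hfull0 hspan hk (by omega) hS hFS heS)

end Cfsg.Agent.Lib.Classical.Herm.UTwoGen
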