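import Mathlib
import Cfsg.Agent.Lib.Classical.Herm.UTwoGen

/-!
# `SU_n(2)`, `n ≥ 4`, is generated by two elements
-/

set_option autoImplicit false
set_option linter.unusedSectionVars false
set_option linter.unusedSimpArgs false

open scoped Matrix
open Cfsg
open Cfsg.Agent.Lib.Classical.Herm.Basic Cfsg.Agent.Lib.Classical.Herm.Form
open Cfsg.Agent.Lib.Classical.Herm.GU Cfsg.Agent.Lib.Classical.Herm.SU
open Cfsg.Agent.Lib.Classical.Herm.Subfield Cfsg.Agent.Lib.Classical.Herm.Isotropic
open Cfsg.Agent.Lib.Classical.Herm.Tv Cfsg.Agent.Lib.Classical.Herm.Gen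
open Cfsg.Agent.Lib.Classical.Herm.RegU

namespace Cfsg.Agent.Lib.Classical.Herm.UTwoGen

variable {F : Type*} [Field F] [Fintype F] {q n : ℕ}

local notation "⟪" x ", " y "⟫" => hermForm _ _ q x y

variable {H : Subgroup (SU n F q)}

/-- The vectors in the first four coordinates. -/
def vec4 (n : ℕ) (a b c d : F) : Fin n → F := a • E n 0 + b • E n 1 + c • E n 2 + d • E n 3

theorem form_vec4 (hF : Fintype.card F = q ^ 2) (hn : 4 ≤ n) (a b c d a' b' c' d' : F) :
    ⟪vec4 n a b c d, vec4 n a' b' c' d'⟫ = a * a' ^ q + b * b' ^ q + c * c' ^ q + d * d' ^ q := by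
  simp only [vec4, hermForm_add_left, hermForm_add_right hF, hermForm_smul_left, hermForm_smul_right]
  rw [form_E hF (show 0 < n by omega) (show 0 < n by omega),
    form_E hF (show 0 < n by omega) (show 1 < n by omega),
    form_E hF (show 0 < n by omega) (show 2 < n by omega),
    form_E hF (show 0 < n by omega) (show 3 < n by omega),
    form_E hF (show 1 < n by omega) (show 0 < n by omega),
    form_E hF (show 1 < n by omega) (show 1 < n by omega),
    form_E hF (show 1 < n by omega) (show 2 < n by omega),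
    form_E hF (show 1 < n by omega) (show 3 < n by omega),
    form_E hF (show 2 < n by omega) (show 0 < n by omega),
    form_E hF (show 2 < n by omega) (show 1 < n by omega),
    form_E hF (show 2 < n by omega) (show 2 < n by omega),
    form_E hF (show 2 < n by omega) (show 3 < n by omega),
    form_E hF (show 3 < n by omega) (show 0 < n by omega),
    form_E hF (show 3 < n by omega) (show 1 < n by omega),
    form_E hF (show 3 < n by omega) (show 2 < n by omega),
    form_E hF (show 3 < n by omega) (show 3 < n by omega)]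
  simp
  ring

theorem vec4_add_smul (s a b c d a' b' c' d' : F) :
    (vec4 n a b c d + s • vec4 n a' b' c' d' : Fin n → F) =
      vec4 n (a + s * a') (b + s * b') (c + s * c') (d + s * d') := by
  simp only [vec4]
  module

theorem smul_vec4 (s a b c d : F) :
    (s • vec4 n a b c d : Fin n → F) = vec4 n (s * a) (s * b) (s * c) (s * d) := by
  simp only [vec4]
  module

theorem one_smul_add_vec4 (a b c d a' b' c' d' : F) :
    ((1 : F) • vec4 n a b c d + (1 : F) • vec4 n a' b' c' d' : Fin n → F) =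
      vec4 n (a + a') (b + b') (c + c') (d + d') := by
  simp only [vec4]
  module

theorem vec4_ne_zero (hn : 4 ≤ n) {a b c d : F} (h : a ≠ 0 ∨ b ≠ 0 ∨ c ≠ 0 ∨ d ≠ 0) :
    (vec4 n a b c d : Fin n → F) ≠ 0 := by
  intro h0
  have h1 := congrFun h0 ⟨0, by omega⟩
  have h2 := congrFun h0 ⟨1, by omega⟩
  have h3 := congrFun h0 ⟨2, by omega⟩
  have h4 := congrFun h0 ⟨3, by omega⟩
  simp [vec4, E] at h1 h2 h3 h4
  rcases h with h | h | h | h
  · exact h h1
  · exact h h2
  · exact h h3
  · exact h h4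

theorem act_vec4 (t : SU n F q) {e₀ e₁ e₂ e₃ : Fin n → F} (h0 : act t (E n 0) = e₀)
    (h1 : act t (E n 1) = e₁) (h2 : act t (E n 2) = e₂) (h3 : act t (E n 3) = e₃) (a b c d : F) :
    act t (vec4 n a b c d) = a • e₀ + b • e₁ + c • e₂ + d • e₃ := by
  simp only [vec4, act_add, act_smul, h0, h1, h2, h3]

/-- `t` acts diagonally in the standard basis. -/
def Dg (t : SU n F q) (d : ℕ → F) : Prop := ∀ k, k < n → act t (E n k) = d k • E n k

theorem Dg.vec4 {t : SU n F q} {d : ℕ → F} (ht : Dg t d) (hn : 4 ≤ n) (a b c e : F) :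
    act t (vec4 n a b c e) = UTwoGen.vec4 n (d 0 * a) (d 1 * b) (d 2 * c) (d 3 * e) := by
  simp only [UTwoGen.vec4, act_add, act_smul, ht 0 (by omega), ht 1 (by omega), ht 2 (by omega),
    ht 3 (by omega)]
  module

theorem Dg.mul {t t' : SU n F q} {d d' : ℕ → F} (ht : Dg t d) (ht' : Dg t' d') :
    Dg (t * t') (fun k => d k * d' k) := by
  intro k hk
  rw [act_mul, ht' k hk, act_smul, ht k hk, smul_smul, mul_comm]

theorem Dg.conj {t c : SU n F q} {d d' : ℕ → F} (ht : Dg t d)
    (hc1 : ∀ i, i + 1 < n → act c (E n i) = E n (i + 1)) {σ : F} (hσ : σ ≠ 0)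
    (hcl : act c (E n (n - 1)) = σ • E n 0) (hd : ∀ k, k + 1 < n → d' k = d (k + 1))
    (hdl : d' (n - 1) = d 0) : Dg (c⁻¹ * t * c) d' := by
  intro k hk
  simp only [act_mul]
  by_cases h1 : k + 1 < n
  · rw [hc1 k h1, ht _ h1, act_smul, hd k h1]
    congr 1
    rw [← hc1 k h1, act_inv_act]
  · have hk' : k = n - 1 := by omega
    subst hk'
    rw [hcl, act_smul, ht 0 (by omega), smul_comm, act_smul, hdl]
    congr 1
    rw [← hcl, act_inv_act]

/-- The phase pattern. -/
def pat (ω : F) (i k : ℕ) : F := if k = i then ω else if k = i + 1 then ω + 1 else 1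

theorem pat_succ (ω : F) (i k : ℕ) : pat ω (i + 1) (k + 1) = pat ω i k := by
  simp [pat]

theorem pat_zero (ω : F) (i : ℕ) : pat ω (i + 1) 0 = 1 := by
  simp [pat]

/-- The pattern is preserved under conjugation by the shift. -/
theorem Dg.pat_conj {t c : SU n F q} {ω : F} {i : ℕ} (hi : i + 2 < n) (ht : Dg t (pat ω (i + 1)))
    (hc1 : ∀ i, i + 1 < n → act c (E n i) = E n (i + 1)) {σ : F} (hσ : σ ≠ 0)
    (hcl : act c (E n (n - 1)) = σ • E n 0) : Dg (c⁻¹ * t * c) (pat ω i) := by
  refine ht.conj hc1 hσ hcl (fun k _ => (pat_succ ω i k).symm) ?_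
  rw [pat_zero]
  simp only [pat]
  rw [if_neg (by omega), if_neg (by omega)]

/-- Full vectors from a plane, in coordinates. -/
theorem full_plane4 (hF : Fintype.card F = q ^ 2) (hn : 4 ≤ n) {a b c d a' b' c' d' s A B C D : F}
    (hx : Full H (vec4 n a b c d : Fin n → F)) (hy : Full H (vec4 n a' b' c' d' : Fin n → F))
    (hxy : a * a' ^ q + b * b' ^ q + c * c' ^ q + d * d' ^ q ≠ 0)
    (hA : a + s * a' = A) (hB : b + s * b' = B) (hC : c + s * c' = C) (hD : d + s * d' = D)
    (h0 : A ≠ 0 ∨ B ≠ 0 ∨ C ≠ 0 ∨ D ≠ 0)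
    (hiso : A * A ^ q + B * B ^ q + C * C ^ q + D * D ^ q = 0) : Full H (vec4 n A B C D : Fin n → F) := by
  have e : (1 : F) • (vec4 n a b c d : Fin n → F) + s • vec4 n a' b' c' d' = vec4 n A B C D := by
    rw [one_smul, vec4_add_smul, hA, hB, hC, hD]
  have := hx.plane hF hy (by rw [form_vec4 hF hn]; exact hxy) (α := 1) (β := s)
    (by rw [e]; exact vec4_ne_zero hn h0) (by rw [e, form_vec4 hF hn]; exact hiso)
  rwa [e] at this

theorem full_smul4 (hF : Fintype.card F = q ^ 2) {a b c d s A B C D : F}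
    (hx : Full H (vec4 n a b c d : Fin n → F)) (hs : s ≠ 0)
    (hA : s * a = A) (hB : s * b = B) (hC : s * c = C) (hD : s * d = D) :
    Full H (vec4 n A B C D : Fin n → F) := by
  have := hx.smul hF hs
  rwa [smul_vec4, hA, hB, hC, hD] at this

theorem full_dg4 (hn : 4 ≤ n) {a b c d A B C D : F} {t : SU n F q} {e : ℕ → F}
    (hx : Full H (vec4 n a b c d : Fin n → F)) (ht : t ∈ H) (hd : Dg t e)
    (hA : e 0 * a = A) (hB : e 1 * b = B) (hC : e 2 * c = C) (hD : e 3 * d = D) :
    Full H (vec4 n A B C D : Fin n → F) := by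
  have := hx.conj ht
  rwa [hd.vec4 hn, hA, hB, hC, hD] at this

theorem xv_zero (α : F) : xv n α 0 = vec4 n 1 α 0 0 := by
  simp [xv, vec4]

theorem xv_one (α : F) : xv n α 1 = vec4 n 0 1 α 0 := by
  simp [xv, vec4]

theorem xv_two (α : F) : xv n α 2 = vec4 n 0 0 1 α := by
  simp [xv, vec4]

/-- The field with four elements. -/
theorem exists_omega (hF : Fintype.card F = q ^ 2) (hq : q = 2) :
    (1 : F) + 1 = 0 ∧ (∀ x : F, x ≠ 0 → x * x ^ q = 1) ∧ ∃ ω : F, ω * ω = ω + 1 ∧ ω ^ q = ω + 1 := by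
  have h2 : (1 : F) + 1 = 0 := by
    have := pow_q_add hF (1 : F) 1
    rw [one_pow, hq] at this
    linear_combination this
  have hN : ∀ x : F, x ≠ 0 → x * x ^ q = 1 := by
    intro x hx
    have h3 := FiniteField.pow_card_sub_one_eq_one x hx
    rw [hF] at h3
    rw [hq] at h3 ⊢
    norm_num at h3
    linear_combination h3
  refine ⟨h2, hN, ?_⟩
  obtain ⟨z, hz⟩ : ∃ z : F, z ^ q ≠ z := by
    by_contra hcon
    push Not at hcon
    exact sigma_ne_id hF (RingHom.ext hcon)
  have hz0 : z ≠ 0 := by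
    rintro rfl
    exact hz (zero_pow_q hF)
  have h3 := hN z hz0
  rw [hq] at h3 hz
  have hz1 : z - 1 ≠ 0 := by
    intro h
    have : z = 1 := by linear_combination h
    subst this
    simp at hz
  have h4 : (z - 1) * (z * z + z + 1) = 0 := by linear_combination h3
  have h5 := (mul_eq_zero.1 h4).resolve_left hz1
  have h6 : z * z = z + 1 := by linear_combination h5 - (z + 1) * h2
  refine ⟨z, h6, ?_⟩
  rw [hq, pow_two]
  exact h6

/-- The points of a totally isotropic line. -/
theorem full_line_of (hF : Fintype.card F = q ^ 2) (hq : q = 2) {ω : F} (h2 : (1 : F) + 1 = 0)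
    (hω : ω * ω = ω + 1)
    (h0 : Full H (vec4 n 1 1 0 0 : Fin n → F)) (h1 : Full H (vec4 n 0 0 1 1 : Fin n → F))
    (hr1 : Full H (vec4 n 1 1 1 1 : Fin n → F)) (hr2 : Full H (vec4 n 1 1 ω ω : Fin n → F))
    (hr3 : Full H (vec4 n 1 1 (ω + 1) (ω + 1) : Fin n → F)) :
    ∀ μ ν : F, (μ ≠ 0 ∨ ν ≠ 0) →
      Full H (μ • (vec4 n 1 1 0 0 : Fin n → F) + ν • (vec4 n 0 0 1 1 : Fin n → F)) := by
  intro μ ν h
  by_cases hμ : μ = 0
  · subst hμ
    have hν : ν ≠ 0 := h.resolve_left (by simp)
    rw [zero_smul, zero_add]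
    exact h1.smul hF hν
  by_cases hν : ν = 0
  · subst hν
    rw [zero_smul, add_zero]
    exact h0.smul hF hμ
  have e : μ • (vec4 n 1 1 0 0 : Fin n → F) + ν • (vec4 n 0 0 1 1 : Fin n → F) =
      μ • vec4 n 1 1 (ν / μ) (ν / μ) := by
    simp only [vec4]
    have : μ * (ν / μ) = ν := by field_simp
    simp only [smul_add, smul_smul, this]
    module
  rw [e]
  refine Full.smul hF ?_ hμ
  have hr : ν / μ ≠ 0 := div_ne_zero hν hμ
  generalize ν / μ = r at hr
  have h7 : r ^ 3 = 1 := by
    have := FiniteField.pow_card_sub_one_eq_one r hr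
    rw [hF, hq] at this
    norm_num at this
    exact this
  have h6 : (r - 1) * ((r - ω) * (r - (ω + 1))) = 0 := by
    linear_combination h7 + (r - 1) * (-ω * r - r + ω) * h2 + (r - 1) * hω
  rcases mul_eq_zero.1 h6 with h8 | h8
  · have : r = 1 := by linear_combination h8
    subst this
    exact hr1
  rcases mul_eq_zero.1 h8 with h9 | h9
  · have : r = ω := by linear_combination h9
    subst this
    exact hr2
  · have : r = ω + 1 := by linear_combination h9
    subst this
    exact hr3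

/-- In the field with four elements a transvection with a vector gives a full vector. -/
theorem full_of_T2 (hF : Fintype.card F = q ^ 2) (hq : q = 2) (h2 : (1 : F) + 1 = 0) {x : Fin n → F}
    (hx0 : x ≠ 0) (hx : ⟪x, x⟫ = 0) (hc : (1 : F) + 1 ^ q = 0) (hT : tv hF hx hc ∈ H) : Full H x := by
  refine ⟨hx0, hx, fun c hc' => ?_⟩
  rw [hq] at hc'
  have h3 : c * (c + 1) = 0 := by linear_combination hc'
  rcases mul_eq_zero.1 h3 with h4 | h4
  · subst h4
    exact ⟨1, one_mem _, fun y => by simp⟩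
  · have h5 : c = 1 := by linear_combination h4 - h2
    subst h5
    exact ⟨_, hT, fun y => act_tv hF hx hc y⟩

/-- The main step from the phases. -/
theorem all_of_phases (hF : Fintype.card F = q ^ 2) (hq : q = 2) (h2 : (1 : F) + 1 = 0)
    (hN : ∀ x : F, x ≠ 0 → x * x ^ q = 1) (hn : 5 ≤ n) {ω : F} (hω : ω * ω = ω + 1)
    (hωq : ω ^ q = ω + 1) {c : SU n F q} (hcH : c ∈ H)
    (hc1 : ∀ i, i + 1 < n → act c (E n i) = E n (i + 1))
    (hX : Full H (vec4 n 1 1 1 1 : Fin n → F)) {t₁ t₂ t₃ : SU n F q} (h₁ : t₁ ∈ H) (h₂ : t₂ ∈ H)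
    (h₃ : t₃ ∈ H) (d₁ : Dg t₁ (pat ω 1)) (d₂ : Dg t₂ (pat ω 2)) (d₃ : Dg t₃ (pat ω 3)) : H = ⊤ := by
  have hn4 : 4 ≤ n := by omega
  have hω1 : ω * (ω + 1) = 1 := by linear_combination hω + ω * h2
  have hω2 : (ω + 1) * (ω + 1) = ω := by linear_combination hω + (ω + 1) * h2
  have hω2q : (ω + 1) ^ q = ω := by
    rw [pow_q_add hF, hωq, one_pow]
    linear_combination h2
  have hω0 : ω ≠ 0 := by
    rintro rfl
    simp at hω1
  have hω10 : ω + 1 ≠ 0 := by
    intro h
    rw [h] at hω1
    simp at hω1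
  have h1q : (1 : F) ^ q = 1 := one_pow _
  have h0q : (0 : F) ^ q = 0 := zero_pow_q hF
  have n0 : (0 : F) * 0 ^ q = 0 := by simp
  have n1 : (1 : F) * 1 ^ q = 1 := by simp
  have nω : ω * ω ^ q = 1 := by rw [hωq]; exact hω1
  have nω' : (ω + 1) * (ω + 1) ^ q = 1 := by rw [hω2q, mul_comm]; exact hω1
  have hθ : (1 : F) * 1 ^ q = -1 := by
    rw [h1q]
    linear_combination h2
  have hy : Full H (vec4 n 1 1 ω (ω + 1) : Fin n → F) :=
    full_dg4 hn4 hX h₂ d₂ (by simp [pat]) (by simp [pat]) (by simp [pat]) (by simp [pat])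
  have hu2a : Full H (vec4 n 0 0 (ω + 1) ω : Fin n → F) :=
    full_plane4 hF hn4 hX hy (s := 1) (by
      rw [h1q, hωq, hω2q]
      intro h
      have h3 : (1 : F) = 0 := by linear_combination h - h2 - ω * h2
      exact one_ne_zero h3) (by linear_combination h2) (by linear_combination h2)
      (by ring) (by linear_combination h2)
      (Or.inr (Or.inr (Or.inr hω0))) (by rw [n0, nω', nω]; linear_combination h2)
  have hu2b : Full H (vec4 n 0 0 1 (ω + 1) : Fin n → F) :=
    full_smul4 hF hu2a hω0 (by ring) (by ring) hω1 hω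
  have hu2 : Full H (vec4 n 0 0 1 1 : Fin n → F) :=
    full_dg4 hn4 hu2b h₃ d₃ (by simp [pat]) (by simp [pat]) (by simp [pat]) (by
      simp only [pat]
      simpa using hω1)
  have hcx : ∀ (j : ℕ), j + 2 < n → act c (xv n (1 : F) j) = xv n (1 : F) (j + 1) := by
    intro j hj
    simp only [xv]
    rw [act_add, act_smul, hc1 j (by omega), hc1 (j + 1) (by omega)]
  have hcinv : ∀ (j : ℕ), j + 2 < n → act c⁻¹ (xv n (1 : F) (j + 1)) = xv n (1 : F) j := by
    intro j hj
    rw [← hcx j hj, act_inv_act]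
  have hf2 : Full H (xv n (1 : F) 2) := by rwa [xv_two]
  have hf1 : Full H (xv n (1 : F) 1) := by
    have := hf2.conj (inv_mem hcH)
    rwa [hcinv 1 (by omega)] at this
  have hf0 : Full H (xv n (1 : F) 0) := by
    have := hf1.conj (inv_mem hcH)
    rwa [hcinv 0 (by omega)] at this
  have hfull : ∀ j, j + 1 < n → Full H (xv n (1 : F) j) := by
    intro j
    induction j with
    | zero => exact fun _ => hf0
    | succ j ih =>
      intro hj
      have := (ih (by omega)).conj hcH
      rwa [hcx j (by omega)] at this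
  have hv0 : Full H (vec4 n 1 1 0 0 : Fin n → F) := by
    rw [← xv_zero]
    exact hf0
  have ha1 : Full H (vec4 n 1 ω 0 0 : Fin n → F) :=
    full_dg4 hn4 hv0 h₁ d₁ (by simp [pat]) (by simp [pat]) (by simp [pat]) (by simp [pat])
  have ha2 : Full H (vec4 n 1 (ω + 1) 0 0 : Fin n → F) :=
    full_dg4 hn4 ha1 h₁ d₁ (by simp [pat]) (by
      simp only [pat]
      simpa using hω) (by simp [pat]) (by simp [pat])
  -- the spanning condition
  have hspan : Submodule.span F {v : Fin n → F | Full H v ∧ ⟪v, xv n (1 : F) 0⟫ ≠ 0} = ⊤ := by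
    apply span_of_chain hF (by omega) hθ hfull
    rw [xv_zero]
    have m1 : (vec4 n 1 ω 0 0 : Fin n → F) ∈ Submodule.span F {v : Fin n → F | Full H v ∧ ⟪v, vec4 n 1 1 0 0⟫ ≠ 0} :=
      Submodule.subset_span ⟨ha1, by
        rw [form_vec4 hF hn4, h1q, h0q]
        intro h
        apply hω10
        linear_combination h⟩
    have m2 : (vec4 n 1 (ω + 1) 0 0 : Fin n → F) ∈ Submodule.span F {v : Fin n → F | Full H v ∧ ⟪v, vec4 n 1 1 0 0⟫ ≠ 0} :=
      Submodule.subset_span ⟨ha2, by
        rw [form_vec4 hF hn4, h1q, h0q]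
        intro h
        apply hω0
        linear_combination h - h2⟩
    have m3 : (vec4 n 0 1 1 0 : Fin n → F) ∈ Submodule.span F {v : Fin n → F | Full H v ∧ ⟪v, vec4 n 1 1 0 0⟫ ≠ 0} :=
      Submodule.subset_span ⟨by
        have := hf1
        rwa [xv_one] at this, by
        rw [form_vec4 hF hn4, h1q, h0q]
        intro h
        have h3 : (1 : F) = 0 := by linear_combination h
        exact one_ne_zero h3⟩
    have h3 := Submodule.sub_mem _ m3 (Submodule.sub_mem _ m1 m2)
    have h4 : (vec4 n 0 1 1 0 : Fin n → F) - (vec4 n 1 ω 0 0 - vec4 n 1 (ω + 1) 0 0) = E n 2 := by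
      have h5 : (vec4 n 0 1 1 0 : Fin n → F) - (vec4 n 1 ω 0 0 - vec4 n 1 (ω + 1) 0 0) =
          ((1 : F) + 1) • E n 1 + E n 2 := by
        simp only [vec4]
        module
      rw [h5, h2, zero_smul, zero_add]
    rwa [h4] at h3
  -- the totally isotropic line
  have hr2 : Full H (vec4 n 1 1 ω ω : Fin n → F) := by
    have s1 : Full H (vec4 n 1 1 1 ω : Fin n → F) :=
      full_dg4 hn4 hX h₃ d₃ (by simp [pat]) (by simp [pat]) (by simp [pat]) (by simp [pat])
    have s2 : Full H (vec4 n 1 1 1 (ω + 1) : Fin n → F) :=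
      full_dg4 hn4 s1 h₃ d₃ (by simp [pat]) (by simp [pat]) (by simp [pat]) (by
        simp only [pat]
        simpa using hω)
    exact full_dg4 hn4 s2 h₂ d₂ (by simp [pat]) (by simp [pat]) (by simp [pat]) (by
      simp only [pat]
      simpa using hω2)
  have hr3 : Full H (vec4 n 1 1 (ω + 1) (ω + 1) : Fin n → F) := by
    have s1 : Full H (vec4 n 1 1 1 ω : Fin n → F) :=
      full_dg4 hn4 hX h₃ d₃ (by simp [pat]) (by simp [pat]) (by simp [pat]) (by simp [pat])
    have s2 : Full H (vec4 n 1 1 ω 1 : Fin n → F) :=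
      full_dg4 hn4 s1 h₂ d₂ (by simp [pat]) (by simp [pat]) (by simp [pat]) (by
        rw [show pat ω 2 3 = ω + 1 by simp [pat], mul_comm]
        exact hω1)
    exact full_dg4 hn4 s2 h₂ d₂ (by simp [pat]) (by simp [pat]) (by
        rw [show pat ω 2 2 = ω by simp [pat]]
        exact hω) (by simp [pat])
  have hl := full_line_of hF hq h2 hω hv0 hu2 hX hr2 hr3
  obtain ⟨S, hS, hFS, hSa, -, hk⟩ := start_four hF h2 hN hl
    (by rw [form_vec4 hF hn4, h0q]; ring) (hfull 3 (by omega))
    (by rw [← xv_two, form_xv hF (by omega) (by omega)]; simp)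
    (by rw [← xv_zero, form_xv hF (by omega) (by omega)]; simp)
    hf1
    (by
      rw [← xv_zero, form_xv hF (by omega) (by omega)]
      simp)
  rw [← xv_zero] at hSa
  exact eq_top_of_full hF (by omega) (by omega)
    (all_full_of_start hF hf0 hspan (by omega) (by omega) hS hFS hSa)

/-- Commuting with a transvection, up to a norm-one scalar. -/
theorem commute_tv' (hF : Fintype.card F = q ^ 2) {x : Fin n → F} (hx : ⟪x, x⟫ = 0) {c : F}
    (hc : c + c ^ q = 0) {D : SU n F q} {l : F} (hl : l * l ^ q = 1) (hD : act D x = l • x) :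
    Commute (tv hF hx hc) D := by
  apply ext_act
  intro v
  have hl0 : l ≠ 0 := by
    rintro rfl
    simp at hl
  have e1 : ⟪act D v, x⟫ = l * ⟪v, x⟫ := by
    have h1 := h_act D v x
    rw [hD, hermForm_smul_right] at h1
    have h3 : l * (l ^ q * ⟪act D v, x⟫) = l * ⟪v, x⟫ := by rw [h1]
    calc ⟪act D v, x⟫ = (l * l ^ q) * ⟪act D v, x⟫ := by rw [hl, one_mul]
      _ = l * (l ^ q * ⟪act D v, x⟫) := by ring
      _ = l * ⟪v, x⟫ := h3
  simp only [act_mul, act_tv, act_add, act_smul, hD, e1, smul_smul]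
  congr 2
  ring

/-- Separating a transvection and a commuting element of order prime to the characteristic. -/
theorem mem_of_prod' (hF : Fintype.card F = q ^ 2) {x : Fin n → F} (hx : ⟪x, x⟫ = 0) {c : F}
    (hc : c + c ^ q = 0) {D : SU n F q} {l : F} (hl : l * l ^ q = 1) (hD : act D x = l • x)
    (hord : D ^ (q ^ 2 - 1) = 1) {H : Subgroup (SU n F q)} (hb : tv hF hx hc * D ∈ H) :
    D ∈ H ∧ tv hF hx hc ∈ H := by
  have hq := two_le_q hF
  have h1 : (tv hF hx hc * D) ^ (q ^ 2) = D := by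
    rw [(commute_tv' hF hx hc hl hD).mul_pow, tv_pow_card, one_mul]
    have h5 : 1 ≤ q ^ 2 := Nat.one_le_pow _ _ (by omega)
    have : D ^ (q ^ 2) = D ^ (q ^ 2 - 1) * D := by
      rw [← pow_succ]
      congr 1
      omega
    rw [this, hord, one_mul]
  have h2 : D ∈ H := by
    rw [← h1]
    exact pow_mem hb _
  refine ⟨h2, ?_⟩
  have h3 : tv hF hx hc = (tv hF hx hc * D) * D⁻¹ := by group
  rw [h3]
  exact mul_mem hb (inv_mem h2)

theorem X_iso (hF : Fintype.card F = q ^ 2) (hn : 4 ≤ n) (h2 : (1 : F) + 1 = 0) :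
    ⟪(vec4 n 1 1 1 1 : Fin n → F), vec4 n 1 1 1 1⟫ = 0 := by
  rw [form_vec4 hF hn, one_pow]
  linear_combination (1 + 1) * h2

theorem X_ne (hn : 4 ≤ n) : (vec4 n 1 1 1 1 : Fin n → F) ≠ 0 :=
  vec4_ne_zero hn (Or.inl one_ne_zero)

theorem one_c (h2 : (1 : F) + 1 = 0) : (1 : F) + 1 ^ q = 0 := by
  rw [one_pow]
  exact h2

/-- A diagonal element of cube one. -/
theorem dg_cube (hq : q = 2) (d : Fin n → F) (hd : ∀ k, d k ^ (q + 1) = 1) (hdet : ∏ k, d k = 1) :
    (dg d hd hdet : SU n F q) ^ (q ^ 2 - 1) = 1 := by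
  have e : q ^ 2 - 1 = 3 := by rw [hq]; norm_num
  rw [e]
  apply ext_act
  intro v
  have h3 : ((dg d hd hdet : SU n F q)) ^ 3 = dg d hd hdet * (dg d hd hdet * dg d hd hdet) := by
    rw [pow_succ, pow_two, mul_assoc]
  rw [h3]
  simp only [act_mul, act_dg, act_one]
  funext k
  have := hd k
  rw [hq] at this
  linear_combination (v k) * this

theorem Dg_dg (d : Fin n → F) (hd : ∀ k, d k ^ (q + 1) = 1) (hdet : ∏ k, d k = 1) {e : ℕ → F}
    (he : ∀ k : Fin n, d k = e k.val) : Dg (dg d hd hdet : SU n F q) e := by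
  intro k hk
  rw [act_dg]
  funext j
  simp only [E, Pi.smul_apply, smul_eq_mul]
  by_cases h : j.val = k
  · rw [if_pos h, he, h]
  · rw [if_neg h, mul_zero, mul_zero]

/-- The case `n ≥ 6`. -/
theorem main_two_large (hF : Fintype.card F = q ^ 2) (hq : q = 2) (hn : 6 ≤ n) :
    ∃ a b : SU n F q, Subgroup.closure ({a, b} : Set (SU n F q)) = ⊤ := by
  classical
  obtain ⟨h2, hN, ω, hω, hωq⟩ := exists_omega (F := F) hF hq
  have hn4 : 4 ≤ n := by omega
  have hω1 : ω * (ω + 1) = 1 := by linear_combination hω + ω * h2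
  have hω2q : (ω + 1) ^ q = ω := by
    rw [pow_q_add hF, hωq, one_pow]
    linear_combination h2
  obtain ⟨c, hc1, σ, hσ, hcl⟩ := exists_shift (F := F) hF (n := n) (by omega)
  let d : Fin n → F := fun k => pat ω 4 k.val
  have hd : ∀ k, d k ^ (q + 1) = 1 := by
    intro k
    simp only [d, pat]
    rw [pow_succ]
    split_ifs
    · rw [hωq, mul_comm]
      exact hω1
    · rw [hω2q]
      exact hω1
    · simp
  have hdet : ∏ k, d k = 1 := by
    rw [Finset.prod_eq_mul (⟨4, by omega⟩ : Fin n) (⟨5, by omega⟩ : Fin n)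
      (by simp [Fin.ext_iff])]
    · simpa [d, pat] using hω1
    · intro j _ hj
      simp only [d, pat]
      have h3 : j.val ≠ 4 := fun h => hj.1 (Fin.ext h)
      have h4 : j.val ≠ 5 := fun h => hj.2 (Fin.ext h)
      rw [if_neg h3, if_neg h4]
    · simp
    · simp
  have hds : Dg (dg d hd hdet : SU n F q) (pat ω 4) := Dg_dg d hd hdet (fun _ => rfl)
  have hXi := X_iso (q := q) hF hn4 h2
  have hc' := one_c (q := q) h2
  refine ⟨c, tv hF hXi hc' * dg d hd hdet, ?_⟩
  set H := Subgroup.closure ({c, tv hF hXi hc' * dg d hd hdet} : Set (SU n F q)) with hH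
  have hcH : c ∈ H := Subgroup.subset_closure (by simp)
  have hbH : tv hF hXi hc' * dg d hd hdet ∈ H := Subgroup.subset_closure (by simp)
  have hsX : act (dg d hd hdet : SU n F q) (vec4 n 1 1 1 1) = vec4 n 1 1 1 1 := by
    rw [hds.vec4 hn4]
    simp [pat]
  obtain ⟨hsH, hTH⟩ := mem_of_prod hF hXi hc' hsX (dg_cube hq d hd hdet) hbH
  have hX := full_of_T2 hF hq h2 (X_ne hn4) hXi hc' hTH
  have d3 := hds.pat_conj (i := 3) (by omega) hc1 hσ hcl
  have d2 := d3.pat_conj (i := 2) (by omega) hc1 hσ hcl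
  have d1 := d2.pat_conj (i := 1) (by omega) hc1 hσ hcl
  have m3 : c⁻¹ * dg d hd hdet * c ∈ H := mul_mem (mul_mem (inv_mem hcH) hsH) hcH
  have m2 : c⁻¹ * (c⁻¹ * dg d hd hdet * c) * c ∈ H := mul_mem (mul_mem (inv_mem hcH) m3) hcH
  have m1 : c⁻¹ * (c⁻¹ * (c⁻¹ * dg d hd hdet * c) * c) * c ∈ H :=
    mul_mem (mul_mem (inv_mem hcH) m2) hcH
  exact all_of_phases hF hq h2 hN (by omega) hω hωq hcH hc1 hX m1 m2 m3 d1 d2 d3

/-- The phases in the case `n = 5`. -/
def vv (ω : F) (a k : ℕ) : F := if k = a then ω + 1 else ω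

/-- The case `n = 5`. -/
theorem main_two_five (hF : Fintype.card F = q ^ 2) (hq : q = 2) :
    ∃ a b : SU 5 F q, Subgroup.closure ({a, b} : Set (SU 5 F q)) = ⊤ := by
  classical
  obtain ⟨h2, hN, ω, hω, hωq⟩ := exists_omega (F := F) hF hq
  have hω1 : ω * (ω + 1) = 1 := by linear_combination hω + ω * h2
  have hω2 : (ω + 1) * (ω + 1) = ω := by linear_combination hω + (ω + 1) * h2
  have hω2q : (ω + 1) ^ q = ω := by
    rw [pow_q_add hF, hωq, one_pow]
    linear_combination h2
  have hω3 : ω * ω * ω = 1 := by rw [hω]; linear_combination hω1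
  obtain ⟨c, hc1, σ, hσ, hcl⟩ := exists_shift (F := F) hF (n := 5) (by omega)
  let d : Fin 5 → F := fun k => vv ω 4 k.val
  have hd : ∀ k, d k ^ (q + 1) = 1 := by
    intro k
    simp only [d, vv]
    rw [pow_succ]
    split_ifs
    · rw [hω2q]
      exact hω1
    · rw [hωq, mul_comm]
      exact hω1
  have hdet : ∏ k, d k = 1 := by
    rw [Fin.prod_univ_five]
    simp only [d, vv]
    norm_num
    linear_combination (ω * ω * ω) * hω1 + hω3
  have hds : Dg (dg d hd hdet : SU 5 F q) (vv ω 4) := Dg_dg d hd hdet (fun _ => rfl)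
  have hXi := X_iso (n := 5) (q := q) hF (by omega) h2
  have hc' := one_c (q := q) h2
  refine ⟨c, tv hF hXi hc' * dg d hd hdet, ?_⟩
  set H := Subgroup.closure ({c, tv hF hXi hc' * dg d hd hdet} : Set (SU 5 F q)) with hH
  have hcH : c ∈ H := Subgroup.subset_closure (by simp)
  have hbH : tv hF hXi hc' * dg d hd hdet ∈ H := Subgroup.subset_closure (by simp)
  have hsX : act (dg d hd hdet : SU 5 F q) (vec4 5 1 1 1 1) = ω • vec4 5 1 1 1 1 := by
    rw [hds.vec4 (by omega), smul_vec4]
    simp [vv]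
  have hl : ω * ω ^ q = 1 := by rw [hωq]; exact hω1
  obtain ⟨hsH, hTH⟩ := mem_of_prod' hF hXi hc' hl hsX (dg_cube hq d hd hdet) hbH
  have hX := full_of_T2 hF hq h2 (X_ne (by omega)) hXi hc' hTH
  have hv : ∀ a, a + 1 < 5 → ∀ t : SU 5 F q, Dg t (vv ω (a + 1)) → Dg (c⁻¹ * t * c) (vv ω a) := by
    intro a ha t ht
    refine ht.conj hc1 hσ hcl (fun k _ => ?_) ?_
    · simp [vv]
    · simp only [vv]
      rw [if_neg (by omega), if_neg (by omega)]
  have v3 := hv 3 (by omega) _ hds
  have v2 := hv 2 (by omega) _ v3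
  have v1 := hv 1 (by omega) _ v2
  have m3 : c⁻¹ * dg d hd hdet * c ∈ H := mul_mem (mul_mem (inv_mem hcH) hsH) hcH
  have m2 : c⁻¹ * (c⁻¹ * dg d hd hdet * c) * c ∈ H := mul_mem (mul_mem (inv_mem hcH) m3) hcH
  have m1 : c⁻¹ * (c⁻¹ * (c⁻¹ * dg d hd hdet * c) * c) * c ∈ H :=
    mul_mem (mul_mem (inv_mem hcH) m2) hcH
  have hpat : ∀ i, i + 1 < 5 → ∀ t t' : SU 5 F q, Dg t (vv ω i) → Dg t' (vv ω (i + 1)) →
      Dg (t * (t' * t')) (pat ω i) := by
    intro i hi t t' ht ht' k hk
    rw [act_mul, act_mul, ht' k hk, act_smul, ht' k hk, act_smul, act_smul, ht k hk, smul_smul, smul_smul]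
    congr 1
    rcases eq_or_ne k i with rfl | h1
    · simp only [vv, pat, if_true, if_neg (show ¬ k = k + 1 by omega)]
      linear_combination ω * hω1
    · by_cases h3 : k = i + 1
      · subst h3
        simp only [vv, pat, if_true, if_neg h1]
        linear_combination (ω + 1) * hω1
      · simp only [vv, pat, if_neg h1, if_neg h3]
        linear_combination hω3
  refine all_of_phases hF hq h2 hN (by omega) hω hωq hcH hc1 hX
    (mul_mem m1 (mul_mem m2 m2)) (mul_mem m2 (mul_mem m3 m3)) (mul_mem m3 (mul_mem hsH hsH))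
    (hpat 1 (by omega) _ _ v1 v2) (hpat 2 (by omega) _ _ v2 v3) (hpat 3 (by omega) _ _ v3 hds)

/-- The case `n = 4`. -/
theorem main_two_four (hF : Fintype.card F = q ^ 2) (hq : q = 2) :
    ∃ a b : SU 4 F q, Subgroup.closure ({a, b} : Set (SU 4 F q)) = ⊤ := by
  classical
  obtain ⟨h2, hN, ω, hω, hωq⟩ := exists_omega (F := F) hF hq
  have hω1 : ω * (ω + 1) = 1 := by linear_combination hω + ω * h2
  have hω2 : (ω + 1) * (ω + 1) = ω := by linear_combination hω + (ω + 1) * h2
  have hω2q : (ω + 1) ^ q = ω := by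
    rw [pow_q_add hF, hωq, one_pow]
    linear_combination h2
  have hω0 : ω ≠ 0 := by
    rintro rfl
    simp at hω1
  have hω10 : ω + 1 ≠ 0 := by
    intro h
    rw [h] at hω1
    simp at hω1
  have h1q : (1 : F) ^ q = 1 := one_pow _
  have h0q : (0 : F) ^ q = 0 := zero_pow_q hF
  have n0 : (0 : F) * 0 ^ q = 0 := by simp
  have n1 : (1 : F) * 1 ^ q = 1 := by simp
  have nω : ω * ω ^ q = 1 := by rw [hωq]; exact hω1
  have nω' : (ω + 1) * (ω + 1) ^ q = 1 := by rw [hω2q, mul_comm]; exact hω1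
  -- the element of order nine
  let π : Equiv.Perm (Fin 4) := Equiv.swap 0 1 * Equiv.swap 0 2
  let e : Fin 4 → F := ![1, 1, ω, ω + 1]
  have he : ∀ k, e k ^ (q + 1) = 1 := by
    intro k
    rw [pow_succ]
    fin_cases k
    · simp [e]
    · simp [e]
    · simp only [e]
      simpa [mul_comm] using nω
    · simp only [e]
      simpa [mul_comm] using nω'
  let M : Matrix (Fin 4) (Fin 4) F := π.permMatrix F * Matrix.diagonal e
  have hdet : M.det = 1 := by
    simp only [M]
    rw [Matrix.det_mul, Matrix.det_permutation, Matrix.det_diagonal, Fin.prod_univ_four]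
    have hs : Equiv.Perm.sign π = 1 := by
      simp only [π, Equiv.Perm.sign_mul]
      rw [Equiv.Perm.sign_swap (by decide), Equiv.Perm.sign_swap (by decide)]
      rfl
    rw [hs]
    simp [e]
    exact hω1
  have hM : Preserves q M := preserves_mul (preserves_perm π) (preserves_diagonal e he)
  let c : SU 4 F q := mkSU M hdet hM
  have hact : ∀ (v : Fin 4 → F), act c v = fun k => e (π k) * v (π k) := by
    intro v
    change M *ᵥ v = _
    simp only [M]
    rw [← Matrix.mulVec_mulVec, Matrix.permMatrix_mulVec]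
    funext k
    simp only [Function.comp, Matrix.mulVec_diagonal]
  have hπ0 : π 0 = 2 := by decide
  have hπ1 : π 1 = 0 := by decide
  have hπ2 : π 2 = 1 := by decide
  have hπ3 : π 3 = 3 := by decide
  have hc0 : act c (E 4 0) = E 4 1 := by
    rw [hact]
    funext k
    fin_cases k
    · simp [hπ0, E, e]
    · simp [hπ1, E, e]
    · simp [hπ2, E, e]
    · simp [hπ3, E, e]
  have hc1 : act c (E 4 1) = E 4 2 := by
    rw [hact]
    funext k
    fin_cases k
    · simp [hπ0, E, e]
    · simp [hπ1, E, e]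
    · simp [hπ2, E, e]
    · simp [hπ3, E, e]
  have hc2 : act c (E 4 2) = ω • E 4 0 := by
    rw [hact]
    funext k
    fin_cases k
    · simp [hπ0, E, e]
    · simp [hπ1, E, e]
    · simp [hπ2, E, e]
    · simp [hπ3, E, e]
  have hc3 : act c (E 4 3) = (ω + 1) • E 4 3 := by
    rw [hact]
    funext k
    fin_cases k
    · simp [hπ0, E, e]
    · simp [hπ1, E, e]
    · simp [hπ2, E, e]
    · simp [hπ3, E, e]
  have hXi := X_iso (n := 4) (q := q) hF le_rfl h2
  have hc' := one_c (q := q) h2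
  refine ⟨c, tv hF hXi hc', ?_⟩
  set H := Subgroup.closure ({c, tv hF hXi hc'} : Set (SU 4 F q)) with hH
  have hcH : c ∈ H := Subgroup.subset_closure (by simp)
  have hTH : tv hF hXi hc' ∈ H := Subgroup.subset_closure (by simp)
  have hX : Full H (vec4 4 1 1 1 1 : Fin 4 → F) := full_of_T2 hF hq h2 (X_ne le_rfl) hXi hc' hTH
  have hcv : ∀ {a b c' d A D : F}, Full H (vec4 4 a b c' d : Fin 4 → F) → ω * c' = A → (ω + 1) * d = D →
      Full H (vec4 4 A a b D : Fin 4 → F) := by
    intro a b c' d A D hx hA hD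
    have h3 := hx.conj hcH
    rw [act_vec4 c hc0 hc1 hc2 hc3] at h3
    have h4 : a • (E 4 1 : Fin 4 → F) + b • E 4 2 + c' • ω • E 4 0 + d • (ω + 1) • E 4 3 = vec4 4 A a b D := by
      rw [← hA, ← hD]
      simp only [vec4]
      module
    rwa [h4] at h3
  have hx1 : Full H (vec4 4 ω 1 1 (ω + 1) : Fin 4 → F) := hcv hX (by ring) (by ring)
  have hv1 : Full H (vec4 4 (ω + 1) 0 0 ω : Fin 4 → F) :=
    full_plane4 hF le_rfl hX hx1 (s := 1) (by
      rw [hωq, h1q, hω2q]
      intro h
      have h3 : (1 : F) = 0 := by linear_combination h - (ω + 1) * h2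
      exact one_ne_zero h3) (by ring) (by linear_combination h2) (by linear_combination h2)
      (by linear_combination h2) (Or.inl hω10) (by rw [nω', n0, nω]; linear_combination h2)
  have P0 : Full H (vec4 4 1 0 0 (ω + 1) : Fin 4 → F) :=
    full_smul4 hF hv1 hω0 hω1 (by ring) (by ring) hω
  have P1 : Full H (vec4 4 0 1 0 ω : Fin 4 → F) := hcv P0 (by ring) hω2
  have P2 : Full H (vec4 4 0 0 1 1 : Fin 4 → F) := hcv P1 (by ring) (by linear_combination hω1 + 0 * ω)
  have Q1 : Full H (vec4 4 ω 0 0 (ω + 1) : Fin 4 → F) := hcv P2 (by ring) (by ring)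
  have P3 : Full H (vec4 4 1 0 0 ω : Fin 4 → F) :=
    full_smul4 hF Q1 hω10 (by linear_combination hω1) (by ring) (by ring) hω2
  have P4 : Full H (vec4 4 0 1 0 1 : Fin 4 → F) := hcv P3 (by ring) (by linear_combination hω1)
  have P5 : Full H (vec4 4 0 0 1 (ω + 1) : Fin 4 → F) := hcv P4 (by ring) (by ring)
  have Q2 : Full H (vec4 4 ω 0 0 ω : Fin 4 → F) := hcv P5 (by ring) hω2
  have P6 : Full H (vec4 4 1 0 0 1 : Fin 4 → F) :=
    full_smul4 hF Q2 hω10 (by linear_combination hω1) (by ring) (by ring) (by linear_combination hω1)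
  have P7 : Full H (vec4 4 0 1 0 (ω + 1) : Fin 4 → F) := hcv P6 (by ring) (by ring)
  have P8 : Full H (vec4 4 0 0 1 ω : Fin 4 → F) := hcv P7 (by ring) hω2
  have ha : Full H (vec4 4 1 1 0 0 : Fin 4 → F) :=
    full_plane4 hF le_rfl P6 P4 (s := 1) (by
      rw [h1q, h0q]
      intro h
      have h3 : (1 : F) = 0 := by linear_combination h
      exact one_ne_zero h3) (by ring) (by ring) (by ring) (by linear_combination h2)
      (Or.inl one_ne_zero) (by rw [n1, n0]; linear_combination h2)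
  have e1 : Full H (vec4 4 1 0 (ω + 1) 0 : Fin 4 → F) :=
    full_plane4 hF le_rfl P0 P2 (s := ω + 1) (by
      rw [h1q, h0q]
      intro h
      apply hω10
      linear_combination h) (by ring) (by ring) (by ring) (by linear_combination (ω + 1) * h2)
      (Or.inl one_ne_zero) (by rw [n1, n0, nω']; linear_combination h2)
  have e2 : Full H (vec4 4 1 0 ω 0 : Fin 4 → F) :=
    full_plane4 hF le_rfl P3 P2 (s := ω) (by
      rw [h1q, h0q]
      intro h
      apply hω0
      linear_combination h) (by ring) (by ring) (by ring) (by linear_combination ω * h2)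
      (Or.inl one_ne_zero) (by rw [n1, n0, nω]; linear_combination h2)
  have z1 : Full H (vec4 4 ω 1 (ω + 1) 1 : Fin 4 → F) :=
    full_plane4 hF le_rfl hX e1 (s := ω + 1) (by
      rw [h1q, h0q, hω2q]
      intro h
      apply hω10
      linear_combination h) (by linear_combination h2) (by ring)
      (by linear_combination hω + (ω + 1) * h2) (by ring)
      (Or.inl hω0) (by rw [nω, n1, nω']; linear_combination (1 + 1) * h2)
  have z2 : Full H (vec4 4 ω ω (ω + 1) (ω + 1) : Fin 4 → F) :=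
    full_plane4 hF le_rfl z1 P7 (s := ω + 1) (by
      rw [h1q, h0q, hω2q]
      intro h
      apply hω10
      linear_combination h) (by ring) (by linear_combination h2) (by ring)
      (by linear_combination hω + (ω + 1) * h2)
      (Or.inl hω0) (by rw [nω, nω']; linear_combination (1 + 1) * h2)
  have r2 : Full H (vec4 4 1 1 ω ω : Fin 4 → F) :=
    full_smul4 hF z2 hω10 (by linear_combination hω1) (by linear_combination hω1) hω2 hω2
  have z3 : Full H (vec4 4 (ω + 1) 1 ω 1 : Fin 4 → F) :=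
    full_plane4 hF le_rfl hX e2 (s := ω) (by
      rw [h1q, h0q, hωq]
      intro h
      apply hω0
      linear_combination h - h2) (by ring) (by ring) (by linear_combination hω + h2) (by ring)
      (Or.inl hω10) (by rw [nω, n1, nω']; linear_combination (1 + 1) * h2)
  have z4 : Full H (vec4 4 (ω + 1) (ω + 1) ω ω : Fin 4 → F) :=
    full_plane4 hF le_rfl z3 P1 (s := ω) (by
      rw [h1q, h0q, hωq]
      intro h
      apply hω0
      linear_combination h - h2) (by ring) (by ring) (by ring) (by linear_combination hω + h2)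
      (Or.inl hω10) (by rw [nω, nω']; linear_combination (1 + 1) * h2)
  have r3 : Full H (vec4 4 1 1 (ω + 1) (ω + 1) : Fin 4 → F) :=
    full_smul4 hF z4 hω0 hω1 hω1 hω hω
  have hl := full_line_of hF hq h2 hω ha P2 hX r2 r3
  have hx : Full H (vec4 4 0 0 ω (ω + 1) : Fin 4 → F) :=
    full_smul4 hF P8 hω0 (by ring) (by ring) (by ring) hω
  obtain ⟨S, hS, hFS, -, -, hk⟩ := start_four hF h2 hN hl
    (by rw [form_vec4 hF le_rfl, h0q]; ring) hx
    (by
      rw [form_vec4 hF le_rfl, h1q]
      linear_combination ω * h2)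
    (by rw [form_vec4 hF le_rfl, h0q]; ring) P6
    (by
      rw [form_vec4 hF le_rfl, h1q, h0q]
      intro h
      have h3 : (1 : F) = 0 := by linear_combination h
      exact one_ne_zero h3)
  have hStop : S = ⊤ := by
    apply Submodule.eq_top_of_finrank_eq
    apply le_antisymm (Submodule.finrank_le S)
    simpa using hk
  exact eq_top_of_full hF (by omega) (by omega) (fun x hx hi => hFS x (by rw [hStop]; trivial) hx hi)

/-- The case `q = 2`. -/
theorem main_two (hF : Fintype.card F = q ^ 2) (hq : q = 2) (hn : 4 ≤ n) :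
    ∃ a b : SU n F q, Subgroup.closure ({a, b} : Set (SU n F q)) = ⊤ := by
  by_cases h4 : n = 4
  · subst h4
    exact main_two_four hF hq
  by_cases h5 : n = 5
  · subst h5
    exact main_two_five hF hq
  exact main_two_large hF hq (by omega)

end Cfsg.Agent.Lib.Classical.Herm.UTwoGen
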