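import Mathlib

/-!
# Twisted commutation and eigenspaces

Linear algebra for operators `X`, `Y` with `X * Y = β • (Y * X)`, used for the
eigenspace bounds for normalisers of extraspecial groups.
-/

set_option autoImplicit false

namespace Cfsg.Agent.Lib.Classical.Herm.XSBasic

open Module

section TC

variable {F : Type*} [Field F] {A : Type*} [Ring A] [Algebra F A]

/-- Twisted commutation. -/
def TC (β : F) (X Y : A) : Prop := X * Y = β • (Y * X)

theorem TC.mul_left {β β' : F} {X X' Y : A} (h : TC β X Y) (h' : TC β' X' Y) :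
    TC (β * β') (X * X') Y := by
  unfold TC at *
  rw [mul_assoc, h', mul_smul_comm, ← mul_assoc, h, smul_mul_assoc, smul_smul, mul_assoc, mul_comm β']

theorem TC.mul_right {β β' : F} {X Y Y' : A} (h : TC β X Y) (h' : TC β' X Y') :
    TC (β * β') X (Y * Y') := by
  unfold TC at *
  rw [← mul_assoc, h, smul_mul_assoc, mul_assoc, h', mul_smul_comm, smul_smul, mul_assoc]

theorem TC.one_left (Y : A) : TC (1 : F) (1 : A) Y := by simp [TC]

theorem TC.one_right (X : A) : TC (1 : F) X (1 : A) := by simp [TC]

theorem TC.pow_left {β : F} {X Y : A} (h : TC β X Y) (k : ℕ) : TC (β ^ k) (X ^ k) Y := by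
  induction k with
  | zero => simpa using TC.one_left (F := F) Y
  | succ k ih => rw [pow_succ, pow_succ]; exact ih.mul_left h

theorem TC.pow_right {β : F} {X Y : A} (h : TC β X Y) (k : ℕ) : TC (β ^ k) X (Y ^ k) := by
  induction k with
  | zero => simpa using TC.one_right (F := F) X
  | succ k ih => rw [pow_succ, pow_succ]; exact ih.mul_right h

theorem TC.inv_left {β : F} (hβ : β ≠ 0) {X X' Y : A} (h : TC β X Y) (h1 : X' * X = 1)
    (h2 : X * X' = 1) : TC β⁻¹ X' Y := by
  unfold TC at *
  have : Y * X' = β • (X' * Y) := by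
    calc Y * X' = X' * X * Y * X' := by rw [h1, one_mul]
      _ = X' * (X * Y) * X' := by noncomm_ring
      _ = X' * (β • (Y * X)) * X' := by rw [h]
      _ = β • (X' * Y * (X * X')) := by
        simp only [mul_smul_comm, smul_mul_assoc, mul_assoc]
      _ = β • (X' * Y) := by rw [h2, mul_one]
  rw [this, smul_smul, inv_mul_cancel₀ hβ, one_smul]

theorem TC.inv_right {β : F} (hβ : β ≠ 0) {X Y Y' : A} (h : TC β X Y) (h1 : Y' * Y = 1)
    (h2 : Y * Y' = 1) : TC β⁻¹ X Y' := by
  unfold TC at *
  have : Y' * X = β • (X * Y') := by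
    calc Y' * X = Y' * X * (Y * Y') := by rw [h2, mul_one]
      _ = Y' * (X * Y) * Y' := by noncomm_ring
      _ = Y' * (β • (Y * X)) * Y' := by rw [h]
      _ = β • ((Y' * Y) * X * Y') := by
        simp only [mul_smul_comm, smul_mul_assoc, mul_assoc]
      _ = β • (X * Y') := by rw [h1, one_mul]
  rw [this, smul_smul, inv_mul_cancel₀ hβ, one_smul]

theorem TC.smul_left {β : F} {X Y : A} (h : TC β X Y) (μ : F) : TC β (μ • X) Y := by
  unfold TC at *
  rw [smul_mul_assoc, h, mul_smul_comm, smul_comm]

theorem TC.smul_right {β : F} {X Y : A} (h : TC β X Y) (μ : F) : TC β X (μ • Y) := by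
  unfold TC at *
  rw [mul_smul_comm, h, smul_mul_assoc, smul_comm]

theorem TC.comm_iff_one {X Y : A} : TC (1 : F) X Y ↔ X * Y = Y * X := by
  simp [TC]

/-- Uniqueness of the twist, when `Y * X` is cancellable with scalars. -/
theorem TC.unique {β β' : F} {X Y : A} (h : TC β X Y) (h' : TC β' X Y) (hne : Y * X ≠ 0) :
    β = β' := by
  unfold TC at *
  have : (β - β') • (Y * X) = 0 := by rw [sub_smul, ← h, ← h', sub_self]
  rcases smul_eq_zero.1 this with h0 | h0
  · exact sub_eq_zero.1 h0
  · exact absurd h0 hne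

theorem TC.root {r : ℕ} {β : F} {X Y : A} (h : TC β X Y) (hX : X ^ r = 1) (hY : Y ≠ 0) :
    β ^ r = 1 := by
  have h1 := h.pow_left r
  unfold TC at h1
  rw [hX, mul_one, one_mul] at h1
  have : (β ^ r - 1) • Y = 0 := by rw [sub_smul, ← h1, one_smul, sub_self]
  rcases smul_eq_zero.1 this with h0 | h0
  · exact sub_eq_zero.1 h0
  · exact absurd h0 hY

end TC

section Eig

variable {F : Type*} [Field F] {V : Type*} [AddCommGroup V] [Module F V]

theorem TC.mem_eig {β : F} {M X : End F V} (h : TC β M X) {c : F} {v : V}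
    (hv : v ∈ End.eigenspace M c) : X v ∈ End.eigenspace M (β * c) := by
  rw [End.mem_eigenspace_iff] at *
  have := congrArg (fun f : End F V => f v) h
  simp only [Module.End.mul_apply, LinearMap.smul_apply] at this
  rw [this, hv, map_smul, smul_smul]

variable [FiniteDimensional F V]

/-- Eigenspaces for distinct eigenvalues: the dimensions add up to at most `dim V`. -/
theorem sum_finrank_eig_le (M : End F V) (S : Finset F) :
    ∑ μ ∈ S, finrank F (End.eigenspace M μ) ≤ finrank F V := by
  classical
  have key : ∀ S : Finset F,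
      finrank F (⨆ μ ∈ S, End.eigenspace M μ : Submodule F V)
        = ∑ μ ∈ S, finrank F (End.eigenspace M μ) := by
    intro S
    induction S using Finset.induction_on with
    | empty => simp
    | insert a S ha ih =>
      rw [Finset.sum_insert ha, Finset.iSup_insert]
      have hd : Disjoint (End.eigenspace M a) (⨆ μ ∈ S, End.eigenspace M μ) := by
        simpa using (End.eigenspaces_iSupIndep M).disjoint_biSup (y := (S : Set F))
          (by simpa using ha)
      have := Submodule.finrank_sup_add_finrank_inf_eq (End.eigenspace M a)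
        (⨆ μ ∈ S, End.eigenspace M μ)
      rw [hd.eq_bot] at this
      simp only [finrank_bot, add_zero] at this
      omega
  rw [← key S]
  exact Submodule.finrank_le _

theorem sum_finrank_eig_range_le (M : End F V) (k : ℕ) (μ : ℕ → F)
    (hμ : Set.InjOn μ (Finset.range k : Set ℕ)) :
    ∑ i ∈ Finset.range k, finrank F (End.eigenspace M (μ i)) ≤ finrank F V := by
  classical
  have := sum_finrank_eig_le M ((Finset.range k).image μ)
  rwa [Finset.sum_image hμ] at this

/-- Finrank of a finite sum of subspaces. -/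
theorem finrank_biSup_le {ι : Type*} (S : Finset ι) (U : ι → Submodule F V) :
    finrank F (⨆ i ∈ S, U i : Submodule F V) ≤ ∑ i ∈ S, finrank F (U i) := by
  classical
  induction S using Finset.induction_on with
  | empty => simp
  | insert a S ha ih =>
    rw [Finset.sum_insert ha, Finset.iSup_insert]
    have := Submodule.finrank_add_le_finrank_add_finrank (U a) (⨆ i ∈ S, U i)
    omega

/-- An injective operator with a left inverse gives inequality of eigenspace dimensions. -/
theorem finrank_eig_le_of_TC {β : F} {M X X' : End F V} (h : TC β M X) (hX : X' * X = 1) (c : F) :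
    finrank F (End.eigenspace M c) ≤ finrank F (End.eigenspace M (β * c)) := by
  have hinj : Function.Injective X := by
    intro a b hab
    have := congrArg X' hab
    have e : ∀ u : V, X' (X u) = u := fun u => by
      have := congrArg (fun f : End F V => f u) hX
      simpa using this
    simpa [e] using this
  have hle : (End.eigenspace M c).map X ≤ End.eigenspace M (β * c) := by
    rintro _ ⟨v, hv, rfl⟩
    exact h.mem_eig hv
  calc finrank F (End.eigenspace M c)
      = finrank F ((End.eigenspace M c).map X) :=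
        (LinearEquiv.finrank_eq (Submodule.equivMapOfInjective X hinj _))
    _ ≤ _ := Submodule.finrank_mono hle

theorem finrank_map_eq_of_leftInv {X X' : End F V} (hX : X' * X = 1) (U : Submodule F V) :
    finrank F (U.map X) = finrank F U := by
  have hinj : Function.Injective X := by
    intro a b hab
    have := congrArg X' hab
    have e : ∀ u : V, X' (X u) = u := fun u => by
      have := congrArg (fun f : End F V => f u) hX
      simpa using this
    simpa [e] using this
  exact (LinearEquiv.finrank_eq (Submodule.equivMapOfInjective X hinj _)).symm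

/-- Lemma A: a nontrivial twist of prime order gives the `1/r` bound. -/
theorem eig_prime_bound {r : ℕ} (hr : r.Prime) {m : F} {M X X' : End F V} (hinjM : Function.Injective M)
    (h : TC m M X) (hX : X' * X = 1) (hm : m ^ r = 1) (hm1 : m ≠ 1) (c : F) :
    r * finrank F (End.eigenspace M c) ≤ finrank F V := by
  classical
  haveI : Fact r.Prime := ⟨hr⟩
  by_cases hc : c = 0
  · have : End.eigenspace M c = ⊥ := by
      rw [eq_bot_iff, hc]
      intro v hv
      rw [End.mem_eigenspace_iff, zero_smul] at hv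
      simpa using hinjM (by simpa using hv : M v = M 0)
    rw [this, finrank_bot, mul_zero]
    exact Nat.zero_le _
  have hprim : IsPrimitiveRoot m r := by
    have := IsPrimitiveRoot.orderOf m
    rwa [orderOf_eq_prime hm hm1] at this
  have hinj : Set.InjOn (fun i : ℕ => c * m ^ i) (Finset.range r : Set ℕ) := by
    intro i hi j hj hij
    have hij' : m ^ i = m ^ j := mul_left_cancel₀ hc hij
    exact hprim.pow_inj (Finset.mem_range.1 hi) (Finset.mem_range.1 hj) hij'
  have hs := sum_finrank_eig_range_le M r (fun i : ℕ => c * m ^ i) hinj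
  have hle : ∀ i : ℕ, finrank F (End.eigenspace M c) ≤ finrank F (End.eigenspace M (c * m ^ i)) := by
    intro i
    induction i with
    | zero => rw [pow_zero, mul_one]
    | succ i ih =>
      refine ih.trans ?_
      have := finrank_eig_le_of_TC h hX (c * m ^ i)
      rwa [show m * (c * m ^ i) = c * m ^ (i + 1) by ring] at this
  calc r * finrank F (End.eigenspace M c)
      = ∑ _i ∈ Finset.range r, finrank F (End.eigenspace M c) := by simp
    _ ≤ ∑ i ∈ Finset.range r, finrank F (End.eigenspace M (c * m ^ i)) :=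
        Finset.sum_le_sum (fun i _ => hle i)
    _ ≤ _ := hs

/-- Two subspaces in "generic" position: `dim W + dim W' ≤ dim V + dim (W ⊓ W')`. -/
theorem finrank_add_le_of_inf (W W' : Submodule F V) :
    finrank F W + finrank F W' ≤ finrank F V + finrank F (W ⊓ W' : Submodule F V) := by
  have := Submodule.finrank_sup_add_finrank_inf_eq W W'
  have h2 := Submodule.finrank_le (W ⊔ W')
  omega

/-- Disjoint translates: the `1/2` bound. -/
theorem two_mul_finrank_le_of_inf_bot (W W' : Submodule F V) (hd : finrank F W' = finrank F W)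
    (h : W ⊓ W' = ⊥) : 2 * finrank F W ≤ finrank F V := by
  have := finrank_add_le_of_inf W W'
  rw [h] at this
  simp only [finrank_bot] at this
  omega

end Eig

section Proj

variable {F : Type*} [Field F] {V : Type*} [AddCommGroup V] [Module F V]

/-- The projector `∑ j < r, ξ ^ j M ^ j`. -/
noncomputable def projOp (r : ℕ) (ξ : F) (M : End F V) : End F V :=
  ∑ j ∈ Finset.range r, ξ ^ j • M ^ j

theorem smul_mul_projOp {r : ℕ} {ξ : F} {M : End F V} (hξ : ξ ^ r = 1) (hM : M ^ r = 1) :
    ξ • (M * projOp r ξ M) = projOp r ξ M := by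
  unfold projOp
  rw [Finset.mul_sum, Finset.smul_sum]
  have e1 : ∀ j, ξ • (M * (ξ ^ j • M ^ j)) = ξ ^ (j + 1) • M ^ (j + 1) := by
    intro j
    rw [mul_smul_comm, smul_smul, pow_succ' M, pow_succ' ξ]
  simp_rw [e1]
  have h1 := Finset.sum_range_succ' (fun j => ξ ^ j • M ^ j) r
  have h2 := Finset.sum_range_succ (fun j => ξ ^ j • M ^ j) r
  simp only [pow_zero, one_smul, hξ, hM] at h1 h2
  rw [h1] at h2
  exact add_right_cancel h2

theorem sum_projOp {r : ℕ} [NeZero r] {ζ : F} (hζ : IsPrimitiveRoot ζ r) (M : End F V) :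
    ∑ i ∈ Finset.range r, projOp r (ζ⁻¹ ^ i) M = (r : F) • (1 : End F V) := by
  unfold projOp
  rw [Finset.sum_comm]
  have hζ' : IsPrimitiveRoot ζ⁻¹ r := hζ.inv
  have key : ∀ j ∈ Finset.range r,
      (∑ i ∈ Finset.range r, (ζ⁻¹ ^ i) ^ j • M ^ j)
        = if j = 0 then (r : F) • (1 : End F V) else 0 := by
    intro j hj
    rw [← Finset.sum_smul]
    split_ifs with h0
    · subst h0; simp
    · have hne : ζ⁻¹ ^ j ≠ 1 :=
        hζ'.pow_ne_one_of_pos_of_lt h0 (Finset.mem_range.1 hj)
      have : ∑ i ∈ Finset.range r, (ζ⁻¹ ^ i) ^ j = 0 := by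
        have e : ∀ i, (ζ⁻¹ ^ i) ^ j = (ζ⁻¹ ^ j) ^ i := fun i => by rw [← pow_mul, ← pow_mul, mul_comm]
        simp_rw [e]
        rw [geom_sum_eq hne, ← pow_mul, mul_comm, pow_mul, hζ'.pow_eq_one, one_pow, sub_self, zero_div]
      rw [this, zero_smul]
  rw [Finset.sum_congr rfl key, Finset.sum_ite_eq' (Finset.range r) 0]
  simp [Nat.pos_of_ne_zero (NeZero.ne r)]

/-- Eigen-decomposition along the projectors. -/
theorem projOp_mem_eig {r : ℕ} {ζ : F} (hζ : ζ ^ r = 1) (hζ0 : ζ ≠ 0) {M : End F V} (hM : M ^ r = 1)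
    (i : ℕ) (v : V) : projOp r (ζ⁻¹ ^ i) M v ∈ End.eigenspace M (ζ ^ i) := by
  rw [End.mem_eigenspace_iff]
  have hξ : (ζ⁻¹ ^ i) ^ r = 1 := by
    rw [← pow_mul, mul_comm, pow_mul, inv_pow, hζ, inv_one, one_pow]
  have h := smul_mul_projOp hξ hM
  have := congrArg (fun f : End F V => f v) h
  simp only [LinearMap.smul_apply, Module.End.mul_apply] at this
  conv_rhs => rw [← this]
  rw [smul_smul, ← mul_pow, mul_inv_cancel₀ hζ0, one_pow, one_smul]

theorem projOp_mem_of_stable {r : ℕ} {ξ : F} {M : End F V} {W : Submodule F V}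
    (hW : ∀ v ∈ W, M v ∈ W) {v : V} (hv : v ∈ W) : projOp r ξ M v ∈ W := by
  have key : ∀ j : ℕ, (M ^ j) v ∈ W := by
    intro j
    induction j with
    | zero => simpa using hv
    | succ j ih =>
      rw [pow_succ', Module.End.mul_apply]
      exact hW _ ih
  unfold projOp
  rw [LinearMap.sum_apply]
  refine Submodule.sum_mem _ (fun j _ => ?_)
  rw [LinearMap.smul_apply]
  exact Submodule.smul_mem _ _ (key j)

/-- A stable subspace of a diagonalisable operator is the sum of its intersections with the
eigenspaces. -/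
theorem le_iSup_inf_eig {r : ℕ} [NeZero r] {ζ : F} (hζ : IsPrimitiveRoot ζ r) {M : End F V}
    (hM : M ^ r = 1) {W : Submodule F V} (hW : ∀ v ∈ W, M v ∈ W) :
    W ≤ ⨆ i ∈ Finset.range r, W ⊓ End.eigenspace M (ζ ^ i) := by
  intro v hv
  have hr0 : (r : F) ≠ 0 := (hζ.neZero' (R := F)).out
  have hζ0 : ζ ≠ 0 := hζ.ne_zero (NeZero.ne r)
  have hs := congrArg (fun f : End F V => f v) (sum_projOp hζ M)
  simp only [LinearMap.sum_apply, LinearMap.smul_apply, Module.End.one_apply] at hs
  have hv' : v = (r : F)⁻¹ • ∑ i ∈ Finset.range r, projOp r (ζ⁻¹ ^ i) M v := by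
    rw [hs, smul_smul, inv_mul_cancel₀ hr0, one_smul]
  rw [hv']
  refine Submodule.smul_mem _ _ (Submodule.sum_mem _ (fun i hi => ?_))
  refine Submodule.mem_iSup_of_mem i (Submodule.mem_iSup_of_mem hi ?_)
  exact ⟨projOp_mem_of_stable hW hv, projOp_mem_eig hζ.pow_eq_one hζ0 hM i v⟩

theorem iSup_eig_eq_top {r : ℕ} [NeZero r] {ζ : F} (hζ : IsPrimitiveRoot ζ r) {M : End F V}
    (hM : M ^ r = 1) : ⨆ i ∈ Finset.range r, End.eigenspace M (ζ ^ i) = ⊤ := by
  rw [eq_top_iff]
  refine (le_iSup_inf_eig hζ hM (W := ⊤) (fun _ _ => Submodule.mem_top)).trans ?_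
  simp

/-- If all eigenspaces of a diagonalisable operator are trivial or full, it is a scalar. -/
theorem exists_scalar_of_eig {r : ℕ} [NeZero r] {ζ : F} (hζ : IsPrimitiveRoot ζ r) {M : End F V}
    (hM : M ^ r = 1) [Nontrivial V]
    (h : ∀ c, End.eigenspace M c = ⊥ ∨ End.eigenspace M c = ⊤) : ∃ c : F, M = c • (1 : End F V) := by
  by_contra hcon
  have hall : ∀ i, End.eigenspace M (ζ ^ i) = ⊥ := by
    intro i
    rcases h (ζ ^ i) with h' | h'
    · exact h'
    · exfalso
      apply hcon
      refine ⟨ζ ^ i, LinearMap.ext fun v => ?_⟩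
      have : v ∈ End.eigenspace M (ζ ^ i) := by rw [h']; trivial
      rw [End.mem_eigenspace_iff] at this
      simpa using this
  have := iSup_eig_eq_top hζ hM
  simp only [hall, iSup_bot] at this
  exact bot_ne_top this

variable [FiniteDimensional F V]

/-- Dimension form of the decomposition. -/
theorem finrank_le_sum_inf_eig {r : ℕ} [NeZero r] {ζ : F} (hζ : IsPrimitiveRoot ζ r) {M : End F V}
    (hM : M ^ r = 1) {W : Submodule F V} (hW : ∀ v ∈ W, M v ∈ W) :
    finrank F W ≤ ∑ i ∈ Finset.range r, finrank F (W ⊓ End.eigenspace M (ζ ^ i) : Submodule F V) :=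
  (Submodule.finrank_mono (le_iSup_inf_eig hζ hM hW)).trans (finrank_biSup_le _ _)

end Proj

end Cfsg.Agent.Lib.Classical.Herm.XSBasic
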