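import Cfsg.Agent.Lib.Classical.Herm.XSMain

/-!
# Eigenspace bound for normalising elements of prime order `r`
-/

set_option autoImplicit false

universe u v w

namespace Cfsg.Agent.Lib.Classical.Herm.XSBound

open Module Cfsg.Agent.Lib.Classical.Herm.XSBasic Cfsg.Agent.Lib.Classical.Herm.XSRep
  Cfsg.Agent.Lib.Classical.Herm.XSStep Cfsg.Agent.Lib.Classical.Herm.XSFix
  Cfsg.Agent.Lib.Classical.Herm.XSMain

variable {F : Type u} [Field F]

theorem exists_nonscalar {V : Type v} [AddCommGroup V] [Module F V] {Γ : Type w} [Group Γ]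
    [Nontrivial V] {r : ℕ} {ρ : Γ →* End F V} (h : IsXS r ρ) {g : End F V}
    (hns : ∀ μ : F, g ≠ μ • (1 : End F V)) : ∃ x₀ : Γ, ∀ μ : F, ρ x₀ ≠ μ • (1 : End F V) := by
  by_contra hall
  push_neg at hall
  obtain ⟨v, hv⟩ := exists_ne (0 : V)
  have hstab : ∀ x : Γ, ∀ u ∈ Submodule.span F {v}, ρ x u ∈ Submodule.span F {v} := by
    intro x u hu
    obtain ⟨μ, hμ⟩ := hall x
    rw [hμ]
    simpa using Submodule.smul_mem _ μ hu
  rcases h.irr _ hstab with h1 | h1
  · exact hv (by simpa using h1)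
  · have hgv : g v ∈ Submodule.span F {v} := by rw [h1]; trivial
    obtain ⟨k, hk⟩ := Submodule.mem_span_singleton.1 hgv
    apply hns k
    apply LinearMap.ext
    intro w
    have hw : w ∈ Submodule.span F {v} := by rw [h1]; trivial
    obtain ⟨k', rfl⟩ := Submodule.mem_span_singleton.1 hw
    simp only [map_smul, ← hk, LinearMap.smul_apply, Module.End.one_apply]

/-- Non-scalar elements have a partner. -/
theorem exists_partner {V : Type v} [AddCommGroup V] [Module F V] {Γ : Type w} [Group Γ]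
    [Nontrivial V] {r : ℕ} (hr : r.Prime) {ρ : Γ →* End F V} (h : IsXS r ρ) {a : Γ}
    (ha : ∀ μ : F, ρ a ≠ μ • (1 : End F V)) :
    ∃ (y : Γ) (ζ : F), TC ζ (ρ a) (ρ y) ∧ IsPrimitiveRoot ζ r := by
  haveI : Fact r.Prime := ⟨hr⟩
  have : ∃ y : Γ, ρ a * ρ y ≠ ρ y * ρ a := by
    by_contra hall
    push_neg at hall
    obtain ⟨μ, hμ⟩ := h.cent a hall
    exact ha μ hμ
  obtain ⟨y, hy⟩ := this
  obtain ⟨ζ, hay⟩ := h.comm a y
  refine ⟨y, ζ, hay, ?_⟩
  have hζ1 : ζ ≠ 1 := by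
    rintro rfl
    exact hy (TC.comm_iff_one.1 hay)
  have hζr : ζ ^ r = 1 := hay.root (rho_pow_r h a) (rho_ne_zero ρ y)
  have := IsPrimitiveRoot.orderOf ζ
  rwa [orderOf_eq_prime hζr hζ1] at this

/-- The dimension is divisible by `r` when some element is not scalar. -/
theorem dvd_finrank {V : Type v} [AddCommGroup V] [Module F V] [FiniteDimensional F V]
    {Γ : Type w} [Group Γ] [Nontrivial V] {r : ℕ} (hr : r.Prime) {ρ : Γ →* End F V}
    (h : IsXS r ρ) {a : Γ} (ha : ∀ μ : F, ρ a ≠ μ • (1 : End F V)) : r ∣ finrank F V := by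
  haveI : NeZero r := ⟨hr.ne_zero⟩
  obtain ⟨y, ζ, hay, hζ⟩ := exists_partner hr h ha
  exact ⟨_, finrank_eq_mul h hζ hay⟩

theorem mem_centSub_of_norm {V : Type v} [AddCommGroup V] [Module F V] {Γ : Type w} [Group Γ]
    [Nontrivial V] {r : ℕ} (hr : r.Prime) {ρ : Γ →* End F V} {a x x' : Γ} {g : End F V} {ν : F}
    (hg : g ^ r = 1) (hga : g * ρ a = ρ a * g) (hx : x ∈ centSub ρ a)
    (hxx : g * ρ x = ν • (ρ x' * g)) : x' ∈ centSub ρ a := by
  have hg2 : g ^ (r - 1) * g = 1 := by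
    rw [← pow_succ, Nat.sub_add_cancel hr.one_le, hg]
  have hg1 : g * g ^ (r - 1) = 1 := by
    rw [← pow_succ', Nat.sub_add_cancel hr.one_le, hg]
  have hν : ν ≠ 0 := nu_ne_zero hg2 hxx
  have hx' : ρ x * ρ a = ρ a * ρ x := hx
  have h1 : ν • (ρ x' * ρ a * g) = ν • (ρ a * ρ x' * g) := by
    calc ν • (ρ x' * ρ a * g) = ν • (ρ x' * g) * ρ a := by
          rw [smul_mul_assoc, mul_assoc, mul_assoc, hga]
      _ = g * ρ x * ρ a := by rw [hxx]
      _ = g * ρ a * ρ x := by rw [mul_assoc, hx', mul_assoc]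
      _ = ρ a * (g * ρ x) := by rw [hga, mul_assoc]
      _ = ν • (ρ a * ρ x' * g) := by rw [hxx, mul_smul_comm, mul_assoc]
  have h2 := smul_right_injective _ hν h1
  have h3 := congrArg (fun f : End F V => f * g ^ (r - 1)) h2
  simp only [mul_assoc, hg1, mul_one] at h3
  exact h3

/-- The main bound. -/
theorem xs_bound {r : ℕ} (hr : r.Prime) (hr2 : r ≠ 2) :
    ∀ (N : ℕ) (V : Type v) [AddCommGroup V] [Module F V] [FiniteDimensional F V]
      (Γ : Type w) [Group Γ] [Finite Γ] (ρ : Γ →* End F V), IsXS r ρ → finrank F V = N →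
      ∀ g : End F V, g ^ r = 1 → (∀ x : Γ, ∃ (x' : Γ) (ν : F), g * ρ x = ν • (ρ x' * g)) →
      (∀ μ : F, g ≠ μ • (1 : End F V)) → ∀ c : F,
      r * finrank F (End.eigenspace g c) ≤ 2 * N := by
  intro N
  induction N using Nat.strong_induction_on with
  | _ N ih =>
  intro V _ _ _ Γ _ _ ρ h hN g hg hn hns c
  haveI : NeZero r := ⟨hr.ne_zero⟩
  haveI hVnt : Nontrivial V := by
    by_contra hcon
    rw [not_nontrivial_iff_subsingleton] at hcon
    apply hns 0
    apply LinearMap.ext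
    intro v
    exact Subsingleton.elim _ _
  obtain ⟨x₀, hx₀⟩ := exists_nonscalar h hns
  obtain ⟨a, ha, l, hl⟩ := exists_fixed_line hr h.pow hg hn hx₀
  obtain ⟨y, ζ, hay, hζ⟩ := exists_partner hr h ha
  by_cases hl1 : l = 1
  · have hga : g * ρ a = ρ a * g := by rw [hl, hl1, one_smul]
    rw [← hN]
    refine step_bound hr hr2 h hζ hay hg hn hga hns ?_ c
    intro i c' hnsi
    have hlt : finrank F (VV ρ a ζ i) < N := by
      rw [finrank_VV hζ hay i, ← hN, finrank_eq_mul h hζ hay]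
      have h1 := finrank_VV_pos h hζ hay
      have h2 := hr.two_le
      nlinarith
    refine ih _ hlt (VV ρ a ζ i) (centSub ρ a) (rhoI ρ a ζ i) (isXS_rhoI h hζ hay i) rfl
      (gI ρ a ζ g hga i) (gI_pow_r hg hga i) ?_ hnsi c'
    intro x
    obtain ⟨x', ν, hxx⟩ := hn x.1
    refine ⟨⟨x', mem_centSub_of_norm hr hg hga x.2 hxx⟩, ν, ?_⟩
    apply LinearMap.ext
    intro v
    apply Subtype.ext
    have := congrArg (fun f : End F V => f v.1) hxx
    simpa using this
  · have hlr : l ^ r = 1 := TC.root (Y := ρ a) hl hg (rho_ne_zero ρ a)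
    have := eig_prime_bound hr (injective_of_pow hg) hl (rho_inv_mul ρ a) hlr hl1 c
    rw [hN] at this
    omega

end Cfsg.Agent.Lib.Classical.Herm.XSBound
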