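import Cfsg.Agent.Lib.Classical.Herm.XSRep

/-!
# The action of a normalising element modulo scalars
-/

set_option autoImplicit false

namespace Cfsg.Agent.Lib.Classical.Herm.XSFix

open Module Cfsg.Agent.Lib.Classical.Herm.XSBasic Cfsg.Agent.Lib.Classical.Herm.XSRep

variable {F : Type*} [Field F] {V : Type*} [AddCommGroup V] [Module F V] {Γ : Type*} [Group Γ]

section

variable [Nontrivial V]

/-- Elements acting as scalars. -/
def scalSub (ρ : Γ →* End F V) : Subgroup Γ where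
  carrier := {x | ∃ μ : F, ρ x = μ • (1 : End F V)}
  mul_mem' := by
    rintro x z ⟨μ, hμ⟩ ⟨μ', hμ'⟩
    exact ⟨μ * μ', by rw [map_mul, hμ, hμ', smul_mul_smul_comm, one_mul]⟩
  one_mem' := ⟨1, by simp⟩
  inv_mem' := by
    rintro x ⟨μ, hμ⟩
    refine ⟨μ⁻¹, ?_⟩
    have hμ0 : μ ≠ 0 := by
      rintro rfl
      exact rho_ne_zero ρ x (by simpa using hμ)
    have h1 := rho_inv_mul ρ x
    rw [hμ, mul_smul_comm, mul_one] at h1
    rw [← h1, smul_smul, inv_mul_cancel₀ hμ0, one_smul]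

theorem mem_scalSub {ρ : Γ →* End F V} {x : Γ} : x ∈ scalSub ρ ↔ ∃ μ : F, ρ x = μ • (1 : End F V) :=
  Iff.rfl

instance scalSub_normal (ρ : Γ →* End F V) : (scalSub ρ).Normal := by
  refine ⟨fun x hx z => ?_⟩
  obtain ⟨μ, hμ⟩ := hx
  refine ⟨μ, ?_⟩
  rw [map_mul, map_mul, hμ, mul_smul_comm, mul_one, smul_mul_assoc, rho_mul_inv]

/-- The classes modulo scalars. -/
theorem mk_eq_mk_iff {ρ : Γ →* End F V} {x z : Γ} :
    (x : Γ ⧸ scalSub ρ) = (z : Γ ⧸ scalSub ρ) ↔ ∃ μ : F, ρ z = μ • ρ x := by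
  rw [QuotientGroup.eq]
  constructor
  · rintro ⟨μ, hμ⟩
    refine ⟨μ, ?_⟩
    rw [map_mul] at hμ
    calc ρ z = ρ x * (ρ x⁻¹ * ρ z) := by rw [← mul_assoc, rho_mul_inv, one_mul]
      _ = μ • ρ x := by rw [hμ, mul_smul_comm, mul_one]
  · rintro ⟨μ, hμ⟩
    refine ⟨μ, ?_⟩
    rw [map_mul, hμ, mul_smul_comm, rho_inv_mul]

variable {ρ : Γ →* End F V} {g gi : End F V}

theorem nu_ne_zero (hgi : gi * g = 1) {x z : Γ} {ν : F} (h : g * ρ x = ν • (ρ z * g)) : ν ≠ 0 := by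
  rintro rfl
  rw [zero_smul] at h
  have : ρ x = 0 := by
    calc ρ x = gi * g * ρ x := by rw [hgi, one_mul]
      _ = gi * (g * ρ x) := by rw [mul_assoc]
      _ = 0 := by rw [h, mul_zero]
  exact rho_ne_zero ρ x this

/-- The induced map on classes. -/
theorem exists_sigma (hgi : g * gi = 1) (hgi' : gi * g = 1)
    (hn : ∀ x : Γ, ∃ (x' : Γ) (ν : F), g * ρ x = ν • (ρ x' * g)) :
    ∃ σ : (Γ ⧸ scalSub ρ) →* (Γ ⧸ scalSub ρ),
      ∀ (x z : Γ) (ν : F), g * ρ x = ν • (ρ z * g) → σ (x : Γ ⧸ scalSub ρ) = (z : Γ ⧸ scalSub ρ) := by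
  classical
  choose x' ν hx' using hn
  -- independence of choices
  have key : ∀ (x x₁ z z₁ : Γ) (ν₁ ν₂ : F), g * ρ x = ν₁ • (ρ x₁ * g) →
      g * ρ z = ν₂ • (ρ z₁ * g) → (x : Γ ⧸ scalSub ρ) = (z : Γ ⧸ scalSub ρ) →
      (x₁ : Γ ⧸ scalSub ρ) = (z₁ : Γ ⧸ scalSub ρ) := by
    intro x x₁ z z₁ ν₁ ν₂ h1 h2 h3
    obtain ⟨μ, hμ⟩ := mk_eq_mk_iff.1 h3
    rw [mk_eq_mk_iff]
    have hν₂ := nu_ne_zero hgi' h2
    refine ⟨ν₂⁻¹ * μ * ν₁, ?_⟩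
    have h4 : ν₂ • (ρ z₁ * g) = (μ * ν₁) • (ρ x₁ * g) := by
      rw [← h2, hμ, mul_smul_comm, h1, smul_smul]
    have h5 : ν₂ • ρ z₁ = (μ * ν₁) • ρ x₁ := by
      have := congrArg (fun f : End F V => f * gi) h4
      simp only [smul_mul_assoc, mul_assoc, hgi, mul_one] at this
      exact this
    rw [mul_assoc, ← smul_smul, ← h5, smul_smul, inv_mul_cancel₀ hν₂, one_smul]
  let f : (Γ ⧸ scalSub ρ) → (Γ ⧸ scalSub ρ) := fun q => ((x' q.out : Γ) : Γ ⧸ scalSub ρ)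
  have hf : ∀ (x z : Γ) (ν' : F), g * ρ x = ν' • (ρ z * g) →
      f (x : Γ ⧸ scalSub ρ) = (z : Γ ⧸ scalSub ρ) := by
    intro x z ν' h
    refine key _ _ _ _ _ _ (hx' _) h ?_
    exact QuotientGroup.out_eq' _
  have hmul : ∀ q q' : Γ ⧸ scalSub ρ, f (q * q') = f q * f q' := by
    intro q q'
    induction q using QuotientGroup.induction_on with
    | H x =>
    induction q' using QuotientGroup.induction_on with
    | H z =>
    obtain ⟨x₁, ν₁, h1⟩ : ∃ (x₁ : Γ) (ν₁ : F), g * ρ x = ν₁ • (ρ x₁ * g) := ⟨_, _, hx' x⟩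
    obtain ⟨z₁, ν₂, h2⟩ : ∃ (z₁ : Γ) (ν₂ : F), g * ρ z = ν₂ • (ρ z₁ * g) := ⟨_, _, hx' z⟩
    have h3 : g * ρ (x * z) = (ν₁ * ν₂) • (ρ (x₁ * z₁) * g) := by
      rw [map_mul, map_mul, ← mul_assoc, h1, smul_mul_assoc, mul_assoc, h2, mul_smul_comm,
        smul_smul, mul_assoc]
    rw [← QuotientGroup.mk_mul, hf _ _ _ h3, hf _ _ _ h1, hf _ _ _ h2, QuotientGroup.mk_mul]
  exact ⟨MonoidHom.mk' f hmul, fun x z ν' h => hf x z ν' h⟩

/-- Iterating the induced map. -/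
theorem sigma_iterate (hgi : g * gi = 1) (hgi' : gi * g = 1)
    (hn : ∀ x : Γ, ∃ (x' : Γ) (ν : F), g * ρ x = ν • (ρ x' * g))
    {σ : (Γ ⧸ scalSub ρ) →* (Γ ⧸ scalSub ρ)}
    (hσ : ∀ (x z : Γ) (ν : F), g * ρ x = ν • (ρ z * g) →
      σ (x : Γ ⧸ scalSub ρ) = (z : Γ ⧸ scalSub ρ)) (k : ℕ) (x : Γ) :
    ∃ (z : Γ) (ν : F), g ^ k * ρ x = ν • (ρ z * g ^ k) ∧
      σ^[k] (x : Γ ⧸ scalSub ρ) = (z : Γ ⧸ scalSub ρ) := by
  induction k with
  | zero => exact ⟨x, 1, by simp, rfl⟩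
  | succ k ih =>
    obtain ⟨z, ν, h1, h2⟩ := ih
    obtain ⟨z', ν', h3⟩ := hn z
    refine ⟨z', ν' * ν, ?_, ?_⟩
    · rw [pow_succ', mul_assoc, h1, mul_smul_comm, ← mul_assoc, h3, smul_mul_assoc, smul_smul,
        mul_assoc, ← pow_succ', mul_comm]
    · rw [Function.iterate_succ_apply', h2, hσ _ _ _ h3]

theorem sigma_iterate_eq (hgi : g * gi = 1) (hgi' : gi * g = 1)
    (hn : ∀ x : Γ, ∃ (x' : Γ) (ν : F), g * ρ x = ν • (ρ x' * g))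
    {σ : (Γ ⧸ scalSub ρ) →* (Γ ⧸ scalSub ρ)}
    (hσ : ∀ (x z : Γ) (ν : F), g * ρ x = ν • (ρ z * g) →
      σ (x : Γ ⧸ scalSub ρ) = (z : Γ ⧸ scalSub ρ)) {k : ℕ} (hk : g ^ k = 1)
    (q : Γ ⧸ scalSub ρ) : σ^[k] q = q := by
  induction q using QuotientGroup.induction_on with
  | H x =>
  obtain ⟨z, ν, h1, h2⟩ := sigma_iterate hgi hgi' hn hσ k x
  rw [h2, eq_comm, mk_eq_mk_iff]
  rw [hk, one_mul, mul_one] at h1
  have hν : ν ≠ 0 := by
    rintro rfl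
    exact rho_ne_zero ρ x (by simpa using h1)
  exact ⟨ν⁻¹, by rw [h1, smul_smul, inv_mul_cancel₀ hν, one_smul]⟩

end

/-- A fixed line modulo scalars exists. -/
theorem exists_fixed_line [Nontrivial V] [Finite Γ] {r : ℕ} (hr : r.Prime) {ρ : Γ →* End F V}
    (hpow : ∀ x : Γ, x ^ r = 1) {g : End F V} (hg : g ^ r = 1)
    (hn : ∀ x : Γ, ∃ (x' : Γ) (ν : F), g * ρ x = ν • (ρ x' * g))
    {x₀ : Γ} (hx₀ : ∀ μ : F, ρ x₀ ≠ μ • (1 : End F V)) :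
    ∃ a : Γ, (∀ μ : F, ρ a ≠ μ • (1 : End F V)) ∧ ∃ l : F, g * ρ a = l • (ρ a * g) := by
  classical
  haveI : Fact r.Prime := ⟨hr⟩
  have hg1 : g * g ^ (r - 1) = 1 := by
    rw [← pow_succ', Nat.sub_add_cancel hr.one_le, hg]
  have hg2 : g ^ (r - 1) * g = 1 := by
    rw [← pow_succ, Nat.sub_add_cancel hr.one_le, hg]
  obtain ⟨σ, hσ⟩ := exists_sigma hg1 hg2 hn
  have hit := sigma_iterate_eq hg1 hg2 hn hσ hg
  let s : Equiv.Perm (Γ ⧸ scalSub ρ) :=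
    { toFun := σ
      invFun := σ^[r - 1]
      left_inv := fun q => by
        show σ^[r - 1] (σ q) = q
        rw [← Function.iterate_succ_apply, Nat.succ_eq_add_one, Nat.sub_add_cancel hr.one_le, hit]
      right_inv := fun q => by
        show σ (σ^[r - 1] q) = q
        have h0 := hit q
        obtain ⟨m, hm⟩ : ∃ m, r = m + 1 := ⟨r - 1, (Nat.sub_add_cancel hr.one_le).symm⟩
        rw [hm, Function.iterate_succ_apply'] at h0
        rwa [hm, Nat.add_sub_cancel] }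
  have hs : s ^ r ^ 1 = 1 := by
    rw [pow_one]
    ext q
    rw [← Equiv.Perm.iterate_eq_pow]
    exact hit q
  have hs1 : s (1 : Γ ⧸ scalSub ρ) = 1 := map_one σ
  letI : Fintype (Γ ⧸ scalSub ρ) := Fintype.ofFinite _
  have hP : IsPGroup r (Γ ⧸ scalSub ρ) := by
    have : IsPGroup r Γ := fun x => ⟨1, by rw [pow_one, hpow]⟩
    exact this.to_quotient _
  have hcard : r ∣ Fintype.card (Γ ⧸ scalSub ρ) := by
    rw [← Nat.card_eq_fintype_card]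
    rcases hP.card_eq_or_dvd with h1 | h1
    · exfalso
      haveI : Subsingleton (Γ ⧸ scalSub ρ) := (Nat.card_eq_one_iff_unique.1 h1).1
      have : (x₀ : Γ ⧸ scalSub ρ) = ((1 : Γ) : Γ ⧸ scalSub ρ) := Subsingleton.elim _ _
      obtain ⟨μ, hμ⟩ := mk_eq_mk_iff.1 this.symm
      rw [map_one] at hμ
      exact hx₀ μ hμ
    · exact h1
  obtain ⟨b, hb, hb1⟩ := Equiv.Perm.exists_fixed_point_of_prime' hcard hs hs1
  induction b using QuotientGroup.induction_on with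
  | H a =>
  refine ⟨a, ?_, ?_⟩
  · intro μ hμ
    apply hb1
    have : ((1 : Γ) : Γ ⧸ scalSub ρ) = (a : Γ ⧸ scalSub ρ) :=
      mk_eq_mk_iff.2 ⟨μ, by rw [map_one]; exact hμ⟩
    exact this.symm
  · obtain ⟨a', ν, h1⟩ := hn a
    have h2 : σ (a : Γ ⧸ scalSub ρ) = (a : Γ ⧸ scalSub ρ) := hb
    rw [hσ _ _ _ h1] at h2
    obtain ⟨μ, hμ⟩ := mk_eq_mk_iff.1 h2.symm
    exact ⟨ν * μ, by rw [h1, hμ, smul_mul_assoc, smul_smul]⟩

end Cfsg.Agent.Lib.Classical.Herm.XSFix
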