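import Mathlib

/-!
# A polarisation argument on elementary abelian groups with an alternating pairing
-/

set_option autoImplicit false

namespace Cfsg.Agent.Lib.Classical.Herm.XSPol

open Polynomial

/-- If `(s - 1)^3 (s + 1) = 0` and `s ^ ϖ = 1` over `ZMod r` with `ϖ ≠ r` an odd prime, then `s = 1`. -/
theorem eq_one_of_annihilated {r ϖ : ℕ} [Fact r.Prime] (hϖ : ϖ.Prime) (hϖ2 : ϖ ≠ 2) (hne : ϖ ≠ r)
    {A : Type*} [Ring A] [Algebra (ZMod r) A] (s : A)
    (h1 : (s - 1) * (s - 1) * (s - 1) * (s + 1) = 0) (h2 : s ^ ϖ = 1) : s = 1 := by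
  have hr : r.Prime := Fact.out
  set p : (ZMod r)[X] := ∑ i ∈ Finset.range ϖ, X ^ i with hp
  have hc1 : IsCoprime (X - C (1 : ZMod r)) p := by
    refine (Polynomial.irreducible_X_sub_C (1 : ZMod r)).coprime_iff_not_dvd.2 ?_
    rw [Polynomial.dvd_iff_isRoot, Polynomial.IsRoot, hp, Polynomial.eval_finset_sum]
    simp only [eval_pow, eval_X, one_pow, Finset.sum_const, Finset.card_range, nsmul_eq_mul, mul_one]
    intro h0
    rw [ZMod.natCast_eq_zero_iff] at h0
    exact hne ((Nat.prime_dvd_prime_iff_eq hr hϖ).1 h0).symm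
  have hc2 : IsCoprime (X - C (-1 : ZMod r)) p := by
    refine (Polynomial.irreducible_X_sub_C (-1 : ZMod r)).coprime_iff_not_dvd.2 ?_
    rw [Polynomial.dvd_iff_isRoot, Polynomial.IsRoot, hp, Polynomial.eval_finset_sum]
    simp only [eval_pow, eval_X]
    rw [neg_one_geom_sum]
    have : ¬ Even ϖ := by
      intro he
      exact hϖ2 ((Nat.Prime.even_iff hϖ).1 he)
    rw [if_neg this]
    exact one_ne_zero
  have hc : IsCoprime ((X - C (1 : ZMod r)) * (X - C (1 : ZMod r)) * (X - C (-1 : ZMod r))) p :=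
    ((hc1.mul_left hc1).mul_left hc2)
  obtain ⟨u, w, huw⟩ := hc
  have hpX : p * (X - C (1 : ZMod r)) = X ^ ϖ - 1 := by
    have := geom_sum_mul (X : (ZMod r)[X]) ϖ
    simpa [hp] using this
  have key : (X - C (1 : ZMod r)) = u * ((X - C (1 : ZMod r)) * (X - C (1 : ZMod r)) * (X - C (1 : ZMod r)) * (X - C (-1 : ZMod r)))
      + w * (X ^ ϖ - 1) := by
    rw [← hpX]
    linear_combination (-(X - C (1 : ZMod r))) * huw
  have := congrArg (aeval s) key
  simp only [map_add, map_mul, map_sub, aeval_X, aeval_C, map_pow, map_one, map_neg,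
    Algebra.algebraMap_eq_smul_one, one_smul, neg_smul] at this
  rw [sub_neg_eq_add, h1, h2, sub_self, mul_zero, mul_zero, add_zero] at this
  exact sub_eq_zero.1 this

/-- The polarisation argument, additive form. -/
theorem add_version {r ϖ : ℕ} [Fact r.Prime] (hϖ : ϖ.Prime) (hϖ2 : ϖ ≠ 2) (hne : ϖ ≠ r)
    {A : Type*} [AddCommGroup A] [Module (ZMod r) A] {C : Type*} [CommGroup C]
    (s : Module.End (ZMod r) A) (hs : s ^ ϖ = 1) (E : A → A → C)
    (El : ∀ u v w, E (u + v) w = E u w * E v w) (Er : ∀ u v w, E u (v + w) = E u v * E u w)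
    (Ea : ∀ u, E u u = 1) (Einv : ∀ u v, E (s u) (s v) = E u v)
    (End' : ∀ u, (∀ v, E u v = 1) → u = 0)
    (Hyp : ∀ u, E (s u - u) (s (s u - u)) = 1) : s = 1 := by
  have hskew : ∀ u v, E u v * E v u = 1 := by
    intro u v
    have h := Ea (u + v)
    rw [El, Er, Er, Ea, Ea, one_mul, mul_one] at h
    exact h
  have hskew' : ∀ u v, E v u = (E u v)⁻¹ := fun u v => eq_inv_of_mul_eq_one_right (hskew u v)
  have hr0 : ∀ u, E u 0 = 1 := by
    intro u
    have h := Er u 0 0
    rw [add_zero] at h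
    exact left_eq_mul.1 h
  have hrsub : ∀ u v w, E u (v - w) = E u v * (E u w)⁻¹ := by
    intro u v w
    have h := Er u (v - w) w
    rw [sub_add_cancel] at h
    rw [h, mul_inv_cancel_right]
  have hsurj : Function.Surjective s := by
    intro u
    have hϖ1 : 1 ≤ ϖ := hϖ.one_le
    refine ⟨(s ^ (ϖ - 1)) u, ?_⟩
    have := congrArg (fun f : Module.End (ZMod r) A => f u) hs
    rw [← Nat.sub_add_cancel hϖ1, pow_succ'] at this
    simpa using this
  let T : A → A := fun u => s u - u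
  have hTadd : ∀ u v, T (u + v) = T u + T v := by
    intro u v
    simp only [T, map_add]
    abel
  have hsT : ∀ u, s (T u) = T (s u) := by
    intro u
    simp only [T, map_sub]
  -- polarisation
  have hpol : ∀ u v, E (T u) (s (T v)) * E (T v) (s (T u)) = 1 := by
    intro u v
    have h := Hyp (u + v)
    have e1 : s (u + v) - (u + v) = T u + T v := (hTadd u v)
    rw [e1, map_add, El, Er, Er] at h
    have h1 := Hyp u
    have h2 := Hyp v
    change E (T u) (s (T u)) = 1 at h1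
    change E (T v) (s (T v)) = 1 at h2
    rw [h1, h2, one_mul, mul_one] at h
    exact h
  have hrel : ∀ u v, E (T u) (s (T v)) = E (s (T u)) (T v) := by
    intro u v
    have h := hpol u v
    rw [hskew' (s (T u)) (T v)] at h
    exact mul_inv_eq_one.1 h
  have hw : ∀ u v, E (T u) (s (s (T v)) - T v) = 1 := by
    intro u v
    obtain ⟨u₀, rfl⟩ := hsurj u
    rw [← hsT, hrsub, Einv, hrel, mul_inv_cancel]
  have hlsub : ∀ u v w, E (u - v) w = E u w * (E v w)⁻¹ := by
    intro u v w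
    have h := El (u - v) v w
    rw [sub_add_cancel] at h
    rw [h, mul_inv_cancel_right]
  have hfin : ∀ v, s (s (s (T v)) - T v) - (s (s (T v)) - T v) = 0 := by
    intro v
    set w : A := s (s (T v)) - T v with hwdef
    refine End' _ (fun u => ?_)
    rw [hskew']
    rw [inv_eq_one]
    obtain ⟨u₀, rfl⟩ := hsurj u
    rw [hrsub, Einv]
    have h := hw u₀ v
    change E (s u₀ - u₀) w = 1 at h
    rw [hlsub] at h
    have h' := mul_inv_eq_one.1 h
    rw [h', mul_inv_cancel]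
  have hring : (s - 1) * (s * s - 1) * (s - 1) = 0 := by
    apply LinearMap.ext
    intro v
    have := hfin v
    simpa [T] using this
  have hann : (s - 1) * (s - 1) * (s - 1) * (s + 1) = 0 := by
    rw [← hring]
    noncomm_ring
  exact eq_one_of_annihilated hϖ hϖ2 hne s hann hs

/-- The polarisation argument, multiplicative form. -/
theorem sigma_trivial_aux {Q : Type*} [CommGroup Q] {C : Type*} [CommGroup C]
    {r ϖ : ℕ} [Module (ZMod r) (Additive Q)] (hr : r.Prime) (hϖ : ϖ.Prime) (hϖ2 : ϖ ≠ 2) (hne : ϖ ≠ r)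
    (σ : Q →* Q) (hσϖ : ∀ q, σ^[ϖ] q = q)
    (e : Q → Q → C) (el : ∀ a b c, e (a * b) c = e a c * e b c)
    (er : ∀ a b c, e a (b * c) = e a b * e a c) (ea : ∀ a, e a a = 1)
    (einv : ∀ a b, e (σ a) (σ b) = e a b) (end' : ∀ a, (∀ b, e a b = 1) → a = 1)
    (hyp : ∀ q, e (q⁻¹ * σ q) (σ (q⁻¹ * σ q)) = 1) (q : Q) : σ q = q := by
  haveI : Fact r.Prime := ⟨hr⟩
  let s : Module.End (ZMod r) (Additive Q) := (MonoidHom.toAdditive σ).toZModLinearMap r
  have hsapp : ∀ q : Q, s (Additive.ofMul q) = Additive.ofMul (σ q) := fun q => rfl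
  have hspow : ∀ (k : ℕ) (q : Q), (s ^ k) (Additive.ofMul q) = Additive.ofMul (σ^[k] q) := by
    intro k q
    induction k with
    | zero => rfl
    | succ k ih =>
      rw [pow_succ', Module.End.mul_apply, ih, Function.iterate_succ_apply']
      rfl
  have hs : s ^ ϖ = 1 := by
    apply LinearMap.ext
    intro u
    have := hspow ϖ u.toMul
    rw [hσϖ] at this
    exact this
  have key := add_version (r := r) hϖ hϖ2 hne (A := Additive Q) (C := C) s hs
    (fun u v => e u.toMul v.toMul)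
    (fun u v w => el _ _ _) (fun u v w => er _ _ _) (fun u => ea _) (fun u v => einv _ _)
    (fun u hu => by
      have := end' u.toMul hu
      exact this)
    (fun u => by
      have e1 : s u - u = Additive.ofMul (u.toMul⁻¹ * σ u.toMul) := by
        show Additive.ofMul (σ u.toMul) - Additive.ofMul u.toMul = _
        rw [← ofMul_div, div_eq_mul_inv, mul_comm]
      rw [e1, hsapp]
      exact hyp _)
  have := congrArg (fun f : Module.End (ZMod r) (Additive Q) => f (Additive.ofMul q)) key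
  exact this

theorem sigma_trivial_comm {Q : Type*} [CommGroup Q] {C : Type*} [CommGroup C]
    {r ϖ : ℕ} (hr : r.Prime) (hϖ : ϖ.Prime) (hϖ2 : ϖ ≠ 2) (hne : ϖ ≠ r)
    (hrQ : ∀ q : Q, q ^ r = 1) (σ : Q →* Q) (hσϖ : ∀ q, σ^[ϖ] q = q)
    (e : Q → Q → C) (el : ∀ a b c, e (a * b) c = e a c * e b c)
    (er : ∀ a b c, e a (b * c) = e a b * e a c) (ea : ∀ a, e a a = 1)
    (einv : ∀ a b, e (σ a) (σ b) = e a b) (end' : ∀ a, (∀ b, e a b = 1) → a = 1)
    (hyp : ∀ q, e (q⁻¹ * σ q) (σ (q⁻¹ * σ q)) = 1) (q : Q) : σ q = q :=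
  @sigma_trivial_aux Q _ C _ r ϖ (AddCommGroup.zmodModule (n := r) (fun x => by
    show Additive.ofMul (x.toMul ^ r) = 0
    rw [hrQ]; rfl)) hr hϖ hϖ2 hne σ hσϖ e el er ea einv end' hyp q

/-- The same, for a group with commuting elements. -/
theorem sigma_trivial {Q : Type*} [Group Q] (hQ : ∀ a b : Q, a * b = b * a) {C : Type*} [CommGroup C]
    {r ϖ : ℕ} (hr : r.Prime) (hϖ : ϖ.Prime) (hϖ2 : ϖ ≠ 2) (hne : ϖ ≠ r)
    (hrQ : ∀ q : Q, q ^ r = 1) (σ : Q →* Q) (hσϖ : ∀ q, σ^[ϖ] q = q)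
    (e : Q → Q → C) (el : ∀ a b c, e (a * b) c = e a c * e b c)
    (er : ∀ a b c, e a (b * c) = e a b * e a c) (ea : ∀ a, e a a = 1)
    (einv : ∀ a b, e (σ a) (σ b) = e a b) (end' : ∀ a, (∀ b, e a b = 1) → a = 1)
    (hyp : ∀ q, e (q⁻¹ * σ q) (σ (q⁻¹ * σ q)) = 1) (q : Q) : σ q = q :=
  @sigma_trivial_comm Q { (inferInstance : Group Q) with mul_comm := hQ } C _ r ϖ hr hϖ hϖ2 hne hrQ
    σ hσϖ e el er ea einv end' hyp q

end Cfsg.Agent.Lib.Classical.Herm.XSPol
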