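import Cfsg.Agent.Lib.Classical.Herm.XSFix
import Cfsg.Agent.Lib.Classical.Herm.XSPol

/-!
# General eigenspace bounds for elements normalising a group with scalar commutators
-/

set_option autoImplicit false

namespace Cfsg.Agent.Lib.Classical.Herm.XSGen

open Module Cfsg.Agent.Lib.Classical.Herm.XSBasic Cfsg.Agent.Lib.Classical.Herm.XSRep
  Cfsg.Agent.Lib.Classical.Herm.XSFix

variable {F : Type*} [Field F] {V : Type*} [AddCommGroup V] [Module F V] {Γ : Type*} [Group Γ]

section

variable [FiniteDimensional F V]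

theorem finrank_eig_zero_of_inj {M : End F V} (hinj : Function.Injective M) :
    End.eigenspace M 0 = ⊥ := by
  rw [eq_bot_iff]
  intro v hv
  rw [End.mem_eigenspace_iff, zero_smul] at hv
  simpa using hinj (by simpa using hv : M v = M 0)

/-- The `1/2` bound from a non-trivial twist. -/
theorem two_bound_of_TC {μ : F} {M X X' : End F V} (hinj : Function.Injective M) (h : TC μ M X)
    (hX : X' * X = 1) (hμ : μ ≠ 1) (c : F) :
    2 * finrank F (End.eigenspace M c) ≤ finrank F V := by
  classical
  by_cases hc : c = 0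
  · rw [hc, finrank_eig_zero_of_inj hinj, finrank_bot, mul_zero]
    exact Nat.zero_le _
  have hne : μ * c ≠ c := by
    intro h0
    apply hμ
    exact mul_right_cancel₀ hc (h0.trans (one_mul c).symm)
  have h1 := sum_finrank_eig_le M {c, μ * c}
  rw [Finset.sum_pair hne.symm] at h1
  have h2 := finrank_eig_le_of_TC h hX c
  omega

variable {ρ : Γ →* End F V}

/-- The hypotheses for the general bounds. -/
structure IsGen (ρ : Γ →* End F V) : Prop where
  comm : ∀ x y : Γ, ∃ β : F, TC β (ρ x) (ρ y)
  hM : ∀ M : End F V, (∀ x : Γ, M * ρ x = ρ x * M) → ∃ μ : F, M = μ • (1 : End F V)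

theorem case_A (h : IsGen ρ) {g : End F V} (hinj : Function.Injective g)
    (hns : ∀ μ : F, g ≠ μ • (1 : End F V)) (hall : ∀ x : Γ, ∃ μ : F, g * ρ x = μ • (ρ x * g)) (c : F) :
    2 * finrank F (End.eigenspace g c) ≤ finrank F V := by
  have : ∃ x : Γ, g * ρ x ≠ ρ x * g := by
    by_contra hcon
    push_neg at hcon
    obtain ⟨μ, hμ⟩ := h.hM g hcon
    exact hns μ hμ
  obtain ⟨x, hx⟩ := this
  obtain ⟨μ, hμ⟩ := hall x
  have hμ1 : μ ≠ 1 := by
    rintro rfl
    rw [one_smul] at hμ
    exact hx hμ
  exact two_bound_of_TC hinj hμ (rho_inv_mul ρ x) hμ1 c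

theorem fix_lemma {g T : End F V} {x : Γ} (hT : g * ρ x = ρ x * T * g) {c : F} (hc : c ≠ 0) {v : V}
    (hv : v ∈ End.eigenspace g c) (hv' : v ∈ (End.eigenspace g c).map (ρ x⁻¹)) : T v = v := by
  obtain ⟨u, hu, rfl⟩ := hv'
  have h1 := End.mem_eigenspace_iff.1 hv
  have h2 := End.mem_eigenspace_iff.1 hu
  have h3 := congrArg (fun f : End F V => f (ρ x⁻¹ u)) hT
  simp only [Module.End.mul_apply, rho_apply_inv] at h3
  rw [h2, h1, map_smul, map_smul] at h3
  have h4 := smul_right_injective V hc h3
  have h5 : ρ x (ρ x⁻¹ u) = ρ x (T (ρ x⁻¹ u)) := by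
    rw [rho_apply_inv]; exact h4
  exact (rho_injective ρ x h5).symm

theorem finrank_map_inv (x : Γ) (W : Submodule F V) : finrank F (W.map (ρ x⁻¹)) = finrank F W :=
  finrank_map_eq_of_leftInv (X' := ρ x) (rho_mul_inv ρ x) W

variable [Nontrivial V]

/-- Generic form of a normalising element. -/
theorem norm_form {g gi : End F V} (hgi : gi * g = 1) {x x' : Γ} {ν : F}
    (hxx : g * ρ x = ν • (ρ x' * g)) :
    ν ≠ 0 ∧ g * ρ x = ρ x * (ν • ρ (x⁻¹ * x')) * g := by
  refine ⟨nu_ne_zero hgi hxx, ?_⟩
  rw [hxx, mul_smul_comm, map_mul, ← mul_assoc, rho_mul_inv, one_mul, smul_mul_assoc]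

/-- The `3/4` bound, for every non-scalar normalising element. -/
theorem four_bound (h : IsGen ρ) {g gi : End F V} (hgi : gi * g = 1) (hinj : Function.Injective g)
    (hn : ∀ x : Γ, ∃ (x' : Γ) (ν : F), g * ρ x = ν • (ρ x' * g))
    (hns : ∀ μ : F, g ≠ μ • (1 : End F V)) (c : F) :
    4 * finrank F (End.eigenspace g c) ≤ 3 * finrank F V := by
  by_cases hc : c = 0
  · rw [hc, finrank_eig_zero_of_inj hinj, finrank_bot, mul_zero]
    exact Nat.zero_le _
  by_cases hall : ∀ x : Γ, ∃ μ : F, g * ρ x = μ • (ρ x * g)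
  · have := case_A h hinj hns hall c
    omega
  · push_neg at hall
    obtain ⟨x, hx⟩ := hall
    obtain ⟨x', ν, hxx⟩ := hn x
    obtain ⟨hν, hT⟩ := norm_form hgi hxx
    set z : Γ := x⁻¹ * x' with hz
    have hxz : ρ x * ρ z = ρ x' := by
      rw [hz, map_mul, ← mul_assoc, rho_mul_inv, one_mul]
    have hzns : ∃ y : Γ, ρ z * ρ y ≠ ρ y * ρ z := by
      by_contra hcon
      push_neg at hcon
      obtain ⟨μ, hμ⟩ := h.hM (ρ z) hcon
      apply hx (ν * μ)
      rw [hxx, ← hxz, hμ, mul_smul_comm, mul_one, smul_mul_assoc, smul_smul]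
    obtain ⟨y, hy⟩ := hzns
    obtain ⟨β, hβ⟩ := h.comm z y
    have hβ1 : β ≠ 1 := by
      rintro rfl
      exact hy (TC.comm_iff_one.1 hβ)
    have hTinj : Function.Injective (ν • ρ z) := by
      intro u w huw
      simp only [LinearMap.smul_apply] at huw
      exact rho_injective ρ z (smul_right_injective V hν huw)
    have hf := two_bound_of_TC hTinj (hβ.smul_left ν) (rho_inv_mul ρ y) hβ1 1
    have hd := finrank_add_le_of_inf (End.eigenspace g c) ((End.eigenspace g c).map (ρ x⁻¹))
    rw [finrank_map_inv] at hd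
    have hle : (End.eigenspace g c ⊓ (End.eigenspace g c).map (ρ x⁻¹) : Submodule F V)
        ≤ End.eigenspace (ν • ρ z) 1 := by
      rintro v ⟨hv, hv'⟩
      rw [End.mem_eigenspace_iff, one_smul]
      exact fix_lemma hT hc hv hv'
    have := Submodule.finrank_mono hle
    omega

/-- The `1/2` bound when the order of the element is an odd prime different from `r`. -/
theorem coprime_bound {r ϖ : ℕ} (hr : r.Prime) (hϖ : ϖ.Prime) (hϖ2 : ϖ ≠ 2) (hne : ϖ ≠ r)
    (h : IsGen ρ) (hroot : ∀ x y : Γ, ∀ β : F, TC β (ρ x) (ρ y) → β ^ r = 1) {g : End F V}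
    (hg : g ^ ϖ = 1) (hn : ∀ x : Γ, ∃ (x' : Γ) (ν : F), g * ρ x = ν • (ρ x' * g))
    (hns : ∀ μ : F, g ≠ μ • (1 : End F V)) (c : F) :
    2 * finrank F (End.eigenspace g c) ≤ finrank F V := by
  have hg1 : g * g ^ (ϖ - 1) = 1 := by
    rw [← pow_succ', Nat.sub_add_cancel hϖ.one_le, hg]
  have hg2 : g ^ (ϖ - 1) * g = 1 := by
    rw [← pow_succ, Nat.sub_add_cancel hϖ.one_le, hg]
  have hinj : Function.Injective g := by
    intro u w huw
    have e : ∀ t : V, (g ^ (ϖ - 1)) (g t) = t := fun t => by
      have := congrArg (fun f : End F V => f t) hg2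
      simpa using this
    have := congrArg (g ^ (ϖ - 1)) huw
    simpa [e] using this
  by_cases hc : c = 0
  · rw [hc, finrank_eig_zero_of_inj hinj, finrank_bot, mul_zero]
    exact Nat.zero_le _
  by_cases hex : ∃ (x x' z' : Γ) (ν ν' : F), g * ρ x = ν • (ρ x' * g) ∧
      g * ρ (x⁻¹ * x') = ν' • (ρ z' * g) ∧ ρ (x⁻¹ * x') * ρ z' ≠ ρ z' * ρ (x⁻¹ * x')
  · obtain ⟨x, x', z', ν, ν', hxx, hzz, hcomm⟩ := hex
    obtain ⟨hν, hT⟩ := norm_form hg2 hxx
    have hν' := nu_ne_zero hg2 hzz
    set z : Γ := x⁻¹ * x' with hz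
    obtain ⟨β, hβ⟩ := h.comm z z'
    have hβ1 : β ≠ 1 := by
      rintro rfl
      exact hcomm (TC.comm_iff_one.1 hβ)
    refine two_mul_finrank_le_of_inf_bot _ ((End.eigenspace g c).map (ρ x⁻¹))
      (finrank_map_inv x _) ?_
    rw [eq_bot_iff]
    rintro v ⟨hv, hv'⟩
    have h1 : (ν • ρ z) v = v := fix_lemma hT hc hv hv'
    have hgv : g v = c • v := End.mem_eigenspace_iff.1 hv
    -- the conjugate
    have h2 : (ν * ν') • ρ z' v = v := by
      have h3 := congrArg (fun f : End F V => f v) hzz
      simp only [Module.End.mul_apply, LinearMap.smul_apply] at h1 h3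
      have h4 : g (ν • ρ z v) = g v := by rw [h1]
      rw [map_smul, h3, hgv, map_smul, smul_smul, smul_smul] at h4
      have h5 : c • ((ν * ν') • ρ z' v) = c • v := by
        rw [smul_smul, mul_comm c]; exact h4
      exact smul_right_injective V hc h5
    have h3 := congrArg (fun f : End F V => f v) hβ
    simp only [Module.End.mul_apply, LinearMap.smul_apply] at h1 h3
    have h4 : v = β • v := by
      calc v = (ν • ρ z) ((ν * ν') • ρ z' v) := by
            rw [h2]; simpa using h1.symm
        _ = (ν * (ν * ν')) • ρ z (ρ z' v) := by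
            simp only [LinearMap.smul_apply, map_smul, smul_smul]
            congr 1
            ring
        _ = (ν * (ν * ν')) • β • ρ z' (ρ z v) := by rw [h3]
        _ = β • (ν * ν') • ρ z' (ν • ρ z v) := by
            simp only [map_smul, smul_smul]
            congr 1
            ring
        _ = β • v := by rw [h1, h2]
    have h5 : (1 - β) • v = 0 := by
      rw [sub_smul, one_smul, ← h4, sub_self]
    rcases smul_eq_zero.1 h5 with h6 | h6
    · exact absurd (sub_eq_zero.1 h6).symm hβ1
    · simpa using h6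
  · push_neg at hex
    refine case_A h hinj hns ?_ c
    -- polarisation
    obtain ⟨σ, hσ⟩ := exists_sigma hg1 hg2 hn
    have hit := sigma_iterate_eq hg1 hg2 hn hσ hg
    choose B hB using h.comm
    have hne0 : ∀ x y : Γ, ρ y * ρ x ≠ 0 := fun x y => rho_mul_ne_zero ρ y x
    have hB0 : ∀ x y, B x y ≠ 0 := fun x y => TC_ne_zero (hB x y)
    let e : (Γ ⧸ scalSub ρ) → (Γ ⧸ scalSub ρ) → Fˣ :=
      fun q q' => Units.mk0 (B q.out q'.out) (hB0 _ _)
    have he : ∀ (x y : Γ) (β : F), TC β (ρ x) (ρ y) →
        ((e (x : Γ ⧸ scalSub ρ) (y : Γ ⧸ scalSub ρ) : Fˣ) : F) = β := by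
      intro x y β hβ
      obtain ⟨μ, hμ⟩ := mk_eq_mk_iff.1 (QuotientGroup.out_eq' (x : Γ ⧸ scalSub ρ))
      obtain ⟨μ', hμ'⟩ := mk_eq_mk_iff.1 (QuotientGroup.out_eq' (y : Γ ⧸ scalSub ρ))
      show B _ _ = β
      have h1 : TC (B (x : Γ ⧸ scalSub ρ).out (y : Γ ⧸ scalSub ρ).out) (ρ x) (ρ y) := by
        rw [hμ, hμ']
        exact ((hB _ _).smul_left μ).smul_right μ'
      exact TC.unique h1 hβ (hne0 x y)
    have hfix := XSPol.sigma_trivial (C := Fˣ) (Q := Γ ⧸ scalSub ρ) (r := r) (ϖ := ϖ)
      (by
        intro a b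
        induction a using QuotientGroup.induction_on with
        | H x =>
        induction b using QuotientGroup.induction_on with
        | H y =>
        rw [← QuotientGroup.mk_mul, ← QuotientGroup.mk_mul, mk_eq_mk_iff]
        have h1 := hB y x
        refine ⟨B y x, ?_⟩
        rw [map_mul, map_mul]
        exact h1)
      hr hϖ hϖ2 hne
      (by
        intro q
        induction q using QuotientGroup.induction_on with
        | H x =>
        rw [← QuotientGroup.mk_pow, QuotientGroup.eq_one_iff]
        obtain ⟨μ, hμ⟩ := h.hM (ρ (x ^ r)) (by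
          intro y
          rw [map_pow]
          have h1 := (hB x y).pow_left r
          rw [hroot x y _ (hB x y)] at h1
          exact TC.comm_iff_one.1 h1)
        exact ⟨μ, hμ⟩)
      σ hit e
      (by
        intro a b c'
        induction a using QuotientGroup.induction_on with
        | H x =>
        induction b using QuotientGroup.induction_on with
        | H y =>
        induction c' using QuotientGroup.induction_on with
        | H z =>
        apply Units.ext
        rw [← QuotientGroup.mk_mul, Units.val_mul, he x z _ (hB x z), he y z _ (hB y z)]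
        apply he
        rw [map_mul]
        exact (hB x z).mul_left (hB y z))
      (by
        intro a b c'
        induction a using QuotientGroup.induction_on with
        | H x =>
        induction b using QuotientGroup.induction_on with
        | H y =>
        induction c' using QuotientGroup.induction_on with
        | H z =>
        apply Units.ext
        rw [← QuotientGroup.mk_mul, Units.val_mul, he x y _ (hB x y), he x z _ (hB x z)]
        apply he
        rw [map_mul]
        exact (hB x y).mul_right (hB x z))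
      (by
        intro a
        induction a using QuotientGroup.induction_on with
        | H x =>
        apply Units.ext
        rw [Units.val_one]
        apply he
        exact TC.comm_iff_one.2 rfl)
      (by
        intro a b
        induction a using QuotientGroup.induction_on with
        | H x =>
        induction b using QuotientGroup.induction_on with
        | H y =>
        obtain ⟨x', ν, hxx⟩ := hn x
        obtain ⟨y', ν', hyy⟩ := hn y
        have hν := nu_ne_zero hg2 hxx
        have hν' := nu_ne_zero hg2 hyy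
        rw [hσ _ _ _ hxx, hσ _ _ _ hyy]
        apply Units.ext
        rw [he x y _ (hB x y)]
        apply he
        have h1 : g * (ρ x * ρ y) = (ν * ν') • (ρ x' * ρ y' * g) := by
          rw [← mul_assoc, hxx, smul_mul_assoc, mul_assoc, hyy, mul_smul_comm, smul_smul, mul_assoc]
        have h2 : g * (ρ y * ρ x) = (ν * ν') • (ρ y' * ρ x' * g) := by
          rw [← mul_assoc, hyy, smul_mul_assoc, mul_assoc, hxx, mul_smul_comm, smul_smul, mul_assoc,
            mul_comm ν']
        have h3 : (ν * ν') • (ρ x' * ρ y' * g) = B x y • (ν * ν') • (ρ y' * ρ x' * g) := by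
          rw [← h1, ← h2, hB x y, mul_smul_comm]
        rw [smul_comm, ] at h3
        have h4 := smul_right_injective _ (mul_ne_zero hν hν') h3
        have h5 := congrArg (fun f : End F V => f * g ^ (ϖ - 1)) h4
        simp only [smul_mul_assoc, mul_assoc, hg1, mul_one] at h5
        simpa only [TC, mul_assoc] using h5)
      (by
        intro a ha
        induction a using QuotientGroup.induction_on with
        | H x =>
        rw [QuotientGroup.eq_one_iff]
        obtain ⟨μ, hμ⟩ := h.hM (ρ x) (by
          intro y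
          have h1 := he x y _ (hB x y)
          rw [ha (y : Γ ⧸ scalSub ρ), Units.val_one] at h1
          have h2 := hB x y
          rw [← h1] at h2
          exact TC.comm_iff_one.1 h2)
        exact ⟨μ, hμ⟩)
      (by
        intro q
        induction q using QuotientGroup.induction_on with
        | H x =>
        obtain ⟨x', ν, hxx⟩ := hn x
        rw [hσ _ _ _ hxx, ← QuotientGroup.mk_inv, ← QuotientGroup.mk_mul]
        obtain ⟨z', ν', hzz⟩ := hn (x⁻¹ * x')
        rw [hσ _ _ _ hzz]
        apply Units.ext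
        rw [Units.val_one]
        apply he
        exact TC.comm_iff_one.2 (hex x x' z' ν ν' hxx hzz))
    intro x
    obtain ⟨x', ν, hxx⟩ := hn x
    have h1 := hfix (x : Γ ⧸ scalSub ρ)
    rw [hσ _ _ _ hxx] at h1
    obtain ⟨μ, hμ⟩ := mk_eq_mk_iff.1 h1.symm
    exact ⟨ν * μ, by rw [hxx, hμ, smul_mul_assoc, smul_smul]⟩

end

end Cfsg.Agent.Lib.Classical.Herm.XSGen
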