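import Cfsg.Agent.Lib.Classical.Herm.XSStep
import Cfsg.Agent.Lib.Classical.Herm.XSFix

/-!
# Eigenspace bound for normalising elements of prime order `r`: the recursion
-/

set_option autoImplicit false

namespace Cfsg.Agent.Lib.Classical.Herm.XSMain

open Module Cfsg.Agent.Lib.Classical.Herm.XSBasic Cfsg.Agent.Lib.Classical.Herm.XSRep
  Cfsg.Agent.Lib.Classical.Herm.XSStep Cfsg.Agent.Lib.Classical.Herm.XSFix

variable {F : Type*} [Field F] {V : Type*} [AddCommGroup V] [Module F V] {Γ : Type*} [Group Γ]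

section

variable {r : ℕ} {ρ : Γ →* End F V} {a y : Γ} {ζ : F}

/-- Restriction of `g`. -/
noncomputable abbrev gI (ρ : Γ →* End F V) (a : Γ) (ζ : F) (g : End F V)
    (hga : g * ρ a = ρ a * g) (i : ℕ) : End F (VV ρ a ζ i) :=
  g.restrict (fun _ hv => comm_eig_mem hga hv)

theorem gI_pow_apply {g : End F V} (hga : g * ρ a = ρ a * g) (i k : ℕ) (v : VV ρ a ζ i) :
    ((((gI ρ a ζ g hga i) ^ k) v : VV ρ a ζ i) : V) = (g ^ k) v.1 := by
  induction k with
  | zero => simp
  | succ k ih =>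
    rw [pow_succ', pow_succ', Module.End.mul_apply, Module.End.mul_apply]
    simp only [LinearMap.restrict_coe_apply]
    rw [ih]

theorem gI_pow_r {g : End F V} (hg : g ^ r = 1) (hga : g * ρ a = ρ a * g) (i : ℕ) :
    (gI ρ a ζ g hga i) ^ r = 1 := by
  apply LinearMap.ext
  intro v
  apply Subtype.ext
  rw [gI_pow_apply, hg]
  rfl

variable [FiniteDimensional F V] [Nontrivial V] [NeZero r]

omit [FiniteDimensional F V] [Nontrivial V] in
theorem ext_on_VV (h : IsXS r ρ) (hζ : IsPrimitiveRoot ζ r) {f f' : End F V}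
    (hff : ∀ i, i < r → ∀ v ∈ VV ρ a ζ i, f v = f' v) : f = f' := by
  have h1 := iSup_eig_eq_top hζ (rho_pow_r h a)
  have h2 : (⊤ : Submodule F V) ≤ LinearMap.eqLocus f f' := by
    rw [← h1]
    refine iSup₂_le (fun i hi => ?_)
    intro v hv
    exact hff i (Finset.mem_range.1 hi) v hv
  exact LinearMap.ext fun v => h2 Submodule.mem_top

theorem nontrivial_VV (h : IsXS r ρ) (hζ : IsPrimitiveRoot ζ r) (hay : TC ζ (ρ a) (ρ y)) (i : ℕ) :
    Nontrivial (VV ρ a ζ i) := by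
  obtain ⟨v, hv, hv0⟩ := exists_ne_zero_VV h hζ hay i
  exact ⟨⟨⟨v, hv⟩, 0, fun h0 => hv0 (congrArg Subtype.val h0)⟩⟩

theorem gI_scalar_of_comm (h : IsXS r ρ) (hζ : IsPrimitiveRoot ζ r) (hay : TC ζ (ρ a) (ρ y))
    {g : End F V} (hg : g ^ r = 1) (hga : g * ρ a = ρ a * g) (i : ℕ)
    (hcomm : ∀ x : centSub ρ a, gI ρ a ζ g hga i * rhoI ρ a ζ i x
      = rhoI ρ a ζ i x * gI ρ a ζ g hga i) :
    ∃ μ : F, gI ρ a ζ g hga i = μ • (1 : End F (VV ρ a ζ i)) := by
  haveI := nontrivial_VV h hζ hay i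
  refine exists_scalar_of_eig hζ (gI_pow_r hg hga i) (fun c => ?_)
  refine (isXS_rhoI h hζ hay i).irr _ (fun x v hv => ?_)
  exact comm_eig_mem (hcomm x).symm hv

omit [FiniteDimensional F V] [Nontrivial V] [NeZero r] in
theorem apply_of_gI_scalar {g : End F V} {hga : g * ρ a = ρ a * g} {i : ℕ} {μ : F}
    (hμ : gI ρ a ζ g hga i = μ • (1 : End F (VV ρ a ζ i))) {v : V} (hv : v ∈ VV ρ a ζ i) :
    g v = μ • v := by
  have := congrArg (fun f : End F (VV ρ a ζ i) => ((f ⟨v, hv⟩ : VV ρ a ζ i) : V)) hμ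
  simpa using this

omit [FiniteDimensional F V] [Nontrivial V] [NeZero r] in
/-- Disjointness from the eigenspace for a different scalar. -/
theorem inf_eq_bot_of_apply {g : End F V} {i : ℕ} {μ c : F}
    (hμ : ∀ v ∈ VV ρ a ζ i, g v = μ • v) (hne : μ ≠ c) :
    End.eigenspace g c ⊓ VV ρ a ζ i = ⊥ := by
  rw [eq_bot_iff]
  rintro v ⟨h1, h2⟩
  have h1' := End.mem_eigenspace_iff.1 h1
  rw [hμ v h2] at h1'
  have h3 : (μ - c) • v = 0 := by rw [sub_smul, h1', sub_self]
  rcases smul_eq_zero.1 h3 with h4 | h4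
  · exact absurd (sub_eq_zero.1 h4) hne
  · simpa using h4

omit [FiniteDimensional F V] [Nontrivial V] [NeZero r] in
theorem twist_mem {g : End F V} {x : Γ} {T : End F V} (hx : x ∈ centSub ρ a)
    (hT : g * ρ x = ρ x * T * g) {c : F} (hc : c ≠ 0) {i : ℕ}
    (hi : VV ρ a ζ i ≤ End.eigenspace g c) {v : V} (hv : v ∈ VV ρ a ζ i) : T v = v := by
  have h1 : g v = c • v := End.mem_eigenspace_iff.1 (hi hv)
  have h2 : g (ρ x v) = c • ρ x v := End.mem_eigenspace_iff.1 (hi (centSub_mem hx hv))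
  have h3 := congrArg (fun f : End F V => f v) hT
  simp only [Module.End.mul_apply] at h3
  rw [h1, h2, map_smul, map_smul] at h3
  have h4 := smul_right_injective V hc h3
  exact (rho_injective ρ x h4).symm

theorem exists_twist (h : IsXS r ρ) (hζ : IsPrimitiveRoot ζ r) (hay : TC ζ (ρ a) (ρ y))
    {g : End F V} (hg : g ^ r = 1) (hn : ∀ x : Γ, ∃ (x' : Γ) (ν : F), g * ρ x = ν • (ρ x' * g))
    {c : F} (hc : c ≠ 0) {i₀ : ℕ} (hi₀ : VV ρ a ζ i₀ ≤ End.eigenspace g c) {x : Γ}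
    (hx : x ∈ centSub ρ a) :
    ∃ (k : ℕ) (κ : F), g * ρ x = ρ x * (κ • (ρ a) ^ k) * g ∧ κ * (ζ ^ i₀) ^ k = 1 := by
  have hr1 : 1 ≤ r := Nat.pos_of_ne_zero (NeZero.ne r)
  have hg2 : g ^ (r - 1) * g = 1 := by
    rw [← pow_succ, Nat.sub_add_cancel hr1, hg]
  obtain ⟨x', ν, hxx⟩ := hn x
  have hν : ν ≠ 0 := nu_ne_zero hg2 hxx
  set z : Γ := x⁻¹ * x' with hz
  have hxz : ρ x * ρ z = ρ x' := by
    rw [hz, map_mul, ← mul_assoc, rho_mul_inv, one_mul]
  have hT : g * ρ x = ρ x * (ν • ρ z) * g := by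
    rw [hxx, mul_smul_comm, hxz, smul_mul_assoc]
  have hfix : ∀ v ∈ VV ρ a ζ i₀, (ν • ρ z) v = v := fun v hv => twist_mem hx hT hc hi₀ hv
  obtain ⟨v₀, hv₀, hv₀0⟩ := exists_ne_zero_VV h hζ hay i₀
  have hdc : ∀ w : Γ, ρ w * ρ a = ρ a * ρ w → ρ z * ρ w = ρ w * ρ z := by
    intro w hw
    obtain ⟨β, hβ⟩ := h.comm z w
    have h1 := hfix _ (centSub_mem (mem_centSub.2 hw) hv₀)
    have h2 := hfix _ hv₀
    have h3 := congrArg (fun f : End F V => f v₀) hβ
    simp only [Module.End.mul_apply, LinearMap.smul_apply] at h1 h2 h3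
    have h4 : ρ w v₀ = β • ρ w v₀ := by
      calc ρ w v₀ = ν • ρ z (ρ w v₀) := h1.symm
        _ = ν • β • ρ w (ρ z v₀) := by rw [h3]
        _ = β • ρ w (ν • ρ z v₀) := by rw [map_smul, smul_comm]
        _ = β • ρ w v₀ := by rw [h2]
    have h5 : ρ w v₀ ≠ 0 := fun h0 => hv₀0 (rho_injective ρ w (h0.trans (map_zero _).symm))
    have h6 : (1 - β) • ρ w v₀ = 0 := by
      rw [sub_smul, one_smul, ← h4, sub_self]
    have h7 : β = 1 := by
      rcases smul_eq_zero.1 h6 with h8 | h8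
      · exact (sub_eq_zero.1 h8).symm
      · exact absurd h8 h5
    unfold TC at hβ
    rw [hβ, h7, one_smul]
  obtain ⟨k, κ₁, hk⟩ := dc h hζ hay z hdc
  refine ⟨k, ν * κ₁, ?_, ?_⟩
  · rw [hT, hk, smul_smul]
  · have h1 := hfix _ hv₀
    rw [hk, smul_smul, LinearMap.smul_apply, pow_apply_of_mem_eig hv₀, smul_smul] at h1
    have h2 : (ν * κ₁ * (ζ ^ i₀) ^ k - 1) • v₀ = 0 := by
      rw [sub_smul, one_smul, h1, sub_self]
    rcases smul_eq_zero.1 h2 with h3 | h3
    · exact sub_eq_zero.1 h3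
    · exact absurd h3 hv₀0

omit [Nontrivial V] [FiniteDimensional F V] [NeZero r] in
theorem TC_gI {g : End F V} (hga : g * ρ a = ρ a * g) {x : Γ} (hx : x ∈ centSub ρ a) {k : ℕ} {κ : F}
    (hT : g * ρ x = ρ x * (κ • (ρ a) ^ k) * g) (i : ℕ) :
    TC (κ * (ζ ^ i) ^ k) (gI ρ a ζ g hga i) (rhoI ρ a ζ i ⟨x, hx⟩) := by
  apply LinearMap.ext
  intro v
  apply Subtype.ext
  have h1 := congrArg (fun f : End F V => f v.1) hT
  simp only [Module.End.mul_apply, LinearMap.smul_apply] at h1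
  have h2 : g v.1 ∈ VV ρ a ζ i := comm_eig_mem hga v.2
  rw [pow_apply_of_mem_eig h2 k] at h1
  simp only [Module.End.mul_apply, LinearMap.smul_apply, Submodule.coe_smul,
    LinearMap.restrict_coe_apply, restrictRep_apply]
  rw [h1, map_smul, map_smul, smul_smul]

theorem injective_of_pow {g : End F V} (hg : g ^ r = 1) : Function.Injective g := by
  have hr1 : 1 ≤ r := Nat.pos_of_ne_zero (NeZero.ne r)
  have hg2 : g ^ (r - 1) * g = 1 := by
    rw [← pow_succ, Nat.sub_add_cancel hr1, hg]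
  intro u v huv
  have := congrArg (g ^ (r - 1)) huv
  have e : ∀ w : V, (g ^ (r - 1)) (g w) = w := fun w => by
    have := congrArg (fun f : End F V => f w) hg2
    simpa using this
  simpa [e] using this

theorem bound_or_scalar (hr : r.Prime) (h : IsXS r ρ) (hζ : IsPrimitiveRoot ζ r)
    (hay : TC ζ (ρ a) (ρ y)) {g : End F V} (hg : g ^ r = 1)
    (hn : ∀ x : Γ, ∃ (x' : Γ) (ν : F), g * ρ x = ν • (ρ x' * g)) (hga : g * ρ a = ρ a * g)
    {c : F} (hc : c ≠ 0) {i₀ : ℕ} (hi₀ : VV ρ a ζ i₀ ≤ End.eigenspace g c) (i : ℕ) :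
    (∃ μ : F, gI ρ a ζ g hga i = μ • (1 : End F (VV ρ a ζ i))) ∨
      r * finrank F (End.eigenspace (gI ρ a ζ g hga i) c) ≤ finrank F (VV ρ a ζ i) := by
  by_cases hall : ∀ x : centSub ρ a, gI ρ a ζ g hga i * rhoI ρ a ζ i x
      = rhoI ρ a ζ i x * gI ρ a ζ g hga i
  · left
    exact gI_scalar_of_comm h hζ hay hg hga i hall
  · right
    push_neg at hall
    obtain ⟨x, hx⟩ := hall
    obtain ⟨k, κ, hT, hκ⟩ := exists_twist h hζ hay hg hn hc hi₀ x.2
    have htc : TC (κ * (ζ ^ i) ^ k) (gI ρ a ζ g hga i) (rhoI ρ a ζ i x) := TC_gI hga x.2 hT i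
    have hm1 : κ * (ζ ^ i) ^ k ≠ 1 := by
      intro h1
      rw [h1] at htc
      exact hx (TC.comm_iff_one.1 htc)
    have hζk : ∀ j : ℕ, ((ζ ^ j) ^ k) ^ r = 1 := by
      intro j
      have : ((ζ ^ j) ^ k) ^ r = (ζ ^ r) ^ (j * k) := by ring
      rw [this, hζ.pow_eq_one, one_pow]
    have hκr : κ ^ r = 1 := by
      have h1 := congrArg (· ^ r) hκ
      simp only [mul_pow, one_pow] at h1
      rwa [hζk, mul_one] at h1
    have hmr : (κ * (ζ ^ i) ^ k) ^ r = 1 := by
      rw [mul_pow, hκr, one_mul, hζk]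
    have hinj : Function.Injective (gI ρ a ζ g hga i) := by
      intro u v huv
      apply Subtype.ext
      exact injective_of_pow hg (congrArg Subtype.val huv)
    exact eig_prime_bound hr hinj htc (rho_inv_mul (rhoI ρ a ζ i) x) hmr hm1 c

omit [FiniteDimensional F V] [Nontrivial V] in
theorem pow_eq_pow_zmod (hζ : IsPrimitiveRoot ζ r) {m n : ℕ} (h : ζ ^ m = ζ ^ n) :
    ((m : ℕ) : ZMod r) = ((n : ℕ) : ZMod r) := by
  have hr0 : 0 < r := Nat.pos_of_ne_zero (NeZero.ne r)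
  have e : ∀ m : ℕ, ζ ^ m = ζ ^ (m % r) := fun m => by
    conv_lhs => rw [← Nat.div_add_mod m r, pow_add, pow_mul, hζ.pow_eq_one, one_pow, one_mul]
  rw [e m, e n] at h
  exact (ZMod.natCast_eq_natCast_iff' m n r).2
    (hζ.pow_inj (Nat.mod_lt _ hr0) (Nat.mod_lt _ hr0) h)

/-- The quadratic phases: three equal values force a scalar. -/
theorem no_three (hr : r.Prime) (hr2 : r ≠ 2) (h : IsXS r ρ) (hζ : IsPrimitiveRoot ζ r)
    (hay : TC ζ (ρ a) (ρ y)) {g : End F V} (hg : g ^ r = 1)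
    (hn : ∀ x : Γ, ∃ (x' : Γ) (ν : F), g * ρ x = ν • (ρ x' * g))
    (hns : ∀ μ : F, g ≠ μ • (1 : End F V))
    (c' : ℕ → F) (hc' : ∀ i, ∀ v ∈ VV ρ a ζ i, g v = c' i • v)
    {i₁ i₂ i₃ : ℕ} (h1 : i₁ < r) (h2 : i₂ < r) (h3 : i₃ < r) (h12 : i₁ ≠ i₂) (h13 : i₁ ≠ i₃)
    (h23 : i₂ ≠ i₃) (e12 : c' i₁ = c' i₂) (e13 : c' i₁ = c' i₃) : False := by
  haveI : Fact r.Prime := ⟨hr⟩
  have hr1 : 1 ≤ r := hr.one_le
  have hg2 : g ^ (r - 1) * g = 1 := by
    rw [← pow_succ, Nat.sub_add_cancel hr1, hg]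
  have hginj := injective_of_pow (r := r) hg
  have hcne : ∀ i, c' i ≠ 0 := by
    intro i h0
    obtain ⟨v, hv, hv0⟩ := exists_ne_zero_VV h hζ hay i
    have := hc' i v hv
    rw [h0, zero_smul] at this
    exact hv0 (hginj (this.trans (map_zero _).symm))
  have hcr : ∀ i, c' i ^ r = 1 := by
    intro i
    obtain ⟨v, hv, hv0⟩ := exists_ne_zero_VV h hζ hay i
    have hv' : v ∈ End.eigenspace g (c' i) := End.mem_eigenspace_iff.2 (hc' i v hv)
    have h4 := pow_apply_of_mem_eig hv' r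
    rw [hg] at h4
    simp only [Module.End.one_apply] at h4
    have h5 : (c' i ^ r - 1) • v = 0 := by rw [sub_smul, one_smul, ← h4, sub_self]
    rcases smul_eq_zero.1 h5 with h6 | h6
    · exact sub_eq_zero.1 h6
    · exact absurd h6 hv0
  obtain ⟨y', ν, hy⟩ := hn y
  have hν : ν ≠ 0 := nu_ne_zero hg2 hy
  set z : Γ := y⁻¹ * y' with hz
  have hyz : ρ y * ρ z = ρ y' := by
    rw [hz, map_mul, ← mul_assoc, rho_mul_inv, one_mul]
  have hT : g * ρ y = ρ y * (ν • ρ z) * g := by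
    rw [hy, mul_smul_comm, hyz, smul_mul_assoc]
  have hs : ∀ i, ∀ v ∈ VV ρ a ζ i, (ν • ρ z) v = (c' (i + 1) / c' i) • v := by
    intro i v hv
    have h4 := congrArg (fun f : End F V => f v) hT
    simp only [Module.End.mul_apply] at h4
    rw [hc' i v hv, hc' (i + 1) _ (y_mem hay hv), map_smul, map_smul] at h4
    have h5 : ρ y ((c' i) • (ν • ρ z) v) = ρ y ((c' (i + 1)) • v) := by
      rw [map_smul, map_smul]; exact h4.symm
    have h6 := rho_injective ρ y h5
    rw [div_eq_mul_inv, mul_comm, ← smul_smul, ← h6, smul_smul, inv_mul_cancel₀ (hcne i), one_smul]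
  have hdc : ∀ w : Γ, ρ w * ρ a = ρ a * ρ w → ρ z * ρ w = ρ w * ρ z := by
    intro w hw
    have h4 : (ν • ρ z) * ρ w = ρ w * (ν • ρ z) := by
      refine ext_on_VV (a := a) h hζ (fun i _ v hv => ?_)
      simp only [Module.End.mul_apply]
      rw [hs i _ (centSub_mem (mem_centSub.2 hw) hv), hs i v hv, map_smul]
    rw [smul_mul_assoc, mul_smul_comm] at h4
    exact smul_right_injective _ hν h4
  obtain ⟨k, κ₁, hk⟩ := dc h hζ hay z hdc
  set κ : F := ν * κ₁ with hκ
  have hTk : ν • ρ z = κ • (ρ a) ^ k := by rw [hk, smul_smul]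
  have hrec : ∀ i, c' (i + 1) = c' i * κ * (ζ ^ i) ^ k := by
    intro i
    obtain ⟨v, hv, hv0⟩ := exists_ne_zero_VV h hζ hay i
    have h4 := hs i v hv
    rw [hTk, LinearMap.smul_apply, pow_apply_of_mem_eig hv, smul_smul] at h4
    have h5 : (κ * (ζ ^ i) ^ k - c' (i + 1) / c' i) • v = 0 := by
      rw [sub_smul, h4, sub_self]
    have h6 : κ * (ζ ^ i) ^ k = c' (i + 1) / c' i := by
      rcases smul_eq_zero.1 h5 with h7 | h7
      · exact sub_eq_zero.1 h7
      · exact absurd h7 hv0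
    rw [mul_assoc, h6]
    field_simp [hcne i]
  have hκr : κ ^ r = 1 := by
    have h4 := hrec 0
    simp only [zero_add, pow_zero, one_pow, mul_one] at h4
    have h5 := congrArg (· ^ r) h4
    simp only [mul_pow, hcr, one_mul] at h5
    exact h5.symm
  obtain ⟨l, -, hl⟩ := hζ.eq_pow_of_pow_eq_one hκr
  let e : ℕ → ℕ := fun i => ∑ t ∈ Finset.range i, (l + t * k)
  have hcf : ∀ i, c' i = c' 0 * ζ ^ e i := by
    intro i
    induction i with
    | zero => simp [e]
    | succ i ih =>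
      rw [hrec i, ih, ← hl]
      have : e (i + 1) = e i + (l + i * k) := by
        simp only [e]; rw [Finset.sum_range_succ]
      rw [this]
      ring
  have hζinj : ∀ i j : ℕ, c' i = c' j → ((e i : ℕ) : ZMod r) = ((e j : ℕ) : ZMod r) := by
    intro i j hij
    rw [hcf i, hcf j] at hij
    have h4 : ζ ^ e i = ζ ^ e j := mul_left_cancel₀ (hcne 0) hij
    exact pow_eq_pow_zmod hζ h4
  have hE : ∀ i : ℕ, (2 : ZMod r) * ((e i : ℕ) : ZMod r)
      = (i : ZMod r) * (2 * (l : ZMod r) + (k : ZMod r) * ((i : ZMod r) - 1)) := by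
    intro i
    induction i with
    | zero => simp [e]
    | succ i ih =>
      have : e (i + 1) = e i + (l + i * k) := by
        simp only [e]; rw [Finset.sum_range_succ]
      rw [this]
      push_cast
      rw [mul_add, ih]
      ring
  have hcastne : ∀ i j : ℕ, i < r → j < r → i ≠ j → (i : ZMod r) ≠ (j : ZMod r) := by
    intro i j hi hj hij hcon
    rw [ZMod.natCast_eq_natCast_iff'] at hcon
    rw [Nat.mod_eq_of_lt hi, Nat.mod_eq_of_lt hj] at hcon
    exact hij hcon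
  have hq : ∀ i j : ℕ, i < r → j < r → i ≠ j → c' i = c' j →
      2 * (l : ZMod r) - (k : ZMod r) + (k : ZMod r) * ((i : ZMod r) + (j : ZMod r)) = 0 := by
    intro i j hi hj hij hc
    have h4 := hζinj i j hc
    have h5 := hE i
    have h6 := hE j
    rw [h4] at h5
    have h7 : ((i : ZMod r) - (j : ZMod r)) *
        (2 * (l : ZMod r) - (k : ZMod r) + (k : ZMod r) * ((i : ZMod r) + (j : ZMod r))) = 0 := by
      have : (i : ZMod r) * (2 * (l : ZMod r) + (k : ZMod r) * ((i : ZMod r) - 1))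
          = (j : ZMod r) * (2 * (l : ZMod r) + (k : ZMod r) * ((j : ZMod r) - 1)) := by
        rw [← h5, h6]
      linear_combination this
    rcases mul_eq_zero.1 h7 with h8 | h8
    · exact absurd (sub_eq_zero.1 h8) (hcastne i j hi hj hij)
    · exact h8
  have q1 := hq i₁ i₂ h1 h2 h12 e12
  have q2 := hq i₁ i₃ h1 h3 h13 e13
  have hK : (k : ZMod r) = 0 := by
    have h4 : (k : ZMod r) * ((i₂ : ZMod r) - (i₃ : ZMod r)) = 0 := by
      linear_combination q1 - q2
    rcases mul_eq_zero.1 h4 with h5 | h5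
    · exact h5
    · exact absurd (sub_eq_zero.1 h5) (hcastne i₂ i₃ h2 h3 h23)
  have h2ne : (2 : ZMod r) ≠ 0 := by
    intro h0
    have : ((2 : ℕ) : ZMod r) = 0 := by exact_mod_cast h0
    rw [ZMod.natCast_eq_zero_iff] at this
    exact hr2 ((Nat.prime_dvd_prime_iff_eq hr Nat.prime_two).1 this)
  have hL : (l : ZMod r) = 0 := by
    rw [hK] at q1
    have h4 : (2 : ZMod r) * (l : ZMod r) = 0 := by linear_combination q1
    rcases mul_eq_zero.1 h4 with h5 | h5
    · exact absurd h5 h2ne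
    · exact h5
  have hkd : r ∣ k := (ZMod.natCast_eq_zero_iff k r).1 hK
  have hld : r ∣ l := (ZMod.natCast_eq_zero_iff l r).1 hL
  have hκ1 : κ = 1 := by rw [← hl]; exact (hζ.pow_eq_one_iff_dvd l).2 hld
  have hζk : ∀ i : ℕ, (ζ ^ i) ^ k = 1 := by
    intro i
    rw [← pow_mul, mul_comm, pow_mul, (hζ.pow_eq_one_iff_dvd k).2 hkd, one_pow]
  have hconst : ∀ i, c' i = c' 0 := by
    intro i
    induction i with
    | zero => rfl
    | succ i ih => rw [hrec i, hκ1, hζk, mul_one, mul_one, ih]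
  apply hns (c' 0)
  refine ext_on_VV (a := a) h hζ (fun i _ v hv => ?_)
  rw [hc' i v hv, hconst i]
  simp

/-- The recursion step. -/
theorem step_bound (hr : r.Prime) (hr2 : r ≠ 2) (h : IsXS r ρ) (hζ : IsPrimitiveRoot ζ r)
    (hay : TC ζ (ρ a) (ρ y)) {g : End F V} (hg : g ^ r = 1)
    (hn : ∀ x : Γ, ∃ (x' : Γ) (ν : F), g * ρ x = ν • (ρ x' * g)) (hga : g * ρ a = ρ a * g)
    (hns : ∀ μ : F, g ≠ μ • (1 : End F V))
    (IH : ∀ (i : ℕ) (c : F), (∀ μ : F, gI ρ a ζ g hga i ≠ μ • (1 : End F (VV ρ a ζ i))) →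
      r * finrank F (End.eigenspace (gI ρ a ζ g hga i) c) ≤ 2 * finrank F (VV ρ a ζ i)) (c : F) :
    r * finrank F (End.eigenspace g c) ≤ 2 * finrank F V := by
  classical
  haveI : Fact r.Prime := ⟨hr⟩
  have hginj := injective_of_pow (r := r) hg
  by_cases hc : c = 0
  · have : End.eigenspace g c = ⊥ := by
      rw [eq_bot_iff, hc]
      intro v hv
      rw [End.mem_eigenspace_iff, zero_smul] at hv
      simpa using hginj (by simpa using hv : g v = g 0)
    rw [this, finrank_bot, mul_zero]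
    exact Nat.zero_le _
  set W : Submodule F V := End.eigenspace g c with hW
  set d₀ : ℕ := finrank F (VV ρ a ζ 0) with hd₀
  have hV : finrank F V = r * d₀ := finrank_eq_mul h hζ hay
  have hVi : ∀ i, finrank F (VV ρ a ζ i) = d₀ := finrank_VV hζ hay
  let D : ℕ → ℕ := fun i => finrank F (W ⊓ VV ρ a ζ i : Submodule F V)
  have hDrestrict : ∀ i, finrank F (End.eigenspace (gI ρ a ζ g hga i) c) = D i :=
    fun i => finrank_eig_restrict g _ _ c
  have hsum : finrank F W ≤ ∑ i ∈ Finset.range r, D i :=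
    finrank_le_sum_inf_eig hζ (rho_pow_r h a) (fun v hv => comm_eig_mem hga.symm hv)
  have hDle : ∀ i, D i ≤ d₀ := fun i => by
    rw [← hVi i]; exact Submodule.finrank_mono inf_le_right
  have hrsum : r * finrank F W ≤ ∑ i ∈ Finset.range r, r * D i := by
    rw [← Finset.mul_sum]; exact Nat.mul_le_mul_left _ hsum
  have hD0 : ∀ i (μ : F), gI ρ a ζ g hga i = μ • (1 : End F (VV ρ a ζ i)) → μ ≠ c → D i = 0 := by
    intro i μ hμ hne
    simp only [D]
    rw [inf_eq_bot_of_apply (fun v hv => apply_of_gI_scalar hμ hv) hne, finrank_bot]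
  have hleW : ∀ i (μ : F), gI ρ a ζ g hga i = μ • (1 : End F (VV ρ a ζ i)) → μ = c →
      VV ρ a ζ i ≤ W := by
    intro i μ hμ he v hv
    rw [hW, End.mem_eigenspace_iff, apply_of_gI_scalar hμ hv, he]
  by_cases hJ : ∃ i₀, i₀ < r ∧ VV ρ a ζ i₀ ≤ W
  · obtain ⟨i₀, hi₀, hi₀W⟩ := hJ
    have hbos := bound_or_scalar hr h hζ hay hg hn hga hc hi₀W
    have hnotJ : ∀ i, ¬ VV ρ a ζ i ≤ W → r * D i ≤ d₀ := by
      intro i hi
      rcases hbos i with ⟨μ, hμ⟩ | hb
      · have hne : μ ≠ c := fun he => hi (hleW i μ hμ he)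
        rw [hD0 i μ hμ hne, mul_zero]
        exact Nat.zero_le _
      · rw [hDrestrict, hVi] at hb
        exact hb
    by_cases hJ2 : ∃ i₁, i₁ < r ∧ i₁ ≠ i₀ ∧ VV ρ a ζ i₁ ≤ W
    · obtain ⟨i₁, hi₁, hne, hi₁W⟩ := hJ2
      -- `g` commutes with the centraliser of `a`
      have hcomm : ∀ x ∈ centSub ρ a, g * ρ x = ρ x * g := by
        intro x hx
        obtain ⟨k, κ, hT, hκ⟩ := exists_twist h hζ hay hg hn hc hi₀W hx
        obtain ⟨v₁, hv₁, hv₁0⟩ := exists_ne_zero_VV h hζ hay i₁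
        have h1 := twist_mem hx hT hc hi₁W hv₁
        rw [LinearMap.smul_apply, pow_apply_of_mem_eig hv₁, smul_smul] at h1
        have h2 : κ * (ζ ^ i₁) ^ k = 1 := by
          have h3 : (κ * (ζ ^ i₁) ^ k - 1) • v₁ = 0 := by
            rw [sub_smul, one_smul, h1, sub_self]
          rcases smul_eq_zero.1 h3 with h4 | h4
          · exact sub_eq_zero.1 h4
          · exact absurd h4 hv₁0
        have hκ0 : κ ≠ 0 := by
          rintro rfl
          rw [zero_mul] at hκ
          exact zero_ne_one hκ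
        have h3 : (ζ ^ i₀) ^ k = (ζ ^ i₁) ^ k := mul_left_cancel₀ hκ0 (hκ.trans h2.symm)
        rw [← pow_mul, ← pow_mul] at h3
        have h4 := pow_eq_pow_zmod hζ h3
        push_cast at h4
        have h5 : ((i₀ : ZMod r) - (i₁ : ZMod r)) * (k : ZMod r) = 0 := by
          linear_combination h4
        have h6 : (k : ZMod r) = 0 := by
          rcases mul_eq_zero.1 h5 with h7 | h7
          · exfalso
            have h8 := sub_eq_zero.1 h7
            rw [ZMod.natCast_eq_natCast_iff', Nat.mod_eq_of_lt hi₀, Nat.mod_eq_of_lt hi₁] at h8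
            exact hne h8.symm
          · exact h7
        have hkd : r ∣ k := (ZMod.natCast_eq_zero_iff k r).1 h6
        obtain ⟨m, rfl⟩ := hkd
        have h7 : (ρ a) ^ (r * m) = 1 := by
          rw [pow_mul, rho_pow_r h a, one_pow]
        have h8 : (ζ ^ i₀) ^ (r * m) = 1 := by
          have : (ζ ^ i₀) ^ (r * m) = (ζ ^ r) ^ (i₀ * m) := by ring
          rw [this, hζ.pow_eq_one, one_pow]
        rw [h8, mul_one] at hκ
        rw [hT, h7, hκ, one_smul, mul_one]
      have hallscal : ∀ i, ∃ μ : F, gI ρ a ζ g hga i = μ • (1 : End F (VV ρ a ζ i)) := by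
        intro i
        refine gI_scalar_of_comm h hζ hay hg hga i (fun x => ?_)
        apply LinearMap.ext
        intro v
        apply Subtype.ext
        have := congrArg (fun f : End F V => f v.1) (hcomm x.1 x.2)
        simpa using this
      choose c' hc' using hallscal
      have hc'' : ∀ i, ∀ v ∈ VV ρ a ζ i, g v = c' i • v :=
        fun i v hv => apply_of_gI_scalar (hc' i) hv
      have hcJ : ∀ i, VV ρ a ζ i ≤ W → c' i = c := by
        intro i hi
        obtain ⟨v, hv, hv0⟩ := exists_ne_zero_VV h hζ hay i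
        have h1 : g v = c • v := End.mem_eigenspace_iff.1 (hi hv)
        rw [hc'' i v hv] at h1
        have h2 : (c' i - c) • v = 0 := by rw [sub_smul, h1, sub_self]
        rcases smul_eq_zero.1 h2 with h3 | h3
        · exact sub_eq_zero.1 h3
        · exact absurd h3 hv0
      set J : Finset ℕ := (Finset.range r).filter (fun i => VV ρ a ζ i ≤ W) with hJ
      have hJcard : J.card ≤ 2 := by
        by_contra hcon
        push_neg at hcon
        obtain ⟨p, hp, q, hq, s, hs, hpq, hps, hqs⟩ := Finset.two_lt_card.1 hcon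
        rw [hJ, Finset.mem_filter, Finset.mem_range] at hp hq hs
        exact no_three hr hr2 h hζ hay hg hn hns c' hc'' hp.1 hq.1 hs.1 hpq hps hqs
          ((hcJ p hp.2).trans (hcJ q hq.2).symm) ((hcJ p hp.2).trans (hcJ s hs.2).symm)
      have hnot : ∑ i ∈ (Finset.range r).filter (fun i => ¬ VV ρ a ζ i ≤ W), r * D i = 0 := by
        refine Finset.sum_eq_zero (fun i hi => ?_)
        rw [Finset.mem_filter] at hi
        have hne' : c' i ≠ c := fun he => hi.2 (hleW i _ (hc' i) he)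
        rw [hD0 i _ (hc' i) hne', mul_zero]
      have hyes : ∑ i ∈ J, r * D i ≤ J.card * (r * d₀) := by
        rw [← smul_eq_mul, ← Finset.sum_const]
        exact Finset.sum_le_sum (fun i _ => Nat.mul_le_mul_left _ (hDle i))
      rw [← Finset.sum_filter_add_sum_filter_not (Finset.range r) (fun i => VV ρ a ζ i ≤ W), hnot,
        add_zero] at hrsum
      rw [hV]
      calc r * finrank F W ≤ ∑ i ∈ J, r * D i := hrsum
        _ ≤ J.card * (r * d₀) := hyes
        _ ≤ 2 * (r * d₀) := Nat.mul_le_mul_right _ hJcard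
    · push_neg at hJ2
      have h1 : ∑ i ∈ (Finset.range r).erase i₀, r * D i ≤ ∑ _i ∈ (Finset.range r).erase i₀, d₀ := by
        refine Finset.sum_le_sum (fun i hi => ?_)
        rw [Finset.mem_erase, Finset.mem_range] at hi
        exact hnotJ i (hJ2 i hi.2 hi.1)
      rw [Finset.sum_const, Finset.card_erase_of_mem (Finset.mem_range.2 hi₀), Finset.card_range,
        smul_eq_mul] at h1
      rw [← Finset.add_sum_erase _ _ (Finset.mem_range.2 hi₀)] at hrsum
      have h2 : r * D i₀ ≤ r * d₀ := Nat.mul_le_mul_left _ (hDle i₀)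
      have h3 : (r - 1) * d₀ ≤ r * d₀ := Nat.mul_le_mul_right _ (Nat.sub_le _ _)
      rw [hV]
      have : 2 * (r * d₀) = r * d₀ + r * d₀ := by ring
      omega
  · push_neg at hJ
    have h1 : ∀ i ∈ Finset.range r, r * D i ≤ 2 * d₀ := by
      intro i hi
      by_cases hsc : ∃ μ : F, gI ρ a ζ g hga i = μ • (1 : End F (VV ρ a ζ i))
      · obtain ⟨μ, hμ⟩ := hsc
        have hne : μ ≠ c := fun he => hJ i (Finset.mem_range.1 hi) (hleW i μ hμ he)
        rw [hD0 i μ hμ hne, mul_zero]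
        exact Nat.zero_le _
      · push_neg at hsc
        have := IH i c hsc
        rwa [hDrestrict, hVi] at this
    calc r * finrank F W ≤ ∑ i ∈ Finset.range r, r * D i := hrsum
      _ ≤ ∑ _i ∈ Finset.range r, 2 * d₀ := Finset.sum_le_sum h1
      _ = 2 * finrank F V := by
        rw [Finset.sum_const, Finset.card_range, smul_eq_mul, hV]; ring

end

end Cfsg.Agent.Lib.Classical.Herm.XSMain
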