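import Cfsg.Agent.Lib.Classical.Herm.XSBasic

/-!
# Representations with scalar commutators

The abstract setting for the recursion on eigenspaces of a non-central element.
-/

set_option autoImplicit false

namespace Cfsg.Agent.Lib.Classical.Herm.XSRep

open Module Cfsg.Agent.Lib.Classical.Herm.XSBasic

variable {F : Type*} [Field F] {V : Type*} [AddCommGroup V] [Module F V] {Γ : Type*} [Group Γ]

/-- The hypotheses of the recursion. -/
structure IsXS (r : ℕ) (ρ : Γ →* End F V) : Prop where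
  pow : ∀ x : Γ, x ^ r = 1
  comm : ∀ x y : Γ, ∃ β : F, TC β (ρ x) (ρ y)
  cent : ∀ x : Γ, (∀ y : Γ, ρ x * ρ y = ρ y * ρ x) → ∃ μ : F, ρ x = μ • (1 : End F V)
  irr : ∀ U : Submodule F V, (∀ x : Γ, ∀ v ∈ U, ρ x v ∈ U) → U = ⊥ ∨ U = ⊤

theorem rho_inv_mul (ρ : Γ →* End F V) (x : Γ) : ρ x⁻¹ * ρ x = 1 := by
  rw [← map_mul, inv_mul_cancel, map_one]

theorem rho_mul_inv (ρ : Γ →* End F V) (x : Γ) : ρ x * ρ x⁻¹ = 1 := by
  rw [← map_mul, mul_inv_cancel, map_one]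

theorem rho_inv_apply (ρ : Γ →* End F V) (x : Γ) (v : V) : ρ x⁻¹ (ρ x v) = v := by
  have := congrArg (fun f : End F V => f v) (rho_inv_mul ρ x)
  simpa using this

theorem rho_apply_inv (ρ : Γ →* End F V) (x : Γ) (v : V) : ρ x (ρ x⁻¹ v) = v := by
  have := congrArg (fun f : End F V => f v) (rho_mul_inv ρ x)
  simpa using this

theorem rho_injective (ρ : Γ →* End F V) (x : Γ) : Function.Injective (ρ x) := by
  intro a b hab
  have := congrArg (ρ x⁻¹) hab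
  simpa [rho_inv_apply] using this

theorem rho_ne_zero [Nontrivial V] (ρ : Γ →* End F V) (x : Γ) : ρ x ≠ 0 := by
  intro h
  obtain ⟨v, hv⟩ := exists_ne (0 : V)
  apply hv
  apply rho_injective ρ x
  simp [h]

theorem rho_mul_ne_zero [Nontrivial V] (ρ : Γ →* End F V) (x y : Γ) : ρ x * ρ y ≠ 0 := by
  rw [← map_mul]; exact rho_ne_zero ρ _

theorem TC_ne_zero [Nontrivial V] {ρ : Γ →* End F V} {x y : Γ} {β : F} (h : TC β (ρ x) (ρ y)) :
    β ≠ 0 := by
  rintro rfl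
  unfold TC at h
  rw [zero_smul] at h
  exact rho_mul_ne_zero ρ x y h

theorem rho_pow_r {r : ℕ} {ρ : Γ →* End F V} (h : IsXS r ρ) (x : Γ) : (ρ x) ^ r = 1 := by
  rw [← map_pow, h.pow, map_one]

section DC

variable [Nontrivial V] {r : ℕ} [NeZero r] {ρ : Γ →* End F V} {a y : Γ} {ζ : F}

/-- Every element is a product of an element commuting with `a` and a power of `y`. -/
theorem exists_decomp (h : IsXS r ρ) (hζ : IsPrimitiveRoot ζ r) (hay : TC ζ (ρ a) (ρ y)) (w : Γ) :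
    ∃ w' : Γ, ∃ l : ℕ, w = w' * y ^ l ∧ ρ w' * ρ a = ρ a * ρ w' := by
  obtain ⟨γ, hγ⟩ := h.comm a w
  have hγr : γ ^ r = 1 := hγ.root (rho_pow_r h a) (rho_ne_zero ρ w)
  obtain ⟨j, -, hj⟩ := hζ.eq_pow_of_pow_eq_one hγr
  refine ⟨w * (y⁻¹) ^ j, j, ?_, ?_⟩
  · rw [mul_assoc, inv_pow, inv_mul_cancel, mul_one]
  · have hζ0 : ζ ≠ 0 := hζ.ne_zero (NeZero.ne r)
    have h1 : TC ζ⁻¹ (ρ a) (ρ y⁻¹) := hay.inv_right hζ0 (rho_inv_mul ρ y) (rho_mul_inv ρ y)
    have h2 := hγ.mul_right (h1.pow_right j)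
    rw [← hj, ← mul_pow, mul_inv_cancel₀ hζ0, one_pow] at h2
    unfold TC at h2
    rw [one_smul] at h2
    rw [map_mul, map_pow]
    exact h2.symm

/-- Double centraliser of `a`. -/
theorem dc (h : IsXS r ρ) (hζ : IsPrimitiveRoot ζ r) (hay : TC ζ (ρ a) (ρ y)) (z : Γ)
    (hz : ∀ w : Γ, ρ w * ρ a = ρ a * ρ w → ρ z * ρ w = ρ w * ρ z) :
    ∃ (k : ℕ) (κ : F), ρ z = κ • (ρ a) ^ k := by
  obtain ⟨β, hβ⟩ := h.comm z y
  have hβr : β ^ r = 1 := hβ.root (rho_pow_r h z) (rho_ne_zero ρ y)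
  obtain ⟨k, -, hk⟩ := hζ.eq_pow_of_pow_eq_one hβr
  have hζ0 : ζ ≠ 0 := hζ.ne_zero (NeZero.ne r)
  -- the corrected element
  set A : End F V := (ρ a⁻¹) ^ k with hA
  have hA1 : A * (ρ a) ^ k = 1 := by
    rw [hA, ← map_pow, ← map_pow, ← map_mul, inv_pow, inv_mul_cancel, map_one]
  have hA2 : (ρ a) ^ k * A = 1 := by
    rw [hA, ← map_pow, ← map_pow, ← map_mul, inv_pow, mul_inv_cancel, map_one]
  have hAy : TC (ζ⁻¹ ^ k) A (ρ y) := by
    have : TC ζ⁻¹ (ρ a⁻¹) (ρ y) := hay.inv_left hζ0 (rho_inv_mul ρ a) (rho_mul_inv ρ a)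
    exact this.pow_left k
  have hzy : TC (1 : F) (ρ z * A) (ρ y) := by
    have := hβ.mul_left hAy
    rwa [← hk, ← mul_pow, mul_inv_cancel₀ hζ0, one_pow] at this
  have hzy' : Commute (ρ z * A) (ρ y) := by
    have := TC.comm_iff_one.1 hzy
    exact this
  have hcomm : ∀ w : Γ, ρ (z * (a⁻¹) ^ k) * ρ w = ρ w * ρ (z * (a⁻¹) ^ k) := by
    intro w
    have hzA : ρ (z * (a⁻¹) ^ k) = ρ z * A := by rw [map_mul, map_pow]
    rw [hzA]
    obtain ⟨w', l, rfl, hw'⟩ := exists_decomp h hζ hay w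
    have hw'a : Commute (ρ w') (ρ a) := hw'
    have hw'A : Commute (ρ z * A) (ρ w') := by
      have h1 : Commute (ρ z) (ρ w') := hz w' hw'
      have h2 : Commute A (ρ w') := by
        have : Commute (ρ a⁻¹) (ρ w') := by
          have h3 : ρ a⁻¹ * ρ w' = ρ w' * ρ a⁻¹ := by
            calc ρ a⁻¹ * ρ w' = ρ a⁻¹ * ρ w' * (ρ a * ρ a⁻¹) := by rw [rho_mul_inv, mul_one]
              _ = ρ a⁻¹ * (ρ w' * ρ a) * ρ a⁻¹ := by simp only [mul_assoc]
              _ = ρ a⁻¹ * (ρ a * ρ w') * ρ a⁻¹ := by rw [hw']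
              _ = (ρ a⁻¹ * ρ a) * ρ w' * ρ a⁻¹ := by simp only [mul_assoc]
              _ = ρ w' * ρ a⁻¹ := by rw [rho_inv_mul, one_mul]
          exact h3
        exact this.pow_left k
      exact h1.mul_left h2
    have : Commute (ρ z * A) (ρ (w' * y ^ l)) := by
      rw [map_mul, map_pow]
      exact hw'A.mul_right (hzy'.pow_right l)
    exact this
  obtain ⟨μ, hμ⟩ := h.cent _ hcomm
  refine ⟨k, μ, ?_⟩
  rw [map_mul, map_pow] at hμ
  calc ρ z = ρ z * (A * (ρ a) ^ k) := by rw [hA1, mul_one]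
    _ = (ρ z * (ρ a⁻¹) ^ k) * (ρ a) ^ k := by rw [hA, mul_assoc]
    _ = μ • (ρ a) ^ k := by rw [hμ, smul_mul_assoc, one_mul]

end DC

/-- The "centraliser of `a` in the image". -/
def centSub (ρ : Γ →* End F V) (a : Γ) : Subgroup Γ where
  carrier := {w | ρ w * ρ a = ρ a * ρ w}
  mul_mem' := by
    intro w w' hw hw'
    simp only [Set.mem_setOf_eq] at *
    have h1 : Commute (ρ w) (ρ a) := hw
    have h2 : Commute (ρ w') (ρ a) := hw'
    have : Commute (ρ (w * w')) (ρ a) := by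
      rw [map_mul]; exact h1.mul_left h2
    exact this
  one_mem' := by simp
  inv_mem' := by
    intro w hw
    simp only [Set.mem_setOf_eq] at *
    calc ρ w⁻¹ * ρ a = ρ w⁻¹ * ρ a * (ρ w * ρ w⁻¹) := by rw [rho_mul_inv, mul_one]
      _ = ρ w⁻¹ * (ρ a * ρ w) * ρ w⁻¹ := by simp only [mul_assoc]
      _ = ρ w⁻¹ * (ρ w * ρ a) * ρ w⁻¹ := by rw [hw]
      _ = (ρ w⁻¹ * ρ w) * ρ a * ρ w⁻¹ := by simp only [mul_assoc]
      _ = ρ a * ρ w⁻¹ := by rw [rho_inv_mul, one_mul]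

theorem mem_centSub {ρ : Γ →* End F V} {a w : Γ} : w ∈ centSub ρ a ↔ ρ w * ρ a = ρ a * ρ w :=
  Iff.rfl

/-- Restriction of a representation to a stable subspace. -/
def restrictRep (ρ : Γ →* End F V) (K : Subgroup Γ) (U : Submodule F V)
    (hU : ∀ w ∈ K, ∀ v ∈ U, ρ w v ∈ U) : K →* End F U where
  toFun w := (ρ w).restrict (hU w.1 w.2)
  map_one' := by
    apply LinearMap.ext
    intro v
    apply Subtype.ext
    simp
  map_mul' := by
    intro w w'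
    apply LinearMap.ext
    intro v
    apply Subtype.ext
    simp

@[simp] theorem restrictRep_apply (ρ : Γ →* End F V) (K : Subgroup Γ) (U : Submodule F V)
    (hU : ∀ w ∈ K, ∀ v ∈ U, ρ w v ∈ U) (w : K) (v : U) :
    ((restrictRep ρ K U hU w v : U) : V) = ρ w.1 v.1 := rfl

end Cfsg.Agent.Lib.Classical.Herm.XSRep
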