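import Cfsg.Agent.Lib.Classical.Herm.XSRep

/-!
# The eigenspaces of a non-central element

Passing from `(V, Γ, ρ)` to an eigenspace of `ρ a`, with the centraliser of `a` acting.
-/

set_option autoImplicit false

namespace Cfsg.Agent.Lib.Classical.Herm.XSStep

open Module Cfsg.Agent.Lib.Classical.Herm.XSBasic Cfsg.Agent.Lib.Classical.Herm.XSRep

variable {F : Type*} [Field F] {V : Type*} [AddCommGroup V] [Module F V] {Γ : Type*} [Group Γ]

theorem pow_apply_of_mem_eig {M : End F V} {c : F} {v : V} (hv : v ∈ End.eigenspace M c) (k : ℕ) :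
    (M ^ k) v = c ^ k • v := by
  rw [End.mem_eigenspace_iff] at hv
  induction k with
  | zero => simp
  | succ k ih =>
    rw [pow_succ, Module.End.mul_apply, hv, map_smul, ih, smul_smul, pow_succ']

/-- The eigenspaces. -/
abbrev VV (ρ : Γ →* End F V) (a : Γ) (ζ : F) (i : ℕ) : Submodule F V :=
  End.eigenspace (ρ a) (ζ ^ i)

theorem centSub_mem {ρ : Γ →* End F V} {a w : Γ} (hw : w ∈ centSub ρ a) {c : F} {v : V}
    (hv : v ∈ End.eigenspace (ρ a) c) : ρ w v ∈ End.eigenspace (ρ a) c := by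
  rw [End.mem_eigenspace_iff] at *
  have := congrArg (fun f : End F V => f v) (mem_centSub.1 hw)
  simp only [Module.End.mul_apply] at this
  rw [← this, hv, map_smul]

theorem comm_eig_mem {M X : End F V} (h : X * M = M * X) {c : F} {v : V}
    (hv : v ∈ End.eigenspace M c) : X v ∈ End.eigenspace M c := by
  rw [End.mem_eigenspace_iff] at *
  have := congrArg (fun f : End F V => f v) h
  simp only [Module.End.mul_apply] at this
  rw [← this, hv, map_smul]

theorem finrank_eig_restrict (M : End F V) (U : Submodule F V) (hM : ∀ v ∈ U, M v ∈ U) (c : F) :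
    finrank F (End.eigenspace (M.restrict hM) c)
      = finrank F (End.eigenspace M c ⊓ U : Submodule F V) := by
  have : End.eigenspace (M.restrict hM) c = (End.eigenspace M c ⊓ U).comap U.subtype := by
    ext v
    simp only [End.mem_eigenspace_iff, Submodule.mem_comap, Submodule.mem_inf,
      Submodule.subtype_apply, v.2, and_true, Subtype.ext_iff, LinearMap.restrict_coe_apply,
      Submodule.coe_smul]
  rw [this]
  exact LinearEquiv.finrank_eq (Submodule.comapSubtypeEquivOfLe inf_le_right)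

section Setup

variable [FiniteDimensional F V] [Nontrivial V] {r : ℕ} [NeZero r] {ρ : Γ →* End F V} {a y : Γ}
  {ζ : F}

theorem y_mem (hay : TC ζ (ρ a) (ρ y)) {i : ℕ} {v : V} (hv : v ∈ VV ρ a ζ i) :
    ρ y v ∈ VV ρ a ζ (i + 1) := by
  have := hay.mem_eig hv
  rwa [← pow_succ'] at this

omit [FiniteDimensional F V] [Nontrivial V] [NeZero r] in
theorem VV_add_r (hζ : IsPrimitiveRoot ζ r) (i : ℕ) : VV ρ a ζ (i + r) = VV ρ a ζ i := by
  unfold VV
  rw [pow_add, hζ.pow_eq_one, mul_one]

theorem finrank_VV_succ (hζ : IsPrimitiveRoot ζ r) (hay : TC ζ (ρ a) (ρ y)) (i : ℕ) :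
    finrank F (VV ρ a ζ (i + 1)) = finrank F (VV ρ a ζ i) := by
  have hζ0 : ζ ≠ 0 := hζ.ne_zero (NeZero.ne r)
  apply le_antisymm
  · have h1 : TC ζ⁻¹ (ρ a) (ρ y⁻¹) := hay.inv_right hζ0 (rho_inv_mul ρ y) (rho_mul_inv ρ y)
    have := finrank_eig_le_of_TC h1 (X' := ρ y) (by rw [← map_mul, mul_inv_cancel, map_one])
      (ζ ^ (i + 1))
    rwa [pow_succ', ← mul_assoc, inv_mul_cancel₀ hζ0, one_mul, ← pow_succ'] at this
  · have := finrank_eig_le_of_TC hay (rho_inv_mul ρ y) (ζ ^ i)
    rwa [← pow_succ'] at this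

theorem finrank_VV (hζ : IsPrimitiveRoot ζ r) (hay : TC ζ (ρ a) (ρ y)) (i : ℕ) :
    finrank F (VV ρ a ζ i) = finrank F (VV ρ a ζ 0) := by
  induction i with
  | zero => rfl
  | succ i ih => rw [finrank_VV_succ hζ hay, ih]

theorem finrank_eq_mul (h : IsXS r ρ) (hζ : IsPrimitiveRoot ζ r) (hay : TC ζ (ρ a) (ρ y)) :
    finrank F V = r * finrank F (VV ρ a ζ 0) := by
  apply le_antisymm
  · have h1 := finrank_le_sum_inf_eig hζ (rho_pow_r h a) (W := ⊤) (fun _ _ => Submodule.mem_top)
    rw [finrank_top] at h1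
    refine h1.trans (le_of_eq ?_)
    calc ∑ i ∈ Finset.range r, finrank F (⊤ ⊓ End.eigenspace (ρ a) (ζ ^ i) : Submodule F V)
        = ∑ _i ∈ Finset.range r, finrank F (VV ρ a ζ 0) := by
          refine Finset.sum_congr rfl (fun i _ => ?_)
          rw [top_inf_eq]
          exact finrank_VV hζ hay i
      _ = r * finrank F (VV ρ a ζ 0) := by simp
  · have hinj : Set.InjOn (fun i : ℕ => ζ ^ i) (Finset.range r : Set ℕ) := by
      intro i hi j hj hij
      exact hζ.pow_inj (Finset.mem_range.1 hi) (Finset.mem_range.1 hj) hij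
    have h1 := sum_finrank_eig_range_le (ρ a) r (fun i : ℕ => ζ ^ i) hinj
    calc r * finrank F (VV ρ a ζ 0)
        = ∑ i ∈ Finset.range r, finrank F (End.eigenspace (ρ a) (ζ ^ i)) := by
          rw [Finset.sum_congr rfl (fun i _ => finrank_VV hζ hay i)]
          simp
      _ ≤ _ := h1

theorem finrank_VV_pos (h : IsXS r ρ) (hζ : IsPrimitiveRoot ζ r) (hay : TC ζ (ρ a) (ρ y)) :
    0 < finrank F (VV ρ a ζ 0) := by
  have h1 := finrank_eq_mul h hζ hay
  have h2 : 0 < finrank F V := finrank_pos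
  rw [h1] at h2
  rcases Nat.eq_zero_or_pos (finrank F (VV ρ a ζ 0)) with h0 | h0
  · rw [h0, mul_zero] at h2; exact absurd h2 (lt_irrefl _)
  · exact h0

theorem exists_ne_zero_VV (h : IsXS r ρ) (hζ : IsPrimitiveRoot ζ r) (hay : TC ζ (ρ a) (ρ y)) (i : ℕ) :
    ∃ v : V, v ∈ VV ρ a ζ i ∧ v ≠ 0 := by
  have h1 : 0 < finrank F (VV ρ a ζ i) := by
    rw [finrank_VV hζ hay]; exact finrank_VV_pos h hζ hay
  by_contra hcon
  push_neg at hcon
  have : VV ρ a ζ i = ⊥ := by
    rw [eq_bot_iff]
    intro v hv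
    simpa using hcon v hv
  rw [this, finrank_bot] at h1
  exact lt_irrefl _ h1

/-- The restricted representation. -/
noncomputable abbrev rhoI (ρ : Γ →* End F V) (a : Γ) (ζ : F) (i : ℕ) :
    centSub ρ a →* End F (VV ρ a ζ i) :=
  restrictRep ρ (centSub ρ a) (VV ρ a ζ i) (fun _ hw _ hv => centSub_mem hw hv)

theorem isXS_rhoI (h : IsXS r ρ) (hζ : IsPrimitiveRoot ζ r) (hay : TC ζ (ρ a) (ρ y)) (i : ℕ) :
    IsXS r (rhoI ρ a ζ i) := by
  refine ⟨fun x => Subtype.ext (h.pow x.1), ?_, ?_, ?_⟩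
  · intro x y'
    obtain ⟨β, hβ⟩ := h.comm x.1 y'.1
    refine ⟨β, ?_⟩
    apply LinearMap.ext
    intro v
    apply Subtype.ext
    have := congrArg (fun f : End F V => f v.1) hβ
    simpa using this
  · intro x hx
    obtain ⟨v₀, hv₀, hv₀0⟩ := exists_ne_zero_VV h hζ hay i
    have hdc : ∀ w : Γ, ρ w * ρ a = ρ a * ρ w → ρ x.1 * ρ w = ρ w * ρ x.1 := by
      intro w hw
      obtain ⟨β, hβ⟩ := h.comm x.1 w
      have h1 := congrArg (fun f : End F (VV ρ a ζ i) => ((f ⟨v₀, hv₀⟩ : VV ρ a ζ i) : V))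
        (hx ⟨w, hw⟩)
      simp only [Module.End.mul_apply, restrictRep_apply] at h1
      have h2 := congrArg (fun f : End F V => f v₀) hβ
      simp only [Module.End.mul_apply, LinearMap.smul_apply] at h2
      rw [h1] at h2
      have h3 : (1 - β) • ρ w (ρ x.1 v₀) = 0 := by
        rw [sub_smul, one_smul, ← h2, sub_self]
      have h4 : ρ w (ρ x.1 v₀) ≠ 0 := by
        intro h0
        apply hv₀0
        have h5 := rho_injective ρ w (h0.trans (map_zero _).symm)
        exact rho_injective ρ x.1 (h5.trans (map_zero _).symm)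
      have h5 : β = 1 := by
        rcases smul_eq_zero.1 h3 with h6 | h6
        · exact (sub_eq_zero.1 h6).symm
        · exact absurd h6 h4
      unfold TC at hβ
      rw [hβ, h5, one_smul]
    obtain ⟨k, κ, hk⟩ := dc h hζ hay x.1 hdc
    refine ⟨κ * (ζ ^ i) ^ k, ?_⟩
    apply LinearMap.ext
    intro v
    apply Subtype.ext
    have h1 := pow_apply_of_mem_eig v.2 k
    simp only [restrictRep_apply, LinearMap.smul_apply, Module.End.one_apply, Submodule.coe_smul]
    rw [hk, LinearMap.smul_apply, h1, smul_smul]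
  · intro U hU
    set U₁ : Submodule F V := U.map (VV ρ a ζ i).subtype with hU₁
    have hU₁le : U₁ ≤ VV ρ a ζ i := by
      rintro _ ⟨u, -, rfl⟩
      exact u.2
    have hU₁stab : ∀ w ∈ centSub ρ a, ∀ v ∈ U₁, ρ w v ∈ U₁ := by
      rintro w hw _ ⟨u, hu, rfl⟩
      exact ⟨_, hU ⟨w, hw⟩ u hu, rfl⟩
    set Ut : Submodule F V := ⨆ j ∈ Finset.range r, U₁.map ((ρ y) ^ j) with hUt
    have hmemUt : ∀ j, j < r → ∀ u ∈ U₁, ((ρ y) ^ j) u ∈ Ut := by
      intro j hj u hu
      exact Submodule.mem_iSup_of_mem j (Submodule.mem_iSup_of_mem (Finset.mem_range.2 hj)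
        ⟨u, hu, rfl⟩)
    have hstabOf : ∀ X : End F V, (∀ j, j < r → ∀ u ∈ U₁, X (((ρ y) ^ j) u) ∈ Ut) →
        ∀ v ∈ Ut, X v ∈ Ut := by
      intro X hX
      have : Ut ≤ Ut.comap X := by
        refine iSup₂_le (fun j hj => ?_)
        rintro _ ⟨u, hu, rfl⟩
        exact hX j (Finset.mem_range.1 hj) u hu
      exact fun v hv => this hv
    have hstabK : ∀ w ∈ centSub ρ a, ∀ v ∈ Ut, ρ w v ∈ Ut := by
      intro w hw
      refine hstabOf _ (fun j hj u hu => ?_)
      obtain ⟨β, hβ⟩ := h.comm w y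
      have h1 := hβ.pow_right j
      have h2 := congrArg (fun f : End F V => f u) h1
      simp only [Module.End.mul_apply, LinearMap.smul_apply] at h2
      rw [h2]
      exact Submodule.smul_mem _ _ (hmemUt j hj _ (hU₁stab w hw u hu))
    have hstabY : ∀ v ∈ Ut, ρ y v ∈ Ut := by
      refine hstabOf _ (fun j hj u hu => ?_)
      rw [← Module.End.mul_apply, ← pow_succ']
      by_cases hj' : j + 1 < r
      · exact hmemUt _ hj' u hu
      · have : j + 1 = r := by omega
        rw [this, rho_pow_r h y]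
        have h0 := hmemUt 0 (Nat.pos_of_ne_zero (NeZero.ne r)) u hu
        simpa using h0
    have hstabYl : ∀ l : ℕ, ∀ v ∈ Ut, ((ρ y) ^ l) v ∈ Ut := by
      intro l
      induction l with
      | zero => intro v hv; simpa using hv
      | succ l ih =>
        intro v hv
        rw [pow_succ', Module.End.mul_apply]
        exact hstabY _ (ih v hv)
    have hstab : ∀ w : Γ, ∀ v ∈ Ut, ρ w v ∈ Ut := by
      intro w v hv
      obtain ⟨w', l, rfl, hw'⟩ := exists_decomp h hζ hay w
      rw [map_mul, map_pow, Module.End.mul_apply]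
      exact hstabK w' hw' _ (hstabYl l v hv)
    rcases h.irr Ut hstab with hbot | htop
    · left
      rw [eq_bot_iff]
      intro u hu
      have h1 : (u : V) ∈ Ut := by
        have := hmemUt 0 (Nat.pos_of_ne_zero (NeZero.ne r)) u ⟨u, hu, rfl⟩
        simpa using this
      rw [hbot, Submodule.mem_bot] at h1
      exact (Submodule.mem_bot F).2 (Subtype.ext h1)
    · right
      have hn : finrank F V ≤ r * finrank F U₁ := by
        have h1 := finrank_biSup_le (Finset.range r) (fun j => U₁.map ((ρ y) ^ j))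
        rw [← hUt, htop, finrank_top] at h1
        refine h1.trans (le_of_eq ?_)
        have e : ∀ j ∈ Finset.range r,
            finrank F (U₁.map ((ρ y) ^ j)) = finrank F U₁ := by
          intro j _
          refine finrank_map_eq_of_leftInv (X' := (ρ y⁻¹) ^ j) ?_ U₁
          rw [← map_pow, ← map_pow, ← map_mul, inv_pow, inv_mul_cancel, map_one]
        rw [Finset.sum_congr rfl e]
        simp
      have hd : finrank F (VV ρ a ζ i) ≤ finrank F U₁ := by
        rw [finrank_VV hζ hay]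
        rw [finrank_eq_mul h hζ hay] at hn
        exact Nat.le_of_mul_le_mul_left hn (Nat.pos_of_ne_zero (NeZero.ne r))
      have heq : U₁ = VV ρ a ζ i := Submodule.eq_of_le_of_finrank_le hU₁le hd
      rw [eq_top_iff]
      intro v _
      have : (v : V) ∈ U₁ := by rw [heq]; exact v.2
      obtain ⟨u, hu, hu'⟩ := this
      have : u = v := Subtype.ext hu'
      rwa [← this]

end Setup

end Cfsg.Agent.Lib.Classical.Herm.XSStep
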